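import Mathlib

set_option autoImplicit false
set_option linter.unusedSectionVars false
set_option linter.unusedVariables false

namespace Cfsg.Agent.Helper7

open Matrix
open scoped commutatorElement

section Lvl

variable {n : Type*} [Fintype n] [DecidableEq n] {R : Type*} [CommRing R]

def Lvl (key : n → ℕ) (k : ℕ) (N : Matrix n n R) : Prop :=
  ∀ i j, N i j ≠ 0 → key j + k ≤ key i

theorem Lvl.mono {key : n → ℕ} {k l : ℕ} (h : l ≤ k) {N : Matrix n n R} (hN : Lvl key k N) :
    Lvl key l N := fun i j hij => le_trans (Nat.add_le_add_left h _) (hN i j hij)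

theorem Lvl.zero (key : n → ℕ) (k : ℕ) : Lvl key k (0 : Matrix n n R) :=
  fun i j hij => absurd rfl hij

theorem Lvl.one (key : n → ℕ) : Lvl key 0 (1 : Matrix n n R) := by
  intro i j hij
  rw [Matrix.one_apply] at hij
  split_ifs at hij with h
  · rw [h]; exact le_refl _
  · exact absurd rfl hij

theorem Lvl.add {key : n → ℕ} {k : ℕ} {A B : Matrix n n R} (hA : Lvl key k A) (hB : Lvl key k B) :
    Lvl key k (A + B) := by
  intro i j hij
  by_cases h : A i j = 0
  · apply hB
    intro h'
    apply hij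
    rw [Matrix.add_apply, h, h', add_zero]
  · exact hA i j h

theorem Lvl.neg {key : n → ℕ} {k : ℕ} {A : Matrix n n R} (hA : Lvl key k A) :
    Lvl key k (-A) := by
  intro i j hij
  apply hA
  intro h
  apply hij
  rw [Matrix.neg_apply, h, neg_zero]

theorem Lvl.sub {key : n → ℕ} {k : ℕ} {A B : Matrix n n R} (hA : Lvl key k A) (hB : Lvl key k B) :
    Lvl key k (A - B) := by
  rw [sub_eq_add_neg]
  exact hA.add hB.neg

theorem Lvl.mul {key : n → ℕ} {a b : ℕ} {A B : Matrix n n R} (hA : Lvl key a A)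
    (hB : Lvl key b B) : Lvl key (a + b) (A * B) := by
  intro i j hij
  rw [Matrix.mul_apply] at hij
  obtain ⟨m, _, hm⟩ := Finset.exists_ne_zero_of_sum_ne_zero hij
  have h1 : A i m ≠ 0 := left_ne_zero_of_mul hm
  have h2 : B m j ≠ 0 := right_ne_zero_of_mul hm
  have := hA i m h1
  have := hB m j h2
  omega

theorem Lvl.pow {key : n → ℕ} {a : ℕ} {A : Matrix n n R} (hA : Lvl key a A) (m : ℕ) :
    Lvl key (a * m) (A ^ m) := by
  induction m with
  | zero => simpa using Lvl.one key
  | succ m ih =>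
    rw [pow_succ, Nat.mul_succ]
    exact ih.mul hA

theorem Lvl.sum {key : n → ℕ} {k : ℕ} {ι : Type*} (s : Finset ι) (f : ι → Matrix n n R)
    (hf : ∀ x ∈ s, Lvl key k (f x)) : Lvl key k (∑ x ∈ s, f x) := by
  classical
  induction s using Finset.induction_on with
  | empty => simpa using Lvl.zero key k
  | insert a s ha ih =>
    rw [Finset.sum_insert ha]
    exact (hf a (Finset.mem_insert_self a s)).add
      (ih fun x hx => hf x (Finset.mem_insert_of_mem hx))

theorem Lvl.eq_zero {key : n → ℕ} {k : ℕ} {N : Matrix n n R} (hN : Lvl key k N)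
    (hk : ∀ i, key i < k) : N = 0 := by
  ext i j
  by_contra h
  have := hN i j h
  have := hk i
  simp only [Matrix.zero_apply] at *
  omega

theorem exists_key_bound (key : n → ℕ) : ∃ B, ∀ i, key i < B :=
  ⟨Finset.univ.sup key + 1, fun i => Nat.lt_succ_of_le (Finset.le_sup (Finset.mem_univ i))⟩

theorem lvl_inv_sub_one {key : n → ℕ} {k : ℕ} (hk : 1 ≤ k) (g : GL n R)
    (hg : Lvl key k ((g : Matrix n n R) - 1)) :
    Lvl key k (((g⁻¹ : GL n R) : Matrix n n R) - 1) := by
  obtain ⟨B, hB⟩ := exists_key_bound key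
  set N : Matrix n n R := (g : Matrix n n R) - 1 with hN
  have hNB : (-N) ^ (B + 1) = 0 := by
    apply (hg.neg.pow (B + 1)).eq_zero
    intro i
    have := hB i
    calc key i < B + 1 := by omega
      _ ≤ k * (B + 1) := Nat.le_mul_of_pos_left _ hk
  have hgN : (g : Matrix n n R) = 1 - (-N) := by rw [hN]; abel
  have hmul : (g : Matrix n n R) * ∑ i ∈ Finset.range (B + 1), (-N) ^ i = 1 := by
    rw [hgN, mul_neg_geom_sum, hNB, sub_zero]
  have hinv : ((g⁻¹ : GL n R) : Matrix n n R) = ∑ i ∈ Finset.range (B + 1), (-N) ^ i :=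
    Units.inv_eq_of_mul_eq_one_right hmul
  rw [hinv, Finset.sum_range_succ', pow_zero, add_sub_cancel_right]
  apply Lvl.sum
  intro x _
  have := hg.neg.pow (x + 1)
  exact this.mono (Nat.le_mul_of_pos_right _ (Nat.succ_pos x))

def utSub (key : n → ℕ) (R : Type*) [CommRing R] (k : ℕ) : Subgroup (GL n R) where
  carrier := {g | Lvl key (k + 1) ((g : Matrix n n R) - 1)}
  mul_mem' := by
    intro a b ha hb
    change Lvl key (k + 1) ((a : Matrix n n R) - 1) at ha
    change Lvl key (k + 1) ((b : Matrix n n R) - 1) at hb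
    change Lvl key (k + 1) (((a * b : GL n R) : Matrix n n R) - 1)
    have h : ((a * b : GL n R) : Matrix n n R) - 1 =
        ((a : Matrix n n R) - 1) + ((b : Matrix n n R) - 1) +
          ((a : Matrix n n R) - 1) * ((b : Matrix n n R) - 1) := by
      rw [Units.val_mul]; noncomm_ring
    rw [h]
    exact (ha.add hb).add ((ha.mul hb).mono (by omega))
  one_mem' := by
    change Lvl key (k + 1) (((1 : GL n R) : Matrix n n R) - 1)
    rw [Units.val_one, sub_self]
    exact Lvl.zero key _
  inv_mem' := by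
    intro a ha
    exact lvl_inv_sub_one (by omega) a ha

theorem mem_utSub {key : n → ℕ} {k : ℕ} {g : GL n R} :
    g ∈ utSub key R k ↔ Lvl key (k + 1) ((g : Matrix n n R) - 1) := Iff.rfl

theorem utSub_anti (key : n → ℕ) {k l : ℕ} (h : k ≤ l) : utSub key R l ≤ utSub key R k := by
  intro g hg
  rw [mem_utSub] at *
  exact hg.mono (by omega)

theorem lvl_zero_of_mem_utSub {key : n → ℕ} {k : ℕ} {g : GL n R} (hg : g ∈ utSub key R k) :
    Lvl key 0 (g : Matrix n n R) := by
  have : (g : Matrix n n R) = ((g : Matrix n n R) - 1) + 1 := by abel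
  rw [this]
  exact ((mem_utSub.mp hg).mono (Nat.zero_le _)).add (Lvl.one key)

theorem utSub_comm {key : n → ℕ} {k : ℕ} {x g : GL n R} (hx : x ∈ utSub key R k)
    (hg : g ∈ utSub key R 0) : ⁅x, g⁆ ∈ utSub key R (k + 1) := by
  rw [mem_utSub]
  have h : ((⁅x, g⁆ : GL n R) : Matrix n n R) - 1 =
      ((((x : Matrix n n R) - 1) * ((g : Matrix n n R) - 1) -
        ((g : Matrix n n R) - 1) * ((x : Matrix n n R) - 1)) *
          ((x⁻¹ : GL n R) : Matrix n n R)) * ((g⁻¹ : GL n R) : Matrix n n R) := by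
    have e1 : ((⁅x, g⁆ : GL n R) : Matrix n n R) =
        (x : Matrix n n R) * (g : Matrix n n R) * ((x⁻¹ : GL n R) : Matrix n n R) *
          ((g⁻¹ : GL n R) : Matrix n n R) := by
      rw [commutatorElement_def]; simp [Units.val_mul]
    have e2 : (1 : Matrix n n R) =
        (g : Matrix n n R) * (x : Matrix n n R) * ((x⁻¹ : GL n R) : Matrix n n R) *
          ((g⁻¹ : GL n R) : Matrix n n R) := by
      rw [mul_assoc (g : Matrix n n R), Units.mul_inv, mul_one, Units.mul_inv]
    rw [e1]
    nth_rewrite 1 [e2]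
    noncomm_ring
  rw [h]
  have hx' := mem_utSub.mp hx
  have hg' := mem_utSub.mp hg
  have h1 : Lvl key (k + 1 + 1) (((x : Matrix n n R) - 1) * ((g : Matrix n n R) - 1) -
        ((g : Matrix n n R) - 1) * ((x : Matrix n n R) - 1)) := by
    apply Lvl.sub
    · exact (hx'.mul hg').mono (by omega)
    · exact (hg'.mul hx').mono (by omega)
  have h2 := lvl_zero_of_mem_utSub (inv_mem hx)
  have h3 := lvl_zero_of_mem_utSub (inv_mem hg)
  exact ((h1.mul h2).mul h3).mono (by omega)

theorem utSub_eq_bot {key : n → ℕ} {B : ℕ} (hB : ∀ i, key i < B) : utSub key R B = ⊥ := by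
  rw [eq_bot_iff]
  intro g hg
  rw [mem_utSub] at hg
  have := hg.eq_zero (fun i => by have := hB i; omega)
  rw [Subgroup.mem_bot]
  apply Units.ext
  rw [Units.val_one]
  exact sub_eq_zero.mp this

theorem utSub_isNilpotent (key : n → ℕ) : Group.IsNilpotent (utSub key R 0) := by
  obtain ⟨B, hB⟩ := exists_key_bound key
  rw [Subgroup.nilpotent_iff_finite_descending_central_series]
  refine ⟨B, fun m => (utSub key R m).subgroupOf (utSub key R 0), ⟨?_, ?_⟩, ?_⟩
  · exact Subgroup.subgroupOf_self _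
  · intro x m hx g
    rw [Subgroup.mem_subgroupOf] at *
    exact utSub_comm hx g.2
  · change (utSub key R B).subgroupOf (utSub key R 0) = ⊥
    rw [utSub_eq_bot hB]
    exact Subgroup.bot_subgroupOf _

theorem isNilpotent_of_le_utSub (key : n → ℕ) (U : Subgroup (GL n R)) (hU : U ≤ utSub key R 0) :
    Group.IsNilpotent U := by
  have := utSub_isNilpotent (R := R) key
  exact Group.nilpotent_of_mulEquiv (Subgroup.subgroupOfEquivOfLe hU)

theorem pow_eq_zero_of_mem_utSub {key : n → ℕ} {B : ℕ} (hB : ∀ i, key i < B) {g : GL n R}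
    (hg : g ∈ utSub key R 0) : ((g : Matrix n n R) - 1) ^ B = 0 := by
  apply ((mem_utSub.mp hg).pow B).eq_zero
  intro i
  have := hB i
  omega

end Lvl

end Cfsg.Agent.Helper7
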