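import Cfsg.Agent.Helper7.ChevBasic
import Cfsg.Agent.Helper7.Tri

set_option autoImplicit false
open Cfsg

namespace Cfsg.Agent.Helper7

open Cfsg.Lie

def ckey (D : ChevalleyDatum) : D.Idx → ℕ
  | Sum.inl _ => D.nroots / 2
  | Sum.inr s => if s.val < D.nroots / 2 then s.val else s.val + 1

theorem ckey_lt (D : ChevalleyDatum) (i : D.Idx) : ckey D i < D.nroots + 1 := by
  rcases i with i | s
  · simp only [ckey]; omega
  · simp only [ckey]
    have := s.isLt
    split_ifs <;> omega

def posTriOK (D : ChevalleyDatum) : Bool :=
  (List.range D.nroots).all fun r =>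
    !(decide (D.IsPosRoot r)) ||
      (decide (D.nroots / 2 ≤ r) && decide (D.negIdx.getD r 0 < D.nroots / 2) &&
        ((D.chain.getD r #[]).toList.all fun e => e.2.toList.all fun q => decide (e.1 < q.1)))

theorem posTriOK_G2 : posTriOK chevG2 = true := by decide +kernel
theorem posTriOK_B2 : posTriOK chevB2 = true := by decide +kernel
theorem posTriOK_D4 : posTriOK chevD4 = true := by decide +kernel
theorem posTriOK_F4 : posTriOK chevF4 = true := by decide +kernel
theorem posTriOK_E6 : posTriOK chevE6 = true := by decide +kernel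
theorem posTriOK_E7 : posTriOK chevE7 = true := by decide +kernel
theorem posTriOK_E8 : posTriOK chevE8 = true := by decide +kernel

theorem posTriOK_of_mem {D : ChevalleyDatum}
    (hD : D ∈ [chevG2, chevB2, chevD4, chevF4, chevE6, chevE7, chevE8]) : posTriOK D = true :=
  forall_seven (P := fun D => posTriOK D = true) posTriOK_G2 posTriOK_B2 posTriOK_D4 posTriOK_F4
    posTriOK_E6 posTriOK_E7 posTriOK_E8 hD

theorem posTriOK_spec {D : ChevalleyDatum} (h : posTriOK D = true) {r : ℕ} (hr : D.IsPosRoot r) :
    D.nroots / 2 ≤ r ∧ D.negIdx.getD r 0 < D.nroots / 2 ∧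
      ∀ e ∈ (D.chain.getD r #[]).toList, ∀ q ∈ e.2.toList, e.1 < q.1 := by
  unfold posTriOK at h
  rw [List.all_eq_true] at h
  have h1 := h r (List.mem_range.mpr hr.1)
  simp only [hr, decide_true, Bool.not_true, Bool.false_or, Bool.and_eq_true, decide_eq_true_eq,
    List.all_eq_true] at h1
  exact ⟨h1.1.1, h1.1.2, h1.2⟩

theorem chainCoeff_ne_nil (D : ChevalleyDatum) {r s u : ℕ} (h : D.chainCoeff r s u ≠ []) :
    ∃ e ∈ (D.chain.getD r #[]).toList, e.1 = s ∧ ∃ q ∈ e.2.toList, q.1 = u := by
  obtain ⟨km, hkm⟩ := List.exists_mem_of_ne_nil _ h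
  unfold ChevalleyDatum.chainCoeff at hkm
  simp only [List.mem_flatMap, List.mem_map, List.mem_filter, decide_eq_true_eq] at hkm
  obtain ⟨e, ⟨he, hes⟩, q, ⟨hq, hqu⟩, _⟩ := hkm
  refine ⟨e, he, hes, q.1, ?_, hqu⟩
  have := List.mem_zipIdx hq
  rcases q with ⟨q1, q2⟩
  simp only at this ⊢
  rw [this.2.2]
  exact List.getElem_mem _

theorem xMat_sub_one_lvl (D : ChevalleyDatum) (h : posTriOK D = true) (F : Type*) [Field F]
    (r : Fin D.nroots) (hr : D.IsPosRoot r.val) (t : F) :
    Lvl (ckey D) 1 (D.xMat F r t - 1) := by
  obtain ⟨h1, h2, h3⟩ := posTriOK_spec h hr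
  intro i j hij
  rw [Matrix.sub_apply] at hij
  rcases j with i0 | s
  · rcases i with i' | u
    · exfalso; apply hij
      simp [ChevalleyDatum.xMat, Matrix.one_apply]
    · by_cases hu : u = r
      · subst hu
        simp only [ckey]
        split_ifs <;> omega
      · exfalso; apply hij
        simp [ChevalleyDatum.xMat, Matrix.one_apply, hu]
  · by_cases hs : s = r
    · exfalso; apply hij
      subst hs
      rcases i with i' | u
      · simp [ChevalleyDatum.xMat, Matrix.one_apply]
      · simp [ChevalleyDatum.xMat, Matrix.one_apply]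
    · by_cases hs2 : s.val = D.negIdx.getD r.val 0
      · rcases i with i' | u
        · simp only [ckey]
          rw [if_pos (by omega)]
          omega
        · by_cases hu : u = s
          · exfalso; apply hij
            subst hu
            simp only [ChevalleyDatum.xMat, Matrix.of_apply, Matrix.one_apply]
            rw [if_neg hs, if_pos hs2]
            simp
          · by_cases hur : u = r
            · subst hur
              simp only [ckey]
              rw [if_pos (by omega), if_neg (by omega)]
              omega
            · exfalso; apply hij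
              simp only [ChevalleyDatum.xMat, Matrix.of_apply, Matrix.one_apply]
              rw [if_neg hs, if_pos hs2]
              simp [hu, hur]
      · rcases i with i' | u
        · exfalso; apply hij
          simp only [ChevalleyDatum.xMat, Matrix.of_apply, Matrix.one_apply]
          rw [if_neg hs, if_neg hs2]
          simp
        · have hne : D.chainCoeff r.val s.val u.val ≠ [] := by
            intro hnil
            apply hij
            simp only [ChevalleyDatum.xMat, Matrix.of_apply, Matrix.one_apply]
            rw [if_neg hs, if_neg hs2, hnil]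
            simp
          obtain ⟨e, he, hes, q, hq, hqu⟩ := chainCoeff_ne_nil D hne
          have := h3 e he q hq
          rw [hes, hqu] at this
          simp only [ckey]
          split_ifs <;> omega

theorem posUnipotent_le_utSub (D : ChevalleyDatum) (h : posTriOK D = true) (F : Type*) [Field F] :
    D.posUnipotent F ≤ utSub (ckey D) F 0 := by
  unfold ChevalleyDatum.posUnipotent
  rw [Subgroup.closure_le]
  rintro g ⟨r, t, hr, hg⟩
  change Lvl (ckey D) (0 + 1) ((g : Matrix D.Idx D.Idx F) - 1)
  rw [hg, x_of_lt D F hr.1]
  exact xMat_sub_one_lvl D h F ⟨r, hr.1⟩ hr t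

theorem rank_pos_of_mem {D : ChevalleyDatum}
    (hD : D ∈ [chevG2, chevB2, chevD4, chevF4, chevE6, chevE7, chevE8]) : 1 ≤ D.rank :=
  forall_seven (P := fun D => 1 ≤ D.rank) (by decide) (by decide) (by decide) (by decide)
    (by decide) (by decide) (by decide) hD

end Cfsg.Agent.Helper7
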