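import Cfsg.Agent.Helper7.ChevAddDefs
import Cfsg.Agent.Helper7.ChevTri

set_option autoImplicit false
set_option linter.unusedSectionVars false
set_option linter.unusedVariables false
open Cfsg

namespace Cfsg.Agent.Helper7

open Cfsg.Lie

section sem

variable {F : Type*} [Field F]

theorem mul_col_of_check (D : ChevalleyDatum) (r : Fin D.nroots) (j : D.Idx) (t1 t2 : F)
    (h : isZeroE (app2 (mkCtx D r.val) [(1,1,0)] (col2 (mkCtx D r.val) [(1,0,1)] (code D j)) ++
      vneg (col2 (mkCtx D r.val) [(1,1,0),(1,0,1)] (code D j))) = true) (i : D.Idx) :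
    (D.xMat F r t1 * D.xMat F r t2) i j = D.xMat F r (t1 + t2) i j := by
  have h1 : pev t1 t2 [((1 : ℤ), 1, 0)] = t1 := by simp [pev, ptVal]
  have h2 : pev t1 t2 [((1 : ℤ), 0, 1)] = t2 := by simp [pev, ptVal]
  have h3 : pev t1 t2 [((1 : ℤ), 1, 0), ((1 : ℤ), 0, 1)] = t1 + t2 := by simp [pev, ptVal]
  have hz := isZeroE_sound t1 t2 _ h (code D i)
  rw [semAt_append, semAt_vneg, app2_eq D r.val r.isLt, col2_eq, col2_eq, app_sound,
    ← col_sound, h1, h3] at hz
  rw [Matrix.mul_apply]
  have : ∀ k, D.xMat F r t2 k j = semAt t1 t2 (col D r.val [(1,0,1)] (code D j)) (code D k) := by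
    intro k
    have := col_sound D r [(1,0,1)] t1 t2 k j
    rw [h2] at this
    exact this
  simp only [this]
  exact sub_eq_zero.mp (by rw [sub_eq_add_neg]; exact hz)

theorem sum_map_pow_one (l : List (ℕ × ℤ)) (h : ∀ km ∈ l, km.1 = 1) (t : F) :
    (l.map fun km => ((km.2 : ℤ) : F) * t ^ km.1).sum = (l.map fun km => ((km.2 : ℤ) : F)).sum * t := by
  induction l with
  | nil => simp
  | cons a l ih =>
    rw [List.map_cons, List.sum_cons, List.map_cons, List.sum_cons,
      ih (fun km hkm => h km (List.mem_cons_of_mem _ hkm)), h a (List.mem_cons_self), pow_one, add_mul]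

theorem chainCoeff_eq_nil_of_no_key (D : ChevalleyDatum) (r u w : ℕ)
    (h : ∀ e ∈ (D.chain.getD r #[]).toList, e.1 ≠ u) : D.chainCoeff r u w = [] := by
  unfold ChevalleyDatum.chainCoeff
  have : (D.chain.getD r #[]).toList.filter (fun e => decide (e.1 = u)) = [] := by
    rw [List.filter_eq_nil_iff]
    intro e he
    simpa using h e he
  rw [this]
  rfl

theorem xMat_unit_col (D : ChevalleyDatum) (r u : Fin D.nroots) (h1 : u.val ≠ r.val)
    (h2 : u.val ≠ D.negIdx.getD r.val 0)
    (h3 : ∀ e ∈ (D.chain.getD r.val #[]).toList, e.1 ≠ u.val) (t : F) (k : D.Idx) :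
    D.xMat F r t k (Sum.inr u) = if k = Sum.inr u then 1 else 0 := by
  have hur : ¬ u = r := fun hh => h1 (by rw [hh])
  rcases k with i' | w
  · simp only [ChevalleyDatum.xMat, Matrix.of_apply]
    rw [if_neg hur, if_neg h2]
    simp
  · simp only [ChevalleyDatum.xMat, Matrix.of_apply]
    rw [if_neg hur, if_neg h2, chainCoeff_eq_nil_of_no_key D _ _ _ h3]
    by_cases hw : w = u
    · subst hw; simp
    · have : ¬ (Sum.inr w : D.Idx) = Sum.inr u := fun hh => hw (Sum.inr.inj hh)
      simp [hw, this]

theorem good_col (D : ChevalleyDatum) (r s : Fin D.nroots) (hs : s ≠ r)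
    (hs2 : s.val ≠ D.negIdx.getD r.val 0)
    (hgood : ∀ e ∈ (D.chain.getD r.val #[]).toList, e.1 = s.val →
      ∃ q, e.2.toList = [q] ∧ q.1 ≠ r.val ∧ q.1 ≠ D.negIdx.getD r.val 0 ∧
        ∀ e' ∈ (D.chain.getD r.val #[]).toList, e'.1 ≠ q.1)
    (t1 t2 : F) (i : D.Idx) :
    (D.xMat F r t1 * D.xMat F r t2) i (Sum.inr s) = D.xMat F r (t1 + t2) i (Sum.inr s) := by
  have E1i : ∀ (t : F) (i' : Fin D.rank), D.xMat F r t (Sum.inl i') (Sum.inr s) = 0 := by
    intro t i'
    simp only [ChevalleyDatum.xMat, Matrix.of_apply]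
    rw [if_neg hs, if_neg hs2]
  have E1r : ∀ (t : F) (u : Fin D.nroots), D.xMat F r t (Sum.inr u) (Sum.inr s) =
      (if u = s then 1 else 0) +
        ((D.chainCoeff r.val s.val u.val).map fun km => ((km.2 : ℤ) : F) * t ^ km.1).sum := by
    intro t u
    simp only [ChevalleyDatum.xMat, Matrix.of_apply]
    rw [if_neg hs, if_neg hs2]
  have hone : ∀ (u : ℕ), ∀ km ∈ D.chainCoeff r.val s.val u, km.1 = 1 := by
    intro u km hkm
    unfold ChevalleyDatum.chainCoeff at hkm
    simp only [List.mem_flatMap, List.mem_map, List.mem_filter, decide_eq_true_eq] at hkm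
    obtain ⟨e, ⟨he, hes⟩, q, ⟨hq, _⟩, rfl⟩ := hkm
    obtain ⟨q0, hq0, _⟩ := hgood e he hes
    rw [hq0] at hq
    simp only [List.zipIdx_cons, List.zipIdx_nil, List.mem_singleton] at hq
    rw [hq]
  have E2 : ∀ (u : ℕ),
      ((D.chainCoeff r.val s.val u).map fun km => ((km.2 : ℤ) : F) * (t1 + t2) ^ km.1).sum =
      ((D.chainCoeff r.val s.val u).map fun km => ((km.2 : ℤ) : F) * t1 ^ km.1).sum +
      ((D.chainCoeff r.val s.val u).map fun km => ((km.2 : ℤ) : F) * t2 ^ km.1).sum := by
    intro u
    rw [sum_map_pow_one _ (hone u), sum_map_pow_one _ (hone u), sum_map_pow_one _ (hone u)]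
    ring
  have E3 : ∀ (u : Fin D.nroots), D.chainCoeff r.val s.val u.val ≠ [] →
      ∀ (t : F) (k : D.Idx), D.xMat F r t k (Sum.inr u) = if k = Sum.inr u then 1 else 0 := by
    intro u hu t k
    obtain ⟨e, he, hes, q, hq, hqu⟩ := chainCoeff_ne_nil D hu
    obtain ⟨q0, hq0, h1, h2, h3⟩ := hgood e he hes
    rw [hq0, List.mem_singleton] at hq
    rw [hq] at hqu
    rw [hqu] at h1 h2 h3
    exact xMat_unit_col D r u h1 h2 h3 t k
  have key : ∀ (u : Fin D.nroots), D.xMat F r t1 i (Sum.inr u) *
      ((D.chainCoeff r.val s.val u.val).map fun km => ((km.2 : ℤ) : F) * t2 ^ km.1).sum =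
      (if i = Sum.inr u then
        ((D.chainCoeff r.val s.val u.val).map fun km => ((km.2 : ℤ) : F) * t2 ^ km.1).sum else 0) := by
    intro u
    by_cases hu : D.chainCoeff r.val s.val u.val = []
    · rw [hu]; simp
    · rw [E3 u hu t1 i]
      split_ifs <;> simp
  rw [Matrix.mul_apply, Fintype.sum_sum_type]
  simp only [E1i, mul_zero, Finset.sum_const_zero, zero_add, E1r t2, mul_add, Finset.sum_add_distrib,
    key]
  rw [Finset.sum_eq_single s]
  · rcases i with i' | w
    · rw [if_pos rfl, mul_one, E1i, E1i]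
      simp
    · rw [if_pos rfl, mul_one, E1r, E1r, E2]
      rw [Finset.sum_eq_single w]
      · rw [if_pos rfl]; ring
      · intro b _ hb
        rw [if_neg]
        intro hh
        exact hb (Sum.inr.inj hh).symm
      · intro hh; exact absurd (Finset.mem_univ _) hh
  · intro b _ hb
    rw [if_neg hb, mul_zero]
  · intro hh; exact absurd (Finset.mem_univ _) hh

theorem goodEntry_spec (D : ChevalleyDatum) (r : ℕ) (e : ℕ × Array (ℕ × ℤ))
    (h : goodEntry (mkCtx D r) e = true) :
    ∃ q, e.2.toList = [q] ∧ q.1 ≠ r ∧ q.1 ≠ D.negIdx.getD r 0 ∧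
      ∀ e' ∈ (D.chain.getD r #[]).toList, e'.1 ≠ q.1 := by
  unfold goodEntry at h
  split at h
  · rename_i q hq
    refine ⟨q, hq, ?_⟩
    unfold untouched at h
    simp only [mkCtx, Bool.and_eq_true, Bool.not_eq_true', array_getD_toList] at h
    obtain ⟨⟨h1, h2⟩, h3⟩ := h
    refine ⟨?_, ?_, ?_⟩
    · intro hh; rw [hh] at h1; simp at h1
    · intro hh; rw [hh] at h2; simp at h2
    · intro e' he' hh
      rw [testBit_keyMask] at h3
      have : ((D.chain.getD r #[]).toList.any fun e => decide (e.1 = q.1)) = true := by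
        rw [List.any_eq_true]
        exact ⟨e', he', by simpa using hh⟩
      rw [this] at h3
      exact Bool.noConfusion h3
  · exact Bool.noConfusion h

theorem xMat_add (D : ChevalleyDatum) (h : addCheck2 D = true) (r : Fin D.nroots) (t1 t2 : F) :
    D.xMat F r t1 * D.xMat F r t2 = D.xMat F r (t1 + t2) := by
  unfold addCheck2 at h
  rw [List.all_eq_true] at h
  have hr := h r.val (List.mem_range.mpr r.isLt)
  unfold addCheck1 at hr
  rw [List.all_eq_true] at hr
  ext i j
  have hcols : ∀ j : D.Idx, code D j ∈ addCols (mkCtx D r.val) →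
      (D.xMat F r t1 * D.xMat F r t2) i j = D.xMat F r (t1 + t2) i j :=
    fun j hj => mul_col_of_check D r j t1 t2 (hr _ hj) i
  rcases j with i0 | s
  · apply hcols
    unfold addCols
    apply List.mem_append_left
    rw [List.mem_range]
    exact i0.isLt
  · by_cases hs : s = r
    · apply hcols
      unfold addCols
      apply List.mem_append_right
      subst hs
      exact List.mem_cons_self
    · by_cases hs2 : s.val = D.negIdx.getD r.val 0
      · apply hcols
        unfold addCols
        apply List.mem_append_right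
        apply List.mem_cons_of_mem
        have : code D (Sum.inr s) = (mkCtx D r.val).rank + (mkCtx D r.val).nr := by
          simp only [code, mkCtx, array_getD_toList, hs2]
        rw [this]
        exact List.mem_cons_self
      · by_cases hbad : ∃ e ∈ (D.chain.getD r.val #[]).toList, e.1 = s.val ∧
            goodEntry (mkCtx D r.val) e = false
        · obtain ⟨e, he, hes, hg⟩ := hbad
          apply hcols
          unfold addCols
          apply List.mem_append_right
          apply List.mem_cons_of_mem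
          apply List.mem_cons_of_mem
          rw [List.mem_map]
          refine ⟨e, ?_, ?_⟩
          · rw [List.mem_filter]
            refine ⟨?_, by rw [hg]; rfl⟩
            simp only [mkCtx, array_getD_toList]
            exact he
          · simp only [code, mkCtx, hes]
        · apply good_col D r s hs hs2
          intro e he hes
          apply goodEntry_spec
          by_contra hg
          apply hbad
          exact ⟨e, he, hes, by simpa using hg⟩

end sem

end Cfsg.Agent.Helper7
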