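import Cfsg.Agent.Helper7.ChevEval2

set_option autoImplicit false
set_option linter.unusedSectionVars false
set_option linter.unusedVariables false
open Cfsg

namespace Cfsg.Agent.Helper7

open Cfsg.Lie

def untouched (c : RCtx) (u : ℕ) : Bool :=
  !(Nat.beq u c.r) && !(Nat.beq u c.nr) && !(Nat.testBit c.mask u)

def goodEntry (c : RCtx) (e : ℕ × Array (ℕ × ℤ)) : Bool :=
  match e.2.toList with
  | [q] => untouched c q.1
  | _ => false

def addCols (c : RCtx) : List ℕ :=
  List.range c.rank ++ (c.rank + c.r) :: (c.rank + c.nr) ::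
    ((c.ch.filter fun e => !(goodEntry c e)).map fun e => c.rank + e.1)

def addCheck1 (c : RCtx) : Bool :=
  (addCols c).all fun n =>
    isZeroE (app2 c [(1,1,0)] (col2 c [(1,0,1)] n) ++ vneg (col2 c [(1,1,0),(1,0,1)] n))

def addCheck2 (D : ChevalleyDatum) : Bool :=
  (List.range D.nroots).all fun r => addCheck1 (mkCtx D r)

theorem addCheck_G2 : addCheck2 chevG2 = true := by decide +kernel
theorem addCheck_B2 : addCheck2 chevB2 = true := by decide +kernel
theorem addCheck_D4 : addCheck2 chevD4 = true := by decide +kernel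
theorem addCheck_F4 : addCheck2 chevF4 = true := by decide +kernel
theorem addCheck_E6 : addCheck2 chevE6 = true := by decide +kernel
theorem addCheck_E7 : addCheck2 chevE7 = true := by decide +kernel
theorem addCheck_E8 : addCheck2 chevE8 = true := by decide +kernel

theorem addCheck_of_mem {D : ChevalleyDatum}
    (hD : D ∈ [chevG2, chevB2, chevD4, chevF4, chevE6, chevE7, chevE8]) : addCheck2 D = true :=
  forall_seven (P := fun D => addCheck2 D = true) addCheck_G2 addCheck_B2 addCheck_D4 addCheck_F4
    addCheck_E6 addCheck_E7 addCheck_E8 hD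

end Cfsg.Agent.Helper7
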