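import Cfsg.Agent.Helper7.ChevBasic

set_option autoImplicit false
open Cfsg

namespace Cfsg.Agent.Helper7

open Cfsg.Lie

theorem xMat_map (D : ChevalleyDatum) {F F' : Type*} [Field F] [Field F'] (f : F →+* F')
    (r : Fin D.nroots) (t : F) : (D.xMat F r t).map f = D.xMat F' r (f t) := by
  ext row col
  have hsum : ∀ (l : List (ℕ × ℤ)),
      f ((l.map fun km => ((km.2 : ℤ) : F) * t ^ km.1).sum) =
        (l.map fun km => ((km.2 : ℤ) : F') * (f t) ^ km.1).sum := by
    intro l
    rw [map_list_sum, List.map_map]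
    congr 1
    apply List.map_congr_left
    intro km _
    simp
  rcases row with i' | u <;> rcases col with i | s
  · simp only [ChevalleyDatum.xMat, Matrix.map_apply, Matrix.of_apply]
    split_ifs <;> simp
  · simp only [ChevalleyDatum.xMat, Matrix.map_apply, Matrix.of_apply]
    split_ifs <;> simp
  · simp only [ChevalleyDatum.xMat, Matrix.map_apply, Matrix.of_apply]
    split_ifs <;> simp
  · simp only [ChevalleyDatum.xMat, Matrix.map_apply, Matrix.of_apply]
    split_ifs <;> simp [hsum]

theorem GLmap_mem_group (D : ChevalleyDatum) {F : Type*} [Field F] (f : F →+* F)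
    (g : GL D.Idx F) (hg : g ∈ D.group F) : Matrix.GeneralLinearGroup.map f g ∈ D.group F := by
  have : D.group F ≤ (D.group F).comap (Matrix.GeneralLinearGroup.map f) := by
    unfold ChevalleyDatum.group
    rw [Subgroup.closure_le]
    rintro g ⟨r, t, hg⟩
    apply Subgroup.subset_closure
    refine ⟨r, f t, ?_⟩
    rw [← xMat_map, ← hg]
    ext i j
    simp [Matrix.GeneralLinearGroup.map_apply]
  exact this hg

noncomputable def fieldAut (D : ChevalleyDatum) {F : Type*} [Field F] (f : F ≃+* F) :
    ↥(D.group F) ≃* ↥(D.group F) where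
  toFun g := ⟨Matrix.GeneralLinearGroup.map f.toRingHom g.1, GLmap_mem_group D _ _ g.2⟩
  invFun g := ⟨Matrix.GeneralLinearGroup.map f.symm.toRingHom g.1, GLmap_mem_group D _ _ g.2⟩
  left_inv g := by
    apply Subtype.ext
    apply Units.ext
    ext i j
    simp [Matrix.GeneralLinearGroup.map_apply]
  right_inv g := by
    apply Subtype.ext
    apply Units.ext
    ext i j
    simp [Matrix.GeneralLinearGroup.map_apply]
  map_mul' a b := by
    apply Subtype.ext
    simp

theorem fieldAut_spec (D : ChevalleyDatum) {F : Type*} [Field F] (f : F ≃+* F)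
    (g : ↥(D.group F)) (r : ℕ) (t : F) (hr : r < D.nroots)
    (hg : ((g : GL D.Idx F) : Matrix D.Idx D.Idx F) = D.x F r t) :
    ((fieldAut D f g : GL D.Idx F) : Matrix D.Idx D.Idx F) = D.x F r (f t) := by
  rw [x_of_lt D F hr] at hg ⊢
  have := xMat_map D f.toRingHom ⟨r, hr⟩ t
  rw [← hg] at this
  rw [show (f t) = f.toRingHom t from rfl, ← this]
  ext i j
  simp [fieldAut, Matrix.GeneralLinearGroup.map_apply]

end Cfsg.Agent.Helper7
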