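import Cfsg.Agent.Helper7.ChevUp
import Cfsg.Prelude.Def_LieExceptional

set_option autoImplicit false
set_option linter.unusedSectionVars false
set_option linter.unusedVariables false
open Cfsg

namespace Cfsg.Agent.Helper7

open Cfsg.Lie

variable {F : Type*} [Field F]

def RootAct (D : ChevalleyDatum) (ha : addCheck2 D = true) (n : GL D.Idx F) : Prop :=
  ∃ (π : ℕ → ℕ) (c : ℕ → Fˣ), (∀ r < D.nroots, π r < D.nroots ∧ π (D.neg r) = D.neg (π r)) ∧
    ∀ r < D.nroots, ∀ t : F, n * xV D ha r t * n⁻¹ = xV D ha (π r) ((c r : F) * t)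

theorem RootAct.one (D : ChevalleyDatum) (ha : addCheck2 D = true) :
    RootAct D ha (1 : GL D.Idx F) :=
  ⟨id, fun _ => 1, fun r hr => ⟨hr, rfl⟩, fun r hr t => by simp⟩

theorem RootAct.mul {D : ChevalleyDatum} {ha : addCheck2 D = true} {a b : GL D.Idx F}
    (h1 : RootAct D ha a) (h2 : RootAct D ha b) : RootAct D ha (a * b) := by
  obtain ⟨π, c, p1, p2⟩ := h1
  obtain ⟨π', c', q1, q2⟩ := h2
  refine ⟨fun r => π (π' r), fun r => c (π' r) * c' r,
    fun r hr => ⟨(p1 _ (q1 r hr).1).1, ?_⟩, fun r hr t => ?_⟩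
  · show π (π' (D.neg r)) = D.neg (π (π' r))
    rw [(q1 r hr).2, (p1 _ (q1 r hr).1).2]
  · have e : a * b * xV D ha r t * (a * b)⁻¹ = a * (b * xV D ha r t * b⁻¹) * a⁻¹ := by group
    rw [e, q2 r hr, p2 _ (q1 r hr).1, Units.val_mul, mul_assoc]

theorem RootAct.torus {D : ChevalleyDatum} (W : WOK D) (z : ℕ → Fˣ) :
    RootAct D W.add (DgU D (chi D z) : GL D.Idx F) :=
  ⟨id, chi D z, fun r hr => ⟨hr, rfl⟩, fun r hr t => by
    rw [DgU_xV W z hr, mul_assoc, mul_inv_cancel, mul_one]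
    rfl⟩

def sgU (z : ℤ) : Fˣ := if z = 1 then 1 else -1

theorem sgU_val (D : ChevalleyDatum) (i s : ℕ) :
    ((sgU (nsgn D i s) : Fˣ) : F) = ((nsgn D i s : ℤ) : F) := by
  unfold sgU nsgn
  rcases sg_cases (nbit D i s) with h | h <;> rw [h] <;> simp

theorem RootAct.n {D : ChevalleyDatum} (M : MOK D) {i : ℕ} (hi : i < D.rank) :
    RootAct D M.w.add (nV D M.w.add (D.simple i) (1 : F)) :=
  ⟨fw D i, fun s => sgU (nsgn D i s), fun r hr => ⟨(w_facts M.w.n hi hr).1, by
      have := (w_facts M.w.n hi hr).2.2.2.1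
      rw [fneg_eq M.w.fd, fneg_eq M.w.fd] at this
      exact this⟩,
    fun r hr t => by rw [xV_conj M hi hr, sgU_val]⟩

theorem RootAct.n_inv {D : ChevalleyDatum} (M : MOK D) {i : ℕ} (hi : i < D.rank) :
    RootAct D M.w.add (nV D M.w.add (D.simple i) (1 : F))⁻¹ :=
  ⟨fw D i, fun s => sgU (nsgn D i (fw D i s)), fun r hr => ⟨(w_facts M.w.n hi hr).1, by
      have := (w_facts M.w.n hi hr).2.2.2.1
      rw [fneg_eq M.w.fd, fneg_eq M.w.fd] at this
      exact this⟩,
    fun r hr t => by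
      have hw := w_facts M.w.n hi hr
      have e := xV_conj M hi hw.1 (((nsgn D i (fw D i r) : ℤ) : F) * t)
      rw [sgn_sq, hw.2.2.1] at e
      rw [← e, sgU_val]
      group⟩

def NActSub (D : ChevalleyDatum) (ha : addCheck2 D = true) (F : Type*) [Field F] :
    Subgroup (GL D.Idx F) where
  carrier := {n | RootAct D ha n ∧ RootAct D ha n⁻¹}
  mul_mem' := by
    rintro a b ⟨h1, h2⟩ ⟨h3, h4⟩
    refine ⟨h1.mul h3, ?_⟩
    rw [mul_inv_rev]
    exact h4.mul h2
  one_mem' := ⟨RootAct.one D ha, by rw [inv_one]; exact RootAct.one D ha⟩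
  inv_mem' := by
    rintro a ⟨h1, h2⟩
    exact ⟨h2, by rw [inv_inv]; exact h1⟩

theorem mon_le_NAct {D : ChevalleyDatum} (M : MOK D) :
    D.monomialSubgroup F ≤ NActSub D M.w.add F := by
  apply monomial_le M
  · intro h hh
    obtain ⟨z, rfl⟩ := hh
    obtain ⟨z', hz'⟩ := (torus D F).inv_mem ⟨z, rfl⟩
    refine ⟨RootAct.torus M.w z, ?_⟩
    rw [hz']
    exact RootAct.torus M.w z'
  · intro i hi
    exact ⟨RootAct.n M hi, RootAct.n_inv M hi⟩

theorem nV_eq_xxx (D : ChevalleyDatum) (ha : addCheck2 D = true) {r : ℕ} (hr : r < D.nroots)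
    (hnr : D.neg r < D.nroots) (c : F) :
    nV D ha r c = xV D ha r c * (xV D ha (D.neg r) (-c⁻¹) * xV D ha r c) := by
  apply Units.ext
  rw [nV_val D ha hr hnr, Units.val_mul, Units.val_mul, xV_val, xV_val, nMat_eq]

theorem hV_mem {D : ChevalleyDatum} (M : MOK D) {r : ℕ} (hr : r < D.nroots) {c : F}
    (hc : c ≠ 0) :
    nV D M.w.add r c * (nV D M.w.add r (1 : F))⁻¹ ∈ D.diagonalSubgroup F := by
  apply Subgroup.subset_closure
  refine ⟨r, c, hr, hc, ?_⟩
  rw [← nV_neg, Units.val_mul, nV_val D M.w.add hr (neg_lt M.neg hr),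
    nV_val D M.w.add hr (neg_lt M.neg hr), hMat_eq_nn]

theorem nV_sq_mem {D : ChevalleyDatum} (M : MOK D) {r : ℕ} (hr : r < D.nroots) :
    nV D M.w.add r (1 : F) * nV D M.w.add r (1 : F) ∈ D.diagonalSubgroup F := by
  have h := hV_mem (F := F) M hr (neg_ne_zero.mpr one_ne_zero)
  rw [nV_neg, ← mul_inv_rev] at h
  exact inv_mem_iff.mp h

theorem nV_simple_mem_mon {D : ChevalleyDatum} (M : MOK D) {i : ℕ} (hi : i < D.rank) :
    nV D M.w.add (D.simple i) (1 : F) ∈ D.monomialSubgroup F := by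
  obtain ⟨hp, hnp⟩ := simple_lt M.w.fd M.w.n hi
  apply (le_sup_right : _ ≤ D.monomialSubgroup F)
  apply Subgroup.subset_closure
  exact ⟨D.simple i, hp, nV_val D M.w.add hp hnp 1⟩

theorem rank1 {D : ChevalleyDatum} (M : MOK D) {i : ℕ} (hi : i < D.rank) {t : F}
    (ht : t ≠ 0) :
    ∃ y ∈ D.borelSubgroup F, nV D M.w.add (D.simple i) (1 : F) * xV D M.w.add (D.simple i) t =
      y * xV D M.w.add (D.neg (D.simple i)) t⁻¹ := by
  obtain ⟨hp, hnp, hpos, hnegp⟩ := simple_facts M hi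
  have hh := hV_mem M hp (neg_ne_zero.mpr ht)
  refine ⟨(nV D M.w.add (D.simple i) (-t) * (nV D M.w.add (D.simple i) (1 : F))⁻¹)⁻¹ *
    xV D M.w.add (D.simple i) (-t), ?_, ?_⟩
  · exact mul_mem (inv_mem ((le_sup_right : D.diagonalSubgroup F ≤ D.borelSubgroup F) hh))
      ((le_sup_left : D.posUnipotent F ≤ D.borelSubgroup F)
        (xV_mem_posU M.w.add (simplePos_spec M.spos hi) _))
  · have e := nV_eq_xxx D M.w.add hp hnp (-t)
    have e2 : -(-t)⁻¹ = t⁻¹ := by rw [inv_neg, neg_neg]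
    rw [e2] at e
    have e3 : xV D M.w.add (D.simple i) t = (xV D M.w.add (D.simple i) (-t))⁻¹ := by
      rw [xV_inv D M.w.add hp, neg_neg]
    rw [e, e3]
    group

theorem bn7 {D : ChevalleyDatum} (U : UOK D) (hcf : CF D F) {i : ℕ} (hi : i < D.rank)
    {n b : GL D.Idx F} (hn : n ∈ D.monomialSubgroup F) (hb : b ∈ D.borelSubgroup F) :
    (∃ b₁ ∈ D.borelSubgroup F, ∃ b₂ ∈ D.borelSubgroup F,
      nV D U.m.w.add (D.simple i) (1 : F) * b * n =
        b₁ * (nV D U.m.w.add (D.simple i) (1 : F) * n) * b₂) ∨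
    (∃ b₁ ∈ D.borelSubgroup F, ∃ b₂ ∈ D.borelSubgroup F,
      nV D U.m.w.add (D.simple i) (1 : F) * b * n = b₁ * n * b₂) := by
  have M := U.m
  obtain ⟨hp, hnp, hpos, hnegp⟩ := simple_facts M hi
  obtain ⟨u, hu, h, hh, rfl⟩ := borel_dec M.w hb
  obtain ⟨u', hu', t, rfl⟩ := U_dec U hcf hi hu
  have hUB : D.posUnipotent F ≤ D.borelSubgroup F := le_sup_left
  have hHB : torus D F ≤ D.borelSubgroup F := by
    rw [← diag_eq_torus M.w]
    exact le_sup_right
  have hnorm : n ∈ Subgroup.normalizer (torus D F : Set (GL D.Idx F)) :=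
    monomial_le M _ Subgroup.le_normalizer (fun i hi => nV_simple_normalizes M hi) hn
  have hh' : n⁻¹ * h * n ∈ D.borelSubgroup F :=
    hHB ((Subgroup.mem_normalizer_iff''.mp hnorm h).mp hh)
  have hb0 := hUB (nconj_Up U hi u' hu')
  obtain ⟨π, c, hπ, hact⟩ := (mon_le_NAct M hn).2
  by_cases hq : D.nroots / 2 ≤ π (D.simple i)
  · left
    refine ⟨_, hb0, xV D U.m.w.add (π (D.simple i)) ((c (D.simple i) : F) * t) * (n⁻¹ * h * n),
      mul_mem (hUB (xV_mem_posU U.m.w.add ((isPos_iff M (hπ _ hp).1).mpr hq) _)) hh', ?_⟩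
    rw [← hact _ hp t]
    group
  · by_cases ht : t = 0
    · left
      refine ⟨_, hb0, n⁻¹ * h * n, hh', ?_⟩
      rw [ht, xV_zero]
      group
    · right
      obtain ⟨y, hy, ey⟩ := rank1 M hi ht
      have hq' : D.nroots / 2 ≤ π (D.neg (D.simple i)) := by
        rw [(hπ _ hp).2]
        exact (negTriOK_spec M.ntri ((isNeg_iff M (hπ _ hp).1).mpr (by omega))).2.1
      refine ⟨nV D U.m.w.add (D.simple i) (1 : F) * u' *
          (nV D U.m.w.add (D.simple i) (1 : F))⁻¹ * y, mul_mem hb0 hy,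
        xV D U.m.w.add (π (D.neg (D.simple i))) ((c (D.neg (D.simple i)) : F) * t⁻¹) *
          (n⁻¹ * h * n),
        mul_mem (hUB (xV_mem_posU U.m.w.add ((isPos_iff M (hπ _ hnp).1).mpr hq') _)) hh', ?_⟩
      rw [← hact _ hnp t⁻¹]
      have e : nV D U.m.w.add (D.simple i) (1 : F) *
          (u' * xV D U.m.w.add (D.simple i) t * h) * n =
          nV D U.m.w.add (D.simple i) (1 : F) * u' * (nV D U.m.w.add (D.simple i) (1 : F))⁻¹ *
            (nV D U.m.w.add (D.simple i) (1 : F) * xV D U.m.w.add (D.simple i) t) * h * n := by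
        group
      rw [e, ey]
      group

theorem rank1_parabolic {D : ChevalleyDatum} (U : UOK D) (hcf : CF D F) {i : ℕ}
    (hi : i < D.rank) (n : GL D.Idx F)
    (hn : (n : Matrix D.Idx D.Idx F) = D.nMat F (D.simple i) 1) :
    ∃ P : Subgroup (GL D.Idx F), (P : Set (GL D.Idx F)) =
      (D.borelSubgroup F : Set (GL D.Idx F)) ∪
        DoubleCoset.doubleCoset n (D.borelSubgroup F : Set (GL D.Idx F)) (D.borelSubgroup F) := by
  have M := U.m
  obtain ⟨hp, hnp, hpos, hnegp⟩ := simple_facts M hi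
  have en : n = nV D U.m.w.add (D.simple i) (1 : F) :=
    Units.ext (by rw [hn, nV_val D U.m.w.add hp hnp])
  have hsq : n * n ∈ D.borelSubgroup F := by
    rw [en]
    exact (le_sup_right : D.diagonalSubgroup F ≤ D.borelSubgroup F) (nV_sq_mem M hp)
  have hnN : n ∈ D.monomialSubgroup F := by
    rw [en]
    exact nV_simple_mem_mon M hi
  have key : ∀ b ∈ D.borelSubgroup F, n * b * n ∈ D.borelSubgroup F ∨
      ∃ b₁ ∈ D.borelSubgroup F, ∃ b₂ ∈ D.borelSubgroup F, n * b * n = b₁ * n * b₂ := by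
    intro b hb
    have h7 := bn7 U hcf hi hnN hb
    rw [← en] at h7
    rcases h7 with ⟨b₁, hb₁, b₂, hb₂, e⟩ | ⟨b₁, hb₁, b₂, hb₂, e⟩
    · left
      rw [e]
      exact mul_mem (mul_mem hb₁ hsq) hb₂
    · right
      exact ⟨b₁, hb₁, b₂, hb₂, e⟩
  refine ⟨{ carrier := (D.borelSubgroup F : Set (GL D.Idx F)) ∪
        DoubleCoset.doubleCoset n (D.borelSubgroup F : Set (GL D.Idx F)) (D.borelSubgroup F)
            mul_mem' := ?_
            one_mem' := Or.inl (one_mem _)
            inv_mem' := ?_ }, rfl⟩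
  · rintro x y (hx | hx) (hy | hy)
    · exact Or.inl (mul_mem hx hy)
    · right
      rw [DoubleCoset.mem_doubleCoset] at hy ⊢
      obtain ⟨b₁, hb₁, b₂, hb₂, rfl⟩ := hy
      exact ⟨x * b₁, mul_mem hx hb₁, b₂, hb₂, by group⟩
    · right
      rw [DoubleCoset.mem_doubleCoset] at hx ⊢
      obtain ⟨b₁, hb₁, b₂, hb₂, rfl⟩ := hx
      exact ⟨b₁, hb₁, b₂ * y, mul_mem hb₂ hy, by group⟩
    · rw [DoubleCoset.mem_doubleCoset] at hx hy
      obtain ⟨b₁, hb₁, b₂, hb₂, rfl⟩ := hx
      obtain ⟨b₃, hb₃, b₄, hb₄, rfl⟩ := hy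
      have e : b₁ * n * b₂ * (b₃ * n * b₄) = b₁ * (n * (b₂ * b₃) * n) * b₄ := by group
      rcases key (b₂ * b₃) (mul_mem hb₂ hb₃) with h | ⟨c₁, hc₁, c₂, hc₂, h⟩
      · left
        rw [e]
        exact mul_mem (mul_mem hb₁ h) hb₄
      · right
        rw [DoubleCoset.mem_doubleCoset]
        refine ⟨b₁ * c₁, mul_mem hb₁ hc₁, c₂ * b₄, mul_mem hc₂ hb₄, ?_⟩
        rw [e, h]
        group
  · rintro x (hx | hx)
    · exact Or.inl (inv_mem hx)
    · right
      rw [DoubleCoset.mem_doubleCoset] at hx ⊢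
      obtain ⟨b₁, hb₁, b₂, hb₂, rfl⟩ := hx
      exact ⟨b₂⁻¹, inv_mem hb₂, (n * n)⁻¹ * b₁⁻¹, mul_mem (inv_mem hsq) (inv_mem hb₁), by group⟩

theorem fw_simple {D : ChevalleyDatum} (M : MOK D) {i : ℕ} (hi : i < D.rank) :
    fw D i (D.simple i) = D.neg (D.simple i) := by
  obtain ⟨hp, hnp⟩ := simple_lt M.w.fd M.w.n hi
  rw [fw_eq M.w.n hi hp, frefl_eq M.w.fd]
  unfold ChevalleyDatum.reflectRoot
  simp

theorem sgn_ne_zero (D : ChevalleyDatum) (i s : ℕ) : ((nsgn D i s : ℤ) : F) * 1 ≠ 0 := by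
  rcases sgn_pm (F := F) D i s (Or.inl rfl) with h | h <;> rw [h]
  · exact one_ne_zero
  · exact neg_ne_zero.mpr one_ne_zero

theorem xV_neg_simple_not_mem {D : ChevalleyDatum} (M : MOK D) {i : ℕ} (hi : i < D.rank)
    {t : F} (ht : t ≠ 0) : xV D M.w.add (D.neg (D.simple i)) t ∉ D.borelSubgroup F := by
  obtain ⟨hp, hnp, hpos, hnegp⟩ := simple_facts M hi
  intro hmem
  have h4 : xV D M.w.add (D.neg (D.simple i)) t ∈ D.borelSubgroup F ⊓ D.negUnipotent F :=
    ⟨hmem, xV_mem_negU M.w.add ((isNeg_iff M hnp).mpr hnegp) _⟩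
  rw [borel_inf_negU M, Subgroup.mem_bot] at h4
  exact ht (xV_eq_one M hnp h4)

theorem chev_bn {D : ChevalleyDatum} (U : UOK D) (hcf : CF D F) :
    ∃ P : Cfsg.BNPair ↥(D.group F),
      P.B = (D.borelSubgroup F).subgroupOf (D.group F) ∧
      P.N = (D.monomialSubgroup F).subgroupOf (D.group F) ∧
      P.S = {n : ↥(D.group F) | ∃ i < D.rank,
        ((n : GL D.Idx F) : Matrix D.Idx D.Idx F) = D.nMat F (D.simple i) 1} := by
  have M := U.m
  obtain ⟨hBG, hNG, hsup⟩ := borel_mon_group (F := F) M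
  have hHB : D.diagonalSubgroup F ≤ D.borelSubgroup F := le_sup_right
  have hHN : D.diagonalSubgroup F ≤ D.monomialSubgroup F := le_sup_left
  have hUB : D.posUnipotent F ≤ D.borelSubgroup F := le_sup_left
  have hSval : ∀ s : ↥(D.group F), (∃ i < D.rank,
      ((s : GL D.Idx F) : Matrix D.Idx D.Idx F) = D.nMat F (D.simple i) 1) →
      ∃ i < D.rank, (s : GL D.Idx F) = nV D U.m.w.add (D.simple i) (1 : F) := by
    rintro s ⟨i, hi, hs⟩
    obtain ⟨hp, hnp⟩ := simple_lt M.w.fd M.w.n hi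
    exact ⟨i, hi, Units.ext (by rw [hs, nV_val D U.m.w.add hp hnp])⟩
  have hnormN : ∀ n ∈ D.monomialSubgroup F,
      n ∈ Subgroup.normalizer (torus D F : Set (GL D.Idx F)) := fun n hn =>
    monomial_le M _ Subgroup.le_normalizer (fun i hi => nV_simple_normalizes M hi) hn
  refine ⟨{ B := (D.borelSubgroup F).subgroupOf (D.group F)
            N := (D.monomialSubgroup F).subgroupOf (D.group F)
            S := {n : ↥(D.group F) | ∃ i < D.rank,
              ((n : GL D.Idx F) : Matrix D.Idx D.Idx F) = D.nMat F (D.simple i) 1}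
            sup_eq_top := ?_
            conj_mem := ?_
            subset := ?_
            sq_mem := ?_
            inj := ?_
            closure_sup := ?_
            mul_mem_union := ?_
            conj_ne := ?_ }, rfl, rfl, rfl⟩
  · rw [← Subgroup.subgroupOf_sup hBG hNG, hsup, Subgroup.subgroupOf_self]
  · rintro n hn t ⟨htB, htN⟩
    have hn' : (n : GL D.Idx F) ∈ D.monomialSubgroup F := hn
    have htB' : (t : GL D.Idx F) ∈ D.borelSubgroup F := htB
    have htN' : (t : GL D.Idx F) ∈ D.monomialSubgroup F := htN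
    have htH : (t : GL D.Idx F) ∈ torus D F := by
      rw [← diag_eq_torus M.w, ← borel_inf_mon M]
      exact ⟨htB', htN'⟩
    have h1 := (Subgroup.mem_normalizer_iff.mp (hnormN _ hn') (t : GL D.Idx F)).mp htH
    rw [← diag_eq_torus M.w] at h1
    exact hHB h1
  · intro s hs
    obtain ⟨i, hi, e⟩ := hSval s hs
    show (s : GL D.Idx F) ∈ D.monomialSubgroup F
    rw [e]
    exact nV_simple_mem_mon M hi
  · intro s hs
    obtain ⟨i, hi, e⟩ := hSval s hs
    obtain ⟨hp, hnp⟩ := simple_lt M.w.fd M.w.n hi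
    show (s : GL D.Idx F) * (s : GL D.Idx F) ∈ D.borelSubgroup F
    rw [e]
    exact hHB (nV_sq_mem M hp)
  · intro s hs s' hs' hmem
    obtain ⟨i, hi, e⟩ := hSval s hs
    obtain ⟨j, hj, e'⟩ := hSval s' hs'
    by_cases hij : D.simple i = D.simple j
    · apply Subtype.ext
      rw [e, e', hij]
    · exfalso
      obtain ⟨hpj, hnpj, hposj, hnegpj⟩ := simple_facts M hj
      have hmem' : (s : GL D.Idx F)⁻¹ * (s' : GL D.Idx F) ∈ D.borelSubgroup F := hmem
      rw [e, e'] at hmem'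
      have hN : (nV D U.m.w.add (D.simple i) (1 : F))⁻¹ * nV D U.m.w.add (D.simple j) (1 : F) ∈
          D.monomialSubgroup F :=
        mul_mem (inv_mem (nV_simple_mem_mon M hi)) (nV_simple_mem_mon M hj)
      have hT : (nV D U.m.w.add (D.simple i) (1 : F))⁻¹ * nV D U.m.w.add (D.simple j) (1 : F) ∈
          torus D F := by
        rw [← diag_eq_torus M.w, ← borel_inf_mon M]
        exact ⟨hmem', hN⟩
      obtain ⟨z, hz⟩ := hT
      have ej : nV D U.m.w.add (D.simple j) (1 : F) =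
          nV D U.m.w.add (D.simple i) (1 : F) * DgU D (chi D z) := by
        rw [← hz]
        group
      have c1 := xV_conj M hj hpj (1 : F)
      rw [fw_simple M hj] at c1
      have c2 : nV D U.m.w.add (D.simple j) (1 : F) * xV D M.w.add (D.simple j) (1 : F) *
          (nV D U.m.w.add (D.simple j) (1 : F))⁻¹ =
          xV D M.w.add (fw D i (D.simple j))
            (((nsgn D i (D.simple j) : ℤ) : F) * ((chi D z (D.simple j) : F) * 1)) := by
        rw [ej, ← xV_conj M hi hpj]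
        have := DgU_xV M.w z hpj (1 : F)
        rw [mul_inv_rev, ← mul_assoc, mul_assoc (nV D U.m.w.add (D.simple i) (1 : F)),
          this]
        group
      rw [c1] at c2
      have hpos2 : D.IsPosRoot (fw D i (D.simple j)) :=
        (isPos_iff M (w_facts M.w.n hi hpj).1).mpr
          (wposOK_spec U.wpos hi hposj hpj (fun h => hij h.symm))
      have hB2 : xV D M.w.add (D.neg (D.simple j)) (((nsgn D j (D.simple j) : ℤ) : F) * 1) ∈
          D.borelSubgroup F := by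
        rw [c2]
        exact hUB (xV_mem_posU M.w.add hpos2 _)
      exact xV_neg_simple_not_mem M hj (sgn_ne_zero D j (D.simple j)) hB2
  · apply le_antisymm
    · apply sup_le
      · rw [Subgroup.closure_le]
        intro s hs
        obtain ⟨i, hi, e⟩ := hSval s hs
        show (s : GL D.Idx F) ∈ D.monomialSubgroup F
        rw [e]
        exact nV_simple_mem_mon M hi
      · exact inf_le_right
    · intro x hx
      rw [Subgroup.mem_subgroupOf] at hx
      have hK : D.monomialSubgroup F ≤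
          (Subgroup.closure {n : ↥(D.group F) | ∃ i < D.rank,
              ((n : GL D.Idx F) : Matrix D.Idx D.Idx F) = D.nMat F (D.simple i) 1} ⊔
            ((D.borelSubgroup F).subgroupOf (D.group F) ⊓
              (D.monomialSubgroup F).subgroupOf (D.group F))).map (D.group F).subtype := by
        apply monomial_le M
        · intro h hh
          rw [← diag_eq_torus M.w] at hh
          refine ⟨⟨h, hBG (hHB hh)⟩, ?_, rfl⟩
          apply (le_sup_right : _ ≤ Subgroup.closure _ ⊔ _)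
          exact ⟨hHB hh, hHN hh⟩
        · intro i hi
          obtain ⟨hp, hnp⟩ := simple_lt M.w.fd M.w.n hi
          refine ⟨⟨nV D M.w.add (D.simple i) (1 : F), hNG (nV_simple_mem_mon M hi)⟩, ?_, rfl⟩
          apply (le_sup_left : Subgroup.closure _ ≤ Subgroup.closure _ ⊔ _)
          apply Subgroup.subset_closure
          exact ⟨i, hi, nV_val D M.w.add hp hnp 1⟩
      obtain ⟨y, hy, hyx⟩ := hK hx
      have : y = x := Subtype.ext hyx
      rw [← this]
      exact hy
  · intro s hs n hn b hb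
    obtain ⟨i, hi, e⟩ := hSval s hs
    rw [Subgroup.mem_subgroupOf] at hn hb
    have h7 := bn7 U hcf hi hn hb
    rw [← e] at h7
    rcases h7 with ⟨b₁, hb₁, b₂, hb₂, e7⟩ | ⟨b₁, hb₁, b₂, hb₂, e7⟩
    · left
      rw [DoubleCoset.mem_doubleCoset]
      exact ⟨⟨b₁, hBG hb₁⟩, hb₁, ⟨b₂, hBG hb₂⟩, hb₂, Subtype.ext e7⟩
    · right
      rw [DoubleCoset.mem_doubleCoset]
      exact ⟨⟨b₁, hBG hb₁⟩, hb₁, ⟨b₂, hBG hb₂⟩, hb₂, Subtype.ext e7⟩
  · intro s hs heq
    obtain ⟨i, hi, e⟩ := hSval s hs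
    obtain ⟨hp, hnp, hpos, hnegp⟩ := simple_facts M hi
    have hx : xV D M.w.add (D.simple i) (1 : F) ∈ D.borelSubgroup F :=
      hUB (xV_mem_posU M.w.add (simplePos_spec M.spos hi) _)
    have h1 : s * ⟨xV D M.w.add (D.simple i) (1 : F), hBG hx⟩ * s ∈
        (((D.borelSubgroup F).subgroupOf (D.group F) : Subgroup ↥(D.group F)) :
          Set ↥(D.group F)) := by
      rw [← heq]
      exact ⟨⟨xV D M.w.add (D.simple i) (1 : F), hBG hx⟩, hx, rfl⟩
    have h2 : (s : GL D.Idx F) * xV D M.w.add (D.simple i) (1 : F) * (s : GL D.Idx F) ∈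
        D.borelSubgroup F := h1
    rw [e] at h2
    have h3 : nV D U.m.w.add (D.simple i) (1 : F) * xV D M.w.add (D.simple i) (1 : F) *
        nV D U.m.w.add (D.simple i) (1 : F) =
        xV D M.w.add (D.neg (D.simple i)) (((nsgn D i (D.simple i) : ℤ) : F) * 1) *
          (nV D U.m.w.add (D.simple i) (1 : F) * nV D U.m.w.add (D.simple i) (1 : F)) := by
      rw [← fw_simple M hi, ← xV_conj M hi hp]
      group
    rw [h3] at h2
    have h4 := (Subgroup.mul_mem_cancel_right (D.borelSubgroup F)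
      (hHB (nV_sq_mem M hp))).mp h2
    exact xV_neg_simple_not_mem M hi (sgn_ne_zero D i (D.simple i)) h4

end Cfsg.Agent.Helper7
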