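import Cfsg.Prelude.Def_ChevStructure
import Cfsg.Prelude.Def_LieTypes
import Cfsg.Prelude.Def_ChevB2
import Cfsg.Prelude.Def_ChevD4

set_option autoImplicit false
open Cfsg

namespace Cfsg.Agent.Helper7

open Cfsg.Lie

theorem forall_seven {P : ChevalleyDatum → Prop} (hG2 : P chevG2) (hB2 : P chevB2) (hD4 : P chevD4)
    (hF4 : P chevF4) (hE6 : P chevE6) (hE7 : P chevE7) (hE8 : P chevE8) {D : ChevalleyDatum}
    (hD : D ∈ [chevG2, chevB2, chevD4, chevF4, chevE6, chevE7, chevE8]) : P D := by
  simp only [List.mem_cons, List.not_mem_nil, or_false] at hD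
  rcases hD with rfl | rfl | rfl | rfl | rfl | rfl | rfl <;> assumption

def negOK (D : ChevalleyDatum) : Bool :=
  (List.range D.nroots).all fun r =>
    decide (D.negIdx.getD r 0 ≠ r) && decide (D.negIdx.getD r 0 < D.nroots)

theorem negOK_G2 : negOK chevG2 = true := by decide +kernel
theorem negOK_B2 : negOK chevB2 = true := by decide +kernel
theorem negOK_D4 : negOK chevD4 = true := by decide +kernel
theorem negOK_F4 : negOK chevF4 = true := by decide +kernel
theorem negOK_E6 : negOK chevE6 = true := by decide +kernel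
theorem negOK_E7 : negOK chevE7 = true := by decide +kernel
theorem negOK_E8 : negOK chevE8 = true := by decide +kernel

theorem negOK_of_mem {D : ChevalleyDatum}
    (hD : D ∈ [chevG2, chevB2, chevD4, chevF4, chevE6, chevE7, chevE8]) : negOK D = true :=
  forall_seven (P := fun D => negOK D = true) negOK_G2 negOK_B2 negOK_D4 negOK_F4 negOK_E6 negOK_E7
    negOK_E8 hD

theorem negOK_spec {D : ChevalleyDatum} (h : negOK D = true) {r : ℕ} (hr : r < D.nroots) :
    D.negIdx.getD r 0 ≠ r ∧ D.negIdx.getD r 0 < D.nroots := by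
  unfold negOK at h
  rw [List.all_eq_true] at h
  have := h r (List.mem_range.mpr hr)
  simpa using this

def posnegOK (D : ChevalleyDatum) : Bool :=
  (List.range D.nroots).all fun r => decide (D.IsPosRoot r) || decide (D.IsNegRoot r)

theorem posnegOK_G2 : posnegOK chevG2 = true := by decide +kernel
theorem posnegOK_B2 : posnegOK chevB2 = true := by decide +kernel
theorem posnegOK_D4 : posnegOK chevD4 = true := by decide +kernel
theorem posnegOK_F4 : posnegOK chevF4 = true := by decide +kernel
theorem posnegOK_E6 : posnegOK chevE6 = true := by decide +kernel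
theorem posnegOK_E7 : posnegOK chevE7 = true := by decide +kernel
theorem posnegOK_E8 : posnegOK chevE8 = true := by decide +kernel

theorem posnegOK_of_mem {D : ChevalleyDatum}
    (hD : D ∈ [chevG2, chevB2, chevD4, chevF4, chevE6, chevE7, chevE8]) : posnegOK D = true :=
  forall_seven (P := fun D => posnegOK D = true) posnegOK_G2 posnegOK_B2 posnegOK_D4 posnegOK_F4
    posnegOK_E6 posnegOK_E7 posnegOK_E8 hD

theorem posnegOK_spec {D : ChevalleyDatum} (h : posnegOK D = true) {r : ℕ} (hr : r < D.nroots) :
    D.IsPosRoot r ∨ D.IsNegRoot r := by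
  unfold posnegOK at h
  rw [List.all_eq_true] at h
  have := h r (List.mem_range.mpr hr)
  simpa using this

theorem chainCoeff_pos (D : ChevalleyDatum) (r s u : ℕ) :
    ∀ km ∈ D.chainCoeff r s u, km.1 ≠ 0 := by
  intro km hkm
  unfold ChevalleyDatum.chainCoeff at hkm
  simp only [List.mem_flatMap, List.mem_map] at hkm
  obtain ⟨e, _, q, _, rfl⟩ := hkm
  simp

theorem xMat_zero (D : ChevalleyDatum) (F : Type*) [Field F] (r : Fin D.nroots) :
    D.xMat F r 0 = 1 := by
  ext row col
  have hsum : ∀ (s u : ℕ),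
      ((D.chainCoeff r.val s u).map fun km => ((km.2 : ℤ) : F) * (0 : F) ^ km.1).sum = 0 := by
    intro s u
    apply List.sum_eq_zero
    intro x hx
    rw [List.mem_map] at hx
    obtain ⟨km, hkm, rfl⟩ := hx
    rw [zero_pow (chainCoeff_pos D _ _ _ km hkm), mul_zero]
  rcases row with i' | u <;> rcases col with i | s
  · simp [ChevalleyDatum.xMat, Matrix.one_apply]
  · simp only [ChevalleyDatum.xMat, Matrix.of_apply, Matrix.one_apply]
    split_ifs <;> simp_all
  · simp only [ChevalleyDatum.xMat, Matrix.of_apply, Matrix.one_apply]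
    split_ifs <;> simp_all
  · simp only [ChevalleyDatum.xMat, Matrix.of_apply, Matrix.one_apply, hsum]
    split_ifs <;> simp_all

theorem xMat_neg_entry (D : ChevalleyDatum) (F : Type*) [Field F] (r s : Fin D.nroots) (t : F)
    (hne : s ≠ r) (hs : s.val = D.negIdx.getD r.val 0) :
    D.xMat F r t (Sum.inr r) (Sum.inr s) = -(t ^ 2) := by
  simp only [ChevalleyDatum.xMat, Matrix.of_apply]
  rw [if_neg hne, if_pos hs, if_neg (Ne.symm hne), if_pos trivial]

theorem xMat_eq_one (D : ChevalleyDatum) (h : negOK D = true) (F : Type*) [Field F]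
    (r : Fin D.nroots) (t : F) (ht : D.xMat F r t = 1) : t = 0 := by
  obtain ⟨h1, h2⟩ := negOK_spec h r.isLt
  have hne : (⟨D.negIdx.getD r.val 0, h2⟩ : Fin D.nroots) ≠ r := by
    intro hh
    exact h1 (congrArg Fin.val hh)
  have h3 := xMat_neg_entry D F r ⟨D.negIdx.getD r.val 0, h2⟩ t hne rfl
  rw [ht, Matrix.one_apply, if_neg (by simpa using hne.symm)] at h3
  have h4 : t ^ 2 = 0 := by
    have := congrArg Neg.neg h3
    simpa using this.symm
  exact pow_eq_zero_iff (by norm_num) |>.mp h4

theorem x_of_lt (D : ChevalleyDatum) (F : Type*) [Field F] {r : ℕ} (hr : r < D.nroots) (t : F) :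
    D.x F r t = D.xMat F ⟨r, hr⟩ t := by
  unfold ChevalleyDatum.x
  rw [dif_pos hr]

end Cfsg.Agent.Helper7
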