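import Cfsg.Agent.Helper7.ChevLevels

set_option autoImplicit false
set_option maxHeartbeats 4000000
open Cfsg

namespace Cfsg.Agent.Helper7

open Cfsg.Lie

theorem fw_neg_of_neg {D : ChevalleyDatum} (U : UOK D) {a : ℕ} (ha : a < D.rank) {s : ℕ}
    (hs : s < D.nroots) (hneg : s < D.nroots / 2) (hne : s ≠ D.neg (D.simple a)) :
    fw D a s < D.nroots / 2 := by
  have M := U.m
  have hsN : D.IsNegRoot s := (isNeg_iff M hs).mpr hneg
  obtain ⟨_, hnegpos, _⟩ := negTriOK_spec M.ntri hsN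
  have hns : D.neg s < D.nroots := neg_lt M.neg hs
  have hne' : D.neg s ≠ D.simple a := by
    intro h
    apply hne
    rw [← h, neg_neg_root M.w.fd U.ninv hs]
  have h1 : D.nroots / 2 ≤ fw D a (D.neg s) := wposOK_spec U.wpos ha hnegpos hns hne'
  obtain ⟨hw1, _, _, hw4, _⟩ := w_facts M.w.n ha hs
  rw [fneg_eq M.w.fd, fneg_eq M.w.fd] at hw4
  rw [hw4] at h1
  by_contra hcon
  have hp : D.IsPosRoot (fw D a s) := (isPos_iff M hw1).mpr (by omega)
  have h2 := (posTriOK_spec M.ptri hp).2.1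
  have h3 : D.neg (fw D a s) = D.negIdx.getD (fw D a s) 0 := rfl
  omega

theorem wApply_neg {D : ChevalleyDatum} (M : MOK D) :
    ∀ (w : List ℕ), (∀ i ∈ w, i < D.rank) → ∀ s < D.nroots,
      wApply D w (D.neg s) = D.neg (wApply D w s)
  | [], _, s, _ => rfl
  | a :: w, hw, s, hs => by
    have ha := hw a List.mem_cons_self
    have hw' : ∀ i ∈ w, i < D.rank := fun i hi => hw i (List.mem_cons_of_mem _ hi)
    rw [wApply_cons, wApply_cons, wApply_neg M w hw' s hs]
    have h4 := (w_facts M.w.n ha (wApply_lt M.w.n w hw' hs)).2.2.2.1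
    rw [fneg_eq M.w.fd, fneg_eq M.w.fd] at h4
    exact h4

section sem

variable {F : Type*} [Field F]

def UnegW (D : ChevalleyDatum) (F : Type*) [Field F] (w : List ℕ) : Subgroup (GL D.Idx F) :=
  rootGen D F (fun r => D.IsPosRoot r ∧ wApply D w r < D.nroots / 2)

theorem bruhat_word {D : ChevalleyDatum} (U : UOK D) (hcf : CF D F) {w : List ℕ}
    (h : LInc D w) :
    ∀ u ∈ D.posUnipotent F, ∃ b ∈ D.borelSubgroup F, ∃ u' ∈ UnegW D F w,
      nWordU D U.m.w.add w * u = b * nWordU D U.m.w.add w * u' := by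
  induction h with
  | nil =>
    intro u hu
    exact ⟨u, (le_sup_left : D.posUnipotent F ≤ D.borelSubgroup F) hu, 1, one_mem _, by
      simp [nWordU]⟩
  | cons a w hw ha hpos ih =>
    intro u hu
    have M := U.m
    obtain ⟨b1, hb1, u1, hu1, e1⟩ := ih u hu
    obtain ⟨c, hc, t, ec, hcc⟩ := borel_split U hcf ha hb1
    have hlt := hw.lt
    obtain ⟨hp, hnp, hpp, hnn⟩ := simple_facts M ha
    have hr0 : wApply D w.reverse (D.simple a) < D.nroots :=
      wApply_lt M.w.n w.reverse (fun i hi => hlt i (List.mem_reverse.mp hi)) hp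
    obtain ⟨ε, hε, hconj⟩ := long_conj (F := F) M w hlt hr0
    have hcancel := wApply_reverse_cancel M.w.n w hlt (D.simple a) hp
    have hx : xV D U.m.w.add (D.simple a) t * nWordU D U.m.w.add w =
        nWordU D U.m.w.add w * xV D U.m.w.add (wApply D w.reverse (D.simple a)) (ε * t) := by
      have h2 := hconj (ε * t)
      rw [hcancel] at h2
      have hεε : ε * (ε * t) = t := by
        rcases hε with h | h <;> rw [h] <;> ring
      rw [hεε] at h2
      rw [← h2]
      group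
    have hposr0 : D.IsPosRoot (wApply D w.reverse (D.simple a)) := (isPos_iff M hr0).mpr hpos
    refine ⟨nV D U.m.w.add (D.simple a) (1 : F) * c * (nV D U.m.w.add (D.simple a) (1 : F))⁻¹,
      hcc, xV D U.m.w.add (wApply D w.reverse (D.simple a)) (ε * t) * u1, ?_, ?_⟩
    · apply mul_mem
      · apply Subgroup.subset_closure
        refine ⟨wApply D w.reverse (D.simple a), ε * t, ⟨hposr0, ?_⟩, xV_val D U.m.w.add _ _⟩
        rw [wApply_cons, hcancel, fw_simple M ha]
        exact hnn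
      · refine (Subgroup.closure_mono ?_) hu1
        rintro x ⟨r, t', ⟨hrpos, hrneg⟩, hx'⟩
        refine ⟨r, t', ⟨hrpos, ?_⟩, hx'⟩
        rw [wApply_cons]
        apply fw_neg_of_neg U ha (wApply_lt M.w.n w hlt hrpos.1) hrneg
        intro heq
        have h3 := wApply_reverse_cancel' M.w.n w hlt hrpos.1
        rw [heq, wApply_neg M w.reverse (fun i hi => hlt i (List.mem_reverse.mp hi)) _ hp] at h3
        have h4 := (posTriOK_spec M.ptri hposr0).2.1
        have h5 := (posTriOK_spec M.ptri hrpos).1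
        have h6 : D.neg (wApply D w.reverse (D.simple a)) =
            D.negIdx.getD (wApply D w.reverse (D.simple a)) 0 := rfl
        omega
    · have e : nWordU D U.m.w.add (a :: w) =
          nV D U.m.w.add (D.simple a) (1 : F) * nWordU D U.m.w.add w := by simp [nWordU]
      rw [e, mul_assoc, e1, ec]
      have e2 : nV D U.m.w.add (D.simple a) (1 : F) *
          (c * xV D U.m.w.add (D.simple a) t * nWordU D U.m.w.add w * u1) =
          nV D U.m.w.add (D.simple a) (1 : F) * c *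
            (xV D U.m.w.add (D.simple a) t * nWordU D U.m.w.add w) * u1 := by group
      rw [e2, hx]
      group

theorem bruhat_exists {D : ChevalleyDatum} (U : UOK D) (hcf : CF D F) (ws : List (List ℕ))
    (hlinc : ∀ w ∈ ws, LInc D w)
    (hclosed : ∀ w ∈ ws, ∀ a < D.rank, ∃ w' ∈ ws, ∀ r < D.nroots,
      wApply D (a :: w) r = wApply D w' r)
    (hne : [] ∈ ws) {g : GL D.Idx F} (hg : g ∈ D.group F) :
    ∃ b ∈ D.borelSubgroup F, ∃ n ∈ D.monomialSubgroup F,
      ∃ u ∈ Subgroup.closure {x : GL D.Idx F | ∃ (r : ℕ) (t : F), D.IsPosRoot r ∧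
            (D.rootSubgroup F r).map (MulAut.conj n).toMonoidHom ≤ D.negUnipotent F ∧
            (x : Matrix D.Idx D.Idx F) = D.x F r t},
        g = b * n * u := by
  have M := U.m
  obtain ⟨w, hw, hgw⟩ := group_cover U hcf ws (fun w hw => (hlinc w hw).lt) hclosed hne hg
  rw [mem_DC] at hgw
  obtain ⟨b₁, hb₁, b₂, hb₂, rfl⟩ := hgw
  obtain ⟨u0, hu0, h0, hh0, e0⟩ := borel_dec M.w (inv_mem hb₂)
  have eb2 : b₂ = h0⁻¹ * u0⁻¹ := by
    rw [← inv_inj, e0]
    group
  obtain ⟨b, hb, u', hu', e⟩ := bruhat_word U hcf (hlinc w hw) u0⁻¹ (inv_mem hu0)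
  have hlt := (hlinc w hw).lt
  have hnN := nWordU_mem_mon (F := F) M w hlt
  have hconjT : nWordU D U.m.w.add w * h0⁻¹ * (nWordU D U.m.w.add w)⁻¹ ∈ torus D F :=
    (Subgroup.mem_normalizer_iff.mp (mon_normalizes_torus M hnN) h0⁻¹).mp (inv_mem hh0)
  refine ⟨b₁ * (nWordU D U.m.w.add w * h0⁻¹ * (nWordU D U.m.w.add w)⁻¹) * b,
    mul_mem (mul_mem hb₁ (torus_le_borel M.w hconjT)) hb, nWordU D U.m.w.add w, hnN, u', ?_, ?_⟩
  · refine (Subgroup.closure_mono ?_) hu'
    rintro x ⟨r, t, ⟨hrpos, hrneg⟩, hx⟩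
    refine ⟨r, t, hrpos, ?_, hx⟩
    rw [Subgroup.map_le_iff_le_comap]
    unfold ChevalleyDatum.rootSubgroup
    rw [Subgroup.closure_le]
    rintro y ⟨t', hy⟩
    have ey : y = xV D U.m.w.add r t' := Units.ext (by rw [hy, xV_val])
    obtain ⟨ε, hε, hconj⟩ := long_conj (F := F) M w hlt hrpos.1
    show (MulAut.conj (nWordU D U.m.w.add w)).toMonoidHom y ∈ D.negUnipotent F
    rw [ey]
    simp only [MulEquiv.coe_toMonoidHom, MulAut.conj_apply]
    rw [hconj]
    exact xV_mem_negU M.w.add ((isNeg_iff M (wApply_lt M.w.n w hlt hrpos.1)).mpr hrneg) _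
  · rw [eb2]
    have e3 : b₁ * nWordU D U.m.w.add w * (h0⁻¹ * u0⁻¹) =
        b₁ * (nWordU D U.m.w.add w * h0⁻¹ * (nWordU D U.m.w.add w)⁻¹) *
          (nWordU D U.m.w.add w * u0⁻¹) := by group
    rw [e3, e]
    group

theorem bruhat_uniq {D : ChevalleyDatum} (U : UOK D) (hcf : CF D F)
    (b b' n n' u u' : GL D.Idx F) (hb : b ∈ D.borelSubgroup F) (hb' : b' ∈ D.borelSubgroup F)
    (hn : n ∈ D.monomialSubgroup F) (hn' : n' ∈ D.monomialSubgroup F)
    (hu : u ∈ Subgroup.closure {x : GL D.Idx F | ∃ (r : ℕ) (t : F), D.IsPosRoot r ∧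
            (D.rootSubgroup F r).map (MulAut.conj n).toMonoidHom ≤ D.negUnipotent F ∧
            (x : Matrix D.Idx D.Idx F) = D.x F r t})
    (hu' : u' ∈ Subgroup.closure {x : GL D.Idx F | ∃ (r : ℕ) (t : F), D.IsPosRoot r ∧
            (D.rootSubgroup F r).map (MulAut.conj n').toMonoidHom ≤ D.negUnipotent F ∧
            (x : Matrix D.Idx D.Idx F) = D.x F r t})
    (e : b * n * u = b' * n' * u') :
    n⁻¹ * n' ∈ D.diagonalSubgroup F ∧ (n = n' → b = b' ∧ u = u') := by
  have M := U.m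
  have hSB : ∀ m : GL D.Idx F, Subgroup.closure {x : GL D.Idx F | ∃ (r : ℕ) (t : F),
      D.IsPosRoot r ∧ (D.rootSubgroup F r).map (MulAut.conj m).toMonoidHom ≤ D.negUnipotent F ∧
      (x : Matrix D.Idx D.Idx F) = D.x F r t} ≤ D.borelSubgroup F := by
    intro m
    rw [Subgroup.closure_le]
    rintro x ⟨r, t, hr, _, hx⟩
    exact (le_sup_left : D.posUnipotent F ≤ D.borelSubgroup F)
      (Subgroup.subset_closure ⟨r, t, hr, hx⟩)
  have hSV : ∀ m : GL D.Idx F, Subgroup.closure {x : GL D.Idx F | ∃ (r : ℕ) (t : F),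
      D.IsPosRoot r ∧ (D.rootSubgroup F r).map (MulAut.conj m).toMonoidHom ≤ D.negUnipotent F ∧
      (x : Matrix D.Idx D.Idx F) = D.x F r t} ≤
      (D.negUnipotent F).comap (MulAut.conj m).toMonoidHom := by
    intro m
    rw [Subgroup.closure_le]
    rintro x ⟨r, t, hr, hle, hx⟩
    exact hle (Subgroup.mem_map_of_mem _ (Subgroup.subset_closure ⟨t, hx⟩))
  constructor
  · have e' : n' = (b'⁻¹ * b) * n * (u * u'⁻¹) := by
      calc n' = b'⁻¹ * (b' * n' * u') * u'⁻¹ := by group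
        _ = b'⁻¹ * (b * n * u) * u'⁻¹ := by rw [e]
        _ = (b'⁻¹ * b) * n * (u * u'⁻¹) := by group
    have h1 := bruhat_unique U hcf hn hn' (mul_mem (inv_mem hb') hb)
      (mul_mem (hSB n hu) (inv_mem (hSB n' hu'))) e'
    rw [← borel_inf_mon M]
    exact Subgroup.mem_inf.mpr ⟨h1, mul_mem (inv_mem hn) hn'⟩
  · intro hnn
    subst hnn
    have h1 : n * (u * u'⁻¹) * n⁻¹ = b⁻¹ * b' := by
      calc n * (u * u'⁻¹) * n⁻¹ = b⁻¹ * (b * n * u) * u'⁻¹ * n⁻¹ := by group
        _ = b⁻¹ * (b' * n * u') * u'⁻¹ * n⁻¹ := by rw [e]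
        _ = b⁻¹ * b' := by group
    have h2 : n * (u * u'⁻¹) * n⁻¹ ∈ D.borelSubgroup F ⊓ D.negUnipotent F := by
      refine Subgroup.mem_inf.mpr ⟨?_, ?_⟩
      · rw [h1]
        exact mul_mem (inv_mem hb) hb'
      · exact hSV n (mul_mem hu (inv_mem hu'))
    rw [borel_inf_negU M, Subgroup.mem_bot, conj_eq_one_iff] at h2
    have h3 : u = u' := mul_inv_eq_one.mp h2
    subst h3
    exact ⟨mul_right_cancel (mul_right_cancel e), rfl⟩

theorem bruhat_normal_form {D : ChevalleyDatum} {adj : List (List ℤ)} {L det : ℤ}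
    (U : UOK D) (hcf : CF D F) (Lk : LinOK D adj L det)
    (lvs : List Lev) (h : levsOK D (List.range D.rank) lvs = true) :
    (∀ g ∈ D.group F, ∃ b ∈ D.borelSubgroup F, ∃ n ∈ D.monomialSubgroup F,
      ∃ u ∈ Subgroup.closure {x : GL D.Idx F | ∃ (r : ℕ) (t : F), D.IsPosRoot r ∧
            (D.rootSubgroup F r).map (MulAut.conj n).toMonoidHom ≤ D.negUnipotent F ∧
            (x : Matrix D.Idx D.Idx F) = D.x F r t},
        g = b * n * u) ∧
    (∀ (b b' n n' u u' : GL D.Idx F), b ∈ D.borelSubgroup F → b' ∈ D.borelSubgroup F →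
      n ∈ D.monomialSubgroup F → n' ∈ D.monomialSubgroup F →
      u ∈ Subgroup.closure {x : GL D.Idx F | ∃ (r : ℕ) (t : F), D.IsPosRoot r ∧
            (D.rootSubgroup F r).map (MulAut.conj n).toMonoidHom ≤ D.negUnipotent F ∧
            (x : Matrix D.Idx D.Idx F) = D.x F r t} →
      u' ∈ Subgroup.closure {x : GL D.Idx F | ∃ (r : ℕ) (t : F), D.IsPosRoot r ∧
            (D.rootSubgroup F r).map (MulAut.conj n').toMonoidHom ≤ D.negUnipotent F ∧
            (x : Matrix D.Idx D.Idx F) = D.x F r t} →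
      b * n * u = b' * n' * u' →
        n⁻¹ * n' ∈ D.diagonalSubgroup F ∧ (n = n' → b = b' ∧ u = u')) := by
  have hK : ∀ k ∈ List.range D.rank, k < D.rank := fun k hk => List.mem_range.mp hk
  constructor
  · intro g hg
    exact bruhat_exists U hcf (words lvs) (words_linc U.m.w.fd U.m.w.n lvs _ hK h)
      (fun w hw a ha => words_closed Lk lvs _ hK h w hw a (List.mem_range.mpr ha))
      (nil_mem_words lvs _ h) hg
  · intro b b' n n' u u' hb hb' hn hn' hu hu' e
    exact bruhat_uniq U hcf b b' n n' u u' hb hb' hn hn' hu hu' e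

end sem

end Cfsg.Agent.Helper7
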