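import Cfsg.Agent.Helper7.ChevCox
import Cfsg.Agent.Helper7.ChevBruhat

set_option autoImplicit false
set_option linter.unusedSectionVars false
set_option linter.unusedVariables false
open Cfsg

namespace Cfsg.Agent.Helper7

open Cfsg.Lie

def cenOK (D : ChevalleyDatum) : Bool :=
  (List.range D.rank).all fun i =>
    decide (D.cartan i (D.simple i) ≠ 0) &&
    (List.range D.nroots).all fun r =>
      !decide (fw D i r = D.neg r) || decide (r = D.simple i) || decide (r = D.neg (D.simple i))

theorem cenOK_spec {D : ChevalleyDatum} (h : cenOK D = true) {i : ℕ} (hi : i < D.rank) :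
    D.cartan i (D.simple i) ≠ 0 ∧ ∀ r < D.nroots, fw D i r = D.neg r →
      (r = D.simple i ∨ r = D.neg (D.simple i)) := by
  unfold cenOK at h
  rw [List.all_eq_true] at h
  have h1 := h i (List.mem_range.mpr hi)
  rw [Bool.and_eq_true, decide_eq_true_eq, List.all_eq_true] at h1
  refine ⟨h1.1, fun r hr e => ?_⟩
  have h2 := h1.2 r (List.mem_range.mpr hr)
  simp only [Bool.or_eq_true, Bool.not_eq_true', decide_eq_true_eq, decide_eq_false_iff_not]
    at h2
  rcases h2 with (h2 | h2) | h2
  · exact absurd e h2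
  · exact Or.inl h2
  · exact Or.inr h2

def connOK (D : ChevalleyDatum) : Bool :=
  (boolLists D.rank).all fun l =>
    !(l.any id) || l.all id ||
      (List.range D.rank).any fun i => (List.range D.rank).any fun j =>
        l.getD i false && !(l.getD j false) && decide (D.cartan j (D.simple i) ≠ 0)

theorem connOK_spec {D : ChevalleyDatum} (h : connOK D = true) (f : ℕ → Bool) {i₀ j₀ : ℕ}
    (hi₀ : i₀ < D.rank) (hj₀ : j₀ < D.rank) (h1 : f i₀ = true) (h2 : f j₀ = false) :
    ∃ i < D.rank, ∃ j < D.rank, f i = true ∧ f j = false ∧ D.cartan j (D.simple i) ≠ 0 := by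
  unfold connOK at h
  rw [List.all_eq_true] at h
  have hl := h ((List.range D.rank).map f) (by
    have := mem_boolLists ((List.range D.rank).map f)
    rwa [List.length_map, List.length_range] at this)
  have hget : ∀ i < D.rank, ((List.range D.rank).map f).getD i false = f i := by
    intro i hi
    rw [List.getD_eq_getElem?_getD, List.getElem?_map, List.getElem?_range hi]
    rfl
  rw [Bool.or_eq_true, Bool.or_eq_true] at hl
  rcases hl with (hl | hl) | hl
  · exfalso
    rw [Bool.not_eq_true', List.any_eq_false] at hl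
    have := hl (f i₀) (List.mem_map.mpr ⟨i₀, List.mem_range.mpr hi₀, rfl⟩)
    rw [h1] at this
    exact this rfl
  · exfalso
    rw [List.all_eq_true] at hl
    have := hl (f j₀) (List.mem_map.mpr ⟨j₀, List.mem_range.mpr hj₀, rfl⟩)
    rw [h2] at this
    exact Bool.noConfusion this
  · rw [List.any_eq_true] at hl
    obtain ⟨i, hi, hl⟩ := hl
    rw [List.any_eq_true] at hl
    obtain ⟨j, hj, hl⟩ := hl
    rw [List.mem_range] at hi hj
    rw [hget i hi, hget j hj, Bool.and_eq_true, Bool.and_eq_true, Bool.not_eq_true',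
      decide_eq_true_eq] at hl
    exact ⟨i, hi, j, hj, hl.1.1, hl.1.2, hl.2⟩

def cvec (D : ChevalleyDatum) (r : ℕ) : Fin D.rank → ℤ := fun j => D.cartan j r

def Lref (D : ChevalleyDatum) (i : Fin D.rank) : (Fin D.rank → ℤ) →+ (Fin D.rank → ℤ) where
  toFun v := fun j => v j - D.cartan j (D.simple i) * v i
  map_zero' := by
    funext j
    simp
  map_add' v w := by
    funext j
    simp only [Pi.add_apply]
    ring

theorem cvec_fw {D : ChevalleyDatum} (W : WOK D) {i : ℕ} (hi : i < D.rank) {u : ℕ}
    (hu : u < D.nroots) : cvec D (fw D i u) = Lref D ⟨i, hi⟩ (cvec D u) := by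
  funext j
  exact cartan_refl W hi hu j.2

theorem cvec_lin {D : ChevalleyDatum} (M : MOK D) :
    ∀ (w : List ℕ), (∀ i ∈ w, i < D.rank) →
      ∃ T : (Fin D.rank → ℤ) →+ (Fin D.rank → ℤ),
        ∀ r < D.nroots, cvec D (wApply D w r) = T (cvec D r)
  | [], _ => ⟨AddMonoidHom.id _, fun r hr => rfl⟩
  | a :: w, hw => by
    have ha := hw a List.mem_cons_self
    have hw' : ∀ i ∈ w, i < D.rank := fun i hi => hw i (List.mem_cons_of_mem _ hi)
    obtain ⟨T, hT⟩ := cvec_lin M w hw'
    refine ⟨(Lref D ⟨a, ha⟩).comp T, fun r hr => ?_⟩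
    rw [wApply_cons, cvec_fw M.w ha (wApply_lt M.w.n w hw' hr), hT r hr]
    rfl

theorem central_act {D : ChevalleyDatum} (U : UOK D) (hc : cenOK D = true)
    (hconn : connOK D = true) (g : ℕ → ℕ) (hlt : ∀ r < D.nroots, g r < D.nroots)
    (hneg : ∀ r < D.nroots, g (D.neg r) = D.neg (g r))
    (hcomm : ∀ i < D.rank, ∀ r < D.nroots, g (fw D i r) = fw D i (g r))
    (T : (Fin D.rank → ℤ) →+ (Fin D.rank → ℤ))
    (hT : ∀ r < D.nroots, cvec D (g r) = T (cvec D r)) :
    (∀ r < D.nroots, g r = r) ∨ (∀ r < D.nroots, g r = D.neg r) := by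
  have M := U.m
  have h1 : ∀ i < D.rank, g (D.simple i) = D.simple i ∨ g (D.simple i) = D.neg (D.simple i) := by
    intro i hi
    obtain ⟨hp, hnp⟩ := simple_lt M.w.fd M.w.n hi
    have e : fw D i (g (D.simple i)) = D.neg (g (D.simple i)) := by
      rw [← hcomm i hi _ hp, fw_simple M hi, hneg _ hp]
    exact (cenOK_spec hc hi).2 _ (hlt _ hp) e
  by_cases hall : ∀ i < D.rank, g (D.simple i) = D.simple i
  · left
    apply root_induction M.w.reach
    · exact hall
    · intro i hi s hs ih
      rw [hcomm i hi s hs, ih]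
  · right
    have hall' : ∀ i < D.rank, g (D.simple i) = D.neg (D.simple i) := by
      by_contra hcon
      push Not at hall hcon
      obtain ⟨j₀, hj₀, hj⟩ := hall
      obtain ⟨i₀, hi₀, hi⟩ := hcon
      have hi' : g (D.simple i₀) = D.simple i₀ := (h1 i₀ hi₀).resolve_right hi
      obtain ⟨i, hi, j, hj, fi, fj, hA⟩ := connOK_spec hconn
        (fun i => decide (g (D.simple i) = D.simple i)) hi₀ hj₀
        (decide_eq_true hi') (decide_eq_false hj)
      rw [decide_eq_true_eq] at fi
      rw [decide_eq_false_iff_not] at fj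
      have gj : g (D.simple j) = D.neg (D.simple j) := (h1 j hj).resolve_left fj
      obtain ⟨hpi, _⟩ := simple_lt M.w.fd M.w.n hi
      obtain ⟨hpj, _⟩ := simple_lt M.w.fd M.w.n hj
      have gb : g (fw D j (D.simple i)) = fw D j (D.simple i) := by
        rw [hcomm j hj _ hpi, fi]
      have hb := hT _ (w_facts M.w.n hj hpi).1
      rw [gb, cvec_fw M.w hj hpi] at hb
      have e1 : Lref D ⟨j, hj⟩ (cvec D (D.simple i)) =
          cvec D (D.simple i) - D.cartan j (D.simple i) • cvec D (D.simple j) := by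
        funext m
        show D.cartan m (D.simple i) - D.cartan m (D.simple j) * D.cartan j (D.simple i) =
          D.cartan m (D.simple i) - D.cartan j (D.simple i) * D.cartan m (D.simple j)
        ring
      have ti := hT _ hpi
      rw [fi] at ti
      have tj := hT _ hpj
      rw [gj] at tj
      have cn : cvec D (D.neg (D.simple j)) = - cvec D (D.simple j) := by
        funext m
        exact cartan_neg M.w.fd M.w.ta m.2 hpj
      rw [cn] at tj
      rw [e1, map_sub, map_zsmul, ← ti, ← tj] at hb
      have hb2 := congrFun hb ⟨j, hj⟩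
      simp only [Pi.sub_apply, Pi.smul_apply, Pi.neg_apply, smul_eq_mul, cvec] at hb2
      have hz : D.cartan j (D.simple i) * D.cartan j (D.simple j) = 0 := by linarith
      rcases mul_eq_zero.mp hz with h | h
      · exact hA h
      · exact (cenOK_spec hc hj).1 h
    apply root_induction M.w.reach
    · exact hall'
    · intro i hi s hs ih
      have h4 := (w_facts M.w.n hi hs).2.2.2.1
      rw [fneg_eq M.w.fd, fneg_eq M.w.fd] at h4
      rw [hcomm i hi s hs, ih, h4]

section grp

variable {F : Type*} [Field F]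

theorem phi_word {D : ChevalleyDatum} (U : UOK D) (M : CoxeterMatrix (Fin D.rank))
    (φ : ↥(D.monomialSubgroup F) →* M.Group)
    (hφ : ∀ (i : Fin D.rank) (g : ↥(D.monomialSubgroup F)),
      ((g : GL D.Idx F) : Matrix D.Idx D.Idx F) = D.nMat F (D.simple i) 1 → φ g = M.simple i) :
    ∀ (w : List (Fin D.rank)) (x : ↥(D.monomialSubgroup F)),
      (x : GL D.Idx F) = nWordU D U.m.w.add (w.map Fin.val) →
        φ x = M.toCoxeterSystem.wordProd w
  | [], x, hx => by
    have e : x = 1 := Subtype.ext (by rw [hx]; simp [nWordU])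
    rw [e, map_one, CoxeterSystem.wordProd_nil]
  | i :: w, x, hx => by
    obtain ⟨hp, hnp⟩ := simple_lt U.m.w.fd U.m.w.n i.2
    have ha : φ ⟨nV D U.m.w.add (D.simple i) (1 : F), nV_simple_mem_mon U.m i.2⟩ = M.simple i :=
      hφ i _ (nV_val D U.m.w.add hp hnp 1)
    have hx2 : (x : GL D.Idx F) = nV D U.m.w.add (D.simple i) (1 : F) *
        nWordU D U.m.w.add (w.map Fin.val) := by
      rw [hx]
      simp [nWordU]
    have hb : (((⟨nV D U.m.w.add (D.simple i) (1 : F), nV_simple_mem_mon U.m i.2⟩ :
        ↥(D.monomialSubgroup F))⁻¹ * x : ↥(D.monomialSubgroup F)) : GL D.Idx F) =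
        nWordU D U.m.w.add (w.map Fin.val) := by
      show (nV D U.m.w.add (D.simple i) (1 : F))⁻¹ * (x : GL D.Idx F) = _
      rw [hx2, inv_mul_cancel_left]
    have ih := phi_word U M φ hφ w _ hb
    have e : x = ⟨nV D U.m.w.add (D.simple i) (1 : F), nV_simple_mem_mon U.m i.2⟩ *
        ((⟨nV D U.m.w.add (D.simple i) (1 : F), nV_simple_mem_mon U.m i.2⟩ :
          ↥(D.monomialSubgroup F))⁻¹ * x) := by
      rw [mul_inv_cancel_left]
    rw [e, map_mul, ha, ih, CoxeterSystem.wordProd_cons, CoxeterMatrix.toCoxeterSystem_simple]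

theorem map_val_lt {n : ℕ} (w : List (Fin n)) : ∀ i ∈ w.map Fin.val, i < n := by
  intro i hi
  obtain ⟨j, _, rfl⟩ := List.mem_map.mp hi
  exact j.2

theorem word_eq_iff {D : ChevalleyDatum} (U : UOK D) (hcf : CF D F) (hu : unitAllOK D = true)
    (M : CoxeterMatrix (Fin D.rank)) (φ : ↥(D.monomialSubgroup F) →* M.Group)
    (hker : φ.ker = (D.diagonalSubgroup F).subgroupOf (D.monomialSubgroup F))
    (hφ : ∀ (i : Fin D.rank) (g : ↥(D.monomialSubgroup F)),
      ((g : GL D.Idx F) : Matrix D.Idx D.Idx F) = D.nMat F (D.simple i) 1 → φ g = M.simple i)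
    (w w' : List (Fin D.rank)) :
    M.toCoxeterSystem.wordProd w = M.toCoxeterSystem.wordProd w' ↔
      ∀ r < D.nroots, wApply D (w.map Fin.val) r = wApply D (w'.map Fin.val) r := by
  have hw := map_val_lt w
  have hw' := map_val_lt w'
  have e1 := phi_word U M φ hφ w ⟨_, nWordU_mem_mon U.m _ hw⟩ rfl
  have e2 := phi_word U M φ hφ w' ⟨_, nWordU_mem_mon U.m _ hw'⟩ rfl
  rw [← e1, ← e2]
  constructor
  · intro h
    have h3 : (⟨_, nWordU_mem_mon U.m _ hw⟩ : ↥(D.monomialSubgroup F))⁻¹ *
        ⟨_, nWordU_mem_mon U.m _ hw'⟩ ∈ φ.ker := by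
      rw [MonoidHom.mem_ker, map_mul, map_inv, h, inv_mul_cancel]
    rw [hker, Subgroup.mem_subgroupOf] at h3
    exact act_eq_of_mem U hu _ _ hw hw'
      ((le_sup_right : D.diagonalSubgroup F ≤ D.borelSubgroup F) h3)
  · intro h
    have h3 := same_act_mem U hcf _ _ hw hw' h
    have h4 : (⟨_, nWordU_mem_mon U.m _ hw'⟩ : ↥(D.monomialSubgroup F))⁻¹ *
        ⟨_, nWordU_mem_mon U.m _ hw⟩ ∈ φ.ker := by
      rw [hker, Subgroup.mem_subgroupOf]
      exact h3
    rw [MonoidHom.mem_ker, map_mul, map_inv, inv_mul_eq_one] at h4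
    exact h4.symm

theorem cox_center_aux {D : ChevalleyDatum} (U : UOK D) (hcf : CF D F)
    (hu : unitAllOK D = true) (hc : cenOK D = true) (hconn : connOK D = true)
    (M : CoxeterMatrix (Fin D.rank)) (φ : ↥(D.monomialSubgroup F) →* M.Group)
    (hker : φ.ker = (D.diagonalSubgroup F).subgroupOf (D.monomialSubgroup F))
    (hφ : ∀ (i : Fin D.rank) (g : ↥(D.monomialSubgroup F)),
      ((g : GL D.Idx F) : Matrix D.Idx D.Idx F) = D.nMat F (D.simple i) 1 → φ g = M.simple i)
    (w : List (Fin D.rank))
    (hz : M.toCoxeterSystem.wordProd w ∈ Subgroup.center M.Group) :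
    (∀ r < D.nroots, wApply D (w.map Fin.val) r = r) ∨
      (∀ r < D.nroots, wApply D (w.map Fin.val) r = D.neg r) := by
  have Mk := U.m
  have hw := map_val_lt w
  obtain ⟨T, hT⟩ := cvec_lin Mk (w.map Fin.val) hw
  apply central_act U hc hconn (wApply D (w.map Fin.val))
    (fun r hr => wApply_lt Mk.w.n _ hw hr) (fun r hr => wApply_neg Mk _ hw r hr) ?_ T hT
  intro i hi r hr
  rw [Subgroup.mem_center_iff] at hz
  have e := hz (M.simple ⟨i, hi⟩)
  have e2 : M.toCoxeterSystem.wordProd (⟨i, hi⟩ :: w) =
      M.toCoxeterSystem.wordProd (w ++ [⟨i, hi⟩]) := by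
    rw [CoxeterSystem.wordProd_cons, CoxeterSystem.wordProd_append, CoxeterSystem.wordProd_cons,
      CoxeterSystem.wordProd_nil, mul_one, CoxeterMatrix.toCoxeterSystem_simple]
    exact e
  have e3 := (word_eq_iff U hcf hu M φ hker hφ _ _).mp e2 r hr
  rw [List.map_cons, List.map_append, wApply_cons, wApply_append] at e3
  exact e3.symm

def negWOK (D : ChevalleyDatum) (m : ℕ) : Bool :=
  (List.range D.nroots).all fun r =>
    decide (wApply D (List.replicate m (List.range D.rank)).flatten r = D.neg r)

theorem wordProd_rep {B W : Type*} [Group W] {M : CoxeterMatrix B} (cs : CoxeterSystem M W)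
    (l : List B) (m : ℕ) : cs.wordProd (List.replicate m l).flatten = cs.wordProd l ^ m := by
  induction m with
  | zero => simp
  | succ k ih =>
    rw [List.replicate_succ, List.flatten_cons, CoxeterSystem.wordProd_append, ih, pow_succ']

theorem cox_center_two {D : ChevalleyDatum} (U : UOK D) (hcf : CF D F)
    (hu : unitAllOK D = true) (hc : cenOK D = true) (hconn : connOK D = true)
    (M : CoxeterMatrix (Fin D.rank)) (φ : ↥(D.monomialSubgroup F) →* M.Group)
    (hker : φ.ker = (D.diagonalSubgroup F).subgroupOf (D.monomialSubgroup F))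
    (hφ : ∀ (i : Fin D.rank) (g : ↥(D.monomialSubgroup F)),
      ((g : GL D.Idx F) : Matrix D.Idx D.Idx F) = D.nMat F (D.simple i) 1 → φ g = M.simple i)
    (m : ℕ) (hm : negWOK D m = true) (h0 : 0 < D.rank) :
    Nat.card (Subgroup.center M.Group) = 2 ∧
      Subgroup.center M.Group ≤
        Subgroup.zpowers ((List.finRange D.rank).map M.simple).prod := by
  have Mk := U.m
  have hK := word_eq_iff U hcf hu M φ hker hφ
  have hw₀map : ((List.replicate m (List.finRange D.rank)).flatten).map Fin.val =
      (List.replicate m (List.range D.rank)).flatten := by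
    rw [List.map_flatten, List.map_replicate, List.map_coe_finRange_eq_range]
  have hw₀ : ∀ r < D.nroots,
      wApply D (((List.replicate m (List.finRange D.rank)).flatten).map Fin.val) r = D.neg r := by
    intro r hr
    rw [hw₀map]
    unfold negWOK at hm
    rw [List.all_eq_true] at hm
    exact of_decide_eq_true (hm r (List.mem_range.mpr hr))
  have hpow : M.toCoxeterSystem.wordProd (List.replicate m (List.finRange D.rank)).flatten =
      ((List.finRange D.rank).map M.simple).prod ^ m := by
    rw [wordProd_rep]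
    congr 1
  generalize hz₀ : M.toCoxeterSystem.wordProd (List.replicate m (List.finRange D.rank)).flatten
    = z₀ at hpow
  have hcz : z₀ ∈ Subgroup.center M.Group := by
    rw [Subgroup.mem_center_iff]
    intro g
    refine M.toCoxeterSystem.simple_induction
      (p := fun g => g * z₀ = z₀ * g) g ?_ ?_ ?_
    · intro i
      have e2 : M.toCoxeterSystem.wordProd
          (i :: (List.replicate m (List.finRange D.rank)).flatten) =
          M.toCoxeterSystem.wordProd
            ((List.replicate m (List.finRange D.rank)).flatten ++ [i]) := by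
        rw [hK]
        intro r hr
        rw [List.map_cons, List.map_append, wApply_cons, wApply_append, hw₀ r hr]
        have hfr : wApply D ([i].map Fin.val) r = fw D i r := rfl
        rw [hfr, hw₀ _ (w_facts Mk.w.n i.2 hr).1]
        have h4 := (w_facts Mk.w.n i.2 hr).2.2.2.1
        rw [fneg_eq Mk.w.fd, fneg_eq Mk.w.fd] at h4
        exact h4
      rw [CoxeterSystem.wordProd_cons, CoxeterSystem.wordProd_append,
        CoxeterSystem.wordProd_cons, CoxeterSystem.wordProd_nil, mul_one, hz₀] at e2
      exact e2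
    · rw [one_mul, mul_one]
    · intro a b ha hb
      rw [mul_assoc, hb, ← mul_assoc, ha, mul_assoc]
  have hne : z₀ ≠ 1 := by
    intro h1
    have e2 : M.toCoxeterSystem.wordProd (List.replicate m (List.finRange D.rank)).flatten =
        M.toCoxeterSystem.wordProd [] := by
      rw [hz₀, h1, CoxeterSystem.wordProd_nil]
    obtain ⟨hp, hnp, h5, h6⟩ := simple_facts Mk h0
    have e3 := (hK _ _).mp e2 _ hp
    rw [hw₀ _ hp] at e3
    have e4 : wApply D (([] : List (Fin D.rank)).map Fin.val) (D.simple 0) = D.simple 0 := rfl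
    rw [e4] at e3
    omega
  have hcen : ∀ z ∈ Subgroup.center M.Group, z = 1 ∨ z = z₀ := by
    intro z hz
    obtain ⟨w, rfl⟩ := M.toCoxeterSystem.wordProd_surjective z
    rcases cox_center_aux U hcf hu hc hconn M φ hker hφ w hz with h | h
    · left
      rw [← CoxeterSystem.wordProd_nil M.toCoxeterSystem, hK]
      intro r hr
      rw [h r hr]
      rfl
    · right
      rw [← hz₀, hK]
      intro r hr
      rw [h r hr, hw₀ r hr]
  constructor
  · rw [Nat.card_eq_two_iff]
    refine ⟨⟨1, one_mem _⟩, ⟨z₀, hcz⟩, ?_, ?_⟩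
    · intro h
      exact hne (congrArg Subtype.val h).symm
    · ext ⟨z, hz⟩
      simp only [Set.mem_insert_iff, Set.mem_singleton_iff, Set.mem_univ, iff_true]
      rcases hcen z hz with h | h
      · left
        exact Subtype.ext h
      · right
        exact Subtype.ext h
  · intro z hz
    rcases hcen z hz with h | h
    · rw [h]
      exact one_mem _
    · rw [h, hpow]
      exact Subgroup.pow_mem _ (Subgroup.mem_zpowers _) m

def famOK (D : ChevalleyDatum) (L nxt : List (List ℕ)) : Bool :=
  decide (0 < L.length) &&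
  ((L.getD 0 []).all fun x => decide (x < D.nroots)) &&
  ((List.range L.length).all fun a => (List.range D.rank).all fun i =>
    decide ((nxt.getD a []).getD i 0 < L.length) &&
    (L.getD a []).all fun x => decide (fw D i x ∈ L.getD ((nxt.getD a []).getD i 0) [])) &&
  ((List.range L.length).all fun a => (L.getD 0 []).any fun x => !decide (D.neg x ∈ L.getD a []))

theorem fam_inv {D : ChevalleyDatum} {L nxt : List (List ℕ)} (h : famOK D L nxt = true) :
    ∀ (w : List ℕ), (∀ i ∈ w, i < D.rank) →
      ∃ a < L.length, ∀ x ∈ L.getD 0 [], wApply D w x ∈ L.getD a []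
  | [], _ => by
    unfold famOK at h
    simp only [Bool.and_eq_true, decide_eq_true_eq] at h
    exact ⟨0, h.1.1.1, fun x hx => hx⟩
  | i :: w, hw => by
    have hi := hw i List.mem_cons_self
    have hw' : ∀ j ∈ w, j < D.rank := fun j hj => hw j (List.mem_cons_of_mem _ hj)
    obtain ⟨a, ha, hx⟩ := fam_inv h w hw'
    have h' := h
    unfold famOK at h'
    simp only [Bool.and_eq_true, decide_eq_true_eq, List.all_eq_true, List.mem_range] at h'
    obtain ⟨hlt, hstep⟩ := h'.1.2 a ha i hi
    exact ⟨_, hlt, fun x hx0 => hstep _ (hx x hx0)⟩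

theorem fam_no_neg {D : ChevalleyDatum} {L nxt : List (List ℕ)} (h : famOK D L nxt = true)
    (w : List ℕ) (hw : ∀ i ∈ w, i < D.rank) :
    ¬ ∀ r < D.nroots, wApply D w r = D.neg r := by
  intro hneg
  obtain ⟨a, ha, hx⟩ := fam_inv h w hw
  unfold famOK at h
  simp only [Bool.and_eq_true, decide_eq_true_eq, List.all_eq_true, List.mem_range,
    List.any_eq_true, Bool.not_eq_true', decide_eq_false_iff_not] at h
  obtain ⟨x, hx0, hxn⟩ := h.2 a ha
  apply hxn
  rw [← hneg x (h.1.1.2 x hx0)]
  exact hx x hx0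

theorem cox_center_one {D : ChevalleyDatum} (U : UOK D) (hcf : CF D F)
    (hu : unitAllOK D = true) (hc : cenOK D = true) (hconn : connOK D = true)
    (M : CoxeterMatrix (Fin D.rank)) (φ : ↥(D.monomialSubgroup F) →* M.Group)
    (hker : φ.ker = (D.diagonalSubgroup F).subgroupOf (D.monomialSubgroup F))
    (hφ : ∀ (i : Fin D.rank) (g : ↥(D.monomialSubgroup F)),
      ((g : GL D.Idx F) : Matrix D.Idx D.Idx F) = D.nMat F (D.simple i) 1 → φ g = M.simple i)
    (L nxt : List (List ℕ)) (hfam : famOK D L nxt = true) :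
    Nat.card (Subgroup.center M.Group) = 1 ∧
      Subgroup.center M.Group ≤
        Subgroup.zpowers ((List.finRange D.rank).map M.simple).prod := by
  have hK := word_eq_iff U hcf hu M φ hker hφ
  have hbot : Subgroup.center M.Group = ⊥ := by
    rw [Subgroup.eq_bot_iff_forall]
    intro z hz
    obtain ⟨w, rfl⟩ := M.toCoxeterSystem.wordProd_surjective z
    rcases cox_center_aux U hcf hu hc hconn M φ hker hφ w hz with h | h
    · rw [← CoxeterSystem.wordProd_nil M.toCoxeterSystem, hK]
      intro r hr
      rw [h r hr]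
      rfl
    · exact absurd h (fam_no_neg hfam _ (map_val_lt w))
  rw [hbot]
  exact ⟨Subgroup.card_bot, bot_le⟩

end grp

theorem cox_two_wrap {D : ChevalleyDatum} (U : UOK D) (hcf : CF D ℚ)
    (hu : unitAllOK D = true) (hc : cenOK D = true) (hconn : connOK D = true) {n : ℕ}
    (hn : D.rank = n) (M : CoxeterMatrix (Fin n)) (mm : List (List ℕ))
    (hcox : coxOK D mm = true) (hM : ∀ i j : Fin n, M i j = (mm.getD i []).getD j 0)
    (m : ℕ) (hm : negWOK D m = true) (h0 : 0 < D.rank) :
    Nat.card (Subgroup.center M.Group) = 2 ∧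
      Subgroup.center M.Group ≤ Subgroup.zpowers ((List.finRange n).map M.simple).prod := by
  subst hn
  obtain ⟨φ, -, hker, hφ⟩ := weyl_iso (F := ℚ) U hcf hu rfl M mm hcox hM
  exact cox_center_two U hcf hu hc hconn M φ hker hφ m hm h0

theorem cox_one_wrap {D : ChevalleyDatum} (U : UOK D) (hcf : CF D ℚ)
    (hu : unitAllOK D = true) (hc : cenOK D = true) (hconn : connOK D = true) {n : ℕ}
    (hn : D.rank = n) (M : CoxeterMatrix (Fin n)) (mm : List (List ℕ))
    (hcox : coxOK D mm = true) (hM : ∀ i j : Fin n, M i j = (mm.getD i []).getD j 0)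
    (L nxt : List (List ℕ)) (hfam : famOK D L nxt = true) :
    Nat.card (Subgroup.center M.Group) = 1 ∧
      Subgroup.center M.Group ≤ Subgroup.zpowers ((List.finRange n).map M.simple).prod := by
  subst hn
  obtain ⟨φ, -, hker, hφ⟩ := weyl_iso (F := ℚ) U hcf hu rfl M mm hcox hM
  exact cox_center_one U hcf hu hc hconn M φ hker hφ L nxt hfam

end Cfsg.Agent.Helper7
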