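import Cfsg.Agent.Helper7.ChevMon

set_option autoImplicit false
set_option linter.unusedSectionVars false
set_option linter.unusedVariables false
open Cfsg

namespace Cfsg.Agent.Helper7

open Cfsg.Lie

def noTriple (D : ChevalleyDatum) : Bool :=
  D.chain.toList.all fun a => a.toList.all fun e => Nat.ble e.2.toList.length 2

theorem fchain_len {D : ChevalleyDatum} (h : fdOK D = true) (h3 : noTriple D = true) (r s : ℕ) :
    (fchain D r s).length ≤ 2 := by
  rcases fchain_spec h r s with ⟨_, h2⟩ | ⟨e, he, _, _, h2⟩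
  · rw [h2]
    exact Nat.zero_le 2
  · rw [h2]
    unfold noTriple at h3
    rw [List.all_eq_true] at h3
    rw [← array_getD_toList, List.getD_eq_getElem?_getD] at he
    cases hi : D.chain.toList[r]? with
    | none =>
      rw [hi] at he
      exact absurd he List.not_mem_nil
    | some a =>
      rw [hi] at he
      have h4 := h3 a (List.mem_of_getElem? hi)
      rw [List.all_eq_true] at h4
      exact Nat.ble_eq.mp (h4 e he)

theorem chain_transport {D : ChevalleyDatum} (h : fdOK D = true) (hn : nOK D = true)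
    (hg : gOK D = true) {i : ℕ} (hi : i < D.rank) {s u : ℕ} (hs : s < D.nroots)
    (hu : u < D.nroots) :
    chainMatch D i (nbit D i u) (nbit D i s) (nbit D i s) (fchain D s u)
      (fchain D (fw D i s) (fw D i u)) = true := by
  have hgi : gCheck1 D i = true := by
    unfold gOK at hg
    rw [List.all_eq_true] at hg
    exact hg i (List.mem_range.mpr hi)
  obtain ⟨hws, _, hinvs, _, _⟩ := w_facts hn hi hs
  obtain ⟨hwu, _, hinvu, _, _⟩ := w_facts hn hi hu
  obtain ⟨_, _, _, hch⟩ := gCheck1_spec hgi hs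
  rcases fchain_spec h s u with ⟨_, h6⟩ | ⟨e, he, hes, _, h6⟩
  · rw [h6]
    have h8 : fchain D (fw D i s) (fw D i u) = [] := by
      rcases fchain_spec h (fw D i s) (fw D i u) with ⟨_, h8⟩ | ⟨e', he', hes', _, h8⟩
      · exact h8
      · have hm' := (gCheck1_spec hgi hws).2.2.2 e' he'
        rw [hes', hinvs, hinvu, h6] at hm'
        rw [h8]
        exact chainMatch_nil_right hm'
    rw [h8]
    rfl
  · have hm := hch e he
    rw [hes, ← h6] at hm
    exact hm

theorem chainMatch_get (D : ChevalleyDatum) (i : ℕ) (bu bs : Bool) :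
    ∀ (L L' : List (ℕ × ℤ)) (σ : Bool) (m : ℕ), chainMatch D i bu bs σ L L' = true →
      sg σ = sg bs ^ (m + 1) → ∀ k : ℕ,
      L'[k]? = (L[k]?).map
        (fun q => (fw D i q.1, sg (nbit D i q.1) * sg bu * sg bs ^ (m + k + 1) * q.2)) ∧
      ∀ q, L[k]? = some q → q.1 < D.nroots := by
  intro L
  induction L with
  | nil =>
    intro L' σ m hm hσ k
    cases L' with
    | nil => simp
    | cons q' L' => simp [chainMatch] at hm
  | cons q L ih =>
    intro L' σ m hm hσ k
    cases L' with
    | nil => simp [chainMatch] at hm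
    | cons q' L' =>
      simp only [chainMatch, Bool.and_eq_true, Nat.blt_eq, Nat.beq_eq, decide_eq_true_eq] at hm
      obtain ⟨⟨⟨hq, hv⟩, hM⟩, hrest⟩ := hm
      cases k with
      | zero =>
        refine ⟨?_, ?_⟩
        · simp only [List.getElem?_cons_zero, Option.map_some, Nat.add_zero]
          congr 1
          apply Prod.ext
          · exact hv
          · show q'.2 = sg (nbit D i q.1) * sg bu * sg bs ^ (m + 1) * q.2
            rw [hM, flipZ_eq, sg_xor, sg_xor, hσ]
        · intro q0 hq0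
          simp only [List.getElem?_cons_zero, Option.some.injEq] at hq0
          rw [← hq0]
          exact hq
      | succ k =>
        have h1 := ih L' (Bool.xor σ bs) (m + 1) hrest (by rw [sg_xor, hσ]; ring) k
        simp only [List.getElem?_cons_succ]
        have e : m + 1 + k + 1 = m + (k + 1) + 1 := by omega
        rw [e] at h1
        exact h1

theorem ent_transport {D : ChevalleyDatum} (h : fdOK D = true) (hn : nOK D = true)
    (hg : gOK D = true) {i : ℕ} (hi : i < D.rank) {r s : ℕ} (hr : r < D.nroots)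
    (hs : s < D.nroots) (k : ℕ) :
    (D.chainEntry (fw D i r) (fw D i s))[k]? = ((D.chainEntry r s)[k]?).map
      (fun q => (fw D i q.1, nsgn D i q.1 * nsgn D i s * nsgn D i r ^ (k + 1) * q.2)) ∧
    ∀ q, (D.chainEntry r s)[k]? = some q → q.1 < D.nroots := by
  rw [chainEntry_eq h, chainEntry_eq h]
  have hm := chain_transport h hn hg hi hr hs
  have h1 := chainMatch_get D i (nbit D i s) (nbit D i r) _ _ (nbit D i r) 0 hm
    (by rw [zero_add, pow_one]) k
  simp only [zero_add] at h1
  exact h1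

section sem

variable {F : Type*} [Field F]

def cw3 (o1 o2 o3 : Option (ℕ × ℤ)) (t u : F) : List (ℕ × F) :=
  [o1.map (fun q => (q.1, ((q.2 : ℤ) : F) * (-t) ^ 1 * u ^ 1)),
   o2.map (fun q => (q.1, ((q.2 : ℤ) : F) * (-t) ^ 2 * u ^ 1)),
   o3.map (fun q => (q.1, ((q.2 : ℤ) : F) * (-t) ^ 1 * u ^ 2))].reduceOption

theorem commWord_eq {D : ChevalleyDatum} (h : fdOK D = true) (h3 : noTriple D = true)
    (r s : ℕ) (t u : F) :
    D.commWord F r s t u =
      cw3 ((D.chainEntry r s)[0]?) ((D.chainEntry r s)[1]?) ((D.chainEntry s r)[1]?) t u := by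
  have l1 : (D.chainEntry r s).length ≤ 2 := by
    rw [chainEntry_eq h]
    exact fchain_len h h3 r s
  have l2 : (D.chainEntry s r).length ≤ 2 := by
    rw [chainEntry_eq h]
    exact fchain_len h h3 s r
  have e1 : (D.chainEntry r s)[2]? = none := List.getElem?_eq_none l1
  have e2 : (D.chainEntry s r)[2]? = none := List.getElem?_eq_none l2
  unfold ChevalleyDatum.commWord ChevalleyDatum.commTerms ChevalleyDatum.chainRoot
    ChevalleyDatum.chainM cw3
  simp only [show 3 - 1 = 2 from rfl, show 2 - 1 = 1 from rfl, show 1 - 1 = 0 from rfl, e1, e2]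
  rcases (D.chainEntry r s)[0]? with _ | q1 <;> rcases (D.chainEntry r s)[1]? with _ | q2 <;>
    rcases (D.chainEntry s r)[1]? with _ | q3 <;> simp [List.reduceOption]

theorem cw3_mem {o1 o2 o3 : Option (ℕ × ℤ)} {t u : F} {p : ℕ × F} (hp : p ∈ cw3 o1 o2 o3 t u) :
    ∃ q, (o1 = some q ∨ o2 = some q ∨ o3 = some q) ∧ p.1 = q.1 := by
  unfold cw3 at hp
  rw [List.reduceOption_mem_iff] at hp
  simp only [List.mem_cons, List.not_mem_nil, or_false] at hp
  rcases hp with hp | hp | hp
  · cases o1 with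
    | none => simp at hp
    | some q =>
      simp only [Option.map_some, Option.some.injEq] at hp
      exact ⟨q, Or.inl rfl, by rw [hp]⟩
  · cases o2 with
    | none => simp at hp
    | some q =>
      simp only [Option.map_some, Option.some.injEq] at hp
      exact ⟨q, Or.inr (Or.inl rfl), by rw [hp]⟩
  · cases o3 with
    | none => simp at hp
    | some q =>
      simp only [Option.map_some, Option.some.injEq] at hp
      exact ⟨q, Or.inr (Or.inr rfl), by rw [hp]⟩

theorem opt_transport (D : ChevalleyDatum) (i : ℕ) (o : Option (ℕ × ℤ)) (a b : ℕ) (ηr ηs : ℤ)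
    (t u : F) (e : ℕ × ℤ → ℤ)
    (he : ∀ q, o = some q → ((e q : ℤ) : F) =
      ((nsgn D i q.1 : ℤ) : F) * (ηr : F) ^ a * (ηs : F) ^ b * ((q.2 : ℤ) : F)) :
    (o.map (fun q => (q.1, ((q.2 : ℤ) : F) * (-((ηr : F) * t)) ^ a * ((ηs : F) * u) ^ b))).map
        (fun p => (fw D i p.1, ((nsgn D i p.1 : ℤ) : F) * p.2)) =
      (o.map (fun q => (fw D i q.1, e q))).map
        (fun q => (q.1, ((q.2 : ℤ) : F) * (-t) ^ a * u ^ b)) := by
  cases o with
  | none => rfl
  | some q =>
    simp only [Option.map_some]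
    congr 1
    apply Prod.ext
    · rfl
    · simp only
      rw [he q rfl]
      ring

theorem cw3_transport (D : ChevalleyDatum) (i : ℕ) (o1 o2 o3 : Option (ℕ × ℤ)) (ηr ηs : ℤ)
    (t u : F) (e1 e2 e3 : ℕ × ℤ → ℤ)
    (h1 : ∀ q, o1 = some q → ((e1 q : ℤ) : F) =
      ((nsgn D i q.1 : ℤ) : F) * (ηr : F) ^ 1 * (ηs : F) ^ 1 * ((q.2 : ℤ) : F))
    (h2 : ∀ q, o2 = some q → ((e2 q : ℤ) : F) =
      ((nsgn D i q.1 : ℤ) : F) * (ηr : F) ^ 2 * (ηs : F) ^ 1 * ((q.2 : ℤ) : F))
    (h3 : ∀ q, o3 = some q → ((e3 q : ℤ) : F) =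
      ((nsgn D i q.1 : ℤ) : F) * (ηr : F) ^ 1 * (ηs : F) ^ 2 * ((q.2 : ℤ) : F)) :
    (cw3 o1 o2 o3 ((ηr : F) * t) ((ηs : F) * u)).map
        (fun p => (fw D i p.1, ((nsgn D i p.1 : ℤ) : F) * p.2)) =
      cw3 (o1.map (fun q => (fw D i q.1, e1 q))) (o2.map (fun q => (fw D i q.1, e2 q)))
        (o3.map (fun q => (fw D i q.1, e3 q))) t u := by
  unfold cw3
  rw [← List.reduceOption_map]
  simp only [List.map_cons, List.map_nil]
  rw [opt_transport D i o1 1 1 ηr ηs t u e1 h1, opt_transport D i o2 2 1 ηr ηs t u e2 h2,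
    opt_transport D i o3 1 2 ηr ηs t u e3 h3]

theorem cf_transport {D : ChevalleyDatum} (M : MOK D) (h3 : noTriple D = true) {i : ℕ}
    (hi : i < D.rank) {r s : ℕ} (hr : r < D.nroots) (hs : s < D.nroots)
    (hcf : ∀ t u : F, D.x F s u * D.x F r t =
      D.x F r t * D.x F s u * D.wordMat F (D.commWord F r s t u)) :
    ∀ t u : F, D.x F (fw D i s) u * D.x F (fw D i r) t =
      D.x F (fw D i r) t * D.x F (fw D i s) u *
        D.wordMat F (D.commWord F (fw D i r) (fw D i s) t u) := by
  intro t u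
  have hfd := M.w.fd
  have hn := M.w.n
  have hg := M.w.g
  obtain ⟨hp, hnp⟩ := simple_lt hfd hn hi
  have hNN : D.nMat F (D.simple i) 1 * D.nMat F (D.simple i) (-1) = 1 :=
    nMat_mul_neg M.w.add hp hnp 1
  have hc := hcf (((nsgn D i r : ℤ) : F) * t) (((nsgn D i s : ℤ) : F) * u)
  have hroots : ∀ p ∈ D.commWord F r s (((nsgn D i r : ℤ) : F) * t) (((nsgn D i s : ℤ) : F) * u),
      p.1 < D.nroots := by
    intro p hp'
    rw [commWord_eq hfd h3] at hp'
    obtain ⟨q, hq, hpq⟩ := cw3_mem hp'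
    rw [hpq]
    rcases hq with hq | hq | hq
    · exact (ent_transport hfd hn hg hi hr hs 0).2 q hq
    · exact (ent_transport hfd hn hg hi hr hs 1).2 q hq
    · exact (ent_transport hfd hn hg hi hs hr 1).2 q hq
  have hW : D.nMat F (D.simple i) 1 *
      D.wordMat F (D.commWord F r s (((nsgn D i r : ℤ) : F) * t) (((nsgn D i s : ℤ) : F) * u)) =
      D.wordMat F (D.commWord F (fw D i r) (fw D i s) t u) * D.nMat F (D.simple i) 1 := by
    rw [nconj_word hfd hn hg hi _ hroots]
    congr 2
    rw [commWord_eq hfd h3, commWord_eq hfd h3, (ent_transport hfd hn hg hi hr hs 0).1,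
      (ent_transport hfd hn hg hi hr hs 1).1, (ent_transport hfd hn hg hi hs hr 1).1]
    apply cw3_transport
    · intro q _
      push_cast
      ring
    · intro q _
      push_cast
      ring
    · intro q _
      push_cast
      ring
  have hL : D.nMat F (D.simple i) 1 * (D.x F s (((nsgn D i s : ℤ) : F) * u) *
      D.x F r (((nsgn D i r : ℤ) : F) * t)) =
      D.x F (fw D i s) u * D.x F (fw D i r) t * D.nMat F (D.simple i) 1 := by
    rw [← mul_assoc, nconj hfd hn hg hi hs, mul_assoc, nconj hfd hn hg hi hr, ← mul_assoc,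
      sgn_sq, sgn_sq]
  have hR : D.nMat F (D.simple i) 1 * (D.x F r (((nsgn D i r : ℤ) : F) * t) *
      D.x F s (((nsgn D i s : ℤ) : F) * u) *
      D.wordMat F (D.commWord F r s (((nsgn D i r : ℤ) : F) * t) (((nsgn D i s : ℤ) : F) * u))) =
      D.x F (fw D i r) t * D.x F (fw D i s) u *
        D.wordMat F (D.commWord F (fw D i r) (fw D i s) t u) * D.nMat F (D.simple i) 1 := by
    rw [mul_assoc (D.x F r _), ← mul_assoc (D.nMat F (D.simple i) 1), nconj hfd hn hg hi hr,
      mul_assoc, ← mul_assoc (D.nMat F (D.simple i) 1), nconj hfd hn hg hi hs, mul_assoc, hW,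
      sgn_sq, sgn_sq]
    simp only [mul_assoc]
  have h5 : D.x F (fw D i s) u * D.x F (fw D i r) t * D.nMat F (D.simple i) 1 =
      D.x F (fw D i r) t * D.x F (fw D i s) u *
        D.wordMat F (D.commWord F (fw D i r) (fw D i s) t u) * D.nMat F (D.simple i) 1 := by
    rw [← hL, ← hR, hc]
  have h6 := congrArg (fun A => A * D.nMat F (D.simple i) (-1)) h5
  simp only [mul_assoc, hNN, mul_one] at h6
  rw [h6]
  simp only [mul_assoc]

end sem

end Cfsg.Agent.Helper7
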