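import Cfsg.Agent.Helper7.ChevComm

set_option autoImplicit false
set_option linter.unusedSectionVars false
set_option linter.unusedVariables false
open Cfsg

namespace Cfsg.Agent.Helper7

open Cfsg.Lie

def cfWordL (s r : ℕ) : List (ℕ × List PT) := [(s, [(1, 0, 1)]), (r, [(1, 1, 0)])]

def cfTerm (c : ℕ × ℤ × ℕ × ℕ) : ℕ × List PT :=
  (c.1, [(c.2.1 * (-1) ^ c.2.2.1, c.2.2.1, c.2.2.2)])

def cfWordR (D : ChevalleyDatum) (r s : ℕ) : List (ℕ × List PT) :=
  [(r, [(1, 1, 0)]), (s, [(1, 0, 1)])] ++ (D.commTerms r s).map cfTerm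

def cfPair (D : ChevalleyDatum) (r s : ℕ) : Bool :=
  ((D.commTerms r s).all fun c => Nat.blt c.1 D.nroots) &&
  (List.range (D.rank + D.nroots)).all fun n =>
    isZeroE (appNW D (cfWordL s r) (unitV n) ++ vneg (appNW D (cfWordR D r s) (unitV n)))

def cfStage2 (D : ChevalleyDatum) (K : ℕ) (e : ℕ × List ℕ × List ℕ) : Bool :=
  Nat.blt e.1 D.nroots && (e.2.1.all fun j => Nat.blt j D.rank && Nat.beq (fw D j e.1) e.1) &&
  (e.2.2.all fun s => Nat.blt s D.nroots && cfPair D e.1 s) &&
  Nat.beq (Nat.lor (Nat.lor (rIter D e.2.1 K (maskOf e.2.2)) (Nat.pow 2 e.1))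
    (Nat.pow 2 (fneg D e.1))) (2 ^ D.nroots - 1)

def cfOK (D : ChevalleyDatum) (K : ℕ) (data : List (ℕ × List ℕ × List ℕ)) : Bool :=
  noTriple D && data.all (cfStage2 D K) &&
    Nat.beq (rIter D (List.range D.rank) K (maskOf (data.map fun e => e.1))) (2 ^ D.nroots - 1)

def cfAll (D : ChevalleyDatum) : Bool :=
  (List.range D.nroots).all fun r => (List.range D.nroots).all fun s =>
    Nat.beq s r || Nat.beq s (fneg D r) || cfPair D r s

section sem

variable {F : Type*} [Field F]

theorem cf_base {D : ChevalleyDatum} (h : fdOK D = true) {r s : ℕ} (hr : r < D.nroots)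
    (hs : s < D.nroots) (hc : cfPair D r s = true) (t u : F) :
    D.x F s u * D.x F r t = D.x F r t * D.x F s u * D.wordMat F (D.commWord F r s t u) := by
  unfold cfPair at hc
  rw [Bool.and_eq_true, List.all_eq_true, List.all_eq_true] at hc
  obtain ⟨hc1, hc2⟩ := hc
  have hwL : ∀ a ∈ cfWordL s r, a.1 < D.nroots := by
    intro a ha
    simp only [cfWordL, List.mem_cons, List.not_mem_nil, or_false] at ha
    rcases ha with rfl | rfl <;> assumption
  have hwR : ∀ a ∈ cfWordR D r s, a.1 < D.nroots := by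
    intro a ha
    simp only [cfWordR, List.cons_append, List.nil_append, List.mem_cons, List.mem_map] at ha
    rcases ha with rfl | rfl | ⟨c, hc', rfl⟩
    · exact hr
    · exact hs
    · exact Nat.blt_eq.mp (hc1 c hc')
  have eL : D.wordMat F ((cfWordL s r).map fun a => (a.1, pev t u a.2)) =
      D.x F s u * D.x F r t := by
    simp [cfWordL, ChevalleyDatum.wordMat, pev, ptVal]
  have eR : D.wordMat F ((cfWordR D r s).map fun a => (a.1, pev t u a.2)) =
      D.x F r t * D.x F s u * D.wordMat F (D.commWord F r s t u) := by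
    unfold cfWordR
    rw [List.map_append, wordMat_append]
    congr 1
    · simp [ChevalleyDatum.wordMat, pev, ptVal]
    · congr 1
      unfold ChevalleyDatum.commWord
      rw [List.map_map]
      apply List.map_congr_left
      intro c _
      simp only [Function.comp, cfTerm, pev, ptVal, List.map_cons, List.map_nil, List.sum_cons,
        List.sum_nil, add_zero]
      congr 1
      push_cast
      rw [neg_pow t]
      ring
  ext a b
  have e1 := appNW_unit h (cfWordL s r) hwL t u a b
  have e2 := appNW_unit h (cfWordR D r s) hwR t u a b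
  have e3 := isZeroE_sound t u _ (hc2 (code D b) (List.mem_range.mpr (code_lt D b))) (code D a)
  rw [semAt_append, semAt_vneg, e1, e2, eL, eR] at e3
  linear_combination e3

theorem cf_stage2 {D : ChevalleyDatum} (M : MOK D) (h3 : noTriple D = true) {K : ℕ}
    {e : ℕ × List ℕ × List ℕ} (he : cfStage2 D K e = true) :
    ∀ s < D.nroots, s ≠ e.1 → s ≠ D.neg e.1 → ∀ t u : F,
      D.x F s u * D.x F e.1 t =
        D.x F e.1 t * D.x F s u * D.wordMat F (D.commWord F e.1 s t u) := by
  unfold cfStage2 at he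
  simp only [Bool.and_eq_true, List.all_eq_true, Nat.blt_eq, Nat.beq_eq] at he
  obtain ⟨⟨⟨hr0, hJ⟩, hS⟩, hmask⟩ := he
  have key := reach_induction D e.2.1 e.2.2 K
    (fun s => s < D.nroots → s ≠ e.1 → s ≠ D.neg e.1 → ∀ t u : F,
      D.x F s u * D.x F e.1 t =
        D.x F e.1 t * D.x F s u * D.wordMat F (D.commWord F e.1 s t u))
    (by
      intro s hs _ _ _ t u
      exact cf_base M.w.fd hr0 (hS s hs).1 (hS s hs).2 t u)
    (by
      intro j hj s hs ih hws hne1 hne2
      obtain ⟨hjr, hjfix⟩ := hJ j hj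
      have h1 : s ≠ e.1 := by
        intro hh
        apply hne1
        rw [hh, hjfix]
      have h2 : s ≠ D.neg e.1 := by
        intro hh
        apply hne2
        rw [hh, ← fneg_eq M.w.fd, (w_facts M.w.n hjr hr0).2.2.2.1, hjfix]
      have h4 := cf_transport (F := F) M h3 hjr hr0 hs (ih hs h1 h2)
      rw [hjfix] at h4
      exact h4)
  intro s hs hne1 hne2
  apply key s _ hs hne1 hne2
  have hb : (Nat.lor (Nat.lor (rIter D e.2.1 K (maskOf e.2.2)) (Nat.pow 2 e.1))
      (Nat.pow 2 (fneg D e.1))).testBit s = true := by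
    rw [hmask, Nat.testBit_two_pow_sub_one]
    exact decide_eq_true hs
  change ((rIter D e.2.1 K (maskOf e.2.2) ||| 2 ^ e.1) ||| 2 ^ (fneg D e.1)).testBit s = true
    at hb
  rw [Nat.testBit_or, Nat.testBit_or, Bool.or_eq_true, Bool.or_eq_true, Nat.testBit_two_pow,
    Nat.testBit_two_pow, decide_eq_true_eq, decide_eq_true_eq] at hb
  rcases hb with (hb | hb) | hb
  · exact hb
  · exact absurd hb.symm hne1
  · rw [fneg_eq M.w.fd] at hb
    exact absurd hb.symm hne2

theorem cf_general {D : ChevalleyDatum} (M : MOK D) {K : ℕ}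
    {data : List (ℕ × List ℕ × List ℕ)} (hc : cfOK D K data = true) :
    ∀ r < D.nroots, ∀ s < D.nroots, s ≠ r → s ≠ D.neg r → ∀ t u : F,
      D.x F s u * D.x F r t = D.x F r t * D.x F s u * D.wordMat F (D.commWord F r s t u) := by
  unfold cfOK at hc
  simp only [Bool.and_eq_true, List.all_eq_true, Nat.beq_eq] at hc
  obtain ⟨⟨h3, hdata⟩, hmask⟩ := hc
  have key := reach_induction D (List.range D.rank) (data.map fun e => e.1) K
    (fun r => r < D.nroots → ∀ s < D.nroots, s ≠ r → s ≠ D.neg r → ∀ t u : F,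
      D.x F s u * D.x F r t = D.x F r t * D.x F s u * D.wordMat F (D.commWord F r s t u))
    (by
      intro r hr _ s hs h1 h2
      rw [List.mem_map] at hr
      obtain ⟨e, he, rfl⟩ := hr
      exact cf_stage2 M h3 (hdata e he) s hs h1 h2)
    (by
      intro i hi r hr ih hwr s' hs' hne1 hne2
      have hi' := List.mem_range.mp hi
      obtain ⟨hws', _, hinv', _, _⟩ := w_facts M.w.n hi' hs'
      have h1 : fw D i s' ≠ r := by
        intro hh
        apply hne1
        rw [← hinv', hh]
      have h2 : fw D i s' ≠ D.neg r := by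
        intro hh
        apply hne2
        rw [← hinv', hh, ← fneg_eq M.w.fd, ← fneg_eq M.w.fd, (w_facts M.w.n hi' hr).2.2.2.1]
      have h4 := cf_transport (F := F) M h3 hi' hr hws' (ih hr (fw D i s') hws' h1 h2)
      rw [hinv'] at h4
      exact h4)
  intro r hr
  apply key r _ hr
  rw [hmask, Nat.testBit_two_pow_sub_one]
  exact decide_eq_true hr

theorem cf_all {D : ChevalleyDatum} (h : fdOK D = true) (hc : cfAll D = true) :
    ∀ r < D.nroots, ∀ s < D.nroots, s ≠ r → s ≠ D.neg r → ∀ t u : F,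
      D.x F s u * D.x F r t = D.x F r t * D.x F s u * D.wordMat F (D.commWord F r s t u) := by
  intro r hr s hs h1 h2 t u
  unfold cfAll at hc
  rw [List.all_eq_true] at hc
  have h4 := hc r (List.mem_range.mpr hr)
  rw [List.all_eq_true] at h4
  have h5 := h4 s (List.mem_range.mpr hs)
  simp only [Bool.or_eq_true, Nat.beq_eq] at h5
  rcases h5 with (hh | hh) | hh
  · exact absurd hh h1
  · rw [fneg_eq h] at hh
    exact absurd hh h2
  · exact cf_base h hr hs hh t u

end sem

end Cfsg.Agent.Helper7
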