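import Cfsg.Agent.Helper7.ChevBN
import Cfsg.Agent.S0308

set_option autoImplicit false
set_option linter.unusedSectionVars false
set_option linter.unusedVariables false
open Cfsg

namespace Cfsg.Agent.Helper7

open Cfsg.Lie

theorem Lvl.diagonal {n : Type*} [Fintype n] [DecidableEq n] {R : Type*} [CommRing R]
    (key : n → ℕ) (d : n → R) : Lvl key 0 (Matrix.diagonal d) := by
  intro i j hij
  by_cases h : i = j
  · rw [h]
    exact le_refl _
  · rw [Matrix.diagonal_apply_ne _ h] at hij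
    exact absurd rfl hij

theorem pow_sub_pow_lvl {n : Type*} [Fintype n] [DecidableEq n] {R : Type*} [CommRing R]
    (key : n → ℕ) (E N : Matrix n n R) (hE : Lvl key 0 E) (hN : Lvl key 1 N) :
    ∀ m : ℕ, Lvl key 1 ((E + N) ^ m - E ^ m) := by
  intro m
  induction m with
  | zero =>
    rw [pow_zero, pow_zero, sub_self]
    exact Lvl.zero key 1
  | succ m ih =>
    have e : (E + N) ^ (m + 1) - E ^ (m + 1) =
        ((E + N) ^ m - E ^ m) * (E + N) + E ^ m * N := by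
      rw [pow_succ, pow_succ, sub_mul, mul_add (E ^ m) E N]
      abel
    rw [e]
    have h1 := ih.mul (hE.add (hN.mono (Nat.zero_le 1)))
    have h2 := (hE.pow m).mul hN
    rw [Nat.zero_mul, Nat.zero_add] at h2
    exact h1.add h2

theorem diag_one_of_unipotent {n : Type*} [Fintype n] [DecidableEq n] {R : Type*} [Field R]
    (key : n → ℕ) (T : Matrix n n R) (δ : n → R) (hT : Lvl key 1 (T - Matrix.diagonal δ))
    (K : ℕ) (hK : (T - 1) ^ K = 0) : ∀ a, δ a = 1 := by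
  have hE : T - 1 = Matrix.diagonal (fun a => δ a - 1) + (T - Matrix.diagonal δ) := by
    have : Matrix.diagonal (fun a => δ a - 1) = Matrix.diagonal δ - (1 : Matrix n n R) := by
      rw [← Matrix.diagonal_one, Matrix.diagonal_sub]
    rw [this]
    abel
  intro a
  have h1 := pow_sub_pow_lvl key (Matrix.diagonal (fun a => δ a - 1)) (T - Matrix.diagonal δ)
    (Lvl.diagonal key _) hT K
  rw [← hE, hK, zero_sub, Matrix.diagonal_pow] at h1
  by_contra hne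
  have h2 : (-Matrix.diagonal ((fun a => δ a - 1) ^ K)) a a ≠ 0 := by
    rw [Matrix.neg_apply, Matrix.diagonal_apply_eq, Pi.pow_apply]
    exact neg_ne_zero.mpr (pow_ne_zero K (sub_ne_zero.mpr hne))
  have h3 := h1 a a h2
  omega

section sem

variable {F : Type*} [Field F]

theorem conj_identity {G : Type*} [Group G] (u₁ τ₁ n u₂ h₁ h₂ : G)
    (star : u₁ * τ₁ * n * u₂ * h₁ * u₂⁻¹ * n⁻¹ * τ₁⁻¹ * u₁⁻¹ = h₂) :
    n⁻¹ * (τ₁⁻¹ * u₁⁻¹ * h₂ * u₁ * τ₁ * h₂⁻¹) * n =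
      (u₂ * (h₁ * u₂⁻¹ * h₁⁻¹)) * (h₁ * (n⁻¹ * h₂ * n)⁻¹) := by
  subst star
  group

theorem torus_conj_unip {D : ChevalleyDatum} (M : MOK D) {n u d : GL D.Idx F}
    (hu : u ∈ D.posUnipotent F) (hd : d ∈ torus D F) {u₃ : GL D.Idx F}
    (hu₃ : u₃ ∈ D.posUnipotent F) (e : n⁻¹ * u * n = u₃ * d) : d = 1 := by
  obtain ⟨z, rfl⟩ := hd
  obtain ⟨B, hB⟩ := exists_key_bound (ckey D)
  have hpow := pow_eq_zero_of_mem_utSub (R := F) hB (posUnipotent_le_utSub D M.ptri F hu)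
  have hL : Lvl (ckey D) 1 ((u₃ : Matrix D.Idx D.Idx F) - 1) :=
    posUnipotent_le_utSub D M.ptri F hu₃
  have ev := congrArg Units.val e
  rw [Units.val_mul, Units.val_mul, Units.val_mul, DgU_val] at ev
  have hconj : ∀ m : ℕ, (((n⁻¹ : GL D.Idx F) : Matrix D.Idx D.Idx F) *
      ((u : Matrix D.Idx D.Idx F) - 1) * (n : Matrix D.Idx D.Idx F)) ^ m =
      ((n⁻¹ : GL D.Idx F) : Matrix D.Idx D.Idx F) * ((u : Matrix D.Idx D.Idx F) - 1) ^ m *
        (n : Matrix D.Idx D.Idx F) := by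
    intro m
    induction m with
    | zero => rw [pow_zero, pow_zero, mul_one, Units.inv_mul]
    | succ m ih =>
      rw [pow_succ, ih, pow_succ]
      have : (n : Matrix D.Idx D.Idx F) * ((n⁻¹ : GL D.Idx F) : Matrix D.Idx D.Idx F) = 1 :=
        Units.mul_inv n
      simp only [mul_assoc]
      rw [← mul_assoc (n : Matrix D.Idx D.Idx F), this, one_mul]
  have hT1 : ((n⁻¹ : GL D.Idx F) : Matrix D.Idx D.Idx F) * (u : Matrix D.Idx D.Idx F) *
      (n : Matrix D.Idx D.Idx F) - 1 =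
      ((n⁻¹ : GL D.Idx F) : Matrix D.Idx D.Idx F) * ((u : Matrix D.Idx D.Idx F) - 1) *
        (n : Matrix D.Idx D.Idx F) := by
    rw [mul_sub, sub_mul, mul_one, Units.inv_mul]
  have hK : (((n⁻¹ : GL D.Idx F) : Matrix D.Idx D.Idx F) * (u : Matrix D.Idx D.Idx F) *
      (n : Matrix D.Idx D.Idx F) - 1) ^ B = 0 := by
    rw [hT1, hconj, hpow, mul_zero, zero_mul]
  have hTL : Lvl (ckey D) 1 (((n⁻¹ : GL D.Idx F) : Matrix D.Idx D.Idx F) *
      (u : Matrix D.Idx D.Idx F) * (n : Matrix D.Idx D.Idx F) -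
      Matrix.diagonal (fun a => ((dgv D (chi D z) a : Fˣ) : F))) := by
    rw [ev]
    have e2 : (u₃ : Matrix D.Idx D.Idx F) *
        Matrix.diagonal (fun a => ((dgv D (chi D z) a : Fˣ) : F)) -
        Matrix.diagonal (fun a => ((dgv D (chi D z) a : Fˣ) : F)) =
        ((u₃ : Matrix D.Idx D.Idx F) - 1) *
          Matrix.diagonal (fun a => ((dgv D (chi D z) a : Fˣ) : F)) := by
      rw [sub_mul, one_mul]
    rw [e2]
    have := hL.mul (Lvl.diagonal (ckey D) (fun a => ((dgv D (chi D z) a : Fˣ) : F)))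
    exact this
  have h1 := diag_one_of_unipotent (ckey D) _ _ hTL B hK
  apply Units.ext
  rw [DgU_val, Units.val_one, ← Matrix.diagonal_one]
  congr 1
  funext a
  exact h1 a

theorem torus_conj {D : ChevalleyDatum} (U : UOK D) (hcf : CF D F) (h₁ h₂ g : GL D.Idx F)
    (h1 : h₁ ∈ D.diagonalSubgroup F) (h2 : h₂ ∈ D.diagonalSubgroup F) (hg : g ∈ D.group F)
    (hc : g * h₁ * g⁻¹ = h₂) : ∃ n ∈ D.monomialSubgroup F, n * h₁ * n⁻¹ = h₂ := by
  have M := U.m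
  obtain ⟨hBG, hNG, hsup⟩ := borel_mon_group (F := F) M
  obtain ⟨P, hPB, hPN, hPS⟩ := chev_bn U hcf
  obtain ⟨n', hn', hdc⟩ := Cfsg.Agent.S0308.result P (⟨g, hg⟩ : ↥(D.group F))
  rw [DoubleCoset.mem_doubleCoset] at hdc
  obtain ⟨x, hx, y, hy, hxy⟩ := hdc
  rw [hPN] at hn'
  have hx' : (x : GL D.Idx F) ∈ D.borelSubgroup F := by
    have : x ∈ P.B := hx
    rw [hPB] at this
    exact this
  have hy' : (y : GL D.Idx F) ∈ D.borelSubgroup F := by
    have : y ∈ P.B := hy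
    rw [hPB] at this
    exact this
  have hn : (n' : GL D.Idx F) ∈ D.monomialSubgroup F := hn'
  have hge : g = (x : GL D.Idx F) * (n' : GL D.Idx F) * (y : GL D.Idx F) :=
    congrArg Subtype.val hxy
  obtain ⟨u₁, hu₁, τ₁, hτ₁, ex⟩ := borel_dec M.w hx'
  obtain ⟨u₂, hu₂, τ₂, hτ₂, ey⟩ := borel_dec M.w hy'
  rw [diag_eq_torus M.w] at h1 h2
  have hnormU : torus D F ≤ Subgroup.normalizer (D.posUnipotent F : Set (GL D.Idx F)) :=
    torus_le_normalizer_gen M.w D.IsPosRoot (fun r hr => hr.1)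
  have hnorm : (n' : GL D.Idx F) ∈ Subgroup.normalizer (torus D F : Set (GL D.Idx F)) :=
    monomial_le M _ Subgroup.le_normalizer (fun i hi => nV_simple_normalizes M hi) hn
  have star : u₁ * τ₁ * (n' : GL D.Idx F) * u₂ * h₁ * u₂⁻¹ * (n' : GL D.Idx F)⁻¹ * τ₁⁻¹ * u₁⁻¹ =
      h₂ := by
    rw [← hc, hge, ex, ey]
    have e2 : h₁ = τ₂ * h₁ * τ₂⁻¹ := by
      rw [torus_comm hτ₂ h1, mul_assoc, mul_inv_cancel, mul_one]
    conv_lhs => rw [e2]
    group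
  have key := conj_identity u₁ τ₁ (n' : GL D.Idx F) u₂ h₁ h₂ star
  have hu5 : τ₁⁻¹ * u₁⁻¹ * h₂ * u₁ * τ₁ * h₂⁻¹ ∈ D.posUnipotent F := by
    have e3 : τ₁⁻¹ * u₁⁻¹ * h₂ * u₁ * τ₁ * h₂⁻¹ =
        τ₁⁻¹ * (u₁⁻¹ * (h₂ * u₁ * h₂⁻¹)) * τ₁⁻¹⁻¹ := by
      have e4 : τ₁ * h₂⁻¹ = h₂⁻¹ * τ₁ := by
        have := torus_comm hτ₁ ((torus D F).inv_mem h2)
        exact this
      rw [mul_assoc (τ₁⁻¹ * u₁⁻¹ * h₂ * u₁), e4]
      group
    rw [e3]
    have h3 : h₂ * u₁ * h₂⁻¹ ∈ D.posUnipotent F :=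
      (Subgroup.mem_normalizer_iff.mp (hnormU h2) u₁).mp hu₁
    exact (Subgroup.mem_normalizer_iff.mp (hnormU ((torus D F).inv_mem hτ₁)) _).mp
      (mul_mem (inv_mem hu₁) h3)
  have hu3 : u₂ * (h₁ * u₂⁻¹ * h₁⁻¹) ∈ D.posUnipotent F :=
    mul_mem hu₂ ((Subgroup.mem_normalizer_iff.mp (hnormU h1) _).mp (inv_mem hu₂))
  have hd : h₁ * ((n' : GL D.Idx F)⁻¹ * h₂ * (n' : GL D.Idx F))⁻¹ ∈ torus D F :=
    mul_mem h1 (inv_mem ((Subgroup.mem_normalizer_iff''.mp hnorm h₂).mp h2))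
  have hone := torus_conj_unip M hu5 hd hu3 key
  refine ⟨(n' : GL D.Idx F), hn, ?_⟩
  have h5 : h₁ = (n' : GL D.Idx F)⁻¹ * h₂ * (n' : GL D.Idx F) := by
    rw [mul_inv_eq_one] at hone
    exact hone
  rw [h5]
  group

end sem

end Cfsg.Agent.Helper7
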