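import Cfsg.Agent.Helper7.ChevLong

set_option autoImplicit false
set_option linter.unusedSectionVars false
set_option linter.unusedVariables false
open Cfsg

namespace Cfsg.Agent.Helper7

open Cfsg.Lie

variable {F : Type*} [Field F]

theorem chi_neg_mul {D : ChevalleyDatum} (W : WOK D) (z : ℕ → Fˣ) {s : ℕ} (hs : s < D.nroots) :
    chi D z (D.neg s) * chi D z s = 1 := by
  unfold chi
  rw [← Finset.prod_mul_distrib]
  apply Finset.prod_eq_one
  intro j hj
  rw [cartan_neg W.fd W.ta (Finset.mem_range.mp hj) hs, zpow_neg, inv_mul_cancel]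

theorem xV_add (D : ChevalleyDatum) (ha : addCheck2 D = true) {r : ℕ} (hr : r < D.nroots)
    (a b : F) : xV D ha r a * xV D ha r b = xV D ha r (a + b) := by
  apply Units.ext
  rw [Units.val_mul, xV_val, xV_val, xV_val]
  exact x_add ha hr a b

theorem xV_zero (D : ChevalleyDatum) (ha : addCheck2 D = true) (r : ℕ) :
    xV D ha r (0 : F) = 1 := by
  apply Units.ext
  rw [xV_val, Units.val_one]
  exact x_zero D r

theorem xV_inv (D : ChevalleyDatum) (ha : addCheck2 D = true) {r : ℕ} (hr : r < D.nroots)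
    (t : F) : (xV D ha r t)⁻¹ = xV D ha r (-t) := by
  rw [inv_eq_iff_mul_eq_one, xV_add D ha hr, add_neg_cancel, xV_zero]

theorem xV_eq_one {D : ChevalleyDatum} (M : MOK D) {r : ℕ} (hr : r < D.nroots) {t : F}
    (h : xV D M.w.add r t = 1) : t = 0 := by
  have h1 := congrArg Units.val h
  rw [xV_val, Units.val_one, x_of_lt D F hr] at h1
  exact xMat_eq_one D M.neg F ⟨r, hr⟩ t h1

theorem DgU_xV {D : ChevalleyDatum} (W : WOK D) (z : ℕ → Fˣ) {s : ℕ} (hs : s < D.nroots)
    (t : F) : DgU D (chi D z) * xV D W.add s t =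
      xV D W.add s ((chi D z s : F) * t) * DgU D (chi D z) := by
  apply Units.ext
  rw [Units.val_mul, Units.val_mul, xV_val, xV_val]
  exact chi_conj W.fd W.ta z hs t

theorem xV_mem_negU {D : ChevalleyDatum} (ha : addCheck2 D = true) {r : ℕ}
    (hr : D.IsNegRoot r) (t : F) : xV D ha r t ∈ D.negUnipotent F := by
  apply Subgroup.subset_closure
  exact ⟨r, t, hr, xV_val D ha r t⟩

theorem xV_mem_posU {D : ChevalleyDatum} (ha : addCheck2 D = true) {r : ℕ}
    (hr : D.IsPosRoot r) (t : F) : xV D ha r t ∈ D.posUnipotent F := by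
  apply Subgroup.subset_closure
  exact ⟨r, t, hr, xV_val D ha r t⟩

theorem core_trivial {D : ChevalleyDatum} (M : MOK D)
    (hl : ∃ n ∈ D.monomialSubgroup F,
      (D.posUnipotent F).map (MulAut.conj n).toMonoidHom = D.negUnipotent F) :
    ((D.borelSubgroup F).subgroupOf (D.group F)).normalCore = ⊥ := by
  obtain ⟨n0, hn0, hUV⟩ := hl
  obtain ⟨hBG, hNG, _⟩ := borel_mon_group (F := F) M
  rw [eq_bot_iff]
  rintro ⟨a, haG⟩ ha
  rw [Subgroup.mem_bot]
  apply Subtype.ext
  change a = 1
  have key : ∀ b ∈ D.group F, b * a * b⁻¹ ∈ D.borelSubgroup F := by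
    intro b hb
    have h1 := ha ⟨b, hb⟩
    rw [Subgroup.mem_subgroupOf] at h1
    exact h1
  have haB : a ∈ D.borelSubgroup F := by
    have := key 1 (one_mem _)
    simpa using this
  have hnorm : n0 ∈ Subgroup.normalizer (torus D F : Set (GL D.Idx F)) :=
    monomial_le M _ Subgroup.le_normalizer (fun i hi => nV_simple_normalizes M hi) hn0
  have haVH : a ∈ D.negUnipotent F ⊔ D.diagonalSubgroup F := by
    have h1 : n0⁻¹ * a * n0⁻¹⁻¹ ∈ D.borelSubgroup F := key n0⁻¹ (inv_mem (hNG hn0))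
    have h2 : a = (MulAut.conj n0).toMonoidHom (n0⁻¹ * a * n0⁻¹⁻¹) := by
      change a = n0 * (n0⁻¹ * a * n0⁻¹⁻¹) * n0⁻¹
      group
    have h3 : a ∈ (D.borelSubgroup F).map (MulAut.conj n0).toMonoidHom := by
      rw [h2]
      exact Subgroup.mem_map_of_mem _ h1
    unfold ChevalleyDatum.borelSubgroup at h3
    rw [Subgroup.map_sup, hUV] at h3
    have h4 : (D.diagonalSubgroup F).map (MulAut.conj n0).toMonoidHom ≤
        D.diagonalSubgroup F := by
      rw [diag_eq_torus M.w]
      rintro _ ⟨h, hh, rfl⟩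
      exact ((Subgroup.mem_normalizer_iff.mp hnorm) h).mp hh
    exact (sup_le_sup_left h4 (D.negUnipotent F)) h3
  have haH : a ∈ torus D F := by
    rw [← diag_eq_torus M.w, ← borel_inf_negBorel M]
    exact ⟨haB, haVH⟩
  obtain ⟨z, rfl⟩ := haH
  have hnegr : ∀ r < D.nroots, D.IsNegRoot r → chi D z r = 1 := by
    intro r hr hneg
    have hb : xV D M.w.add r (1 : F) ∈ D.group F := xV_mem_group D M.w.add r 1
    have h1 := key _ hb
    have h2 : xV D M.w.add r (1 : F) * DgU D (chi D z) * (xV D M.w.add r (1 : F))⁻¹ *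
        (DgU D (chi D z))⁻¹ ∈ D.borelSubgroup F := mul_mem h1 (inv_mem haB)
    have h3 : xV D M.w.add r (1 : F) * DgU D (chi D z) * (xV D M.w.add r (1 : F))⁻¹ *
        (DgU D (chi D z))⁻¹ = xV D M.w.add r (1 - (chi D z r : F)) := by
      rw [xV_inv D M.w.add hr, mul_assoc (xV D M.w.add r (1 : F)), DgU_xV M.w z hr,
        mul_assoc, mul_assoc, mul_inv_cancel, mul_one, xV_add D M.w.add hr]
      congr 1
      ring
    rw [h3] at h2
    have h4 : xV D M.w.add r (1 - (chi D z r : F)) ∈
        D.borelSubgroup F ⊓ D.negUnipotent F := ⟨h2, xV_mem_negU M.w.add hneg _⟩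
    rw [borel_inf_negU M, Subgroup.mem_bot] at h4
    have h5 := xV_eq_one M hr h4
    apply Units.ext
    rw [Units.val_one]
    exact (sub_eq_zero.mp h5).symm
  have hall : ∀ r < D.nroots, chi D z r = 1 := by
    intro r hr
    rcases posnegOK_spec M.pn hr with hp | hn
    · have h1 := chi_neg_mul M.w z hr
      have hnr : D.neg r < D.nroots := neg_lt M.neg hr
      have h2 : D.IsNegRoot (D.neg r) :=
        (isNeg_iff M hnr).mpr (posTriOK_spec M.ptri hp).2.1
      rw [hnegr _ hnr h2, one_mul] at h1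
      exact h1
    · exact hnegr r hr hn
  rw [← DgU_one]
  exact DgU_congr D hall
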