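import Cfsg.Agent.Helper7.ChevDC
import Cfsg.Agent.Helper3.BNCox

set_option autoImplicit false
set_option maxHeartbeats 4000000
open Cfsg

namespace Cfsg.Agent.Helper7

open Cfsg.Lie Cfsg.Agent.Helper3

theorem bn_normal {G : Type*} [Group G] (P : Cfsg.BNPair G) :
    ((P.B ⊓ P.N).subgroupOf P.N).Normal := by
  constructor
  intro n hn g
  rw [Subgroup.mem_subgroupOf] at hn ⊢
  exact Subgroup.mem_inf.mpr ⟨P.conj_mem g g.2 n hn, (g * n * g⁻¹).2⟩

theorem weyl_coxeter_ord {G : Type*} [Group G] (P : Cfsg.BNPair G)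
    [hN : ((P.B ⊓ P.N).subgroupOf P.N).Normal] :
    ∃ (hsq : ∀ s : P.S, weylGen P s * weylGen P s = 1)
      (hinj : Function.Injective (weylGen P))
      (cs : CoxeterSystem (ordMatrix (weylGen P) hsq hinj)
        (P.N ⧸ (P.B ⊓ P.N).subgroupOf P.N)),
      ∀ s : P.S, cs.simple s = weylGen P s := by
  have hsq : ∀ s : P.S, weylGen P s * weylGen P s = 1 := by
    intro s
    unfold weylGen
    rw [← QuotientGroup.mk_mul, QuotientGroup.eq_one_iff, Subgroup.mem_subgroupOf]
    exact S_sq P s.2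
  have hinj : Function.Injective (weylGen P) := by
    intro s s' h
    unfold weylGen at h
    rw [weyl_mk_eq_iff] at h
    exact Subtype.ext (P.inj s s.2 s' s'.2 h.1)
  have hgen : Subgroup.closure (Set.range (weylGen P)) = ⊤ := by
    rw [eq_top_iff]
    intro w _
    obtain ⟨⟨n, hn⟩, rfl⟩ := QuotientGroup.mk_surjective w
    obtain ⟨l, hl, hc⟩ := exists_word_N P hn
    obtain ⟨ω, hω⟩ := lift_list P.S l hl
    have e : (QuotientGroup.mk (⟨n, hn⟩ : P.N) : P.N ⧸ (P.B ⊓ P.N).subgroupOf P.N) =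
        wprod (weylGen P) ω := by
      rw [weyl_wprod, eq_comm, weyl_mk_eq_iff]
      show Cg P (ω.map Subtype.val).prod n
      rw [hω]; exact hc
    rw [e]
    unfold wprod
    apply list_prod_mem
    intro x hx
    obtain ⟨s, _, rfl⟩ := List.mem_map.1 hx
    exact Subgroup.subset_closure ⟨s, rfl⟩
  have hex : ∀ (i : P.S) (ω : List P.S), WRed (weylGen P) ω → ¬ WRed (weylGen P) (i :: ω) →
      ∃ j < ω.length, wprod (weylGen P) (i :: ω.eraseIdx j) = wprod (weylGen P) ω := by
    intro i ω hω hnr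
    have hl := val_word P ω
    have hna : ¬ Asc P (i : G) (ω.map Subtype.val).prod := by
      intro ha
      apply hnr
      intro ω' h'
      rw [weyl_wprod, weyl_wprod, weyl_mk_eq_iff] at h'
      have h1 : HasLen P ((i : G) * (ω.map Subtype.val).prod) ω'.length := by
        refine ⟨ω'.map Subtype.val, val_word P ω', by simp, ?_⟩
        have : ((i :: ω).map Subtype.val).prod = (i : G) * (ω.map Subtype.val).prod := by simp
        rw [← this]
        exact h'
      obtain ⟨j, hj, hlen⟩ := hasLen_of_asc P i.2 (word_mem_N P hl) ha h1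
      obtain ⟨ω'', hl'', hπ⟩ := weyl_hasLen P ω _ j hlen (cg_refl P _)
      have := hω ω'' hπ
      simp only [List.length_cons]
      omega
    obtain ⟨l1, x, l2, e, hc⟩ := exchange P i.2 hl hna
    refine ⟨l1.length, ?_, ?_⟩
    · have := congrArg List.length e
      simp at this
      omega
    · rw [weyl_wprod, weyl_wprod, weyl_mk_eq_iff]
      show Cg P ((i :: ω.eraseIdx l1.length).map Subtype.val).prod (ω.map Subtype.val).prod
      have e2 : (ω.eraseIdx l1.length).map Subtype.val = l1 ++ l2 := by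
        rw [← List.eraseIdx_map, e, List.eraseIdx_append_of_length_le (le_refl _)]
        simp
      rw [List.map_cons, List.prod_cons, e2]
      exact cg_trans P (cg_mul_left P (i : G) hc) (cg_sq P i.2 (word_mem_N P hl))
  obtain ⟨cs, hcs⟩ := coxeter_of_exchange (weylGen P) hsq hgen hinj hex
  exact ⟨hsq, hinj, cs, hcs⟩

theorem cox_transfer {B B' W : Type*} [Group W] {M' : CoxeterMatrix B'} (M : CoxeterMatrix B)
    (cs : CoxeterSystem M' W) (e : B ≃ B') (h : ∀ i j, M' (e i) (e j) = M i j) :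
    ∃ cs2 : CoxeterSystem M W, ∀ i, cs2.simple i = cs.simple (e i) := by
  have hM : M'.reindex e.symm = M := by
    ext i j
    exact h i j
  subst hM
  exact ⟨cs.reindex e.symm, fun i => by simp⟩

def rep (i j : ℕ) : ℕ → List ℕ
  | 0 => []
  | k + 1 => i :: j :: rep i j k

theorem rep_lt {n i j : ℕ} (hi : i < n) (hj : j < n) (k : ℕ) : ∀ x ∈ rep i j k, x < n := by
  induction k with
  | zero =>
    intro x hx
    simp [rep] at hx
  | succ k ih =>
    intro x hx
    simp only [rep, List.mem_cons] at hx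
    rcases hx with rfl | rfl | hx
    · exact hi
    · exact hj
    · exact ih x hx

def coxOK (D : ChevalleyDatum) (mm : List (List ℕ)) : Bool :=
  (List.range D.rank).all fun i => (List.range D.rank).all fun j =>
    Nat.beq i j ||
      (Nat.blt 0 ((mm.getD i []).getD j 0) &&
        ((List.range D.nroots).all fun r =>
          Nat.beq (wApply D (rep i j ((mm.getD i []).getD j 0)) r) r) &&
        ((List.range ((mm.getD i []).getD j 0)).all fun k =>
          Nat.beq k 0 || !(Nat.beq (wApply D (rep i j k) (D.simple i)) (D.simple i))))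

theorem coxOK_spec {D : ChevalleyDatum} {mm : List (List ℕ)} (h : coxOK D mm = true) {i j : ℕ}
    (hi : i < D.rank) (hj : j < D.rank) (hij : i ≠ j) :
    0 < (mm.getD i []).getD j 0 ∧
    (∀ r < D.nroots, wApply D (rep i j ((mm.getD i []).getD j 0)) r = r) ∧
    ∀ k, 0 < k → k < (mm.getD i []).getD j 0 →
      wApply D (rep i j k) (D.simple i) ≠ D.simple i := by
  unfold coxOK at h
  rw [List.all_eq_true] at h
  have h1 := h i (List.mem_range.mpr hi)
  rw [List.all_eq_true] at h1
  have h2 := h1 j (List.mem_range.mpr hj)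
  rw [Bool.or_eq_true] at h2
  rcases h2 with h2 | h2
  · exact absurd (Nat.eq_of_beq_eq_true h2) hij
  · rw [Bool.and_eq_true, Bool.and_eq_true] at h2
    obtain ⟨⟨ha, hb⟩, hc⟩ := h2
    refine ⟨?_, ?_, ?_⟩
    · exact Nat.blt_eq.mp ha
    · intro r hr
      rw [List.all_eq_true] at hb
      exact Nat.eq_of_beq_eq_true (hb r (List.mem_range.mpr hr))
    · intro k hk0 hk
      rw [List.all_eq_true] at hc
      have h3 := hc k (List.mem_range.mpr hk)
      rw [Bool.or_eq_true] at h3
      rcases h3 with h3 | h3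
      · exact absurd (Nat.eq_of_beq_eq_true h3) (by omega)
      · intro he
        rw [he] at h3
        simp at h3

section sem

variable {F : Type*} [Field F]

theorem nWordU_rep (D : ChevalleyDatum) (ha : addCheck2 D = true) (i j k : ℕ) :
    nWordU (F := F) D ha (rep i j k) =
      (nV D ha (D.simple i) (1 : F) * nV D ha (D.simple j) (1 : F)) ^ k := by
  induction k with
  | zero => simp [rep, nWordU]
  | succ k ih =>
    have e : nWordU (F := F) D ha (rep i j (k + 1)) =
        nV D ha (D.simple i) (1 : F) *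
          (nV D ha (D.simple j) (1 : F) * nWordU D ha (rep i j k)) := by
      simp [rep, nWordU]
    rw [e, ih, pow_succ', mul_assoc]

theorem weyl_iso {D : ChevalleyDatum} (U : UOK D) (hcf : CF D F) (hu : unitAllOK D = true)
    {n : ℕ} (hn : D.rank = n) (M : CoxeterMatrix (Fin n)) (mm : List (List ℕ))
    (hc : coxOK D mm = true) (hM : ∀ i j : Fin n, M i j = (mm.getD i []).getD j 0) :
    ∃ φ : ↥(D.monomialSubgroup F) →* M.Group, Function.Surjective φ ∧
      φ.ker = (D.diagonalSubgroup F).subgroupOf (D.monomialSubgroup F) ∧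
      ∀ (i : Fin n) (g : ↥(D.monomialSubgroup F)),
        ((g : GL D.Idx F) : Matrix D.Idx D.Idx F) = D.nMat F (D.simple i) 1 →
          φ g = M.simple i := by
  classical
  subst hn
  have Mk := U.m
  obtain ⟨hBG, hNG, hsup⟩ := borel_mon_group (F := F) Mk
  obtain ⟨P, hPB, hPN, hPS⟩ := chev_bn U hcf
  have : ((P.B ⊓ P.N).subgroupOf P.N).Normal := bn_normal P
  obtain ⟨hsq, hinj, cs, hcs⟩ := weyl_coxeter_ord P
  have hsl : ∀ i : Fin D.rank, D.simple i < D.nroots ∧ D.neg (D.simple i) < D.nroots :=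
    fun i => simple_lt Mk.w.fd Mk.w.n i.2
  have hνS : ∀ i : Fin D.rank, (⟨nV D U.m.w.add (D.simple i) (1 : F),
      hNG (nV_simple_mem_mon Mk i.2)⟩ : ↥(D.group F)) ∈ P.S := by
    intro i
    rw [hPS]
    exact ⟨i, i.2, nV_val D U.m.w.add (hsl i).1 (hsl i).2 1⟩
  obtain ⟨e0, he0⟩ : ∃ e0 : Fin D.rank → P.S, ∀ i,
      ((e0 i : ↥(D.group F)) : GL D.Idx F) = nV D U.m.w.add (D.simple i) (1 : F) :=
    ⟨fun i => ⟨⟨_, hNG (nV_simple_mem_mon Mk i.2)⟩, hνS i⟩, fun i => rfl⟩
  have hpow : ∀ (i j : Fin D.rank) (k : ℕ),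
      (weylGen P (e0 i) * weylGen P (e0 j)) ^ k = 1 ↔
        nWordU (F := F) D U.m.w.add (rep i j k) ∈ D.borelSubgroup F := by
    intro i j k
    rw [nWordU_rep, ← he0 i, ← he0 j]
    unfold weylGen
    rw [← QuotientGroup.mk_mul, ← QuotientGroup.mk_pow, QuotientGroup.eq_one_iff,
      Subgroup.mem_subgroupOf, Subgroup.mem_inf]
    constructor
    · rintro ⟨h1, -⟩
      rw [hPB, Subgroup.mem_subgroupOf] at h1
      exact h1
    · intro h
      refine ⟨?_, SetLike.coe_mem _⟩
      rw [hPB, Subgroup.mem_subgroupOf]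
      exact h
  have e1 : (nWordU (F := F) D U.m.w.add [])⁻¹ = 1 := by simp [nWordU]
  have hord : ∀ i j : Fin D.rank, i ≠ j →
      orderOf (weylGen P (e0 i) * weylGen P (e0 j)) = M i j := by
    intro i j hij
    have hij' : (i : ℕ) ≠ j := fun h => hij (Fin.ext h)
    obtain ⟨h0, h1, h2⟩ := coxOK_spec hc i.2 j.2 hij'
    rw [hM i j, orderOf_eq_iff h0]
    constructor
    · rw [hpow]
      have h3 := same_act_mem (F := F) U hcf (rep i j ((mm.getD i []).getD j 0)) []
        (rep_lt i.2 j.2 _) (by simp) (fun r hr => h1 r hr)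
      rw [e1, one_mul] at h3
      exact (le_sup_right : D.diagonalSubgroup F ≤ D.borelSubgroup F) h3
    · intro k hk hk0 hone
      rw [hpow] at hone
      have h3 := act_eq_of_mem (F := F) U hu [] (rep i j k) (by simp)
        (rep_lt i.2 j.2 _) (by rw [e1, one_mul]; exact hone) (D.simple i) (hsl i).1
      exact h2 k hk0 hk h3.symm
  have he0inj : Function.Injective e0 := by
    intro i j hij
    by_contra hne
    have h1 := hord i j hne
    rw [hij, hsq, orderOf_one] at h1
    exact M.off_diagonal i j hne h1.symm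
  have he0surj : Function.Surjective e0 := by
    rintro ⟨s, hs⟩
    have hs' := hs
    rw [hPS] at hs'
    obtain ⟨i, hi, e⟩ := hs'
    refine ⟨⟨i, hi⟩, Subtype.ext (Subtype.ext (Units.ext ?_))⟩
    rw [he0, e]
    exact nV_val D U.m.w.add (simple_lt Mk.w.fd Mk.w.n hi).1 (simple_lt Mk.w.fd Mk.w.n hi).2 1
  obtain ⟨e, he⟩ : ∃ e : Fin D.rank ≃ P.S, ∀ i, e i = e0 i :=
    ⟨Equiv.ofBijective e0 ⟨he0inj, he0surj⟩, fun i => rfl⟩
  have hmat : ∀ i j, ordMatrix (weylGen P) hsq hinj (e i) (e j) = M i j := by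
    intro i j
    by_cases hij : i = j
    · subst hij
      exact ((ordMatrix (weylGen P) hsq hinj).diagonal (e i)).trans (M.diagonal i).symm
    · rw [ordMatrix_apply, he, he]
      exact hord i j hij
  obtain ⟨cs2, hcs2⟩ := cox_transfer M cs e hmat
  have hfmem : ∀ g : ↥(D.monomialSubgroup F), (⟨g.1, hNG g.2⟩ : ↥(D.group F)) ∈ P.N := by
    intro g
    rw [hPN, Subgroup.mem_subgroupOf]
    exact g.2
  obtain ⟨f, hf⟩ : ∃ f : ↥(D.monomialSubgroup F) →* ↥P.N, ∀ g,
      ((f g : ↥(D.group F)) : GL D.Idx F) = g.1 :=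
    ⟨{ toFun := fun g => ⟨⟨g.1, hNG g.2⟩, hfmem g⟩
       map_one' := rfl
       map_mul' := fun _ _ => rfl }, fun g => rfl⟩
  have hfsurj : Function.Surjective f := by
    rintro ⟨⟨y, hy⟩, hyN⟩
    have hyN' := hyN
    rw [hPN, Subgroup.mem_subgroupOf] at hyN'
    exact ⟨⟨y, hyN'⟩, Subtype.ext (Subtype.ext (hf _))⟩
  refine ⟨cs2.mulEquiv.toMonoidHom.comp ((QuotientGroup.mk' _).comp f), ?_, ?_, ?_⟩
  · exact cs2.mulEquiv.surjective.comp ((QuotientGroup.mk'_surjective _).comp hfsurj)
  · ext g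
    rw [MonoidHom.mem_ker, Subgroup.mem_subgroupOf]
    show cs2.mulEquiv (QuotientGroup.mk (f g)) = 1 ↔ _
    rw [MulEquiv.map_eq_one_iff, QuotientGroup.eq_one_iff, Subgroup.mem_subgroupOf,
      Subgroup.mem_inf, hPB, Subgroup.mem_subgroupOf, hf, ← borel_inf_mon Mk, Subgroup.mem_inf]
    constructor
    · rintro ⟨h1, -⟩
      exact ⟨h1, g.2⟩
    · rintro ⟨h1, -⟩
      exact ⟨h1, SetLike.coe_mem _⟩
  · intro i g hg
    show cs2.mulEquiv (QuotientGroup.mk (f g)) = M.simple i
    have e2 : (QuotientGroup.mk (f g) : P.N ⧸ (P.B ⊓ P.N).subgroupOf P.N) = cs2.simple i := by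
      rw [hcs2, hcs, he]
      unfold weylGen
      congr 1
      apply Subtype.ext
      apply Subtype.ext
      rw [hf, he0]
      apply Units.ext
      rw [hg]
      exact (nV_val D U.m.w.add (hsl i).1 (hsl i).2 1).symm
    rw [e2]
    exact cs2.mulEquiv.apply_symm_apply _

end sem

end Cfsg.Agent.Helper7
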