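import Cfsg.Agent.Helper7.ChevLevi

set_option autoImplicit false
set_option linter.unusedSectionVars false
set_option linter.unusedVariables false
open Cfsg

namespace Cfsg.Agent.Helper7

open Cfsg.Lie

theorem exists_key_shift {n : Type*} [Fintype n] [DecidableEq n] (kz : n → ℤ) :
    ∃ (key : n → ℕ) (m : ℤ), ∀ a, (key a : ℤ) = kz a + m := by
  obtain ⟨m, hm⟩ := Finset.exists_le (Finset.univ.image fun a => - kz a)
  refine ⟨fun a => (kz a + m).toNat, m, fun a => ?_⟩
  have ha := hm (- kz a) (Finset.mem_image_of_mem _ (Finset.mem_univ a))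
  show ((kz a + m).toNat : ℤ) = kz a + m
  omega

def fL (D : ChevalleyDatum) (adj : List (List ℤ)) (L : ℤ) (s : ℕ) : ℤ :=
  ((List.range D.rank).map fun i => L ^ (D.rank - 1 - i) * gphi D adj i s).sum

def fLF (D : ChevalleyDatum) (adj : List (List ℤ)) (L : ℤ) (s : ℕ) : ℤ :=
  ((List.range D.rank).map fun i => L ^ (D.rank - 1 - i) * gphiF D adj i s).sum

theorem fLF_eq {D : ChevalleyDatum} (h : fdOK D = true) (adj : List (List ℤ)) (L : ℤ) (s : ℕ) :
    fLF D adj L s = fL D adj L s := by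
  unfold fLF fL
  simp only [gphiF_eq h]

theorem fL_lin {D : ChevalleyDatum} (W : WOK D) (adj : List (List ℤ)) (L : ℤ) {r : ℕ}
    (hr : r < D.nroots) (s u : ℕ) {km : ℕ × ℤ} (hkm : km ∈ D.chainCoeff r s u) :
    fL D adj L u = km.1 * fL D adj L r + fL D adj L s := by
  unfold fL
  apply sum_lin
  intro i _
  have e : gphi D adj i u = km.1 * gphi D adj i r + gphi D adj i s := by
    unfold gphi
    apply sum_lin
    intro k hk
    rw [cartan_chain W.fd W.ta (List.mem_range.mp hk) hr hkm]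
    ring
  rw [e]
  ring

theorem fL_neg {D : ChevalleyDatum} (W : WOK D) (adj : List (List ℤ)) (L : ℤ) {r : ℕ}
    (hr : r < D.nroots) : fL D adj L (D.neg r) = - fL D adj L r := by
  rw [neg_eq_neg_one_mul]
  unfold fL
  apply sum_scale
  intro i _
  have e : gphi D adj i (D.neg r) = -1 * gphi D adj i r := by
    unfold gphi
    apply sum_scale
    intro k hk
    rw [cartan_neg W.fd W.ta (List.mem_range.mp hk) hr]
    ring
  rw [e]
  ring

def lexOK (D : ChevalleyDatum) (adj : List (List ℤ)) (L : ℤ) : Bool :=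
  decide (0 < fLF D adj L (D.nroots / 2)) &&
    (List.range (D.nroots - D.nroots / 2 - 1)).all fun k =>
      decide (fLF D adj L (D.nroots / 2 + k) < fLF D adj L (D.nroots / 2 + k + 1))

theorem lexOK_step {D : ChevalleyDatum} (h : fdOK D = true) {adj : List (List ℤ)} {L : ℤ}
    (hl : lexOK D adj L = true) :
    0 < fL D adj L (D.nroots / 2) ∧ ∀ r, D.nroots / 2 ≤ r → r + 1 < D.nroots →
      fL D adj L r < fL D adj L (r + 1) := by
  unfold lexOK at hl
  rw [Bool.and_eq_true, decide_eq_true_eq, List.all_eq_true, fLF_eq h] at hl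
  refine ⟨hl.1, fun r hr1 hr2 => ?_⟩
  have h2 := hl.2 (r - D.nroots / 2) (List.mem_range.mpr (by omega))
  rw [decide_eq_true_eq, fLF_eq h, fLF_eq h,
    show D.nroots / 2 + (r - D.nroots / 2) = r by omega] at h2
  exact h2

theorem lexOK_pos {D : ChevalleyDatum} (h : fdOK D = true) {adj : List (List ℤ)} {L : ℤ}
    (hl : lexOK D adj L = true) : ∀ r, D.nroots / 2 ≤ r → r < D.nroots → 0 < fL D adj L r := by
  obtain ⟨h0, hs⟩ := lexOK_step h hl
  intro r hr1
  induction r, hr1 using Nat.le_induction with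
  | base => exact fun _ => h0
  | succ r hr ih =>
    intro hr2
    have h1 := hs r hr hr2
    have h2 := ih (by omega)
    omega

theorem lexOK_mono {D : ChevalleyDatum} (h : fdOK D = true) {adj : List (List ℤ)} {L : ℤ}
    (hl : lexOK D adj L = true) : ∀ r s, D.nroots / 2 ≤ r → r + 1 ≤ s → s < D.nroots →
      fL D adj L r < fL D adj L s := by
  obtain ⟨h0, hs⟩ := lexOK_step h hl
  intro r s hr hrs
  induction s, hrs using Nat.le_induction with
  | base => exact fun hs2 => hs r hr hs2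
  | succ s hrs' ih =>
    intro hs2
    have h1 := ih (by omega)
    have h2 := hs s (by omega) hs2
    omega

def unitOK (D : ChevalleyDatum) : Bool :=
  (List.range (D.nroots - D.nroots / 2)).all fun k =>
    (List.range D.rank).any fun i =>
      decide (fcar D i (D.nroots / 2 + k) = 1) || decide (fcar D i (D.nroots / 2 + k) = -1) ||
        decide (fcor D (D.nroots / 2 + k) i = 1) || decide (fcor D (D.nroots / 2 + k) i = -1)

theorem unitOK_spec {D : ChevalleyDatum} (h : fdOK D = true) (hu : unitOK D = true) {r : ℕ}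
    (hr1 : D.nroots / 2 ≤ r) (hr2 : r < D.nroots) :
    ∃ i < D.rank, (D.cartan i r = 1 ∨ D.cartan i r = -1) ∨ (cor D r i = 1 ∨ cor D r i = -1) := by
  unfold unitOK at hu
  rw [List.all_eq_true] at hu
  have h1 := hu (r - D.nroots / 2) (List.mem_range.mpr (by omega))
  rw [show D.nroots / 2 + (r - D.nroots / 2) = r by omega, List.any_eq_true] at h1
  obtain ⟨i, hi, h2⟩ := h1
  simp only [Bool.or_eq_true, decide_eq_true_eq, fcar_eq h, fcor_eq h] at h2
  refine ⟨i, List.mem_range.mp hi, ?_⟩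
  unfold cor
  tauto

def ordOK (D : ChevalleyDatum) : Bool :=
  (List.range (D.nroots - D.nroots / 2)).all fun a =>
    (List.range a).all fun b =>
      (commRoots D (D.nroots / 2 + b) (D.nroots / 2 + a)).all fun c =>
        Nat.blt (D.nroots / 2 + b) c && Nat.blt c D.nroots

theorem ordOK_spec {D : ChevalleyDatum} (h : fdOK D = true) (ho : ordOK D = true) {r s : ℕ}
    (hr : D.nroots / 2 ≤ r) (hrs : r < s) (hs : s < D.nroots) :
    ∀ c ∈ D.commTerms r s, r < c.1 ∧ c.1 < D.nroots := by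
  unfold ordOK at ho
  rw [List.all_eq_true] at ho
  have h1 := ho (s - D.nroots / 2) (List.mem_range.mpr (by omega))
  rw [List.all_eq_true] at h1
  have h2 := h1 (r - D.nroots / 2) (List.mem_range.mpr (by omega))
  rw [show D.nroots / 2 + (r - D.nroots / 2) = r by omega,
    show D.nroots / 2 + (s - D.nroots / 2) = s by omega, List.all_eq_true] at h2
  intro c hc
  have h3 := h2 c.1 (commTerms_commRoots h r s hc)
  simp only [Bool.and_eq_true, Nat.blt_eq] at h3
  exact h3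

structure VOK (D : ChevalleyDatum) (adj : List (List ℤ)) (L : ℤ) : Prop where
  u : UOK D
  lex : lexOK D adj L = true
  unit : unitOK D = true
  ord : ordOK D = true
  even : Nat.beq (2 * (D.nroots / 2)) D.nroots = true

section sem

variable {F : Type*} [Field F]

def Vk (D : ChevalleyDatum) (F : Type*) [Field F] (k : ℕ) : Subgroup (GL D.Idx F) :=
  rootGen D F (fun r => k ≤ r ∧ r < D.nroots)

theorem xV_mem_Vk {D : ChevalleyDatum} (ha : addCheck2 D = true) {k r : ℕ} (h1 : k ≤ r)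
    (h2 : r < D.nroots) (t : F) : xV D ha r t ∈ Vk D F k :=
  Subgroup.subset_closure ⟨r, t, ⟨h1, h2⟩, xV_val D ha r t⟩

theorem Vk_anti (D : ChevalleyDatum) {k l : ℕ} (h : k ≤ l) : Vk D F l ≤ Vk D F k := by
  unfold Vk rootGen
  apply Subgroup.closure_mono
  rintro g ⟨r, t, ⟨h1, h2⟩, hg⟩
  exact ⟨r, t, ⟨le_trans h h1, h2⟩, hg⟩

theorem Vk_top (D : ChevalleyDatum) : Vk D F D.nroots = ⊥ := by
  unfold Vk rootGen
  rw [Subgroup.closure_eq_bot_iff]
  rintro g ⟨r, t, ⟨h1, h2⟩, hg⟩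
  omega

theorem Vk_half {D : ChevalleyDatum} (M : MOK D) : Vk D F (D.nroots / 2) = D.posUnipotent F := by
  rw [posU_eq]
  unfold Vk rootGen
  congr 1
  ext g
  constructor
  · rintro ⟨r, t, ⟨h1, h2⟩, hg⟩
    exact ⟨r, t, (isPos_iff M h2).mpr h1, hg⟩
  · rintro ⟨r, t, hr, hg⟩
    exact ⟨r, t, ⟨(isPos_iff M hr.1).mp hr, hr.1⟩, hg⟩

theorem conj_Vk_gen {D : ChevalleyDatum} {adj : List (List ℤ)} {L : ℤ} (V : VOK D adj L)
    (hcf : CF D F) {k : ℕ} (hk1 : D.nroots / 2 ≤ k) (hk2 : k < D.nroots) (t : F) :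
    ∀ x ∈ {g : GL D.Idx F | ∃ (r : ℕ) (t : F), (k + 1 ≤ r ∧ r < D.nroots) ∧
      (g : Matrix D.Idx D.Idx F) = D.x F r t},
      xV D V.u.m.w.add k t * x * (xV D V.u.m.w.add k t)⁻¹ ∈ Vk D F (k + 1) := by
  rintro x ⟨s, u, ⟨hs1, hs2⟩, hx⟩
  have U := V.u
  have ex : x = xV D U.m.w.add s u := Units.ext (by rw [hx, xV_val])
  have hkpos : D.IsPosRoot k := (isPos_iff U.m hk2).mpr hk1
  have hnk : D.neg k < D.nroots / 2 := (posTriOK_spec U.m.ptri hkpos).2.1
  have hsr : s ≠ k := by omega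
  have hsnr : s ≠ D.neg k := by omega
  have hterms := ordOK_spec U.m.w.fd V.ord hk1 (show k < s by omega) hs2
  have e := comm_xV U.m.w.add hcf hk2 hs2 hsr hsnr (-t) u
  have e2 : xV D U.m.w.add k t * xV D U.m.w.add s u * (xV D U.m.w.add k t)⁻¹ =
      xV D U.m.w.add s u * wordU D U.m.w.add (D.commWord F k s (-t) u) := by
    rw [xV_inv D U.m.w.add hk2, mul_assoc, e, ← mul_assoc, ← mul_assoc,
      xV_add D U.m.w.add hk2, add_neg_cancel, xV_zero, one_mul]
  rw [ex, e2]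
  apply mul_mem (xV_mem_Vk U.m.w.add hs1 hs2 u)
  apply wordU_mem
  intro p hp
  unfold ChevalleyDatum.commWord at hp
  rw [List.mem_map] at hp
  obtain ⟨c, hc, rfl⟩ := hp
  obtain ⟨h1, h2⟩ := hterms c hc
  exact xV_mem_Vk U.m.w.add (by omega) h2 _

theorem conj_Vk {D : ChevalleyDatum} {adj : List (List ℤ)} {L : ℤ} (V : VOK D adj L)
    (hcf : CF D F) {k : ℕ} (hk1 : D.nroots / 2 ≤ k) (hk2 : k < D.nroots) (t : F)
    {v : GL D.Idx F} (hv : v ∈ Vk D F (k + 1)) :
    xV D V.u.m.w.add k t * v * (xV D V.u.m.w.add k t)⁻¹ ∈ Vk D F (k + 1) :=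
  conj_closure _ _ _ (conj_Vk_gen V hcf hk1 hk2 t) v hv

theorem Vk_dec {D : ChevalleyDatum} {adj : List (List ℤ)} {L : ℤ} (V : VOK D adj L)
    (hcf : CF D F) {k : ℕ} (hk1 : D.nroots / 2 ≤ k) (hk2 : k < D.nroots)
    {g : GL D.Idx F} (hg : g ∈ Vk D F k) :
    ∃ t : F, ∃ v ∈ Vk D F (k + 1), g = xV D V.u.m.w.add k t * v := by
  have ha := V.u.m.w.add
  unfold Vk rootGen at hg
  induction hg using Subgroup.closure_induction with
  | mem x hx =>
    obtain ⟨r, t, ⟨h1, h2⟩, hx⟩ := hx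
    have ex : x = xV D ha r t := Units.ext (by rw [hx, xV_val])
    by_cases hrk : r = k
    · subst hrk
      exact ⟨t, 1, one_mem _, by rw [ex, mul_one]⟩
    · exact ⟨0, x, by rw [ex]; exact xV_mem_Vk ha (by omega) h2 t, by rw [xV_zero, one_mul]⟩
  | one => exact ⟨0, 1, one_mem _, by rw [xV_zero, one_mul]⟩
  | mul a b _ _ iha ihb =>
    obtain ⟨t, v, hv, rfl⟩ := iha
    obtain ⟨t', v', hv', rfl⟩ := ihb
    refine ⟨t + t', (xV D ha k (-t') * v * (xV D ha k (-t'))⁻¹) * v',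
      mul_mem (conj_Vk V hcf hk1 hk2 (-t') hv) hv', ?_⟩
    rw [← xV_add D ha hk2, xV_inv D ha hk2, neg_neg]
    have e : xV D ha k t' * xV D ha k (-t') = 1 := by
      rw [xV_add D ha hk2, add_neg_cancel, xV_zero]
    calc xV D ha k t * v * (xV D ha k t' * v')
        = xV D ha k t * (xV D ha k t' * xV D ha k (-t')) * v * (xV D ha k t' * v') := by
          rw [e, mul_one]
      _ = xV D ha k t * xV D ha k t' * (xV D ha k (-t') * v * xV D ha k t' * v') := by
          simp only [mul_assoc]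
  | inv a _ iha =>
    obtain ⟨t, v, hv, rfl⟩ := iha
    refine ⟨-t, xV D ha k t * v⁻¹ * (xV D ha k t)⁻¹,
      conj_Vk V hcf hk1 hk2 t (inv_mem hv), ?_⟩
    rw [mul_inv_rev, ← xV_inv D ha hk2]
    group

theorem xMat_entry_car (D : ChevalleyDatum) (r : Fin D.nroots) (i : Fin D.rank) (t : F) :
    D.xMat F r t (Sum.inr r) (Sum.inl i) = - ((D.cartan i.val r.val : ℤ) : F) * t := by
  simp [ChevalleyDatum.xMat, ChevalleyDatum.cartan]

theorem xMat_entry_cor (D : ChevalleyDatum) (r s : Fin D.nroots) (i : Fin D.rank) (t : F)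
    (hne : s ≠ r) (hs : s.val = D.negIdx.getD r.val 0) :
    D.xMat F r t (Sum.inl i) (Sum.inr s) = ((cor D r.val i.val : ℤ) : F) * t := by
  simp only [ChevalleyDatum.xMat, Matrix.of_apply]
  rw [if_neg hne, if_pos hs]
  rfl

theorem xV_not_mem_Vk {D : ChevalleyDatum} {adj : List (List ℤ)} {L : ℤ} (V : VOK D adj L)
    {k : ℕ} (hk1 : D.nroots / 2 ≤ k) (hk2 : k < D.nroots) {t : F}
    (ht : xV D V.u.m.w.add k t ∈ Vk D F (k + 1)) : t = 0 := by
  have M := V.u.m
  have hfd := M.w.fd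
  obtain ⟨key, m, hkey⟩ := exists_key_shift (kzOf D (fL D adj L))
  have hent : ∀ (r : Fin D.nroots) (t : F) (a b : D.Idx), a ≠ b → D.xMat F r t a b ≠ 0 →
      ∃ j : ℕ, 1 ≤ j ∧ kzOf D (fL D adj L) a = kzOf D (fL D adj L) b + j * fL D adj L r.val :=
    fun r t a b hab hne => xMat_entry_grade D F (fL D adj L)
      (fun r hr s u km hkm => fL_lin M.w adj L hr s u hkm) (fun r hr => fL_neg M.w adj L hr)
      r t a b hab hne
  have hkpos := lexOK_pos hfd V.lex k hk1 hk2
  have hV : Vk D F (k + 1) ≤ utSub key F (fL D adj L k).toNat := by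
    unfold Vk rootGen
    rw [Subgroup.closure_le]
    rintro g ⟨s, u, ⟨hs1, hs2⟩, hg⟩
    change Lvl key ((fL D adj L k).toNat + 1) ((g : Matrix D.Idx D.Idx F) - 1)
    rw [hg, x_of_lt D F hs2]
    have hspos : D.IsPosRoot s := (isPos_iff M hs2).mpr (by omega)
    intro a b hab
    by_cases hab' : a = b
    · exfalso
      subst hab'
      have := xMat_sub_one_lvl D M.ptri F ⟨s, hs2⟩ hspos u a a hab
      omega
    · rw [Matrix.sub_apply, Matrix.one_apply_ne hab', sub_zero] at hab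
      obtain ⟨j, hj1, hj⟩ := hent ⟨s, hs2⟩ u a b hab' hab
      have hlt := lexOK_mono hfd V.lex k s hk1 hs1 hs2
      have ha := hkey a
      have hb := hkey b
      have hj1' : (1 : ℤ) ≤ (j : ℤ) := by exact_mod_cast hj1
      have h3 : fL D adj L s ≤ (j : ℤ) * fL D adj L s := by nlinarith
      simp only at hj
      omega
  have hlv : Lvl key ((fL D adj L k).toNat + 1)
      ((xV D M.w.add k t : Matrix D.Idx D.Idx F) - 1) := hV ht
  rw [xV_val, x_of_lt D F hk2] at hlv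
  obtain ⟨i, hi, hc⟩ := unitOK_spec hfd V.unit hk1 hk2
  by_contra htne
  obtain ⟨hn1, hn2⟩ := negOK_spec M.neg hk2
  rcases hc with hc | hc
  · have hne : (Sum.inr ⟨k, hk2⟩ : D.Idx) ≠ Sum.inl ⟨i, hi⟩ := by simp
    have hent2 : (D.xMat F ⟨k, hk2⟩ t - 1) (Sum.inr ⟨k, hk2⟩) (Sum.inl ⟨i, hi⟩) ≠ 0 := by
      rw [Matrix.sub_apply, Matrix.one_apply_ne hne, sub_zero, xMat_entry_car]
      rcases hc with hc | hc <;> simp [hc, htne]
    have h1 := hlv _ _ hent2
    have ha := hkey (Sum.inr ⟨k, hk2⟩)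
    have hb := hkey (Sum.inl ⟨i, hi⟩)
    simp only [kzOf, Sum.elim_inl, Sum.elim_inr] at ha hb
    omega
  · have hne : (Sum.inl ⟨i, hi⟩ : D.Idx) ≠ Sum.inr ⟨D.negIdx.getD k 0, hn2⟩ := by simp
    have hne2 : (⟨D.negIdx.getD k 0, hn2⟩ : Fin D.nroots) ≠ ⟨k, hk2⟩ := by
      intro hh
      exact hn1 (congrArg Fin.val hh)
    have hent2 : (D.xMat F ⟨k, hk2⟩ t - 1) (Sum.inl ⟨i, hi⟩)
        (Sum.inr ⟨D.negIdx.getD k 0, hn2⟩) ≠ 0 := by
      rw [Matrix.sub_apply, Matrix.one_apply_ne hne, sub_zero,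
        xMat_entry_cor D ⟨k, hk2⟩ ⟨D.negIdx.getD k 0, hn2⟩ ⟨i, hi⟩ t hne2 rfl]
      rcases hc with hc | hc <;> simp [hc, htne]
    have h1 := hlv _ _ hent2
    have ha := hkey (Sum.inl ⟨i, hi⟩)
    have hb := hkey (Sum.inr ⟨D.negIdx.getD k 0, hn2⟩)
    have hng := fL_neg M.w adj L hk2
    unfold ChevalleyDatum.neg at hng
    simp only [kzOf, Sum.elim_inl, Sum.elim_inr] at ha hb
    omega

theorem Vk_unique {D : ChevalleyDatum} {adj : List (List ℤ)} {L : ℤ} (V : VOK D adj L)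
    {k : ℕ} (hk1 : D.nroots / 2 ≤ k) (hk2 : k < D.nroots) {t t' : F} {v v' : GL D.Idx F}
    (hv : v ∈ Vk D F (k + 1)) (hv' : v' ∈ Vk D F (k + 1))
    (e : xV D V.u.m.w.add k t * v = xV D V.u.m.w.add k t' * v') : t = t' ∧ v = v' := by
  have ha := V.u.m.w.add
  have h1 : xV D ha k (t - t') = v' * v⁻¹ := by
    rw [sub_eq_add_neg, add_comm, ← xV_add D ha hk2, ← xV_inv D ha hk2, eq_mul_inv_iff_mul_eq,
      mul_assoc, e, ← mul_assoc, inv_mul_cancel, one_mul]
  have h2 : xV D ha k (t - t') ∈ Vk D F (k + 1) := by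
    rw [h1]
    exact mul_mem hv' (inv_mem hv)
  have h3 := xV_not_mem_Vk V hk1 hk2 h2
  have h4 : t = t' := sub_eq_zero.mp h3
  subst h4
  exact ⟨rfl, mul_left_cancel e⟩

theorem card_Vk_succ [Fintype F] {D : ChevalleyDatum} {adj : List (List ℤ)} {L : ℤ}
    (V : VOK D adj L) (hcf : CF D F) {k : ℕ} (hk1 : D.nroots / 2 ≤ k) (hk2 : k < D.nroots) :
    Nat.card (Vk D F k) = Fintype.card F * Nat.card (Vk D F (k + 1)) := by
  have ha := V.u.m.w.add
  have hle := Vk_anti (F := F) D (Nat.le_succ k)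
  let φ : F × Vk D F (k + 1) → Vk D F k := fun p =>
    ⟨xV D ha k p.1 * p.2.1, mul_mem (xV_mem_Vk ha (le_refl k) hk2 p.1) (hle p.2.2)⟩
  have hbij : Function.Bijective φ := by
    constructor
    · rintro ⟨t, v, hv⟩ ⟨t', v', hv'⟩ e
      have e' : xV D ha k t * v = xV D ha k t' * v' := congrArg Subtype.val e
      obtain ⟨h1, h2⟩ := Vk_unique V hk1 hk2 hv hv' e'
      subst h1
      subst h2
      rfl
    · rintro ⟨g, hg⟩
      obtain ⟨t, v, hv, rfl⟩ := Vk_dec V hcf hk1 hk2 hg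
      exact ⟨(t, ⟨v, hv⟩), rfl⟩
  rw [← Nat.card_congr (Equiv.ofBijective φ hbij), Nat.card_prod, Nat.card_eq_fintype_card]

theorem card_Vk [Fintype F] {D : ChevalleyDatum} {adj : List (List ℤ)} {L : ℤ}
    (V : VOK D adj L) (hcf : CF D F) : ∀ j, j ≤ D.nroots - D.nroots / 2 →
      Nat.card (Vk D F (D.nroots - j)) = Fintype.card F ^ j := by
  intro j
  induction j with
  | zero =>
    intro _
    rw [Nat.sub_zero, Vk_top, pow_zero]
    exact Subgroup.card_bot
  | succ j ih =>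
    intro hj
    rw [card_Vk_succ V hcf (k := D.nroots - (j + 1)) (by omega) (by omega),
      show D.nroots - (j + 1) + 1 = D.nroots - j by omega, ih (by omega), pow_succ, mul_comm]

theorem card_posU [Fintype F] {D : ChevalleyDatum} {adj : List (List ℤ)} {L : ℤ}
    (V : VOK D adj L) (hcf : CF D F) :
    Nat.card (D.posUnipotent F) = Fintype.card F ^ (D.nroots / 2) := by
  have he : 2 * (D.nroots / 2) = D.nroots := Nat.eq_of_beq_eq_true V.even
  have h1 := card_Vk V hcf (D.nroots - D.nroots / 2) (le_refl _)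
  rw [show D.nroots - (D.nroots - D.nroots / 2) = D.nroots / 2 by omega, Vk_half V.u.m] at h1
  rw [h1]
  congr 1
  omega

end sem

end Cfsg.Agent.Helper7
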