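import Cfsg.Agent.Helper7.ChevSimple
import Cfsg.Agent.Helper7.ChevOrdU
import Cfsg.Agent.S0309
import Cfsg.Agent.S0312

set_option autoImplicit false
set_option linter.unusedSectionVars false
set_option linter.unusedVariables false
open Cfsg

namespace Cfsg.Agent.Helper7

open Cfsg.Lie

theorem dc_step {G : Type*} [Group G] [Finite G] (B : Subgroup G) (X Y Z : Set G)
    (hXY : ∀ x ∈ X, ∀ y ∈ Y, x * y ∈ Z)
    (hZ : ∀ z ∈ Z, ∃ x ∈ X, ∃ y ∈ Y, x * y = z)
    (hXB : ∀ x ∈ X, ∀ b ∈ B, x * b ∈ X)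
    (hBY : ∀ y ∈ Y, ∀ b ∈ B, b * y ∈ Y)
    (hfib : ∀ x ∈ X, ∀ x' ∈ X, ∀ y ∈ Y, ∀ y' ∈ Y, x * y = x' * y' → x⁻¹ * x' ∈ B) :
    Nat.card X * Nat.card Y = Nat.card B * Nat.card Z := by
  classical
  let μ : X × Y → Z := fun p => ⟨p.1.1 * p.2.1, hXY _ p.1.2 _ p.2.2⟩
  have hfiber : ∀ z : Z, Nat.card {p : X × Y // μ p = z} = Nat.card B := by
    intro z
    obtain ⟨x₀, hx₀, y₀, hy₀, hz⟩ := hZ z.1 z.2
    let φ : B → {p : X × Y // μ p = z} := fun b =>
      ⟨(⟨x₀ * b.1, hXB _ hx₀ _ b.2⟩, ⟨b.1⁻¹ * y₀, hBY _ hy₀ _ (inv_mem b.2)⟩), by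
        apply Subtype.ext
        show x₀ * b.1 * (b.1⁻¹ * y₀) = z.1
        rw [← hz]
        group⟩
    have hbij : Function.Bijective φ := by
      constructor
      · intro b b' e
        have e1 : x₀ * b.1 = x₀ * b'.1 :=
          congrArg (fun p : {p : X × Y // μ p = z} => (p.1.1.1 : G)) e
        exact Subtype.ext (mul_left_cancel e1)
      · rintro ⟨⟨⟨x, hx⟩, ⟨y, hy⟩⟩, hp⟩
        have hp' : x * y = z.1 := congrArg Subtype.val hp
        have hb : x₀⁻¹ * x ∈ B := hfib x₀ hx₀ x hx y₀ hy₀ y hy (by rw [hz, hp'])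
        refine ⟨⟨x₀⁻¹ * x, hb⟩, ?_⟩
        apply Subtype.ext
        apply Prod.ext
        · apply Subtype.ext
          show x₀ * (x₀⁻¹ * x) = x
          group
        · apply Subtype.ext
          show (x₀⁻¹ * x)⁻¹ * y₀ = y
          have e2 : y₀ = x₀⁻¹ * (x * y) := by
            rw [hp', ← hz]
            group
          rw [e2]
          group
    exact (Nat.card_congr (Equiv.ofBijective φ hbij)).symm
  have h1 : Nat.card (X × Y) = Nat.card (Σ z : Z, {p : X × Y // μ p = z}) :=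
    Nat.card_congr (Equiv.sigmaFiberEquiv μ).symm
  let _ : Fintype Z := Fintype.ofFinite Z
  rw [← Nat.card_prod, h1, Nat.card_sigma]
  simp only [hfiber]
  rw [Finset.sum_const, Finset.card_univ, smul_eq_mul, ← Nat.card_eq_fintype_card, mul_comm]

section sem

variable {F : Type*} [Field F]

def DC (D : ChevalleyDatum) (F : Type*) [Field F] (g : GL D.Idx F) : Set (GL D.Idx F) :=
  DoubleCoset.doubleCoset g (D.borelSubgroup F : Set (GL D.Idx F)) (D.borelSubgroup F)

theorem mem_DC {D : ChevalleyDatum} {g x : GL D.Idx F} :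
    x ∈ DC D F g ↔ ∃ b₁ ∈ D.borelSubgroup F, ∃ b₂ ∈ D.borelSubgroup F, x = b₁ * g * b₂ := by
  unfold DC
  rw [DoubleCoset.mem_doubleCoset]
  rfl

theorem DC_one (D : ChevalleyDatum) :
    DC D F (1 : GL D.Idx F) = (D.borelSubgroup F : Set (GL D.Idx F)) := by
  ext x
  rw [mem_DC]
  constructor
  · rintro ⟨b₁, hb₁, b₂, hb₂, rfl⟩
    rw [mul_one]
    exact mul_mem hb₁ hb₂
  · intro hx
    exact ⟨x, hx, 1, one_mem _, by rw [mul_one, mul_one]⟩

theorem bruhat_unique {D : ChevalleyDatum} (U : UOK D) (hcf : CF D F) {n n' : GL D.Idx F}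
    (hn : n ∈ D.monomialSubgroup F) (hn' : n' ∈ D.monomialSubgroup F)
    {b₁ b₂ : GL D.Idx F} (hb₁ : b₁ ∈ D.borelSubgroup F) (hb₂ : b₂ ∈ D.borelSubgroup F)
    (e : n' = b₁ * n * b₂) : n⁻¹ * n' ∈ D.borelSubgroup F := by
  have M := U.m
  obtain ⟨hBG, hNG, hsup⟩ := borel_mon_group (F := F) M
  obtain ⟨P, hPB, hPN, hPS⟩ := chev_bn U hcf
  have h1 : (⟨n, hNG hn⟩ : ↥(D.group F)) ∈ P.N := by
    rw [hPN, Subgroup.mem_subgroupOf]
    exact hn
  have h2 : (⟨n', hNG hn'⟩ : ↥(D.group F)) ∈ P.N := by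
    rw [hPN, Subgroup.mem_subgroupOf]
    exact hn'
  have h3 := (Cfsg.Agent.S0309.result P h1 h2).mp (by
    symm
    apply DoubleCoset.doubleCoset_eq_of_mem
    rw [DoubleCoset.mem_doubleCoset]
    refine ⟨⟨b₁, hBG hb₁⟩, ?_, ⟨b₂, hBG hb₂⟩, ?_, ?_⟩
    · show _ ∈ P.B
      rw [hPB, Subgroup.mem_subgroupOf]
      exact hb₁
    · show _ ∈ P.B
      rw [hPB, Subgroup.mem_subgroupOf]
      exact hb₂
    · exact Subtype.ext e)
  rw [hPB, Subgroup.mem_subgroupOf] at h3
  exact h3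

theorem normalizer_borel_mem {D : ChevalleyDatum} (U : UOK D) (hcf : CF D F) {m : GL D.Idx F}
    (hm : m ∈ D.group F)
    (hnorm : m ∈ Subgroup.normalizer (D.borelSubgroup F : Set (GL D.Idx F))) :
    m ∈ D.borelSubgroup F := by
  obtain ⟨hBG, hNG, hsup⟩ := borel_mon_group (F := F) U.m
  obtain ⟨P, hPB, hPN, hPS⟩ := chev_bn U hcf
  have h := Cfsg.Agent.S0312.result P (J := ∅) (Set.empty_subset _)
  have e : P.parabolic ∅ = P.B := by
    unfold Cfsg.BNPair.parabolic
    rw [Subgroup.closure_empty, sup_bot_eq]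
  rw [e] at h
  have h1 : (⟨m, hm⟩ : ↥(D.group F)) ∈ Subgroup.normalizer (P.B : Set ↥(D.group F)) := by
    rw [Subgroup.mem_normalizer_iff]
    intro x
    rw [hPB]
    exact (Subgroup.mem_normalizer_iff.mp hnorm) x.1
  rw [h, hPB, Subgroup.mem_subgroupOf] at h1
  exact h1

theorem Up_le_posU (D : ChevalleyDatum) (i : ℕ) : Up D F i ≤ D.posUnipotent F := by
  unfold Up
  rw [Subgroup.closure_le]
  rintro g ⟨s, t, hs, _, hg⟩
  exact Subgroup.subset_closure ⟨s, t, hs, hg⟩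

theorem torus_le_borel {D : ChevalleyDatum} (W : WOK D) : torus D F ≤ D.borelSubgroup F := by
  rw [← diag_eq_torus W]
  exact le_sup_right

theorem nV_inv_eq {D : ChevalleyDatum} (M : MOK D) {i : ℕ} (hi : i < D.rank) :
    ∃ h ∈ torus D F, (nV D M.w.add (D.simple i) (1 : F))⁻¹ =
      nV D M.w.add (D.simple i) (1 : F) * h := by
  obtain ⟨hp, hnp⟩ := simple_lt M.w.fd M.w.n hi
  have h1 := nV_sq_mem (F := F) M hp
  rw [diag_eq_torus M.w] at h1
  exact ⟨_, inv_mem h1, by group⟩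

theorem borel_split {D : ChevalleyDatum} (U : UOK D) (hcf : CF D F) {i : ℕ} (hi : i < D.rank)
    {b : GL D.Idx F} (hb : b ∈ D.borelSubgroup F) :
    ∃ c ∈ D.borelSubgroup F, ∃ t : F, b = c * xV D U.m.w.add (D.simple i) t ∧
      nV D U.m.w.add (D.simple i) (1 : F) * c * (nV D U.m.w.add (D.simple i) (1 : F))⁻¹ ∈
        D.borelSubgroup F := by
  have M := U.m
  obtain ⟨hp, hnp, hpos, hnegp⟩ := simple_facts M hi
  obtain ⟨u, hu, h, hh, rfl⟩ := borel_dec M.w hb
  obtain ⟨u', hu', t, rfl⟩ := U_dec U hcf hi hu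
  have hUB : D.posUnipotent F ≤ D.borelSubgroup F := le_sup_left
  have hHB := torus_le_borel (F := F) M.w
  obtain ⟨z, rfl⟩ := hh
  have e1 := DgU_xV (F := F) M.w (fun j => (z j)⁻¹) hp t
  have e2 : DgU D (chi D fun j => (z j)⁻¹) = (DgU D (chi D z) : GL D.Idx F)⁻¹ := by
    rw [DgU_inv]
    exact DgU_congr D (fun s _ => chi_inv D z s)
  rw [e2] at e1
  refine ⟨u' * DgU D (chi D z), mul_mem (hUB (Up_le_posU D i hu')) (hHB ⟨z, rfl⟩),
    ((chi D (fun j => (z j)⁻¹) (D.simple i) : Fˣ) : F) * t, ?_, ?_⟩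
  · have e3 : xV D U.m.w.add (D.simple i) t * DgU D (chi D z) =
        DgU D (chi D z) * xV D U.m.w.add (D.simple i)
          (((chi D (fun j => (z j)⁻¹) (D.simple i) : Fˣ) : F) * t) := by
      calc xV D U.m.w.add (D.simple i) t * DgU D (chi D z)
          = DgU D (chi D z) * ((DgU D (chi D z))⁻¹ * xV D U.m.w.add (D.simple i) t) *
              DgU D (chi D z) := by group
        _ = DgU D (chi D z) * (xV D U.m.w.add (D.simple i)
              (((chi D (fun j => (z j)⁻¹) (D.simple i) : Fˣ) : F) * t) *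
              (DgU D (chi D z))⁻¹) * DgU D (chi D z) := by rw [e1]
        _ = DgU D (chi D z) * xV D U.m.w.add (D.simple i)
              (((chi D (fun j => (z j)⁻¹) (D.simple i) : Fˣ) : F) * t) := by group
    rw [mul_assoc, e3, mul_assoc]
  · have e4 : nV D U.m.w.add (D.simple i) (1 : F) * (u' * DgU D (chi D z)) *
        (nV D U.m.w.add (D.simple i) (1 : F))⁻¹ =
        (nV D U.m.w.add (D.simple i) (1 : F) * u' * (nV D U.m.w.add (D.simple i) (1 : F))⁻¹) *
        (nV D U.m.w.add (D.simple i) (1 : F) * DgU D (chi D z) *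
          (nV D U.m.w.add (D.simple i) (1 : F))⁻¹) := by group
    rw [e4]
    exact mul_mem (hUB (nconj_Up U hi u' hu'))
      (hHB ((Subgroup.mem_normalizer_iff.mp (nV_simple_normalizes M hi) _).mp ⟨z, rfl⟩))

theorem nV_not_mem_borel {D : ChevalleyDatum} (M : MOK D) {i : ℕ} (hi : i < D.rank) :
    nV D M.w.add (D.simple i) (1 : F) ∉ D.borelSubgroup F := by
  obtain ⟨hp, hnp, hpos, hnegp⟩ := simple_facts M hi
  have h := word_not_mem_borel (F := F) M [i] (by simpa using hi)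
    ((isPos_iff M hp).mpr hpos) (by
      show fw D i (D.simple i) < D.nroots / 2
      rw [fw_simple M hi]
      exact hnegp)
  have e : nWordU D M.w.add [i] = nV D M.w.add (D.simple i) (1 : F) := by
    simp [nWordU]
  rw [e] at h
  exact h

theorem DC_mul_mem {D : ChevalleyDatum} (U : UOK D) (hcf : CF D F) {a : ℕ} (ha : a < D.rank)
    {g : GL D.Idx F}
    (hpos : ∀ t : F, g⁻¹ * xV D U.m.w.add (D.simple a) t * g ∈ D.borelSubgroup F)
    {x y : GL D.Idx F} (hx : x ∈ DC D F (nV D U.m.w.add (D.simple a) (1 : F)))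
    (hy : y ∈ DC D F g) : x * y ∈ DC D F (nV D U.m.w.add (D.simple a) (1 : F) * g) := by
  rw [mem_DC] at hx hy ⊢
  obtain ⟨b₁, hb₁, b₂, hb₂, rfl⟩ := hx
  obtain ⟨b₃, hb₃, b₄, hb₄, rfl⟩ := hy
  obtain ⟨c, hc, t, e, hcn⟩ := borel_split U hcf ha (mul_mem hb₂ hb₃)
  refine ⟨b₁ * (nV D U.m.w.add (D.simple a) (1 : F) * c *
      (nV D U.m.w.add (D.simple a) (1 : F))⁻¹), mul_mem hb₁ hcn,
    g⁻¹ * xV D U.m.w.add (D.simple a) t * g * b₄, mul_mem (hpos t) hb₄, ?_⟩
  have e' : b₁ * nV D U.m.w.add (D.simple a) (1 : F) * b₂ * (b₃ * g * b₄) =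
      b₁ * nV D U.m.w.add (D.simple a) (1 : F) * (b₂ * b₃) * g * b₄ := by group
  rw [e', e]
  group

theorem card_dc_simple [Fintype F] {D : ChevalleyDatum} (U : UOK D) (hcf : CF D F) {a : ℕ}
    (ha : a < D.rank) :
    Nat.card (DC D F (nV D U.m.w.add (D.simple a) (1 : F))) =
      Fintype.card F * Nat.card (D.borelSubgroup F) := by
  have M := U.m
  obtain ⟨hp, hnp, hpos, hnegp⟩ := simple_facts M ha
  have hUB : D.posUnipotent F ≤ D.borelSubgroup F := le_sup_left
  have hHB := torus_le_borel (F := F) M.w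
  obtain ⟨h₀, hh₀, en⟩ := nV_inv_eq (F := F) M ha
  have hxB : ∀ t : F, xV D U.m.w.add (D.simple a) t ∈ D.borelSubgroup F := fun t =>
    hUB (xV_mem_posU U.m.w.add ((isPos_iff M hp).mpr hpos) t)
  let φ : F × D.borelSubgroup F → DC D F (nV D U.m.w.add (D.simple a) (1 : F)) := fun p =>
    ⟨xV D U.m.w.add (D.simple a) p.1 * (nV D U.m.w.add (D.simple a) (1 : F))⁻¹ * p.2.1, by
      rw [mem_DC]
      exact ⟨_, hxB p.1, h₀ * p.2.1, mul_mem (hHB hh₀) p.2.2, by rw [en]; group⟩⟩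
  have hbij : Function.Bijective φ := by
    constructor
    · rintro ⟨t, b, hb⟩ ⟨t', b', hb'⟩ e
      have e1 : xV D U.m.w.add (D.simple a) t * (nV D U.m.w.add (D.simple a) (1 : F))⁻¹ * b =
          xV D U.m.w.add (D.simple a) t' * (nV D U.m.w.add (D.simple a) (1 : F))⁻¹ * b' :=
        congrArg Subtype.val e
      have e2 : nV D U.m.w.add (D.simple a) (1 : F) * xV D U.m.w.add (D.simple a) (t - t') *
          (nV D U.m.w.add (D.simple a) (1 : F))⁻¹ = b' * b⁻¹ := by
        rw [sub_eq_add_neg, add_comm, ← xV_add D U.m.w.add hp, ← xV_inv D U.m.w.add hp]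
        have e3 : xV D U.m.w.add (D.simple a) t =
            xV D U.m.w.add (D.simple a) t' * (nV D U.m.w.add (D.simple a) (1 : F))⁻¹ * b' * b⁻¹ *
              nV D U.m.w.add (D.simple a) (1 : F) := by
          rw [← e1]
          group
        rw [e3]
        group
      rw [xV_conj M ha hp, fw_simple M ha] at e2
      have h3 : xV D U.m.w.add (D.neg (D.simple a)) (((nsgn D a (D.simple a) : ℤ) : F) * (t - t')) ∈
          D.borelSubgroup F := by
        rw [e2]
        exact mul_mem hb' (inv_mem hb)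
      have h4 : ((nsgn D a (D.simple a) : ℤ) : F) * (t - t') = 0 := by
        by_contra hne
        exact xV_neg_simple_not_mem M ha hne h3
      have h5 : t - t' = 0 := by
        rcases mul_eq_zero.mp h4 with h6 | h6
        · exact absurd (by rw [h6, zero_mul]) (sgn_ne_zero (F := F) D a (D.simple a))
        · exact h6
      have h7 : t = t' := sub_eq_zero.mp h5
      subst h7
      have h8 : b = b' := mul_left_cancel e1
      subst h8
      rfl
    · rintro ⟨y, hy⟩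
      rw [mem_DC] at hy
      obtain ⟨b₁, hb₁, b₂, hb₂, rfl⟩ := hy
      obtain ⟨c, hc, t, e, hcn⟩ := borel_split U hcf ha (inv_mem hb₁)
      refine ⟨(-t, ⟨(nV D U.m.w.add (D.simple a) (1 : F) * c *
          (nV D U.m.w.add (D.simple a) (1 : F))⁻¹)⁻¹ * h₀⁻¹ * b₂,
        mul_mem (mul_mem (inv_mem hcn) (inv_mem (hHB hh₀))) hb₂⟩), ?_⟩
      apply Subtype.ext
      show xV D U.m.w.add (D.simple a) (-t) * (nV D U.m.w.add (D.simple a) (1 : F))⁻¹ *
        ((nV D U.m.w.add (D.simple a) (1 : F) * c *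
          (nV D U.m.w.add (D.simple a) (1 : F))⁻¹)⁻¹ * h₀⁻¹ * b₂) =
        b₁ * nV D U.m.w.add (D.simple a) (1 : F) * b₂
      have e5 : b₁ = xV D U.m.w.add (D.simple a) (-t) * c⁻¹ := by
        rw [← xV_inv D U.m.w.add hp, ← mul_inv_rev, ← e, inv_inv]
      have e6 : h₀ = (nV D U.m.w.add (D.simple a) (1 : F))⁻¹ *
          (nV D U.m.w.add (D.simple a) (1 : F))⁻¹ := by
        calc h₀ = (nV D U.m.w.add (D.simple a) (1 : F))⁻¹ *
              (nV D U.m.w.add (D.simple a) (1 : F) * h₀) := by group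
          _ = (nV D U.m.w.add (D.simple a) (1 : F))⁻¹ *
              (nV D U.m.w.add (D.simple a) (1 : F))⁻¹ := by rw [← en]
      rw [e5, e6]
      group
  rw [← Nat.card_congr (Equiv.ofBijective φ hbij), Nat.card_prod, Nat.card_eq_fintype_card]

theorem mon_normalizes_torus {D : ChevalleyDatum} (M : MOK D) {g : GL D.Idx F}
    (hg : g ∈ D.monomialSubgroup F) :
    g ∈ Subgroup.normalizer (torus D F : Set (GL D.Idx F)) :=
  monomial_le M _ Subgroup.le_normalizer (fun i hi => nV_simple_normalizes M hi) hg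

theorem left_step [Fintype F] {D : ChevalleyDatum} (U : UOK D) (hcf : CF D F) {a : ℕ}
    (ha : a < D.rank) {g : GL D.Idx F} (hg : g ∈ D.monomialSubgroup F)
    (hpos : ∀ t : F, g⁻¹ * xV D U.m.w.add (D.simple a) t * g ∈ D.borelSubgroup F) :
    Nat.card (DC D F (nV D U.m.w.add (D.simple a) (1 : F) * g)) =
      Fintype.card F * Nat.card (DC D F g) := by
  have M := U.m
  obtain ⟨hp, hnp, hposa, hnegp⟩ := simple_facts M ha
  have hnN := nV_simple_mem_mon (F := F) M ha
  have key := dc_step (D.borelSubgroup F) (DC D F (nV D U.m.w.add (D.simple a) (1 : F)))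
    (DC D F g) (DC D F (nV D U.m.w.add (D.simple a) (1 : F) * g))
    (fun x hx y hy => DC_mul_mem U hcf ha hpos hx hy)
    (by
      intro z hz
      rw [mem_DC] at hz
      obtain ⟨b₁, hb₁, b₂, hb₂, rfl⟩ := hz
      refine ⟨b₁ * nV D U.m.w.add (D.simple a) (1 : F), ?_, g * b₂, ?_, by group⟩
      · rw [mem_DC]
        exact ⟨b₁, hb₁, 1, one_mem _, by rw [mul_one]⟩
      · rw [mem_DC]
        exact ⟨1, one_mem _, b₂, hb₂, by rw [one_mul]⟩)
    (by
      intro x hx b hb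
      rw [mem_DC] at hx ⊢
      obtain ⟨b₁, hb₁, b₂, hb₂, rfl⟩ := hx
      exact ⟨b₁, hb₁, b₂ * b, mul_mem hb₂ hb, by group⟩)
    (by
      intro y hy b hb
      rw [mem_DC] at hy ⊢
      obtain ⟨b₁, hb₁, b₂, hb₂, rfl⟩ := hy
      exact ⟨b * b₁, mul_mem hb hb₁, b₂, hb₂, by group⟩)
    (by
      intro x hx x' hx' y hy y' hy' e
      obtain ⟨Pa, hPa⟩ := rank1_parabolic U hcf ha (nV D U.m.w.add (D.simple a) (1 : F))
        (nV_val D U.m.w.add hp hnp 1)
      have hxP : x ∈ Pa := by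
        have hh : x ∈ (Pa : Set (GL D.Idx F)) := by
          rw [hPa]
          exact Or.inr hx
        exact hh
      have hx'P : x' ∈ Pa := by
        have hh : x' ∈ (Pa : Set (GL D.Idx F)) := by
          rw [hPa]
          exact Or.inr hx'
        exact hh
      have h1 : x⁻¹ * x' ∈ (Pa : Set (GL D.Idx F)) := Pa.mul_mem (Pa.inv_mem hxP) hx'P
      rw [hPa] at h1
      rcases h1 with h1 | h1
      · exact h1
      · exfalso
        have ey : y = x⁻¹ * x' * y' := by
          rw [mul_assoc, ← e]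
          group
        have h2 : y ∈ DC D F (nV D U.m.w.add (D.simple a) (1 : F) * g) := by
          rw [ey]
          exact DC_mul_mem U hcf ha hpos h1 hy'
        rw [mem_DC] at h2 hy
        obtain ⟨b₁, hb₁, b₂, hb₂, e1⟩ := h2
        obtain ⟨b₃, hb₃, b₄, hb₄, e2⟩ := hy
        have h3 := bruhat_unique U hcf hg (mul_mem hnN hg) (b₁ := b₁⁻¹ * b₃) (b₂ := b₄ * b₂⁻¹)
          (mul_mem (inv_mem hb₁) hb₃) (mul_mem hb₄ (inv_mem hb₂)) (by
            have e3 : b₁ * (nV D U.m.w.add (D.simple a) (1 : F) * g) * b₂ = b₃ * g * b₄ := by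
              rw [← e1, ← e2]
            calc nV D U.m.w.add (D.simple a) (1 : F) * g
                = b₁⁻¹ * (b₁ * (nV D U.m.w.add (D.simple a) (1 : F) * g) * b₂) * b₂⁻¹ := by group
              _ = b₁⁻¹ * b₃ * g * (b₄ * b₂⁻¹) := by
                rw [e3]
                group)
        have h4 : g⁻¹ * (nV D U.m.w.add (D.simple a) (1 : F) * g) ∈
            D.borelSubgroup F ⊓ D.monomialSubgroup F :=
          Subgroup.mem_inf.mpr ⟨h3, mul_mem (inv_mem hg) (mul_mem hnN hg)⟩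
        rw [borel_inf_mon M, diag_eq_torus M.w] at h4
        have h5 := (Subgroup.mem_normalizer_iff.mp (mon_normalizes_torus M hg) _).mp h4
        have h6 : g * (g⁻¹ * (nV D U.m.w.add (D.simple a) (1 : F) * g)) * g⁻¹ =
            nV D U.m.w.add (D.simple a) (1 : F) := by group
        rw [h6] at h5
        exact nV_not_mem_borel M ha (torus_le_borel M.w h5))
  rw [card_dc_simple U hcf ha] at key
  have hBpos : 0 < Nat.card (D.borelSubgroup F) := Nat.card_pos
  apply Nat.eq_of_mul_eq_mul_left hBpos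
  rw [← key]
  ring

theorem wApply_append (D : ChevalleyDatum) (l l' : List ℕ) (s : ℕ) :
    wApply D (l ++ l') s = wApply D l (wApply D l' s) := by
  unfold wApply
  rw [List.foldr_append]

theorem wApply_cons (D : ChevalleyDatum) (a : ℕ) (l : List ℕ) (s : ℕ) :
    wApply D (a :: l) s = fw D a (wApply D l s) := rfl

theorem wApply_reverse_cancel {D : ChevalleyDatum} (hn : nOK D = true) :
    ∀ (w : List ℕ), (∀ i ∈ w, i < D.rank) → ∀ s < D.nroots,
      wApply D w (wApply D w.reverse s) = s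
  | [], _, s, _ => rfl
  | a :: w, hw, s, hs => by
    have ha := hw a List.mem_cons_self
    rw [List.reverse_cons, wApply_append, wApply_cons]
    have h1 : wApply D [a] s = fw D a s := rfl
    rw [h1, wApply_reverse_cancel hn w (fun i hi => hw i (List.mem_cons_of_mem _ hi)) _
      (w_facts hn ha hs).1]
    exact (w_facts hn ha hs).2.2.1

theorem wApply_reverse_cancel' {D : ChevalleyDatum} (hn : nOK D = true) (w : List ℕ)
    (hw : ∀ i ∈ w, i < D.rank) {s : ℕ} (hs : s < D.nroots) :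
    wApply D w.reverse (wApply D w s) = s := by
  have h := wApply_reverse_cancel hn w.reverse (fun i hi => hw i (List.mem_reverse.mp hi)) s hs
  rw [List.reverse_reverse] at h
  exact h

inductive LInc (D : ChevalleyDatum) : List ℕ → Prop
  | nil : LInc D []
  | cons (a : ℕ) (w : List ℕ) : LInc D w → a < D.rank →
      D.nroots / 2 ≤ wApply D w.reverse (D.simple a) → LInc D (a :: w)

theorem LInc.lt {D : ChevalleyDatum} {w : List ℕ} (h : LInc D w) : ∀ i ∈ w, i < D.rank := by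
  induction h with
  | nil => intro i hi; exact absurd hi List.not_mem_nil
  | cons a w _ ha _ ih =>
    intro i hi
    rcases List.mem_cons.mp hi with rfl | hi
    · exact ha
    · exact ih i hi

theorem inv_conj_pos {D : ChevalleyDatum} (M : MOK D) (w : List ℕ) (hw : ∀ i ∈ w, i < D.rank)
    {s : ℕ} (hs : s < D.nroots) (hpos : D.nroots / 2 ≤ wApply D w.reverse s) (t : F) :
    (nWordU D M.w.add w)⁻¹ * xV D M.w.add s t * nWordU D M.w.add w ∈ D.posUnipotent F := by
  have hr : wApply D w.reverse s < D.nroots :=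
    wApply_lt M.w.n w.reverse (fun i hi => hw i (List.mem_reverse.mp hi)) hs
  obtain ⟨ε, hε, h1⟩ := long_conj (F := F) M w hw hr
  have h2 := h1 (ε * t)
  rw [wApply_reverse_cancel M.w.n w hw s hs] at h2
  have hεε : ε * (ε * t) = t := by
    rcases hε with h | h <;> rw [h] <;> ring
  rw [hεε] at h2
  rw [← h2]
  have e : (nWordU D M.w.add w)⁻¹ * (nWordU D M.w.add w *
      xV D M.w.add (wApply D w.reverse s) (ε * t) * (nWordU D M.w.add w)⁻¹) *
      nWordU D M.w.add w = xV D M.w.add (wApply D w.reverse s) (ε * t) := by group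
  rw [e]
  exact xV_mem_posU M.w.add ((isPos_iff M hr).mpr hpos) _

theorem card_dc_word [Fintype F] {D : ChevalleyDatum} (U : UOK D) (hcf : CF D F) {w : List ℕ}
    (h : LInc D w) :
    Nat.card (DC D F (nWordU D U.m.w.add w)) =
      Fintype.card F ^ w.length * Nat.card (D.borelSubgroup F) := by
  induction h with
  | nil =>
    have e : nWordU D U.m.w.add [] = (1 : GL D.Idx F) := by simp [nWordU]
    rw [e, DC_one, List.length_nil, pow_zero, one_mul]
    rfl
  | cons a w hw ha hpos ih =>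
    have e : nWordU D U.m.w.add (a :: w) =
        nV D U.m.w.add (D.simple a) (1 : F) * nWordU D U.m.w.add w := by simp [nWordU]
    rw [e, left_step U hcf ha (nWordU_mem_mon U.m w hw.lt) (fun t =>
      (le_sup_left : D.posUnipotent F ≤ D.borelSubgroup F)
        (inv_conj_pos U.m w hw.lt (simple_lt U.m.w.fd U.m.w.n ha).1 hpos t)), ih,
      List.length_cons, pow_succ]
    ring

theorem conj_pair {D : ChevalleyDatum} (M : MOK D) (w w' : List ℕ) (hw : ∀ i ∈ w, i < D.rank)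
    (hw' : ∀ i ∈ w', i < D.rank) (h : ∀ r < D.nroots, wApply D w r = wApply D w' r) {r : ℕ}
    (hr : r < D.nroots) (t : F) :
    ∃ t' : F, (nWordU D M.w.add w')⁻¹ * nWordU D M.w.add w * xV D M.w.add r t *
      ((nWordU D M.w.add w')⁻¹ * nWordU D M.w.add w)⁻¹ = xV D M.w.add r t' := by
  obtain ⟨ε, hε, h1⟩ := long_conj (F := F) M w hw hr
  obtain ⟨ε', hε', h2⟩ := long_conj (F := F) M w' hw' hr
  refine ⟨ε' * (ε * t), ?_⟩
  have h3 := h2 (ε' * (ε * t))
  have hεε : ε' * (ε' * (ε * t)) = ε * t := by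
    rcases hε' with h | h <;> rw [h] <;> ring
  rw [hεε, ← h r hr, ← h1 t] at h3
  calc (nWordU D M.w.add w')⁻¹ * nWordU D M.w.add w * xV D M.w.add r t *
        ((nWordU D M.w.add w')⁻¹ * nWordU D M.w.add w)⁻¹
      = (nWordU D M.w.add w')⁻¹ * (nWordU D M.w.add w * xV D M.w.add r t *
          (nWordU D M.w.add w)⁻¹) * nWordU D M.w.add w' := by group
    _ = (nWordU D M.w.add w')⁻¹ * (nWordU D M.w.add w' * xV D M.w.add r (ε' * (ε * t)) *
          (nWordU D M.w.add w')⁻¹) * nWordU D M.w.add w' := by rw [h3]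
    _ = xV D M.w.add r (ε' * (ε * t)) := by group

theorem conj_borel {D : ChevalleyDatum} (M : MOK D) {m : GL D.Idx F}
    (hmN : m ∈ D.monomialSubgroup F)
    (hU : ∀ u ∈ D.posUnipotent F, m * u * m⁻¹ ∈ D.posUnipotent F) :
    ∀ b ∈ D.borelSubgroup F, m * b * m⁻¹ ∈ D.borelSubgroup F := by
  intro b hb
  obtain ⟨u, hu, h, hh, rfl⟩ := borel_dec M.w hb
  have e : m * (u * h) * m⁻¹ = (m * u * m⁻¹) * (m * h * m⁻¹) := by group
  rw [e]
  exact mul_mem ((le_sup_left : D.posUnipotent F ≤ D.borelSubgroup F) (hU u hu))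
    (torus_le_borel M.w ((Subgroup.mem_normalizer_iff.mp (mon_normalizes_torus M hmN) h).mp hh))

theorem same_act_mem {D : ChevalleyDatum} (U : UOK D) (hcf : CF D F) (w w' : List ℕ)
    (hw : ∀ i ∈ w, i < D.rank) (hw' : ∀ i ∈ w', i < D.rank)
    (h : ∀ r < D.nroots, wApply D w r = wApply D w' r) :
    (nWordU D U.m.w.add w')⁻¹ * nWordU D U.m.w.add w ∈ D.diagonalSubgroup F := by
  have M := U.m
  obtain ⟨hBG, hNG, hsup⟩ := borel_mon_group (F := F) M
  have hmN : (nWordU D U.m.w.add w')⁻¹ * nWordU D U.m.w.add w ∈ D.monomialSubgroup F :=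
    mul_mem (inv_mem (nWordU_mem_mon M w' hw')) (nWordU_mem_mon M w hw)
  have hmN' : (nWordU D U.m.w.add w)⁻¹ * nWordU D U.m.w.add w' ∈ D.monomialSubgroup F :=
    mul_mem (inv_mem (nWordU_mem_mon M w hw)) (nWordU_mem_mon M w' hw')
  have hU1 : ∀ u ∈ D.posUnipotent F, (nWordU D U.m.w.add w')⁻¹ * nWordU D U.m.w.add w * u *
      ((nWordU D U.m.w.add w')⁻¹ * nWordU D U.m.w.add w)⁻¹ ∈ D.posUnipotent F := by
    apply conj_closure
    rintro x ⟨r, t, hr, hx⟩
    have ex : x = xV D U.m.w.add r t := Units.ext (by rw [hx, xV_val])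
    obtain ⟨t', ht'⟩ := conj_pair (F := F) M w w' hw hw' h hr.1 t
    rw [ex, ht']
    exact xV_mem_posU U.m.w.add hr _
  have hU2 : ∀ u ∈ D.posUnipotent F, (nWordU D U.m.w.add w)⁻¹ * nWordU D U.m.w.add w' * u *
      ((nWordU D U.m.w.add w)⁻¹ * nWordU D U.m.w.add w')⁻¹ ∈ D.posUnipotent F := by
    apply conj_closure
    rintro x ⟨r, t, hr, hx⟩
    have ex : x = xV D U.m.w.add r t := Units.ext (by rw [hx, xV_val])
    obtain ⟨t', ht'⟩ := conj_pair (F := F) M w' w hw' hw (fun r hr => (h r hr).symm) hr.1 t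
    rw [ex, ht']
    exact xV_mem_posU U.m.w.add hr _
  have hB1 := conj_borel M hmN hU1
  have hB2 := conj_borel M hmN' hU2
  have hnorm : (nWordU D U.m.w.add w')⁻¹ * nWordU D U.m.w.add w ∈
      Subgroup.normalizer (D.borelSubgroup F : Set (GL D.Idx F)) := by
    rw [Subgroup.mem_normalizer_iff]
    intro b
    constructor
    · exact hB1 b
    · intro hb
      have h1 := hB2 _ hb
      have e : (nWordU D U.m.w.add w)⁻¹ * nWordU D U.m.w.add w' *
          ((nWordU D U.m.w.add w')⁻¹ * nWordU D U.m.w.add w * b *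
            ((nWordU D U.m.w.add w')⁻¹ * nWordU D U.m.w.add w)⁻¹) *
          ((nWordU D U.m.w.add w)⁻¹ * nWordU D U.m.w.add w')⁻¹ = b := by group
      rw [e] at h1
      exact h1
  have hB := normalizer_borel_mem U hcf (hNG hmN) hnorm
  rw [← borel_inf_mon M]
  exact Subgroup.mem_inf.mpr ⟨hB, hmN⟩

def unitAllOK (D : ChevalleyDatum) : Bool :=
  (List.range D.nroots).all fun r =>
    (List.range D.rank).any fun i =>
      decide (fcar D i r = 1) || decide (fcar D i r = -1) ||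
        decide (fcor D r i = 1) || decide (fcor D r i = -1)

theorem unitAllOK_spec {D : ChevalleyDatum} (h : fdOK D = true) (hu : unitAllOK D = true) {r : ℕ}
    (hr : r < D.nroots) :
    ∃ i < D.rank, (D.cartan i r = 1 ∨ D.cartan i r = -1) ∨ (cor D r i = 1 ∨ cor D r i = -1) := by
  unfold unitAllOK at hu
  rw [List.all_eq_true] at hu
  have h1 := hu r (List.mem_range.mpr hr)
  rw [List.any_eq_true] at h1
  obtain ⟨i, hi, h2⟩ := h1
  simp only [Bool.or_eq_true, decide_eq_true_eq, fcar_eq h, fcor_eq h] at h2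
  refine ⟨i, List.mem_range.mp hi, ?_⟩
  unfold cor
  tauto

theorem xMat_entry_car_ne (D : ChevalleyDatum) (r s : Fin D.nroots) (i : Fin D.rank) (t : F)
    (h : s ≠ r) : D.xMat F r t (Sum.inr s) (Sum.inl i) = 0 := by
  simp [ChevalleyDatum.xMat, h]

theorem xMat_entry_cor_ne (D : ChevalleyDatum) (r s : Fin D.nroots) (i : Fin D.rank) (t : F)
    (h : s.val ≠ D.negIdx.getD r.val 0) : D.xMat F r t (Sum.inl i) (Sum.inr s) = 0 := by
  by_cases hs : s = r
  · simp [ChevalleyDatum.xMat, hs]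
  · simp only [ChevalleyDatum.xMat, Matrix.of_apply]
    rw [if_neg hs, if_neg h]

theorem xV_root_inj {D : ChevalleyDatum} (M : MOK D) (hu : unitAllOK D = true)
    (hninv : negInvOK D = true) {a b : ℕ} (ha : a < D.nroots) (hb : b < D.nroots) {u u' : F}
    (hu0 : u ≠ 0) (e : xV D M.w.add a u = xV D M.w.add b u') : a = b := by
  by_contra hab
  have e1 := congrArg Units.val e
  rw [xV_val, xV_val, x_of_lt D F ha, x_of_lt D F hb] at e1
  obtain ⟨i, hi, hc⟩ := unitAllOK_spec M.w.fd hu ha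
  obtain ⟨hn1, hn2⟩ := negOK_spec M.neg ha
  have habF : (⟨a, ha⟩ : Fin D.nroots) ≠ ⟨b, hb⟩ := fun hh => hab (congrArg Fin.val hh)
  rcases hc with hc | hc
  · have e2 := congrFun (congrFun e1 (Sum.inr ⟨a, ha⟩)) (Sum.inl ⟨i, hi⟩)
    rw [xMat_entry_car, xMat_entry_car_ne D ⟨b, hb⟩ ⟨a, ha⟩ ⟨i, hi⟩ u' habF] at e2
    rcases hc with hc | hc <;> simp [hc, hu0] at e2
  · have hne2 : (⟨D.negIdx.getD a 0, hn2⟩ : Fin D.nroots) ≠ ⟨a, ha⟩ := fun hh =>
      hn1 (congrArg Fin.val hh)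
    have e2 := congrFun (congrFun e1 (Sum.inl ⟨i, hi⟩)) (Sum.inr ⟨D.negIdx.getD a 0, hn2⟩)
    have hne3 : D.negIdx.getD a 0 ≠ D.negIdx.getD b 0 := by
      intro hh
      apply hab
      have h1 := neg_neg_root M.w.fd hninv ha
      have h2 := neg_neg_root M.w.fd hninv hb
      unfold ChevalleyDatum.neg at h1 h2
      rw [← h1, ← h2, hh]
    rw [xMat_entry_cor D ⟨a, ha⟩ ⟨D.negIdx.getD a 0, hn2⟩ ⟨i, hi⟩ u hne2 rfl,
      xMat_entry_cor_ne D ⟨b, hb⟩ ⟨D.negIdx.getD a 0, hn2⟩ ⟨i, hi⟩ u' hne3] at e2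
    rcases hc with hc | hc <;> simp [hc, hu0] at e2

theorem act_eq_of_mem {D : ChevalleyDatum} (U : UOK D) (hu : unitAllOK D = true) (w w' : List ℕ)
    (hw : ∀ i ∈ w, i < D.rank) (hw' : ∀ i ∈ w', i < D.rank)
    (hB : (nWordU D U.m.w.add w)⁻¹ * nWordU D U.m.w.add w' ∈ D.borelSubgroup F) :
    ∀ r < D.nroots, wApply D w r = wApply D w' r := by
  intro r hr
  have M := U.m
  have hm : (nWordU D U.m.w.add w)⁻¹ * nWordU D U.m.w.add w' ∈
      D.borelSubgroup F ⊓ D.monomialSubgroup F :=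
    Subgroup.mem_inf.mpr
      ⟨hB, mul_mem (inv_mem (nWordU_mem_mon M w hw)) (nWordU_mem_mon M w' hw')⟩
  rw [borel_inf_mon M, diag_eq_torus M.w] at hm
  obtain ⟨z, hz⟩ := hm
  obtain ⟨ε, hε, h1⟩ := long_conj (F := F) M w hw hr
  obtain ⟨ε', hε', h2⟩ := long_conj (F := F) M w' hw' hr
  have e1 : nWordU D U.m.w.add w' = nWordU D U.m.w.add w * DgU D (chi D z) := by
    rw [← hz]
    group
  have e2 := h2 1
  rw [e1] at e2
  have e3 := DgU_xV (F := F) M.w z hr 1
  have e4 : nWordU D U.m.w.add w * DgU D (chi D z) * xV D U.m.w.add r 1 *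
      (nWordU D U.m.w.add w * DgU D (chi D z))⁻¹ =
      nWordU D U.m.w.add w * xV D U.m.w.add r ((chi D z r : F) * 1) *
        (nWordU D U.m.w.add w)⁻¹ := by
    rw [mul_assoc (nWordU D U.m.w.add w), e3]
    group
  rw [e4, h1] at e2
  have hne : ε * ((chi D z r : F) * 1) ≠ 0 := by
    apply mul_ne_zero
    · rcases hε with h | h <;> rw [h] <;> simp
    · simp
  exact xV_root_inj M hu U.ninv (wApply_lt M.w.n w hw hr) (wApply_lt M.w.n w' hw' hr) hne e2

theorem card_borel [Fintype F] {D : ChevalleyDatum} (M : MOK D) :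
    Nat.card (D.borelSubgroup F) =
      Nat.card (D.posUnipotent F) * Nat.card (D.diagonalSubgroup F) := by
  rw [diag_eq_torus M.w]
  let φ : D.posUnipotent F × torus D F → D.borelSubgroup F := fun p =>
    ⟨p.1.1 * p.2.1, mul_mem ((le_sup_left : D.posUnipotent F ≤ D.borelSubgroup F) p.1.2)
      (torus_le_borel M.w p.2.2)⟩
  have hbij : Function.Bijective φ := by
    constructor
    · rintro ⟨⟨u, hu⟩, ⟨h, hh⟩⟩ ⟨⟨u', hu'⟩, ⟨h', hh'⟩⟩ e
      have e1 : u * h = u' * h' := congrArg Subtype.val e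
      have e2 : u'⁻¹ * u = h' * h⁻¹ := by
        rw [eq_mul_inv_iff_mul_eq, mul_assoc, e1]
        group
      have h3 : u'⁻¹ * u ∈ D.posUnipotent F ⊓ torus D F :=
        Subgroup.mem_inf.mpr
          ⟨mul_mem (inv_mem hu') hu, by rw [e2]; exact mul_mem hh' (inv_mem hh)⟩
      rw [posU_inf_torus M.ptri, Subgroup.mem_bot] at h3
      have h4 : u = u' := by
        rw [inv_mul_eq_one] at h3
        exact h3.symm
      subst h4
      have h5 : h = h' := mul_left_cancel e1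
      subst h5
      rfl
    · rintro ⟨b, hb⟩
      obtain ⟨u, hu, h, hh, rfl⟩ := borel_dec M.w hb
      exact ⟨(⟨u, hu⟩, ⟨h, hh⟩), rfl⟩
  rw [← Nat.card_congr (Equiv.ofBijective φ hbij), Nat.card_prod]

def DCU (D : ChevalleyDatum) (F : Type*) [Field F] (ha : addCheck2 D = true)
    (l : List (List ℕ)) : Set (GL D.Idx F) :=
  {g | ∃ w ∈ l, g ∈ DC D F (nWordU D ha w)}

theorem group_cover {D : ChevalleyDatum} (U : UOK D) (hcf : CF D F) (ws : List (List ℕ))
    (hlt : ∀ w ∈ ws, ∀ i ∈ w, i < D.rank)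
    (hclosed : ∀ w ∈ ws, ∀ a < D.rank, ∃ w' ∈ ws, ∀ r < D.nroots,
      wApply D (a :: w) r = wApply D w' r)
    (hne : [] ∈ ws) {g : GL D.Idx F} (hg : g ∈ D.group F) : g ∈ DCU D F U.m.w.add ws := by
  have M := U.m
  obtain ⟨hBG, hNG, hsup⟩ := borel_mon_group (F := F) M
  have hHB := torus_le_borel (F := F) M.w
  have hBP : ∀ b ∈ D.borelSubgroup F, ∀ x ∈ DCU D F U.m.w.add ws, b * x ∈ DCU D F U.m.w.add ws := by
    rintro b hb x ⟨w, hw, hx⟩
    rw [mem_DC] at hx
    obtain ⟨b₁, hb₁, b₂, hb₂, rfl⟩ := hx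
    refine ⟨w, hw, ?_⟩
    rw [mem_DC]
    exact ⟨b * b₁, mul_mem hb hb₁, b₂, hb₂, by group⟩
  have hnP : ∀ a < D.rank, ∀ x ∈ DCU D F U.m.w.add ws,
      nV D U.m.w.add (D.simple a) (1 : F) * x ∈ DCU D F U.m.w.add ws := by
    rintro a ha x ⟨w, hw, hx⟩
    rw [mem_DC] at hx
    obtain ⟨b₁, hb₁, b₂, hb₂, rfl⟩ := hx
    rcases bn7 U hcf ha (nWordU_mem_mon M w (hlt w hw)) hb₁ with
      ⟨c₁, hc₁, c₂, hc₂, e⟩ | ⟨c₁, hc₁, c₂, hc₂, e⟩
    · obtain ⟨w', hw', hact⟩ := hclosed w hw a ha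
      have haw : ∀ i ∈ a :: w, i < D.rank := by
        intro i hi
        rcases List.mem_cons.mp hi with rfl | hi
        · exact ha
        · exact hlt w hw i hi
      have hH := same_act_mem U hcf (a :: w) w' haw (hlt w' hw') hact
      have e1 : nWordU D U.m.w.add (a :: w) =
          nV D U.m.w.add (D.simple a) (1 : F) * nWordU D U.m.w.add w := by simp [nWordU]
      rw [e1] at hH
      refine ⟨w', hw', ?_⟩
      rw [mem_DC]
      refine ⟨c₁, hc₁, (nWordU D U.m.w.add w')⁻¹ *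
        (nV D U.m.w.add (D.simple a) (1 : F) * nWordU D U.m.w.add w) * c₂ * b₂,
        mul_mem (mul_mem ((le_sup_right : D.diagonalSubgroup F ≤ D.borelSubgroup F) hH) hc₂) hb₂,
        ?_⟩
      have e2 : nV D U.m.w.add (D.simple a) (1 : F) * (b₁ * nWordU D U.m.w.add w * b₂) =
          nV D U.m.w.add (D.simple a) (1 : F) * b₁ * nWordU D U.m.w.add w * b₂ := by group
      rw [e2, e]
      group
    · refine ⟨w, hw, ?_⟩
      rw [mem_DC]
      refine ⟨c₁, hc₁, c₂ * b₂, mul_mem hc₂ hb₂, ?_⟩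
      have e2 : nV D U.m.w.add (D.simple a) (1 : F) * (b₁ * nWordU D U.m.w.add w * b₂) =
          nV D U.m.w.add (D.simple a) (1 : F) * b₁ * nWordU D U.m.w.add w * b₂ := by group
      rw [e2, e]
      group
  let K : Subgroup (GL D.Idx F) :=
    { carrier := {g | (∀ x ∈ DCU D F U.m.w.add ws, g * x ∈ DCU D F U.m.w.add ws) ∧
        (∀ x ∈ DCU D F U.m.w.add ws, g⁻¹ * x ∈ DCU D F U.m.w.add ws)}
      mul_mem' := by
        rintro a b ⟨a1, a2⟩ ⟨b1, b2⟩
        refine ⟨fun x hx => ?_, fun x hx => ?_⟩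
        · rw [mul_assoc]
          exact a1 _ (b1 x hx)
        · rw [mul_inv_rev, mul_assoc]
          exact b2 _ (a2 x hx)
      one_mem' := ⟨fun x hx => by rwa [one_mul], fun x hx => by rwa [inv_one, one_mul]⟩
      inv_mem' := by
        rintro a ⟨a1, a2⟩
        exact ⟨a2, fun x hx => by rw [inv_inv]; exact a1 x hx⟩ }
  have hBK : D.borelSubgroup F ≤ K := fun b hb =>
    ⟨hBP b hb, hBP b⁻¹ (inv_mem hb)⟩
  have hNK : D.monomialSubgroup F ≤ K := by
    apply monomial_le M K (fun h hh => hBK (hHB hh))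
    intro a ha
    refine ⟨hnP a ha, fun x hx => ?_⟩
    obtain ⟨h₀, hh₀, en⟩ := nV_inv_eq (F := F) M ha
    rw [en, mul_assoc]
    exact hnP a ha _ (hBP h₀ (hHB hh₀) x hx)
  have hGK : D.group F ≤ K := by
    rw [← hsup]
    exact sup_le hBK hNK
  have h1 := (hGK hg).1 1 ⟨[], hne, by
    rw [mem_DC]
    exact ⟨1, one_mem _, 1, one_mem _, by simp [nWordU]⟩⟩
  rw [mul_one] at h1
  exact h1

theorem dc_disjoint {D : ChevalleyDatum} (U : UOK D) (hcf : CF D F) (hu : unitAllOK D = true)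
    {w w' : List ℕ} (hw : ∀ i ∈ w, i < D.rank) (hw' : ∀ i ∈ w', i < D.rank) {g : GL D.Idx F}
    (h1 : g ∈ DC D F (nWordU D U.m.w.add w)) (h2 : g ∈ DC D F (nWordU D U.m.w.add w')) :
    ∀ r < D.nroots, wApply D w r = wApply D w' r := by
  have M := U.m
  rw [mem_DC] at h1 h2
  obtain ⟨b₁, hb₁, b₂, hb₂, e1⟩ := h1
  obtain ⟨b₃, hb₃, b₄, hb₄, e2⟩ := h2
  have h3 := bruhat_unique U hcf (nWordU_mem_mon M w hw) (nWordU_mem_mon M w' hw')
    (b₁ := b₃⁻¹ * b₁) (b₂ := b₂ * b₄⁻¹) (mul_mem (inv_mem hb₃) hb₁) (mul_mem hb₂ (inv_mem hb₄)) (by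
      have e3 : b₃ * nWordU D U.m.w.add w' * b₄ = b₁ * nWordU D U.m.w.add w * b₂ := by
        rw [← e1, ← e2]
      calc nWordU D U.m.w.add w'
          = b₃⁻¹ * (b₃ * nWordU D U.m.w.add w' * b₄) * b₄⁻¹ := by group
        _ = b₃⁻¹ * b₁ * nWordU D U.m.w.add w * (b₂ * b₄⁻¹) := by
          rw [e3]
          group)
  exact act_eq_of_mem U hu w w' hw hw' h3

theorem ncard_union_words [Fintype F] {D : ChevalleyDatum} (U : UOK D) (hcf : CF D F)
    (hu : unitAllOK D = true) (ws : List (List ℕ)) (hlt : ∀ w ∈ ws, ∀ i ∈ w, i < D.rank)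
    (hinj : ∀ w ∈ ws, ∀ w' ∈ ws, (∀ r < D.nroots, wApply D w r = wApply D w' r) → w = w') :
    ∀ l : List (List ℕ), l.Nodup → (∀ w ∈ l, w ∈ ws) →
      (DCU D F U.m.w.add l).ncard =
        (l.map fun w => (DC D F (nWordU D U.m.w.add w)).ncard).sum := by
  intro l
  induction l with
  | nil =>
    intro _ _
    have e : DCU D F U.m.w.add [] = ∅ := by
      ext g
      simp [DCU]
    rw [e]
    simp
  | cons w l ih =>
    intro hnd hsub
    rw [List.nodup_cons] at hnd
    have e : DCU D F U.m.w.add (w :: l) =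
        DC D F (nWordU D U.m.w.add w) ∪ DCU D F U.m.w.add l := by
      ext g
      simp only [DCU, Set.mem_ofPred_eq, List.mem_cons, Set.mem_union]
      constructor
      · rintro ⟨w', rfl | hw', hg⟩
        · exact Or.inl hg
        · exact Or.inr ⟨w', hw', hg⟩
      · rintro (hg | ⟨w', hw', hg⟩)
        · exact ⟨w, Or.inl rfl, hg⟩
        · exact ⟨w', Or.inr hw', hg⟩
    have hdisj : Disjoint (DC D F (nWordU D U.m.w.add w)) (DCU D F U.m.w.add l) := by
      rw [Set.disjoint_left]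
      rintro g hg ⟨w', hw', hg'⟩
      have hww' := hinj w (hsub w List.mem_cons_self) w' (hsub w' (List.mem_cons_of_mem _ hw'))
        (dc_disjoint U hcf hu (hlt w (hsub w List.mem_cons_self))
          (hlt w' (hsub w' (List.mem_cons_of_mem _ hw'))) hg hg')
      rw [hww'] at hnd
      exact hnd.1 hw'
    rw [e, Set.ncard_union_eq hdisj (Set.toFinite _) (Set.toFinite _), List.map_cons,
      List.sum_cons, ih hnd.2 (fun w' hw' => hsub w' (List.mem_cons_of_mem _ hw'))]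

theorem card_group_words [Fintype F] {D : ChevalleyDatum} (U : UOK D) (hcf : CF D F)
    (hu : unitAllOK D = true) (ws : List (List ℕ)) (hnd : ws.Nodup)
    (hinc : ∀ w ∈ ws, LInc D w)
    (hclosed : ∀ w ∈ ws, ∀ a < D.rank, ∃ w' ∈ ws, ∀ r < D.nroots,
      wApply D (a :: w) r = wApply D w' r)
    (hinj : ∀ w ∈ ws, ∀ w' ∈ ws, (∀ r < D.nroots, wApply D w r = wApply D w' r) → w = w')
    (hne : [] ∈ ws) :
    Nat.card (D.group F) =
      Nat.card (D.borelSubgroup F) * (ws.map fun w => Fintype.card F ^ w.length).sum := by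
  have M := U.m
  obtain ⟨hBG, hNG, hsup⟩ := borel_mon_group (F := F) M
  have hlt : ∀ w ∈ ws, ∀ i ∈ w, i < D.rank := fun w hw => (hinc w hw).lt
  have hset : (D.group F : Set (GL D.Idx F)) = DCU D F U.m.w.add ws := by
    ext g
    constructor
    · intro hg
      exact group_cover U hcf ws hlt hclosed hne hg
    · rintro ⟨w, hw, hg⟩
      rw [mem_DC] at hg
      obtain ⟨b₁, hb₁, b₂, hb₂, rfl⟩ := hg
      exact mul_mem (mul_mem (hBG hb₁) (hNG (nWordU_mem_mon M w (hlt w hw)))) (hBG hb₂)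
  have h1 : Nat.card (D.group F) = (D.group F : Set (GL D.Idx F)).ncard :=
    Nat.card_coe_set_eq _
  rw [h1, hset, ncard_union_words U hcf hu ws hlt hinj ws hnd (fun w hw => hw)]
  have h2 : (ws.map fun w => (DC D F (nWordU D U.m.w.add w)).ncard) =
      ws.map fun w => Fintype.card F ^ w.length * Nat.card (D.borelSubgroup F) := by
    apply List.map_congr_left
    intro w hw
    rw [← Nat.card_coe_set_eq]
    exact card_dc_word U hcf (hinc w hw)
  rw [h2, List.sum_map_mul_right, mul_comm]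

end sem

end Cfsg.Agent.Helper7
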