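import Cfsg.Agent.Helper7.Eval3

set_option autoImplicit false
set_option linter.unusedSectionVars false
set_option linter.unusedVariables false
open Cfsg

namespace Cfsg.Agent.Helper7

open Cfsg.Lie

def hW (p np : ℕ) : List (ℕ × List PT) :=
  [(p, [(1, 1, 0)]), (np, [(-1, 0, 1)]), (p, [(1, 1, 0)]), (p, [(-1, 0, 0)]), (np, [(1, 0, 0)]),
    (p, [(-1, 0, 0)])]

def hExp (D : ChevalleyDatum) (i n : ℕ) : List VT :=
  if n < D.rank then [⟨n, 1, 0, 0⟩]
  else [⟨n, 1, (fcar D i (n - D.rank)).toNat, (-(fcar D i (n - D.rank))).toNat⟩]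

def hCheck1 (D : ChevalleyDatum) (i : ℕ) : Bool :=
  (List.range (D.rank + D.nroots)).all fun n =>
    isZeroE ((appNW D (hW (fsimple D i) (fneg D (fsimple D i))) (unitV n)).map red ++
      vneg (hExp D i n))

def hCheck (D : ChevalleyDatum) : Bool :=
  (List.range D.rank).all fun i =>
    decide (fsimple D i < D.nroots) && decide (fneg D (fsimple D i) < D.nroots) && hCheck1 D i

section sem

variable {F : Type*} [Field F]

theorem hW_eval (p np : ℕ) (c : F) :
    (hW p np).map (fun a => (a.1, pev c c⁻¹ a.2)) =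
      [(p, c), (np, -c⁻¹), (p, c), (p, -1), (np, 1), (p, -1)] := by
  simp [hW, pev, ptVal]

theorem hMat_eq_word (D : ChevalleyDatum) (p : ℕ) (c : F) :
    D.hMat F p c =
      D.wordMat F [(p, c), (D.neg p, -c⁻¹), (p, c), (p, -1), (D.neg p, 1), (p, -1)] := by
  unfold ChevalleyDatum.hMat ChevalleyDatum.hWord ChevalleyDatum.nWord
  have : -(-1 : F)⁻¹ = 1 := by rw [inv_neg, inv_one, neg_neg]
  rw [this]
  rfl

theorem hMat_simple {D : ChevalleyDatum} (h : fdOK D = true) (hc : hCheck D = true)
    (i : ℕ) (hi : i < D.rank) (c : F) (hc0 : c ≠ 0) :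
    D.hMat F (D.simple i) c =
      Matrix.diagonal (Sum.elim (fun _ => (1 : F)) (fun s : Fin D.nroots => c ^ (D.cartan i s))) := by
  unfold hCheck at hc
  rw [List.all_eq_true] at hc
  have hci := hc i (List.mem_range.mpr hi)
  simp only [Bool.and_eq_true, decide_eq_true_eq, fsimple_eq, fneg_eq h] at hci
  obtain ⟨⟨hp, hnp⟩, hc1⟩ := hci
  unfold hCheck1 at hc1
  rw [List.all_eq_true] at hc1
  simp only [fsimple_eq, fneg_eq h] at hc1
  have hxy : c * c⁻¹ = 1 := mul_inv_cancel₀ hc0
  have hw : ∀ a ∈ hW (D.simple i) (D.neg (D.simple i)), a.1 < D.nroots := by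
    intro a ha
    simp only [hW, List.mem_cons, List.not_mem_nil, or_false] at ha
    rcases ha with rfl | rfl | rfl | rfl | rfl | rfl <;> assumption
  ext a b
  have e1 := appNW_unit h (hW (D.simple i) (D.neg (D.simple i))) hw c c⁻¹ a b
  rw [hW_eval, ← hMat_eq_word] at e1
  have e2 := isZeroE_sound c c⁻¹ _ (hc1 (code D b) (List.mem_range.mpr (code_lt D b))) (code D a)
  rw [semAt_append, semAt_vneg, semAt_map_red c c⁻¹ hxy, e1] at e2
  have e3 : D.hMat F (D.simple i) c a b = semAt c c⁻¹ (hExp D i (code D b)) (code D a) := by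
    linear_combination e2
  rw [e3, Matrix.diagonal_apply]
  rcases b with j | s
  · have hE : hExp D i (code D (Sum.inl j)) = [⟨j.val, 1, 0, 0⟩] := by
      unfold hExp
      rw [if_pos (show code D (Sum.inl j) < D.rank from j.isLt)]
      rfl
    rw [hE, semAt_single]
    rcases a with k | u
    · by_cases hkj : k = j
      · subst hkj; simp [code, vtVal]
      · have : ¬ j.val = k.val := fun hh => hkj (Fin.ext hh.symm)
        simp [code, hkj, this]
    · have : ¬ j.val = D.rank + u.val := by have := j.isLt; omega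
      simp [code, this]
  · have hE : hExp D i (code D (Sum.inr s)) =
        [⟨D.rank + s.val, 1, (D.cartan i s.val).toNat, (-(D.cartan i s.val)).toNat⟩] := by
      unfold hExp
      rw [if_neg (show ¬ code D (Sum.inr s) < D.rank by simp only [code]; omega), fcar_eq h]
      simp only [code, Nat.add_sub_cancel_left]
    rw [hE, semAt_single]
    rcases a with k | u
    · have : ¬ D.rank + s.val = k.val := by have := k.isLt; omega
      simp [code, this]
    · by_cases hus : u = s
      · subst hus
        simp only [code, if_true, vtVal, Int.cast_one, one_mul, Sum.elim_inr]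
        exact zpow_split c hc0 _
      · have : ¬ s.val = u.val := fun hh => hus (Fin.ext hh.symm)
        simp [code, hus, this]

end sem

end Cfsg.Agent.Helper7
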