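import Cfsg.Agent.Helper7.ChevG
import Cfsg.Agent.Helper7.ChevH

set_option autoImplicit false
set_option linter.unusedSectionVars false
set_option linter.unusedVariables false
open Cfsg

namespace Cfsg.Agent.Helper7

open Cfsg.Lie

theorem ntab_map_add (w : ℕ) {α : Type*} (L : List α) (f g : α → ℕ) :
    ntab w (L.map f) + ntab w (L.map g) = ntab w (L.map fun a => f a + g a) := by
  induction L with
  | nil => rfl
  | cons a L ih =>
    simp only [List.map_cons, ntab_cons]
    rw [← ih]
    ring

theorem ntab_map_mul (w c : ℕ) {α : Type*} (L : List α) (f : α → ℕ) :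
    c * ntab w (L.map f) = ntab w (L.map fun a => c * f a) := by
  induction L with
  | nil => exact Nat.mul_zero c
  | cons a L ih =>
    simp only [List.map_cons, ntab_cons]
    rw [← ih]
    ring

theorem ntab_range_inj (w n : ℕ) (f g : ℕ → ℕ) (hf : ∀ i < n, f i < 2 ^ w)
    (hg : ∀ i < n, g i < 2 ^ w)
    (h : ntab w ((List.range n).map f) = ntab w ((List.range n).map g)) : ∀ i < n, f i = g i := by
  intro i hi
  have e : nget w (ntab w ((List.range n).map f)) i = nget w (ntab w ((List.range n).map g)) i :=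
    congrArg (fun T => nget w T i) h
  rw [nget_ntab w _ (by
    intro a ha
    rw [List.mem_map] at ha
    obtain ⟨j, hj, rfl⟩ := ha
    exact hf j (List.mem_range.mp hj)), nget_ntab w _ (by
    intro a ha
    rw [List.mem_map] at ha
    obtain ⟨j, hj, rfl⟩ := ha
    exact hg j (List.mem_range.mp hj)), getD_map_range _ hi, getD_map_range _ hi] at e
  exact e

theorem zdec_bound {n : ℕ} (h : n < 16) : -8 < zdec n ∧ zdec n < 8 := by
  unfold zdec
  split_ifs with h0 h1
  · rw [Int.ofNat_eq_natCast]
    omega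
  · omega
  · rw [Int.negSucc_eq]
    omega

theorem fcar_bound (D : ChevalleyDatum) (i s : ℕ) : -8 < fcar D i s ∧ fcar D i s < 8 := by
  unfold fcar zget
  apply zdec_bound
  rw [nget_def]
  exact Nat.mod_lt _ (by norm_num)

theorem zenc_int {a : ℤ} (h : -8 < a ∧ a < 8) : ((zenc a : ℕ) : ℤ) = a + 8 := by
  unfold zenc
  exact Int.toNat_of_nonneg (by omega)

theorem zenc_lt16 {a : ℤ} (h : -8 < a ∧ a < 8) : zenc a < 16 := by
  have := zenc_int h
  omega

def pcol (D : ChevalleyDatum) (s : ℕ) : ℕ :=
  ntab 8 ((List.range D.rank).map fun i => zenc (fcar D i s))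

def pcT (D : ChevalleyDatum) : ℕ := ntab 64 ((List.range D.nroots).map (pcol D))

def fpc (D : ChevalleyDatum) (s : ℕ) : ℕ := nget 64 (pcT D) s

def pcB (D : ChevalleyDatum) (c : ℕ) : ℕ := ntab 8 ((List.range D.rank).map fun _ => c)

def taGo (D : ChevalleyDatum) (pr ps : ℕ) : ℕ → List (ℕ × ℤ) → Bool
  | _, [] => true
  | k, q :: L => Nat.blt q.1 D.nroots && Nat.blt k 4 &&
      Nat.beq (Nat.add (fpc D q.1) (Nat.mul k (pcB D 8))) (Nat.add (Nat.mul k pr) ps) &&
      taGo D pr ps (k + 1) L

def taOK (D : ChevalleyDatum) : Bool :=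
  (List.range D.nroots).all fun r =>
    Nat.blt (pcol D r) (2 ^ 64) && Nat.blt (fneg D r) D.nroots &&
    Nat.beq (Nat.add (fpc D (fneg D r)) (fpc D r)) (pcB D 16) &&
    ((D.chain.getD r #[]).toList.all fun e =>
      Nat.blt e.1 D.nroots && taGo D (fpc D r) (fpc D e.1) 1 e.2.toList)

theorem taGo_spec {D : ChevalleyDatum} {pr ps : ℕ} : ∀ (L : List (ℕ × ℤ)) (k : ℕ),
    taGo D pr ps k L = true → ∀ (j : ℕ) (q : ℕ × ℤ), L[j]? = some q →
      q.1 < D.nroots ∧ k + j < 4 ∧ fpc D q.1 + (k + j) * pcB D 8 = (k + j) * pr + ps := by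
  intro L
  induction L with
  | nil =>
    intro k _ j q hq
    simp at hq
  | cons a L ih =>
    intro k h j q hq
    simp only [taGo, Bool.and_eq_true, Nat.blt_eq, Nat.beq_eq] at h
    obtain ⟨⟨⟨h1, h2⟩, h3⟩, h4⟩ := h
    cases j with
    | zero =>
      simp only [List.getElem?_cons_zero, Option.some.injEq] at hq
      subst hq
      exact ⟨h1, by omega, h3⟩
    | succ j =>
      simp only [List.getElem?_cons_succ] at hq
      have := ih (k + 1) h4 j q hq
      have e : k + 1 + j = k + (j + 1) := by omega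
      rw [e] at this
      exact this

theorem taOK_spec {D : ChevalleyDatum} (hta : taOK D = true) {r : ℕ} (hr : r < D.nroots) :
    pcol D r < 2 ^ 64 ∧ fneg D r < D.nroots ∧ fpc D (fneg D r) + fpc D r = pcB D 16 ∧
      ∀ e ∈ (D.chain.getD r #[]).toList,
        e.1 < D.nroots ∧ taGo D (fpc D r) (fpc D e.1) 1 e.2.toList = true := by
  unfold taOK at hta
  rw [List.all_eq_true] at hta
  have := hta r (List.mem_range.mpr hr)
  simp only [Bool.and_eq_true, Nat.blt_eq, Nat.beq_eq, List.all_eq_true] at this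
  exact ⟨this.1.1.1, this.1.1.2, this.1.2, this.2⟩

theorem fpc_eq {D : ChevalleyDatum} (hta : taOK D = true) {s : ℕ} (hs : s < D.nroots) :
    fpc D s = pcol D s := by
  unfold fpc pcT
  rw [nget_ntab 64 _ (by
    intro b hb
    rw [List.mem_map] at hb
    obtain ⟨u, hu, rfl⟩ := hb
    exact (taOK_spec hta (List.mem_range.mp hu)).1), getD_map_range _ hs]

theorem pcol_lin (D : ChevalleyDatum) (k : ℕ) (hk : k < 4) (v r s : ℕ)
    (h : pcol D v + k * pcB D 8 = k * pcol D r + pcol D s) (i : ℕ) (hi : i < D.rank) :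
    fcar D i v = k * fcar D i r + fcar D i s := by
  unfold pcol pcB at h
  rw [ntab_map_mul, ntab_map_mul, ntab_map_add, ntab_map_add] at h
  have b1 := fcar_bound D i v
  have b2 := fcar_bound D i r
  have b3 := fcar_bound D i s
  have e := ntab_range_inj 8 D.rank _ _ (by
    intro j hj
    have := zenc_lt16 (fcar_bound D j v)
    show zenc (fcar D j v) + k * 8 < 256
    omega) (by
    intro j hj
    have h1 := zenc_lt16 (fcar_bound D j r)
    have h2 := zenc_lt16 (fcar_bound D j s)
    have h3 : k * zenc (fcar D j r) ≤ 3 * 15 := Nat.mul_le_mul (by omega) (by omega)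
    show k * zenc (fcar D j r) + zenc (fcar D j s) < 256
    omega) h i hi
  have e' : ((zenc (fcar D i v) : ℕ) : ℤ) + k * 8 =
      k * ((zenc (fcar D i r) : ℕ) : ℤ) + ((zenc (fcar D i s) : ℕ) : ℤ) := by
    exact_mod_cast e
  rw [zenc_int b1, zenc_int b2, zenc_int b3] at e'
  linear_combination e'

theorem pcol_neg (D : ChevalleyDatum) (v r : ℕ) (h : pcol D v + pcol D r = pcB D 16) (i : ℕ)
    (hi : i < D.rank) : fcar D i v = - fcar D i r := by
  unfold pcol pcB at h
  rw [ntab_map_add] at h
  have b1 := fcar_bound D i v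
  have b2 := fcar_bound D i r
  have e := ntab_range_inj 8 D.rank _ _ (by
    intro j hj
    have h1 := zenc_lt16 (fcar_bound D j v)
    have h2 := zenc_lt16 (fcar_bound D j r)
    show zenc (fcar D j v) + zenc (fcar D j r) < 256
    omega) (by
    intro j hj
    show 16 < 256
    omega) h i hi
  have e' : ((zenc (fcar D i v) : ℕ) : ℤ) + ((zenc (fcar D i r) : ℕ) : ℤ) = 16 := by
    exact_mod_cast e
  rw [zenc_int b1, zenc_int b2] at e'
  linear_combination e'

theorem mem_chainCoeff (D : ChevalleyDatum) {r s u : ℕ} {km : ℕ × ℤ}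
    (hkm : km ∈ D.chainCoeff r s u) :
    ∃ e ∈ (D.chain.getD r #[]).toList, e.1 = s ∧
      ∃ j, e.2.toList[j]? = some (u, km.2) ∧ km.1 = j + 1 := by
  unfold ChevalleyDatum.chainCoeff at hkm
  simp only [List.mem_flatMap, List.mem_map, List.mem_filter, decide_eq_true_eq] at hkm
  obtain ⟨e, ⟨he, hes⟩, q, ⟨hq, hqu⟩, rfl⟩ := hkm
  refine ⟨e, he, hes, q.2, ?_, rfl⟩
  have := List.mem_zipIdx_iff_getElem?.mp hq
  rw [this, ← hqu]

theorem cartan_neg {D : ChevalleyDatum} (h : fdOK D = true) (hta : taOK D = true) {i r : ℕ}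
    (hi : i < D.rank) (hr : r < D.nroots) : D.cartan i (D.neg r) = - D.cartan i r := by
  obtain ⟨_, h2, h3, _⟩ := taOK_spec hta hr
  rw [fpc_eq hta h2, fpc_eq hta hr] at h3
  have := pcol_neg D _ _ h3 i hi
  rw [fcar_eq h, fcar_eq h, fneg_eq h] at this
  exact this

theorem cartan_chain {D : ChevalleyDatum} (h : fdOK D = true) (hta : taOK D = true) {i r s u : ℕ}
    (hi : i < D.rank) (hr : r < D.nroots) {km : ℕ × ℤ} (hkm : km ∈ D.chainCoeff r s u) :
    D.cartan i u = km.1 * D.cartan i r + D.cartan i s := by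
  obtain ⟨e, he, hes, j, hj, hk⟩ := mem_chainCoeff D hkm
  obtain ⟨_, _, _, h4⟩ := taOK_spec hta hr
  obtain ⟨h5, h6⟩ := h4 e he
  obtain ⟨h7, h8, h9⟩ := taGo_spec _ _ h6 j _ hj
  rw [hes] at h5 h9
  simp only at h7 h9
  rw [fpc_eq hta h7, fpc_eq hta hr, fpc_eq hta h5] at h9
  have := pcol_lin D (1 + j) h8 u r s h9 i hi
  rw [fcar_eq h, fcar_eq h, fcar_eq h] at this
  rw [this, hk]
  push_cast
  ring

section sem

variable {F : Type*} [Field F]

def dgv (D : ChevalleyDatum) (d : ℕ → Fˣ) : D.Idx → Fˣ :=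
  Sum.elim (fun _ => 1) (fun s => d s.val)

def DgU (D : ChevalleyDatum) (d : ℕ → Fˣ) : GL D.Idx F where
  val := Matrix.diagonal (fun a => ((dgv D d a : Fˣ) : F))
  inv := Matrix.diagonal (fun a => (((dgv D d a)⁻¹ : Fˣ) : F))
  val_inv := by
    rw [Matrix.diagonal_mul_diagonal, ← Matrix.diagonal_one]
    congr 1
    funext a
    exact Units.mul_inv _
  inv_val := by
    rw [Matrix.diagonal_mul_diagonal, ← Matrix.diagonal_one]
    congr 1
    funext a
    exact Units.inv_mul _

theorem DgU_val (D : ChevalleyDatum) (d : ℕ → Fˣ) :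
    (DgU D d : Matrix D.Idx D.Idx F) = Matrix.diagonal (fun a => ((dgv D d a : Fˣ) : F)) := rfl

theorem DgU_congr (D : ChevalleyDatum) {d d' : ℕ → Fˣ} (hd : ∀ s < D.nroots, d s = d' s) :
    DgU D d = DgU D d' := by
  apply Units.ext
  rw [DgU_val, DgU_val]
  congr 1
  funext a
  rcases a with j | s
  · rfl
  · simp only [dgv, Sum.elim_inr]
    rw [hd s.val s.isLt]

theorem DgU_mul (D : ChevalleyDatum) (d d' : ℕ → Fˣ) :
    DgU D d * DgU D d' = DgU D (fun s => d s * d' s) := by
  apply Units.ext
  rw [Units.val_mul, DgU_val, DgU_val, DgU_val, Matrix.diagonal_mul_diagonal]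
  congr 1
  funext a
  rcases a with j | s
  · simp [dgv]
  · simp [dgv]

theorem DgU_one (D : ChevalleyDatum) : DgU D (fun _ => (1 : Fˣ)) = 1 := by
  apply Units.ext
  rw [DgU_val, Units.val_one, ← Matrix.diagonal_one]
  congr 1
  funext a
  rcases a with j | s
  · simp [dgv]
  · simp [dgv]

theorem DgU_inv (D : ChevalleyDatum) (d : ℕ → Fˣ) :
    (DgU D d)⁻¹ = DgU D (fun s => (d s)⁻¹) := by
  apply inv_eq_of_mul_eq_one_right
  rw [DgU_mul, ← DgU_one]
  apply DgU_congr
  intro s _
  exact mul_inv_cancel _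

theorem diag_conj (D : ChevalleyDatum) (d : ℕ → Fˣ) (r : Fin D.nroots) (t : F)
    (h1 : d (D.negIdx.getD r.val 0) * d r.val = 1)
    (h2 : ∀ (s u : Fin D.nroots), ∀ km ∈ D.chainCoeff r.val s.val u.val,
      d u.val = d r.val ^ km.1 * d s.val) :
    (DgU D d : Matrix D.Idx D.Idx F) * D.xMat F r t =
      D.xMat F r ((d r.val : F) * t) * (DgU D d : Matrix D.Idx D.Idx F) := by
  ext a b
  rw [DgU_val, Matrix.diagonal_mul, Matrix.mul_diagonal]
  rcases b with j | s
  · rcases a with j' | u
    · simp [ChevalleyDatum.xMat, dgv]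
    · simp only [ChevalleyDatum.xMat, Matrix.of_apply, dgv, Sum.elim_inl, Sum.elim_inr,
        Units.val_one]
      split_ifs with hu
      · subst hu
        ring
      · ring
  · simp only [ChevalleyDatum.xMat, Matrix.of_apply]
    by_cases hs : s = r
    · rw [if_pos hs, if_pos hs]
      subst hs
      rcases a with j' | u
      · simp
      · simp only [dgv, Sum.elim_inr]
        split_ifs with hu
        · subst hu
          ring
        · ring
    · rw [if_neg hs, if_neg hs]
      by_cases hs2 : s.val = D.negIdx.getD r.val 0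
      · rw [if_pos hs2, if_pos hs2]
        have h1' : (d s.val : F) * (d r.val : F) = 1 := by
          rw [hs2, ← Units.val_mul, h1, Units.val_one]
        rcases a with j' | u
        · simp only [dgv, Sum.elim_inl, Sum.elim_inr, Units.val_one, one_mul]
          linear_combination
            (-((((D.coroot.getD r.val #[]).getD j'.val 0 : ℤ) : F) * t)) * h1'
        · simp only [dgv, Sum.elim_inr]
          split_ifs with hu hur
          · subst hu
            ring
          · subst hur
            linear_combination ((d u.val : F) * t ^ 2) * h1'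
          · ring
      · rw [if_neg hs2, if_neg hs2]
        rcases a with j' | u
        · simp
        · simp only [dgv, Sum.elim_inr]
          have key : (d u.val : F) *
              ((D.chainCoeff r.val s.val u.val).map fun km => ((km.2 : ℤ) : F) * t ^ km.1).sum =
              ((D.chainCoeff r.val s.val u.val).map fun km =>
                ((km.2 : ℤ) : F) * ((d r.val : F) * t) ^ km.1).sum * (d s.val : F) := by
            rw [← List.sum_map_mul_left, ← List.sum_map_mul_right]
            congr 1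
            apply List.map_congr_left
            intro km hkm
            have := h2 s u km hkm
            rw [this, Units.val_mul, Units.val_pow_eq_pow_val]
            ring
          by_cases hus : u = s
          · subst hus
            rw [if_pos rfl]
            linear_combination key
          · rw [if_neg hus]
            linear_combination key

def chi (D : ChevalleyDatum) (z : ℕ → Fˣ) (s : ℕ) : Fˣ :=
  ∏ j ∈ Finset.range D.rank, z j ^ D.cartan j s

theorem chi_conj {D : ChevalleyDatum} (h : fdOK D = true) (hta : taOK D = true) (z : ℕ → Fˣ)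
    {s : ℕ} (hs : s < D.nroots) (t : F) :
    (DgU D (chi D z) : Matrix D.Idx D.Idx F) * D.x F s t =
      D.x F s ((chi D z s : F) * t) * (DgU D (chi D z) : Matrix D.Idx D.Idx F) := by
  rw [x_of_lt D F hs, x_of_lt D F hs]
  apply diag_conj D (chi D z) ⟨s, hs⟩ t
  · show chi D z (D.neg s) * chi D z s = 1
    unfold chi
    rw [← Finset.prod_mul_distrib]
    apply Finset.prod_eq_one
    intro j hj
    rw [cartan_neg h hta (Finset.mem_range.mp hj) hs, zpow_neg, inv_mul_cancel]
  · intro s' u km hkm
    show chi D z u.val = chi D z s ^ km.1 * chi D z s'.val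
    unfold chi
    rw [← Finset.prod_pow, ← Finset.prod_mul_distrib]
    apply Finset.prod_congr rfl
    intro j hj
    rw [cartan_chain h hta (Finset.mem_range.mp hj) hs hkm, zpow_add, zpow_mul', zpow_natCast]

theorem zchar_conj {D : ChevalleyDatum} (h : fdOK D = true) (hta : taOK D = true) {i : ℕ}
    (hi : i < D.rank) (c : Fˣ) {s : ℕ} (hs : s < D.nroots) (t : F) :
    (DgU D (fun s => c ^ D.cartan i s) : Matrix D.Idx D.Idx F) * D.x F s t =
      D.x F s (((c ^ D.cartan i s : Fˣ) : F) * t) *
        (DgU D (fun s => c ^ D.cartan i s) : Matrix D.Idx D.Idx F) := by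
  rw [x_of_lt D F hs, x_of_lt D F hs]
  apply diag_conj D (fun s => c ^ D.cartan i s) ⟨s, hs⟩ t
  · show c ^ D.cartan i (D.neg s) * c ^ D.cartan i s = 1
    rw [cartan_neg h hta hi hs, zpow_neg, inv_mul_cancel]
  · intro s' u km hkm
    show c ^ D.cartan i u.val = (c ^ D.cartan i s) ^ km.1 * c ^ D.cartan i s'.val
    rw [cartan_chain h hta hi hs hkm, zpow_add, zpow_mul', zpow_natCast]

theorem hMat_simple_U {D : ChevalleyDatum} (h : fdOK D = true) (hc : hCheck D = true) {i : ℕ}
    (hi : i < D.rank) (c : Fˣ) :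
    D.hMat F (D.simple i) (c : F) = (DgU D (fun s => c ^ D.cartan i s) : Matrix D.Idx D.Idx F) := by
  rw [hMat_simple h hc i hi (c : F) c.ne_zero, DgU_val]
  congr 1
  funext a
  rcases a with j | s
  · simp [dgv]
  · simp [dgv, Units.val_zpow_eq_zpow_val]

end sem

end Cfsg.Agent.Helper7
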