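import Cfsg.Agent.Helper7.ChkW

set_option autoImplicit false
set_option maxHeartbeats 4000000
open Cfsg

namespace Cfsg.Agent.Helper7

open Cfsg.Lie

def etaOK (D : ChevalleyDatum) : Bool :=
  (List.range D.rank).all fun i =>
    nbit D i (fsimple D i) &&
    (List.range D.nroots).all fun s =>
      (Bool.xor (nbit D i s) (nbit D i (fw D i s))) == (Nat.testBit (fcar D i s).natAbs 0)

theorem neg_one_pow_sg (n : ℕ) : (-1 : ℤ) ^ n = sg (Nat.testBit n 0) := by
  rw [Nat.testBit_zero]
  rcases Nat.even_or_odd n with h | h
  · rw [h.neg_one_pow]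
    have : ¬ n % 2 = 1 := by
      rw [Nat.even_iff] at h
      omega
    simp [sg, this]
  · rw [h.neg_one_pow]
    have : n % 2 = 1 := Nat.odd_iff.mp h
    simp [sg, this]

theorem etaOK_spec {D : ChevalleyDatum} (h : etaOK D = true) {i : ℕ} (hi : i < D.rank) :
    nsgn D i (fsimple D i) = -1 ∧
      ∀ s < D.nroots, nsgn D i s * nsgn D i (fw D i s) = (-1) ^ (fcar D i s).natAbs := by
  unfold etaOK at h
  rw [List.all_eq_true] at h
  have h1 := h i (List.mem_range.mpr hi)
  rw [Bool.and_eq_true, List.all_eq_true] at h1
  obtain ⟨ha, hb⟩ := h1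
  constructor
  · unfold nsgn
    rw [ha]
    rfl
  · intro s hs
    have h2 := hb s (List.mem_range.mpr hs)
    rw [beq_iff_eq] at h2
    unfold nsgn
    rw [← sg_xor, h2, neg_one_pow_sg]

theorem etaOK_G2 : etaOK chevG2 = true := by decide +kernel
theorem etaOK_B2 : etaOK chevB2 = true := by decide +kernel
theorem etaOK_D4 : etaOK chevD4 = true := by decide +kernel
theorem etaOK_F4 : etaOK chevF4 = true := by decide +kernel
theorem etaOK_E6 : etaOK chevE6 = true := by decide +kernel
theorem etaOK_E7 : etaOK chevE7 = true := by decide +kernel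
theorem etaOK_E8 : etaOK chevE8 = true := by decide +kernel

theorem etaOK_of_mem {D : ChevalleyDatum}
    (hD : D ∈ [chevG2, chevB2, chevD4, chevF4, chevE6, chevE7, chevE8]) : etaOK D = true := by
  simp only [List.mem_cons, List.not_mem_nil, or_false] at hD
  rcases hD with rfl | rfl | rfl | rfl | rfl | rfl | rfl
  · exact etaOK_G2
  · exact etaOK_B2
  · exact etaOK_D4
  · exact etaOK_F4
  · exact etaOK_E6
  · exact etaOK_E7
  · exact etaOK_E8

section sem

variable {F : Type*} [Field F]

theorem nMat_monomial {D : ChevalleyDatum} (W : WOK D) (he : etaOK D = true) {i : ℕ}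
    (hi : i < D.rank) :
    ∃ η : ℕ → ℤ, (∀ s < D.nroots, η s = 1 ∨ η s = -1) ∧ η (D.simple i) = -1 ∧
      η (D.neg (D.simple i)) = -1 ∧
      (∀ s < D.nroots, η s * η (D.reflectRoot i s) = (-1) ^ (D.cartan i s).natAbs ∧
        η s * η (D.neg s) = 1) ∧
      D.nMat F (D.simple i) 1 = Matrix.of (fun (row col : D.Idx) =>
        Sum.elim
          (fun j' : Fin D.rank => Sum.elim
            (fun j : Fin D.rank => (if j' = j then (1 : F) else 0) -
              (if (j' : ℕ) = i then ((D.cartan j (D.simple i) : ℤ) : F) else 0))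
            (fun _ => (0 : F)) col)
          (fun s' : Fin D.nroots => Sum.elim
            (fun _ => (0 : F))
            (fun s : Fin D.nroots =>
              if (s' : ℕ) = D.reflectRoot i s then ((η s : ℤ) : F) else 0) col)
          row) := by
  obtain ⟨hp, hnp⟩ := simple_lt W.fd W.n hi
  obtain ⟨h1, h2⟩ := etaOK_spec he hi
  rw [fsimple_eq] at h1
  refine ⟨nsgn D i, fun s _ => sg_cases _, h1, ?_, ?_, ?_⟩
  · have h3 := (w_facts W.n hi hp).2.2.2.2
    rw [fneg_eq W.fd] at h3
    rw [h3, h1]
  · intro s hs
    constructor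
    · have h3 := h2 s hs
      rw [fw_eq W.n hi hs, frefl_eq W.fd, fcar_eq W.fd] at h3
      exact h3
    · have h3 := (w_facts W.n hi hs).2.2.2.2
      rw [fneg_eq W.fd] at h3
      rw [h3]
      exact sg_mul_self _
  · ext a b
    rw [ncol_sound W.fd W.n hi (0 : F) 0 a b, Matrix.of_apply]
    rcases b with j | s
    · have hb : code D (Sum.inl j) = j.val := rfl
      rw [hb, ncol_h i j.isLt]
      rcases a with k | u
      · have hc : code D (Sum.inl k) = k.val := rfl
        rw [hc, semAt_cons, semAt_cons, semAt_nil]
        simp only [Sum.elim_inl, vtVal, pow_zero, mul_one, add_zero]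
        rw [fcar_eq W.fd, fsimple_eq]
        by_cases h1 : k = j
        · subst h1
          by_cases h2 : (k : ℕ) = i
          · simp [h2]
            ring
          · have h2' : ¬ i = (k : ℕ) := fun h => h2 h.symm
            simp [h2, h2']
        · have h1' : ¬ (j : ℕ) = (k : ℕ) := fun h => h1 (Fin.ext h.symm)
          by_cases h2 : (k : ℕ) = i
          · have h3 : ¬ (j : ℕ) = i := fun h => h1' (h.trans h2.symm)
            simp [h1, h2, h3]
          · have h2' : ¬ i = (k : ℕ) := fun h => h2 h.symm
            simp [h1, h1', h2, h2']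
      · have hc : code D (Sum.inr u) = D.rank + u.val := rfl
        rw [hc, semAt_cons, semAt_cons, semAt_nil]
        have h1 : ¬ j.val = D.rank + u.val := by have := j.isLt; omega
        have h2 : ¬ i = D.rank + u.val := by omega
        simp [h1, h2]
    · have hb : code D (Sum.inr s) = D.rank + s.val := rfl
      rw [hb, ncol_root i s.isLt, semAt_single]
      rcases a with k | u
      · have hc : code D (Sum.inl k) = k.val := rfl
        have h1 : ¬ D.rank + fw D i s.val = k.val := by have := k.isLt; omega
        rw [hc]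
        simp [h1]
      · have hc : code D (Sum.inr u) = D.rank + u.val := rfl
        rw [hc, fw_eq W.n hi s.isLt, frefl_eq W.fd]
        simp only [Sum.elim_inr, vtVal, pow_zero, mul_one]
        by_cases h1 : (u : ℕ) = D.reflectRoot i s
        · simp [h1]
        · have h1' : ¬ D.reflectRoot i s = (u : ℕ) := fun h => h1 h.symm
          simp [h1, h1']

end sem

end Cfsg.Agent.Helper7
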