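import Cfsg.Agent.Helper7.ChevBasic

set_option autoImplicit false
set_option linter.unusedSectionVars false
set_option linter.unusedVariables false
open Cfsg

namespace Cfsg.Agent.Helper7

open Cfsg.Lie

structure VT where
  idx : ℕ
  c : ℤ
  e1 : ℕ
  e2 : ℕ

abbrev PT := ℤ × ℕ × ℕ

def pmul (p q : List PT) : List PT :=
  p.flatMap fun a => q.map fun b => (a.1 * b.1, a.2.1 + b.2.1, a.2.2 + b.2.2)

def ppow (p : List PT) : ℕ → List PT
  | 0 => [(1, 0, 0)]
  | k + 1 => pmul p (ppow p k)

def place (m : ℕ) (z : ℤ) (q : List PT) : List VT :=
  q.map fun a => ⟨m, z * a.1, a.2.1, a.2.2⟩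

def col (D : ChevalleyDatum) (r : ℕ) (p : List PT) (n : ℕ) : List VT :=
  if n < D.rank then
    ⟨n, 1, 0, 0⟩ :: place (D.rank + r) (-((D.cartanSR.getD n #[]).getD r 0)) p
  else if n < D.rank + D.nroots then
    if n - D.rank = r then [⟨n, 1, 0, 0⟩]
    else if n - D.rank = D.negIdx.getD r 0 then
      ⟨n, 1, 0, 0⟩ :: (((List.range D.rank).flatMap fun i =>
        place i ((D.coroot.getD r #[]).getD i 0) p) ++ place (D.rank + r) (-1) (ppow p 2))
    else
      ⟨n, 1, 0, 0⟩ :: (((D.chain.getD r #[]).toList.filter (fun e => e.1 = n - D.rank)).flatMap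
        fun e => (e.2.toList.zipIdx).flatMap fun q =>
          place (D.rank + q.1.1) q.1.2 (ppow p (q.2 + 1)))
  else []

def code (D : ChevalleyDatum) : D.Idx → ℕ
  | Sum.inl i => i.val
  | Sum.inr s => D.rank + s.val

def vmul (t t' : VT) : VT := ⟨t'.idx, t.c * t'.c, t.e1 + t'.e1, t.e2 + t'.e2⟩

def app (D : ChevalleyDatum) (r : ℕ) (p : List PT) (v : List VT) : List VT :=
  if r < D.nroots then v.flatMap fun t => (col D r p t.idx).map (vmul t) else v

def appWord (D : ChevalleyDatum) (w : List (ℕ × List PT)) (v : List VT) : List VT :=
  w.foldr (fun a acc => app D a.1 a.2 acc) v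

def ins (acc : List VT) (t : VT) : List VT :=
  match acc with
  | [] => [t]
  | a :: rest =>
    if a.idx = t.idx ∧ a.e1 = t.e1 ∧ a.e2 = t.e2 then ⟨a.idx, a.c + t.c, a.e1, a.e2⟩ :: rest
    else a :: ins rest t

def norm (v : List VT) : List VT := v.foldl ins []

def isZero (v : List VT) : Bool := (norm v).all fun t => decide (t.c = 0)

def vneg (v : List VT) : List VT := v.map fun t => ⟨t.idx, -t.c, t.e1, t.e2⟩

def red (t : VT) : VT := ⟨t.idx, t.c, t.e1 - min t.e1 t.e2, t.e2 - min t.e1 t.e2⟩

def unitV (n : ℕ) : List VT := [⟨n, 1, 0, 0⟩]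

section sem

variable {F : Type*} [Field F]

def ptVal (x y : F) (a : PT) : F := (a.1 : F) * x ^ a.2.1 * y ^ a.2.2

def pev (x y : F) (p : List PT) : F := (p.map (ptVal x y)).sum

def vtVal (x y : F) (t : VT) : F := (t.c : F) * x ^ t.e1 * y ^ t.e2

def semAt (x y : F) (v : List VT) (n : ℕ) : F :=
  (v.map fun t => if t.idx = n then vtVal x y t else 0).sum

theorem pev_nil (x y : F) : pev x y [] = 0 := rfl

theorem pev_cons (x y : F) (a : PT) (p : List PT) : pev x y (a :: p) = ptVal x y a + pev x y p := by
  simp [pev]

theorem pev_append (x y : F) (p q : List PT) : pev x y (p ++ q) = pev x y p + pev x y q := by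
  simp [pev]

theorem pev_map_mul (x y : F) (a : PT) (q : List PT) :
    pev x y (q.map fun b => (a.1 * b.1, a.2.1 + b.2.1, a.2.2 + b.2.2)) = ptVal x y a * pev x y q := by
  induction q with
  | nil => simp [pev]
  | cons b q ih =>
    rw [List.map_cons, pev_cons, pev_cons, ih, mul_add]
    congr 1
    simp only [ptVal, Int.cast_mul, pow_add]
    ring

theorem pev_pmul (x y : F) (p q : List PT) : pev x y (pmul p q) = pev x y p * pev x y q := by
  induction p with
  | nil => simp [pmul, pev]
  | cons a p ih =>
    have : pmul (a :: p) q =
        (q.map fun b => (a.1 * b.1, a.2.1 + b.2.1, a.2.2 + b.2.2)) ++ pmul p q := by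
      simp [pmul]
    rw [this, pev_append, pev_map_mul, ih, pev_cons, add_mul]

theorem pev_ppow (x y : F) (p : List PT) (k : ℕ) : pev x y (ppow p k) = pev x y p ^ k := by
  induction k with
  | zero => simp [ppow, pev, ptVal]
  | succ k ih => rw [ppow, pev_pmul, ih, pow_succ, mul_comm]

theorem semAt_nil (x y : F) (n : ℕ) : semAt x y [] n = 0 := rfl

theorem semAt_cons (x y : F) (t : VT) (v : List VT) (n : ℕ) :
    semAt x y (t :: v) n = (if t.idx = n then vtVal x y t else 0) + semAt x y v n := by
  simp [semAt]

theorem semAt_append (x y : F) (v w : List VT) (n : ℕ) :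
    semAt x y (v ++ w) n = semAt x y v n + semAt x y w n := by
  simp [semAt]

theorem semAt_flatMap {α : Type*} (x y : F) (l : List α) (f : α → List VT) (n : ℕ) :
    semAt x y (l.flatMap f) n = (l.map fun a => semAt x y (f a) n).sum := by
  induction l with
  | nil => simp [semAt]
  | cons a l ih => rw [List.flatMap_cons, semAt_append, ih, List.map_cons, List.sum_cons]

theorem semAt_place (x y : F) (m : ℕ) (z : ℤ) (q : List PT) (n : ℕ) :
    semAt x y (place m z q) n = if m = n then (z : F) * pev x y q else 0 := by
  induction q with
  | nil => simp [place, semAt, pev]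
  | cons a q ih =>
    have : place m z (a :: q) = ⟨m, z * a.1, a.2.1, a.2.2⟩ :: place m z q := by simp [place]
    rw [this, semAt_cons, ih, pev_cons]
    by_cases h : m = n
    · simp only [h, if_true, vtVal, ptVal, Int.cast_mul]
      ring
    · simp [h]

theorem semAt_map_vmul (x y : F) (t : VT) (v : List VT) (n : ℕ) :
    semAt x y (v.map (vmul t)) n = vtVal x y t * semAt x y v n := by
  induction v with
  | nil => simp [semAt]
  | cons a v ih =>
    rw [List.map_cons, semAt_cons, semAt_cons, ih, mul_add]
    congr 1
    by_cases h : a.idx = n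
    · simp only [vmul, h, if_true, vtVal, Int.cast_mul, pow_add]
      ring
    · simp [vmul, h]

theorem semAt_unitV (x y : F) (m n : ℕ) : semAt x y (unitV m) n = if m = n then 1 else 0 := by
  simp [unitV, semAt, vtVal]

theorem semAt_vneg (x y : F) (v : List VT) (n : ℕ) : semAt x y (vneg v) n = - semAt x y v n := by
  induction v with
  | nil => simp [vneg, semAt]
  | cons a v ih =>
    have : vneg (a :: v) = ⟨a.idx, -a.c, a.e1, a.e2⟩ :: vneg v := by simp [vneg]
    rw [this, semAt_cons, semAt_cons, ih, neg_add]
    congr 1
    by_cases h : a.idx = n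
    · simp [h, vtVal]
    · simp [h]

theorem ins_cons (a : VT) (rest : List VT) (t : VT) :
    ins (a :: rest) t = if a.idx = t.idx ∧ a.e1 = t.e1 ∧ a.e2 = t.e2 then
      ⟨a.idx, a.c + t.c, a.e1, a.e2⟩ :: rest else a :: ins rest t := rfl

theorem semAt_ins (x y : F) (acc : List VT) (t : VT) (n : ℕ) :
    semAt x y (ins acc t) n = semAt x y acc n + (if t.idx = n then vtVal x y t else 0) := by
  induction acc with
  | nil => simp [ins, semAt]
  | cons a rest ih =>
    rw [ins_cons]
    by_cases h : a.idx = t.idx ∧ a.e1 = t.e1 ∧ a.e2 = t.e2
    · rw [if_pos h]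
      obtain ⟨h1, h2, h3⟩ := h
      rw [semAt_cons, semAt_cons]
      by_cases hn : a.idx = n
      · have hn' : t.idx = n := by rw [← h1]; exact hn
        rw [if_pos hn, if_pos hn, if_pos hn']
        simp only [vtVal, Int.cast_add, h2, h3]
        ring
      · have hn' : ¬ t.idx = n := by rw [← h1]; exact hn
        rw [if_neg hn, if_neg hn, if_neg hn']
        ring
    · rw [if_neg h, semAt_cons, semAt_cons, ih]
      ring

theorem semAt_foldl_ins (x y : F) (v acc : List VT) (n : ℕ) :
    semAt x y (v.foldl ins acc) n = semAt x y acc n + semAt x y v n := by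
  induction v generalizing acc with
  | nil => simp [semAt]
  | cons a v ih => rw [List.foldl_cons, ih, semAt_ins, semAt_cons]; ring

theorem semAt_norm (x y : F) (v : List VT) (n : ℕ) : semAt x y (norm v) n = semAt x y v n := by
  rw [norm, semAt_foldl_ins, semAt_nil, zero_add]

theorem semAt_eq_zero_of_all (x y : F) (v : List VT) (h : (v.all fun t => decide (t.c = 0)) = true)
    (n : ℕ) : semAt x y v n = 0 := by
  induction v with
  | nil => rfl
  | cons a v ih =>
    rw [List.all_cons, Bool.and_eq_true] at h
    rw [semAt_cons, ih h.2, add_zero]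
    have : a.c = 0 := by simpa using h.1
    simp [vtVal, this]

theorem isZero_sound (x y : F) (v : List VT) (h : isZero v = true) (n : ℕ) : semAt x y v n = 0 := by
  rw [← semAt_norm]
  exact semAt_eq_zero_of_all x y _ h n

theorem vtVal_red (x y : F) (hxy : x * y = 1) (t : VT) : vtVal x y (red t) = vtVal x y t := by
  have key : ∀ a b : ℕ, x ^ (a - min a b) * y ^ (b - min a b) = x ^ a * y ^ b := by
    intro a b
    rcases le_total a b with h | h
    · rw [min_eq_left h, Nat.sub_self, pow_zero, one_mul]
      obtain ⟨d, rfl⟩ := Nat.exists_eq_add_of_le h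
      rw [Nat.add_sub_cancel_left, pow_add, ← mul_assoc, ← mul_pow, hxy, one_pow, one_mul]
    · rw [min_eq_right h, Nat.sub_self, pow_zero, mul_one]
      obtain ⟨d, rfl⟩ := Nat.exists_eq_add_of_le h
      rw [Nat.add_sub_cancel_left, pow_add, mul_assoc, mul_comm (x ^ d), ← mul_assoc, ← mul_pow,
        hxy, one_pow, one_mul]
  simp only [vtVal, red]
  rw [mul_assoc, key, ← mul_assoc]

theorem semAt_map_red (x y : F) (hxy : x * y = 1) (v : List VT) (n : ℕ) :
    semAt x y (v.map red) n = semAt x y v n := by
  induction v with
  | nil => rfl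
  | cons a v ih =>
    rw [List.map_cons, semAt_cons, semAt_cons, ih, vtVal_red x y hxy]
    rfl

theorem code_lt (D : ChevalleyDatum) (i : D.Idx) : code D i < D.rank + D.nroots := by
  rcases i with i | s
  · simp only [code]; have := i.isLt; omega
  · simp only [code]; have := s.isLt; omega

theorem code_injective (D : ChevalleyDatum) : Function.Injective (code D) := by
  intro i j h
  rcases i with i | s <;> rcases j with j | s'
  · simp only [code] at h; rw [Fin.ext h]
  · simp only [code] at h; have := i.isLt; omega
  · simp only [code] at h; have := j.isLt; omega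
  · simp only [code] at h
    have : s.val = s'.val := by omega
    rw [Fin.ext this]

theorem exists_code (D : ChevalleyDatum) {n : ℕ} (h : n < D.rank + D.nroots) :
    ∃ j : D.Idx, code D j = n := by
  by_cases h1 : n < D.rank
  · exact ⟨Sum.inl ⟨n, h1⟩, rfl⟩
  · refine ⟨Sum.inr ⟨n - D.rank, by omega⟩, ?_⟩
    simp only [code]; omega

theorem col_of_ge (D : ChevalleyDatum) (r : ℕ) (p : List PT) {n : ℕ}
    (h : D.rank + D.nroots ≤ n) : col D r p n = [] := by
  unfold col
  rw [if_neg (by omega), if_neg (by omega)]

theorem semAt_range_place (x y : F) (N : ℕ) (f : ℕ → ℤ) (p : List PT) (n : ℕ) :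
    semAt x y ((List.range N).flatMap fun i => place i (f i) p) n =
      if n < N then (f n : F) * pev x y p else 0 := by
  rw [semAt_flatMap]
  induction N with
  | zero => simp
  | succ N ih =>
    rw [List.range_succ, List.map_append, List.sum_append, ih, List.map_singleton,
      List.sum_singleton, semAt_place]
    by_cases h1 : n < N
    · have h2 : ¬ N = n := by omega
      have h3 : n < N + 1 := by omega
      simp [h1, h2, h3]
    · by_cases h2 : N = n
      · subst h2; simp
      · have h3 : ¬ n < N + 1 := by omega
        simp [h1, h2, h3]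

theorem semAt_chainPart (D : ChevalleyDatum) (x y : F) (p : List PT) (u : ℕ)
    (L : List (ℕ × Array (ℕ × ℤ))) :
    semAt x y (L.flatMap fun e => (e.2.toList.zipIdx).flatMap fun q =>
        place (D.rank + q.1.1) q.1.2 (ppow p (q.2 + 1))) (D.rank + u) =
      ((L.flatMap fun e => ((e.2.toList.zipIdx).filter (fun q => q.1.1 = u)).map fun q =>
        (q.2 + 1, q.1.2)).map fun km => ((km.2 : ℤ) : F) * (pev x y p) ^ km.1).sum := by
  induction L with
  | nil => simp [semAt]
  | cons e L ih =>
    rw [List.flatMap_cons, semAt_append, ih, List.flatMap_cons, List.map_append, List.sum_append]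
    congr 1
    generalize e.2.toList.zipIdx = Z
    induction Z with
    | nil => simp [semAt]
    | cons q Z ihZ =>
      rw [List.flatMap_cons, semAt_append, ihZ, semAt_place, pev_ppow, List.filter_cons]
      by_cases h : q.1.1 = u
      · simp [h]
      · simp [h]

theorem col_sound (D : ChevalleyDatum) (r : Fin D.nroots) (p : List PT) (x y : F)
    (i j : D.Idx) :
    D.xMat F r (pev x y p) i j = semAt x y (col D r.val p (code D j)) (code D i) := by
  rcases j with i0 | s
  · have h0 : code D (Sum.inl i0) < D.rank := i0.isLt
    unfold col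
    rw [if_pos h0, semAt_cons, semAt_place]
    rcases i with i' | u
    · have h1 : ¬ (D.rank + r.val = code D (Sum.inl i')) := by
        simp only [code]; have := i'.isLt; omega
      rw [if_neg h1]
      simp only [ChevalleyDatum.xMat, Matrix.of_apply, code, vtVal]
      by_cases h : i' = i0
      · subst h; simp
      · have : ¬ (i0.val = i'.val) := fun hh => h (Fin.ext hh.symm)
        simp [h, this]
    · have h1 : ¬ (code D (Sum.inl i0) = code D (Sum.inr u)) := by
        simp only [code]; have := i0.isLt; omega
      rw [if_neg h1, zero_add]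
      simp only [ChevalleyDatum.xMat, Matrix.of_apply, code]
      by_cases h : u = r
      · subst h; simp
      · have : ¬ (r.val = u.val) := fun hh => h (Fin.ext hh.symm)
        simp [h, this]
  · have h0 : ¬ code D (Sum.inr s) < D.rank := by simp only [code]; omega
    have h0' : code D (Sum.inr s) < D.rank + D.nroots := code_lt D _
    have hs : code D (Sum.inr s) - D.rank = s.val := by simp only [code]; omega
    unfold col
    rw [if_neg h0, if_pos h0', hs]
    by_cases hsr : s = r
    · have : s.val = r.val := by rw [hsr]
      rw [if_pos this, semAt_cons, semAt_nil, add_zero]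
      subst hsr
      rcases i with i' | u
      · have h1 : ¬ (code D (Sum.inr s) = code D (Sum.inl i')) := by
          simp only [code]; have := i'.isLt; omega
        simp [ChevalleyDatum.xMat, h1]
      · simp only [ChevalleyDatum.xMat, Matrix.of_apply, code, vtVal]
        by_cases h : u = s
        · subst h; simp
        · have : ¬ (s.val = u.val) := fun hh => h (Fin.ext hh.symm)
          simp [h, this]
    · have hsr' : ¬ s.val = r.val := fun hh => hsr (Fin.ext hh)
      rw [if_neg hsr']
      by_cases hs2 : s.val = D.negIdx.getD r.val 0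
      · rw [if_pos hs2, semAt_cons, semAt_append, semAt_range_place, semAt_place, pev_ppow]
        rcases i with i' | u
        · have h1 : ¬ (code D (Sum.inr s) = code D (Sum.inl i')) := by
            simp only [code]; have := i'.isLt; omega
          have h2 : code D (Sum.inl i') < D.rank := i'.isLt
          have h3 : ¬ (D.rank + r.val = code D (Sum.inl i')) := by
            simp only [code]; have := i'.isLt; omega
          rw [if_neg h1, if_pos h2, if_neg h3]
          simp only [ChevalleyDatum.xMat, Matrix.of_apply, code]
          rw [if_neg hsr, if_pos hs2]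
          simp
        · have h2 : ¬ code D (Sum.inr u) < D.rank := by simp only [code]; omega
          rw [if_neg h2]
          simp only [ChevalleyDatum.xMat, Matrix.of_apply, code, vtVal]
          rw [if_neg hsr, if_pos hs2]
          by_cases h : u = s
          · subst h
            have : ¬ (r.val = u.val) := fun hh => hsr' hh.symm
            simp [this]
          · have h4 : ¬ (s.val = u.val) := fun hh => h (Fin.ext hh.symm)
            by_cases h5 : u = r
            · subst h5; simp [h, h4]
            · have h6 : ¬ (r.val = u.val) := fun hh => h5 (Fin.ext hh.symm)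
              simp [h, h4, h5, h6]
      · rw [if_neg hs2, semAt_cons]
        rcases i with i' | u
        · have h1 : ¬ (code D (Sum.inr s) = code D (Sum.inl i')) := by
            simp only [code]; have := i'.isLt; omega
          rw [if_neg h1, zero_add]
          have hz : semAt x y (((D.chain.getD r.val #[]).toList.filter
              (fun e => e.1 = s.val)).flatMap fun e => (e.2.toList.zipIdx).flatMap fun q =>
                place (D.rank + q.1.1) q.1.2 (ppow p (q.2 + 1))) (code D (Sum.inl i')) = 0 := by
            rw [semAt_flatMap]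
            apply List.sum_eq_zero
            intro z hz
            rw [List.mem_map] at hz
            obtain ⟨e, _, rfl⟩ := hz
            rw [semAt_flatMap]
            apply List.sum_eq_zero
            intro z hz
            rw [List.mem_map] at hz
            obtain ⟨q, _, rfl⟩ := hz
            rw [semAt_place, if_neg]
            simp only [code]; have := i'.isLt; omega
          rw [hz]
          simp only [ChevalleyDatum.xMat, Matrix.of_apply]
          rw [if_neg hsr, if_neg hs2]
        · have hc : code D (Sum.inr u) = D.rank + u.val := rfl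
          rw [hc, semAt_chainPart]
          simp only [ChevalleyDatum.xMat, Matrix.of_apply, code, vtVal]
          rw [if_neg hsr, if_neg hs2]
          congr 1
          by_cases h : u = s
          · subst h; simp
          · have h4 : ¬ (s.val = u.val) := fun hh => h (Fin.ext hh.symm)
            simp [h, h4]

theorem app_sound (D : ChevalleyDatum) (r : Fin D.nroots) (p : List PT) (x y : F)
    (v : List VT) (i : D.Idx) :
    semAt x y (app D r.val p v) (code D i) =
      ∑ j, D.xMat F r (pev x y p) i j * semAt x y v (code D j) := by
  unfold app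
  rw [if_pos r.isLt]
  induction v with
  | nil => simp [semAt]
  | cons t v ih =>
    rw [List.flatMap_cons, semAt_append, ih, semAt_map_vmul]
    simp only [semAt_cons, mul_add, Finset.sum_add_distrib]
    congr 1
    by_cases ht : t.idx < D.rank + D.nroots
    · obtain ⟨j0, hj0⟩ := exists_code D ht
      rw [Finset.sum_eq_single j0]
      · rw [if_pos hj0.symm, ← hj0, ← col_sound, mul_comm]
      · intro j _ hj
        rw [if_neg, mul_zero]
        intro hh
        exact hj (code_injective D (hh.symm.trans hj0.symm))
      · intro h; exact absurd (Finset.mem_univ _) h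
    · rw [col_of_ge D _ _ (by omega), semAt_nil, mul_zero]
      symm
      apply Finset.sum_eq_zero
      intro j _
      rw [if_neg, mul_zero]
      intro hh
      have := code_lt D j
      omega

theorem app_sound' (D : ChevalleyDatum) (r : ℕ) (p : List PT) (x y : F)
    (v : List VT) (i : D.Idx) :
    semAt x y (app D r p v) (code D i) =
      ∑ j, D.x F r (pev x y p) i j * semAt x y v (code D j) := by
  by_cases hr : r < D.nroots
  · rw [x_of_lt D F hr]
    exact app_sound D ⟨r, hr⟩ p x y v i
  · unfold app ChevalleyDatum.x
    rw [if_neg hr, dif_neg hr]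
    simp [Matrix.one_apply]

theorem appWord_sound (D : ChevalleyDatum) (w : List (ℕ × List PT)) (x y : F)
    (v : List VT) (i : D.Idx) :
    semAt x y (appWord D w v) (code D i) =
      ∑ j, D.wordMat F (w.map fun a => (a.1, pev x y a.2)) i j * semAt x y v (code D j) := by
  induction w generalizing i with
  | nil => simp [appWord, ChevalleyDatum.wordMat, Matrix.one_apply]
  | cons a w ih =>
    have h1 : appWord D (a :: w) v = app D a.1 a.2 (appWord D w v) := rfl
    have h2 : D.wordMat F ((a :: w).map fun a => (a.1, pev x y a.2)) =
        D.x F a.1 (pev x y a.2) * D.wordMat F (w.map fun a => (a.1, pev x y a.2)) := by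
      simp [ChevalleyDatum.wordMat]
    rw [h1, h2, app_sound']
    simp only [ih, Matrix.mul_apply, Finset.mul_sum, Finset.sum_mul]
    rw [Finset.sum_comm]
    apply Finset.sum_congr rfl
    intro k _
    apply Finset.sum_congr rfl
    intro j _
    ring

theorem appWord_unit (D : ChevalleyDatum) (w : List (ℕ × List PT)) (x y : F) (i j : D.Idx) :
    semAt x y (appWord D w (unitV (code D j))) (code D i) =
      D.wordMat F (w.map fun a => (a.1, pev x y a.2)) i j := by
  rw [appWord_sound, Finset.sum_eq_single j]
  · rw [semAt_unitV, if_pos rfl, mul_one]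
  · intro k _ hk
    rw [semAt_unitV, if_neg, mul_zero]
    intro hh
    exact hk (code_injective D hh).symm
  · intro h; exact absurd (Finset.mem_univ _) h

end sem

end Cfsg.Agent.Helper7
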