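import Cfsg.Agent.Helper7.ChevZero

set_option autoImplicit false
set_option linter.unusedSectionVars false
set_option linter.unusedVariables false
open Cfsg

namespace Cfsg.Agent.Helper7

open Cfsg.Lie

structure RCtx where
  rank : ℕ
  nroots : ℕ
  r : ℕ
  nr : ℕ
  cor : List ℤ
  car : List ℤ
  ch : List (ℕ × Array (ℕ × ℤ))
  mask : ℕ

def keyMask (l : List (ℕ × Array (ℕ × ℤ))) : ℕ := l.foldl (fun acc e => acc ||| 2 ^ e.1) 0

def mkCtx (D : ChevalleyDatum) (r : ℕ) : RCtx where
  rank := D.rank
  nroots := D.nroots
  r := r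
  nr := D.negIdx.toList.getD r 0
  cor := (List.range D.rank).map fun i => (D.coroot.toList.getD r #[]).toList.getD i 0
  car := (List.range D.rank).map fun i => (D.cartanSR.toList.getD i #[]).toList.getD r 0
  ch := (D.chain.toList.getD r #[]).toList
  mask := keyMask (D.chain.toList.getD r #[]).toList

def placeL (p : List PT) : ℕ → List ℤ → List VT
  | _, [] => []
  | i, c :: cs => place i c p ++ placeL p (i + 1) cs

def col2 (c : RCtx) (p : List PT) (n : ℕ) : List VT :=
  if n < c.rank then
    ⟨n, 1, 0, 0⟩ :: place (c.rank + c.r) (-(c.car.getD n 0)) p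
  else if n < c.rank + c.nroots then
    if n - c.rank = c.r then [⟨n, 1, 0, 0⟩]
    else if n - c.rank = c.nr then
      ⟨n, 1, 0, 0⟩ :: (placeL p 0 c.cor ++ place (c.rank + c.r) (-1) (ppow p 2))
    else if Nat.testBit c.mask (n - c.rank) then
      ⟨n, 1, 0, 0⟩ :: ((c.ch.filter (fun e => e.1 = n - c.rank)).flatMap
        fun e => (e.2.toList.zipIdx).flatMap fun q =>
          place (c.rank + q.1.1) q.1.2 (ppow p (q.2 + 1)))
    else [⟨n, 1, 0, 0⟩]
  else []

def app2 (c : RCtx) (p : List PT) (v : List VT) : List VT :=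
  v.flatMap fun t => (col2 c p t.idx).map (vmul t)

theorem testBit_keyMask_aux (l : List (ℕ × Array (ℕ × ℤ))) (acc s : ℕ) :
    Nat.testBit (l.foldl (fun acc e => acc ||| 2 ^ e.1) acc) s =
      (Nat.testBit acc s || l.any fun e => decide (e.1 = s)) := by
  induction l generalizing acc with
  | nil => simp
  | cons e l ih =>
    rw [List.foldl_cons, ih, Nat.testBit_or, Nat.testBit_two_pow, List.any_cons, Bool.or_assoc]

theorem testBit_keyMask (l : List (ℕ × Array (ℕ × ℤ))) (s : ℕ) :
    Nat.testBit (keyMask l) s = l.any fun e => decide (e.1 = s) := by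
  rw [keyMask, testBit_keyMask_aux]
  simp

theorem filter_eq_nil_of_mask (l : List (ℕ × Array (ℕ × ℤ))) (s : ℕ)
    (h : ¬ Nat.testBit (keyMask l) s = true) : l.filter (fun e => e.1 = s) = [] := by
  rw [testBit_keyMask] at h
  rw [List.filter_eq_nil_iff]
  intro e he hes
  apply h
  rw [List.any_eq_true]
  exact ⟨e, he, hes⟩

theorem placeL_range' (p : List PT) (f : ℕ → ℤ) (N k : ℕ) :
    placeL p k ((List.range' k N).map f) = (List.range' k N).flatMap fun i => place i (f i) p := by
  induction N generalizing k with
  | zero => simp [placeL]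
  | succ N ih =>
    rw [List.range'_succ, List.map_cons, placeL, ih, List.flatMap_cons]

theorem placeL_range (p : List PT) (f : ℕ → ℤ) (N : ℕ) :
    placeL p 0 ((List.range N).map f) = (List.range N).flatMap fun i => place i (f i) p := by
  rw [List.range_eq_range', placeL_range']

theorem array_getD_toList {α : Type*} (a : Array α) (i : ℕ) (d : α) :
    a.toList.getD i d = a.getD i d := by
  simp [List.getD_eq_getElem?_getD, Array.getD_eq_getD_getElem?]

theorem col2_eq (D : ChevalleyDatum) (r : ℕ) (p : List PT) (n : ℕ) :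
    col2 (mkCtx D r) p n = col D r p n := by
  have key : ∀ (c : RCtx), c = mkCtx D r → col2 c p n = col D r p n := by
    rintro ⟨rank, nroots, r', nr, cor, car, ch, mask⟩ hc
    simp only [mkCtx, RCtx.mk.injEq] at hc
    obtain ⟨rfl, rfl, rfl, rfl, rfl, rfl, rfl, rfl⟩ := hc
    unfold col2 col
    dsimp only
    by_cases h1 : n < D.rank
    · rw [if_pos h1, if_pos h1]
      congr 3
      rw [List.getD_eq_getElem?_getD, List.getElem?_map, List.getElem?_range h1]
      simp [array_getD_toList]
    · rw [if_neg h1, if_neg h1]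
      by_cases h2 : n < D.rank + D.nroots
      · rw [if_pos h2, if_pos h2]
        by_cases h3 : n - D.rank = r'
        · rw [if_pos h3, if_pos h3]
        · rw [if_neg h3, if_neg h3, array_getD_toList]
          by_cases h4 : n - D.rank = D.negIdx.getD r' 0
          · rw [if_pos h4, if_pos h4, placeL_range]
            simp [array_getD_toList]
          · rw [if_neg h4, if_neg h4, array_getD_toList]
            by_cases h5 : Nat.testBit (keyMask (D.chain.getD r' #[]).toList) (n - D.rank) = true
            · rw [if_pos h5]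
            · rw [if_neg h5, filter_eq_nil_of_mask _ _ h5]
              rfl
      · rw [if_neg h2, if_neg h2]
  exact key _ rfl

theorem app2_eq (D : ChevalleyDatum) (r : ℕ) (hr : r < D.nroots) (p : List PT) (v : List VT) :
    app2 (mkCtx D r) p v = app D r p v := by
  unfold app2 app
  rw [if_pos hr]
  simp only [col2_eq]

end Cfsg.Agent.Helper7
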