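import Cfsg.Agent.Helper7.ChevN

set_option autoImplicit false
set_option linter.unusedSectionVars false
set_option linter.unusedVariables false
open Cfsg

namespace Cfsg.Agent.Helper7

open Cfsg.Lie

def flipZ (b : Bool) (z : ℤ) : ℤ := bif b then -z else z

def chainMatch (D : ChevalleyDatum) (i : ℕ) (bu bs : Bool) :
    Bool → List (ℕ × ℤ) → List (ℕ × ℤ) → Bool
  | _, [], [] => true
  | σ, q :: L, q' :: L' =>
      Nat.blt q.1 D.nroots && Nat.beq q'.1 (fw D i q.1) &&
        decide (q'.2 = flipZ (Bool.xor (Bool.xor (nbit D i q.1) bu) σ) q.2) &&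
        chainMatch D i bu bs (Bool.xor σ bs) L L'
  | _, _, _ => false

def cpart (D : ChevalleyDatum) (p : List PT) (k : ℕ) (L : List (ℕ × ℤ)) : List VT :=
  (L.zipIdx k).flatMap fun q => place (D.rank + q.1.1) q.1.2 (ppow p (q.2 + 1))

def gCol2 (D : ChevalleyDatum) (i s n : ℕ) : Bool :=
  isZeroE (appG (ncol D i) (col3 D s [(1, 1, 0)] n) ++
    vneg (appG (col3 D (fw D i s) [(nsgn D i s, 1, 0)]) (ncol D i n)))

def gCheck1 (D : ChevalleyDatum) (i : ℕ) : Bool :=
  (List.range D.nroots).all fun s =>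
    ((List.range D.rank).all fun j =>
      decide (fcar D j s = fcar D j (fw D i s) - fcar D j (fsimple D i) * fcar D i (fw D i s))) &&
    gCol2 D i s (D.rank + s) && gCol2 D i s (D.rank + fneg D s) &&
    ((D.chain.getD s #[]).toList.all fun e =>
      chainMatch D i (nbit D i e.1) (nbit D i s) (nbit D i s) e.2.toList
        (fchain D (fw D i s) (fw D i e.1)))

def gOK (D : ChevalleyDatum) : Bool := (List.range D.rank).all fun i => gCheck1 D i

theorem flipZ_eq (b : Bool) (z : ℤ) : flipZ b z = sg b * z := by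
  cases b <;> simp [flipZ, sg]

theorem chainMatch_nil_right {D : ChevalleyDatum} {i : ℕ} {bu bs σ : Bool} {L : List (ℕ × ℤ)}
    (h : chainMatch D i bu bs σ L [] = true) : L = [] := by
  cases L with
  | nil => rfl
  | cons q L => simp [chainMatch] at h

theorem cpart_cons (D : ChevalleyDatum) (p : List PT) (k : ℕ) (q : ℕ × ℤ) (L : List (ℕ × ℤ)) :
    cpart D p k (q :: L) = place (D.rank + q.1) q.2 (ppow p (k + 1)) ++ cpart D p (k + 1) L := by
  unfold cpart
  rw [List.zipIdx_cons, List.flatMap_cons]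

theorem appG_append (f : ℕ → List VT) (v v' : List VT) :
    appG f (v ++ v') = appG f v ++ appG f v' := by
  unfold appG
  rw [List.flatMap_append]

theorem appG_cons (f : ℕ → List VT) (a : VT) (v : List VT) :
    appG f (a :: v) = (f a.idx).map (vmul a) ++ appG f v := by
  unfold appG
  rw [List.flatMap_cons]

theorem appG_nil (f : ℕ → List VT) : appG f [] = [] := rfl

theorem col3_chain {D : ChevalleyDatum} (r : ℕ) (p : List PT) {u : ℕ} (hu : u < D.nroots)
    (h1 : u ≠ r) (h2 : u ≠ fneg D r) :
    col3 D r p (D.rank + u) = ⟨D.rank + u, 1, 0, 0⟩ :: cpart D p 0 (fchain D r u) := by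
  unfold col3 cpart
  rw [if_neg (by omega), if_pos (by omega), Nat.add_sub_cancel_left, if_neg h1, if_neg h2]

theorem col3_h {D : ChevalleyDatum} (r : ℕ) (p : List PT) {j : ℕ} (hj : j < D.rank) :
    col3 D r p j = ⟨j, 1, 0, 0⟩ :: place (D.rank + r) (-(fcar D j r)) p := by
  unfold col3
  rw [if_pos hj]

theorem gCheck1_spec {D : ChevalleyDatum} {i : ℕ} (hg : gCheck1 D i = true) {s : ℕ}
    (hs : s < D.nroots) :
    (∀ j < D.rank,
      fcar D j s = fcar D j (fw D i s) - fcar D j (fsimple D i) * fcar D i (fw D i s)) ∧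
    gCol2 D i s (D.rank + s) = true ∧ gCol2 D i s (D.rank + fneg D s) = true ∧
    (∀ e ∈ (D.chain.getD s #[]).toList,
      chainMatch D i (nbit D i e.1) (nbit D i s) (nbit D i s) e.2.toList
        (fchain D (fw D i s) (fw D i e.1)) = true) := by
  unfold gCheck1 at hg
  rw [List.all_eq_true] at hg
  have := hg s (List.mem_range.mpr hs)
  simp only [Bool.and_eq_true, List.all_eq_true, decide_eq_true_eq, List.mem_range] at this
  exact ⟨this.1.1.1, this.1.1.2, this.1.2, this.2⟩

section sem

variable {F : Type*} [Field F]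

def ind (F : Type*) [Field F] (m n : ℕ) : F := if m = n then 1 else 0

theorem semAt_cons' (x y : F) (t : VT) (v : List VT) (n : ℕ) :
    semAt x y (t :: v) n = vtVal x y t * ind F t.idx n + semAt x y v n := by
  rw [semAt_cons]
  unfold ind
  split_ifs <;> simp

theorem semAt_place' (x y : F) (m : ℕ) (z : ℤ) (q : List PT) (n : ℕ) :
    semAt x y (place m z q) n = (z : F) * pev x y q * ind F m n := by
  rw [semAt_place]
  unfold ind
  split_ifs <;> simp

theorem pev_x (x y : F) : pev x y [((1 : ℤ), 1, 0)] = x := by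
  simp [pev, ptVal]

theorem pev_zx (x y : F) (z : ℤ) : pev x y [(z, 1, 0)] = (z : F) * x := by
  simp [pev, ptVal]

theorem semAt_appG_place (f : ℕ → List VT) (x y : F) (m : ℕ) (z : ℤ) (q : List PT) (n : ℕ) :
    semAt x y (appG f (place m z q)) n = (z : F) * pev x y q * semAt x y (f m) n := by
  induction q with
  | nil => simp [place, appG, semAt, pev]
  | cons a q ih =>
    have : place m z (a :: q) = ⟨m, z * a.1, a.2.1, a.2.2⟩ :: place m z q := by simp [place]
    rw [this, appG_cons, semAt_append, ih, semAt_map_vmul, pev_cons]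
    simp only [vtVal, ptVal, Int.cast_mul]
    ring

theorem gcol_of_check {D : ChevalleyDatum} {i s n : ℕ} (hc : gCol2 D i s n = true) (x y : F)
    (m : ℕ) :
    semAt x y (appG (ncol D i) (col3 D s [(1, 1, 0)] n)) m =
      semAt x y (appG (col3 D (fw D i s) [(nsgn D i s, 1, 0)]) (ncol D i n)) m := by
  have := isZeroE_sound x y _ hc m
  rw [semAt_append, semAt_vneg] at this
  linear_combination this

theorem chain_sem (D : ChevalleyDatum) (i : ℕ) (bu bs : Bool) (x y : F) :
    ∀ (L L' : List (ℕ × ℤ)) (k : ℕ) (σ : Bool), chainMatch D i bu bs σ L L' = true →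
      sg σ = sg bs ^ (k + 1) → ∀ n,
      semAt x y (appG (ncol D i) (cpart D [(1, 1, 0)] k L)) n =
        ((sg bu : ℤ) : F) * semAt x y (cpart D [(sg bs, 1, 0)] k L') n := by
  intro L
  induction L with
  | nil =>
    intro L' k σ hm hσ n
    cases L' with
    | nil => simp [cpart, appG, semAt]
    | cons q' L' => simp [chainMatch] at hm
  | cons q L ih =>
    intro L' k σ hm hσ n
    cases L' with
    | nil => simp [chainMatch] at hm
    | cons q' L' =>
      simp only [chainMatch, Bool.and_eq_true, Nat.blt_eq, Nat.beq_eq, decide_eq_true_eq] at hm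
      obtain ⟨⟨⟨hq, hv⟩, hM⟩, hrest⟩ := hm
      have ih' := ih L' (k + 1) (Bool.xor σ bs) hrest (by rw [sg_xor, hσ]; ring) n
      have hM' : ((q'.2 : ℤ) : F) = ((nsgn D i q.1 : ℤ) : F) * ((sg bu : ℤ) : F) *
          ((sg bs : ℤ) : F) ^ (k + 1) * ((q.2 : ℤ) : F) := by
        rw [hM, flipZ_eq, sg_xor, sg_xor, hσ]
        unfold nsgn
        push_cast
        ring
      have h1 : ((sg bu : ℤ) : F) * ((sg bu : ℤ) : F) = 1 := by
        rw [← Int.cast_mul, sg_mul_self, Int.cast_one]
      have h1' : ((sg bs : ℤ) : F) * ((sg bs : ℤ) : F) = 1 := by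
        rw [← Int.cast_mul, sg_mul_self, Int.cast_one]
      have h2 : ((sg bs : ℤ) : F) ^ (k + 1) * ((sg bs : ℤ) : F) ^ (k + 1) = 1 := by
        rw [← mul_pow, h1', one_pow]
      rw [cpart_cons, cpart_cons, appG_append, semAt_append, semAt_append, semAt_appG_place,
        semAt_place', ncol_root i hq, semAt_cons', semAt_nil, pev_ppow, pev_ppow, pev_x, pev_zx,
        hv, hM']
      simp only [vtVal, pow_zero, mul_one, add_zero]
      linear_combination ih' +
        (-(((q.2 : ℤ) : F) * x ^ (k + 1) * ((nsgn D i q.1 : ℤ) : F) *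
          ind F (D.rank + fw D i q.1) n *
          (((sg bs : ℤ) : F) ^ (k + 1) * ((sg bs : ℤ) : F) ^ (k + 1)))) * h1 +
        (-(((q.2 : ℤ) : F) * x ^ (k + 1) * ((nsgn D i q.1 : ℤ) : F) *
          ind F (D.rank + fw D i q.1) n)) * h2

theorem gcol_chain {D : ChevalleyDatum} (i s u : ℕ) (hu : u < D.nroots) (hus : u ≠ s)
    (hun : u ≠ fneg D s) (hwu : fw D i u < D.nroots) (hw1 : fw D i u ≠ fw D i s)
    (hw2 : fw D i u ≠ fneg D (fw D i s))
    (hm : chainMatch D i (nbit D i u) (nbit D i s) (nbit D i s) (fchain D s u)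
      (fchain D (fw D i s) (fw D i u)) = true) (x y : F) (n : ℕ) :
    semAt x y (appG (ncol D i) (col3 D s [(1, 1, 0)] (D.rank + u))) n =
      semAt x y (appG (col3 D (fw D i s) [(nsgn D i s, 1, 0)]) (ncol D i (D.rank + u))) n := by
  have hch := chain_sem D i (nbit D i u) (nbit D i s) x y _ _ 0 (nbit D i s) hm
    (by rw [zero_add, pow_one]) n
  rw [col3_chain s _ hu hus hun, ncol_root i hu]
  simp only [appG_cons, appG_nil, List.append_nil, semAt_append, semAt_map_vmul, hch]
  rw [ncol_root i hu, col3_chain (fw D i s) _ hwu hw1 hw2]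
  simp only [semAt_cons', semAt_nil, vtVal, nsgn]
  push_cast
  ring

theorem gcol_h {D : ChevalleyDatum} (i j s : ℕ) (hi : i < D.rank) (hj : j < D.rank)
    (hs : s < D.nroots)
    (hT : fcar D j s = fcar D j (fw D i s) - fcar D j (fsimple D i) * fcar D i (fw D i s))
    (x y : F) (n : ℕ) :
    semAt x y (appG (ncol D i) (col3 D s [(1, 1, 0)] j)) n =
      semAt x y (appG (col3 D (fw D i s) [(nsgn D i s, 1, 0)]) (ncol D i j)) n := by
  have hT' : ((fcar D j s : ℤ) : F) = ((fcar D j (fw D i s) : ℤ) : F) -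
      ((fcar D j (fsimple D i) : ℤ) : F) * ((fcar D i (fw D i s) : ℤ) : F) := by
    rw [hT]
    push_cast
    ring
  rw [col3_h s _ hj, ncol_h i hj]
  simp only [appG_cons, appG_nil, List.append_nil, semAt_append, semAt_map_vmul, semAt_appG_place]
  simp only [ncol_h i hj, ncol_root i hs, col3_h (fw D i s) _ hj, col3_h (fw D i s) _ hi,
    semAt_cons', semAt_nil, semAt_place', vtVal, pev_zx]
  push_cast
  linear_combination (-(((nsgn D i s : ℤ) : F) * x * ind F (D.rank + fw D i s) n)) * hT'

theorem nconj {D : ChevalleyDatum} (h : fdOK D = true) (hn : nOK D = true) (hg : gOK D = true)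
    {i : ℕ} (hi : i < D.rank) {s : ℕ} (hs : s < D.nroots) (t : F) :
    D.nMat F (D.simple i) 1 * D.x F s t =
      D.x F (fw D i s) (((nsgn D i s : ℤ) : F) * t) * D.nMat F (D.simple i) 1 := by
  obtain ⟨_, hall⟩ := nOK_spec hn
  have hwc := (hall i hi).2.2.2.1
  have hgi : gCheck1 D i = true := by
    unfold gOK at hg
    rw [List.all_eq_true] at hg
    exact hg i (List.mem_range.mpr hi)
  have hfw : ∀ {u : ℕ}, u < D.nroots → fw D i u < D.nroots := by
    intro u hu
    rw [fw_eq hn hi hu]
    exact (wCheck1_spec hwc hu).1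
  have hinv : ∀ {u : ℕ}, u < D.nroots → fw D i (fw D i u) = u :=
    fun hu => (wCheck1_spec hwc hu).2.2.1
  have hws := hfw hs
  obtain ⟨hT, hcs, hcn, hch⟩ := gCheck1_spec hgi hs
  ext a b
  have eL : (D.nMat F (D.simple i) 1 * D.x F s t) a b =
      semAt t 1 (appG (ncol D i) (col3 D s [(1, 1, 0)] (code D b))) (code D a) := by
    rw [appG_sound D (D.nMat F (D.simple i) 1) (ncol D i) t 1
      (fun a b => ncol_sound h hn hi t 1 a b) (fun n hn' => ncol_of_ge i hn'), Matrix.mul_apply]
    apply Finset.sum_congr rfl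
    intro j _
    rw [← col3_sound h hs, pev_x]
  have eR : (D.x F (fw D i s) (((nsgn D i s : ℤ) : F) * t) * D.nMat F (D.simple i) 1) a b =
      semAt t 1 (appG (col3 D (fw D i s) [(nsgn D i s, 1, 0)]) (ncol D i (code D b)))
        (code D a) := by
    rw [appG_sound D (D.x F (fw D i s) (((nsgn D i s : ℤ) : F) * t))
      (col3 D (fw D i s) [(nsgn D i s, 1, 0)]) t 1
      (fun a b => by rw [← col3_sound h hws, pev_zx]) (fun n hn' => col3_of_ge _ _ hn'),
      Matrix.mul_apply]
    apply Finset.sum_congr rfl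
    intro j _
    rw [← ncol_sound h hn hi t 1]
  rw [eL, eR]
  rcases b with j | u
  · exact gcol_h i j.val s hi j.isLt hs (hT j.val j.isLt) t 1 _
  · have hu := u.isLt
    show semAt t 1 (appG (ncol D i) (col3 D s [(1, 1, 0)] (D.rank + u.val))) _ =
      semAt t 1 (appG (col3 D (fw D i s) [(nsgn D i s, 1, 0)]) (ncol D i (D.rank + u.val))) _
    by_cases hus : u.val = s
    · rw [hus]
      exact gcol_of_check hcs t 1 _
    · by_cases hun : u.val = fneg D s
      · rw [hun]
        exact gcol_of_check hcn t 1 _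
      · obtain ⟨_, hns, _, hwneg, _⟩ := wCheck1_spec hwc hs
        have hw1 : fw D i u.val ≠ fw D i s := by
          intro hh
          apply hus
          rw [← hinv hu, hh, hinv hs]
        have hw2 : fw D i u.val ≠ fneg D (fw D i s) := by
          intro hh
          apply hun
          rw [← hinv hu, hh, ← hwneg, hinv hns]
        apply gcol_chain i s u.val hu hus hun (hfw hu) hw1 hw2
        rcases fchain_spec h s u.val with ⟨_, h6⟩ | ⟨e, he, hes, _, h6⟩
        · rw [h6]
          have h8 : fchain D (fw D i s) (fw D i u.val) = [] := by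
            rcases fchain_spec h (fw D i s) (fw D i u.val) with ⟨_, h8⟩ | ⟨e', he', hes', _, h8⟩
            · exact h8
            · have hm' := (gCheck1_spec hgi hws).2.2.2 e' he'
              rw [hes', hinv hs, hinv hu, h6] at hm'
              rw [h8]
              exact chainMatch_nil_right hm'
          rw [h8]
          rfl
        · have hm := hch e he
          rw [hes, ← h6] at hm
          exact hm

end sem

end Cfsg.Agent.Helper7
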