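import Cfsg.Agent.Helper7.ChevPerf
import Cfsg.Agent.S0319

set_option autoImplicit false
set_option linter.unusedSectionVars false
set_option linter.unusedVariables false
open Cfsg

namespace Cfsg.Agent.Helper7

open Cfsg.Lie

def boolLists : ℕ → List (List Bool)
  | 0 => [[]]
  | n + 1 => (boolLists n).flatMap fun l => [false :: l, true :: l]

theorem mem_boolLists : ∀ l : List Bool, l ∈ boolLists l.length
  | [] => by simp [boolLists]
  | b :: l => by
    simp only [List.length_cons, boolLists, List.mem_flatMap]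
    exact ⟨l, mem_boolLists l, by cases b <;> simp⟩

def irrPair (D : ChevalleyDatum) (i j : ℕ) : Bool :=
  Nat.blt (wApply D [i, j, i, j] (fsimple D i)) (D.nroots / 2) ||
    Nat.blt (wApply D [i, j, i, j] (fsimple D j)) (D.nroots / 2)

def irrOK (D : ChevalleyDatum) : Bool :=
  (boolLists D.rank).all fun l =>
    !(l.any id) || l.all id ||
      (List.range D.rank).any fun i => (List.range D.rank).any fun j =>
        l.getD i false && !(l.getD j false) && irrPair D i j

theorem irrOK_spec {D : ChevalleyDatum} (h : irrOK D = true) (f : ℕ → Bool) {i₀ j₀ : ℕ}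
    (hi₀ : i₀ < D.rank) (hj₀ : j₀ < D.rank) (h1 : f i₀ = true) (h2 : f j₀ = false) :
    ∃ i < D.rank, ∃ j < D.rank, f i = true ∧ f j = false ∧ irrPair D i j = true := by
  unfold irrOK at h
  rw [List.all_eq_true] at h
  have hl := h ((List.range D.rank).map f) (by
    have := mem_boolLists ((List.range D.rank).map f)
    rwa [List.length_map, List.length_range] at this)
  have hget : ∀ i < D.rank, ((List.range D.rank).map f).getD i false = f i := by
    intro i hi
    rw [List.getD_eq_getElem?_getD, List.getElem?_map, List.getElem?_range hi]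
    rfl
  rw [Bool.or_eq_true, Bool.or_eq_true] at hl
  rcases hl with (hl | hl) | hl
  · exfalso
    rw [Bool.not_eq_true', List.any_eq_false] at hl
    have := hl (f i₀) (List.mem_map.mpr ⟨i₀, List.mem_range.mpr hi₀, rfl⟩)
    rw [h1] at this
    exact this rfl
  · exfalso
    rw [List.all_eq_true] at hl
    have := hl (f j₀) (List.mem_map.mpr ⟨j₀, List.mem_range.mpr hj₀, rfl⟩)
    rw [h2] at this
    exact Bool.noConfusion this
  · rw [List.any_eq_true] at hl
    obtain ⟨i, hi, hl⟩ := hl
    rw [List.any_eq_true] at hl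
    obtain ⟨j, hj, hl⟩ := hl
    rw [List.mem_range] at hi hj
    rw [hget i hi, hget j hj, Bool.and_eq_true, Bool.and_eq_true, Bool.not_eq_true'] at hl
    exact ⟨i, hi, j, hj, hl.1.1, hl.1.2, hl.2⟩

section sem

variable {F : Type*} [Field F]

theorem nV_mem_group (D : ChevalleyDatum) (ha : addCheck2 D = true) (r : ℕ) (t : F) :
    nV D ha r t ∈ D.group F := by
  unfold nV
  split_ifs with h
  · exact mem_group_of_word D ha (D.nWord r t) rfl
  · exact one_mem _

theorem nWordU_mem_mon {D : ChevalleyDatum} (M : MOK D) (w : List ℕ)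
    (hw : ∀ i ∈ w, i < D.rank) : nWordU D M.w.add w ∈ D.monomialSubgroup F := by
  apply Subgroup.list_prod_mem
  intro x hx
  rw [List.mem_map] at hx
  obtain ⟨i, hi, rfl⟩ := hx
  exact nV_simple_mem_mon M (hw i hi)

theorem word_not_mem_borel {D : ChevalleyDatum} (M : MOK D) (w : List ℕ)
    (hw : ∀ i ∈ w, i < D.rank) {r : ℕ} (hr : D.IsPosRoot r)
    (hneg : wApply D w r < D.nroots / 2) :
    nWordU D M.w.add w ∉ D.borelSubgroup F := by
  intro hB
  have hT : nWordU D M.w.add w ∈ torus D F := by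
    rw [← diag_eq_torus M.w, ← borel_inf_mon M]
    exact ⟨hB, nWordU_mem_mon M w hw⟩
  obtain ⟨z, hz⟩ := hT
  obtain ⟨ε, hε, h⟩ := long_conj (F := F) M w hw hr.1
  have h1 := h 1
  rw [hz, DgU_xV M.w z hr.1, mul_assoc, mul_inv_cancel, mul_one] at h1
  have hwr := wApply_lt M.w.n w hw hr.1
  have h2 : xV D M.w.add (wApply D w r) (ε * 1) ∈ D.borelSubgroup F ⊓ D.negUnipotent F :=
    ⟨by
      rw [← h1]
      exact (le_sup_left : D.posUnipotent F ≤ D.borelSubgroup F) (xV_mem_posU M.w.add hr _),
     xV_mem_negU M.w.add ((isNeg_iff M hwr).mpr hneg) _⟩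
  rw [borel_inf_negU M, Subgroup.mem_bot] at h2
  have h3 := xV_eq_one M hwr h2
  rcases hε with rfl | rfl <;> simp at h3

theorem comm_not_mem {D : ChevalleyDatum} (M : MOK D) {i j : ℕ} (hi : i < D.rank)
    (hj : j < D.rank) (h : irrPair D i j = true) :
    nV D M.w.add (D.simple i) (1 : F) * nV D M.w.add (D.simple j) (1 : F) *
      (nV D M.w.add (D.simple i) (1 : F))⁻¹ * (nV D M.w.add (D.simple j) (1 : F))⁻¹ ∉
        D.borelSubgroup F := by
  intro hB
  obtain ⟨hpi, _⟩ := simple_lt M.w.fd M.w.n hi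
  obtain ⟨hpj, _⟩ := simple_lt M.w.fd M.w.n hj
  have hHB : D.diagonalSubgroup F ≤ D.borelSubgroup F := le_sup_right
  have hw : ∀ k ∈ [i, j, i, j], k < D.rank := by
    intro k hk
    simp only [List.mem_cons, List.not_mem_nil, or_false] at hk
    rcases hk with rfl | rfl | rfl | rfl <;> assumption
  have e : nWordU D M.w.add [i, j, i, j] =
      (nV D M.w.add (D.simple i) (1 : F) * nV D M.w.add (D.simple j) (1 : F) *
        (nV D M.w.add (D.simple i) (1 : F))⁻¹ * (nV D M.w.add (D.simple j) (1 : F))⁻¹) *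
      ((nV D M.w.add (D.simple j) (1 : F) *
          (nV D M.w.add (D.simple i) (1 : F) * nV D M.w.add (D.simple i) (1 : F)) *
          (nV D M.w.add (D.simple j) (1 : F))⁻¹) *
        (nV D M.w.add (D.simple j) (1 : F) * nV D M.w.add (D.simple j) (1 : F))) := by
    simp only [nWordU, List.map_cons, List.map_nil, List.prod_cons, List.prod_nil, mul_one]
    group
  have hnorm : nV D M.w.add (D.simple j) (1 : F) ∈
      Subgroup.normalizer (torus D F : Set (GL D.Idx F)) := nV_simple_normalizes M hj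
  have hT1 : nV D M.w.add (D.simple j) (1 : F) *
      (nV D M.w.add (D.simple i) (1 : F) * nV D M.w.add (D.simple i) (1 : F)) *
      (nV D M.w.add (D.simple j) (1 : F))⁻¹ ∈ D.borelSubgroup F := by
    have h1 : nV D M.w.add (D.simple i) (1 : F) * nV D M.w.add (D.simple i) (1 : F) ∈
        torus D F := by
      rw [← diag_eq_torus M.w]
      exact nV_sq_mem M hpi
    have h2 := (Subgroup.mem_normalizer_iff.mp hnorm _).mp h1
    rw [← diag_eq_torus M.w] at h2
    exact hHB h2
  have hwB : nWordU D M.w.add [i, j, i, j] ∈ D.borelSubgroup F := by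
    rw [e]
    exact mul_mem hB (mul_mem hT1 (hHB (nV_sq_mem M hpj)))
  unfold irrPair at h
  rw [Bool.or_eq_true, fsimple_eq, fsimple_eq, Nat.blt_eq, Nat.blt_eq] at h
  rcases h with h | h
  · exact word_not_mem_borel M _ hw (simplePos_spec M.spos hi) h hwB
  · exact word_not_mem_borel M _ hw (simplePos_spec M.spos hj) h hwB

theorem chev_simple {D : ChevalleyDatum} (U : UOK D) (hcf : CF D F) (hirr : irrOK D = true)
    (hperf : commutator ↥(D.group F) = ⊤)
    (hlong : ∃ n ∈ D.monomialSubgroup F,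
      (D.posUnipotent F).map (MulAut.conj n).toMonoidHom = D.negUnipotent F)
    (hrank : 0 < D.rank) :
    IsSimpleGroup ↥(D.group F) ∧ ¬ IsMulCommutative ↥(D.group F) := by
  have M := U.m
  obtain ⟨hBG, hNG, hsup⟩ := borel_mon_group (F := F) M
  obtain ⟨hp, hnp, hpos, hnegp⟩ := simple_facts M hrank
  have hne1 : (⟨xV D M.w.add (D.simple 0) (1 : F), xV_mem_group D M.w.add _ _⟩ :
      ↥(D.group F)) ≠ 1 := by
    intro h
    have h' : xV D M.w.add (D.simple 0) (1 : F) = 1 := congrArg Subtype.val h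
    exact one_ne_zero (xV_eq_one M hp h')
  have hnt : Nontrivial ↥(D.group F) := ⟨⟨_, 1, hne1⟩⟩
  obtain ⟨P, hPB, hPN, hPS⟩ := chev_bn U hcf
  constructor
  · apply Cfsg.Agent.S0319.result P
    · intro J hJ hJne hJc
      obtain ⟨s₀, hs₀⟩ := hJne
      obtain ⟨s₁, hs₁, hs₁'⟩ := hJc
      classical
      have hSmem : ∀ i < D.rank, (⟨nV D M.w.add (D.simple i) (1 : F),
          nV_mem_group D M.w.add _ _⟩ : ↥(D.group F)) ∈ P.S := by
        intro i hi
        obtain ⟨hpi, hnpi⟩ := simple_lt M.w.fd M.w.n hi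
        rw [hPS]
        exact ⟨i, hi, nV_val D M.w.add hpi hnpi 1⟩
      have hSrep : ∀ s ∈ P.S, ∃ i < D.rank, s = (⟨nV D M.w.add (D.simple i) (1 : F),
          nV_mem_group D M.w.add _ _⟩ : ↥(D.group F)) := by
        intro s hs
        rw [hPS] at hs
        obtain ⟨i, hi, hs⟩ := hs
        obtain ⟨hpi, hnpi⟩ := simple_lt M.w.fd M.w.n hi
        exact ⟨i, hi, Subtype.ext (Units.ext (by rw [hs, nV_val D M.w.add hpi hnpi]))⟩
      obtain ⟨i₀, hi₀, e₀⟩ := hSrep s₀ (hJ hs₀)
      obtain ⟨j₀, hj₀, e₁⟩ := hSrep s₁ hs₁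
      obtain ⟨i, hi, j, hj, fi, fj, hpair⟩ := irrOK_spec hirr
        (fun i => decide ((⟨nV D M.w.add (D.simple i) (1 : F),
          nV_mem_group D M.w.add _ _⟩ : ↥(D.group F)) ∈ J)) hi₀ hj₀
        (by rw [decide_eq_true_eq, ← e₀]; exact hs₀)
        (by rw [decide_eq_false_iff_not, ← e₁]; exact hs₁')
      rw [decide_eq_true_eq] at fi
      rw [decide_eq_false_iff_not] at fj
      refine ⟨_, fi, _, ⟨hSmem j hj, fj⟩, ?_⟩
      rw [hPB]
      intro hmem
      exact comm_not_mem M hi hj hpair hmem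
    · rw [hPB]
      have : Group.IsSolvable ↥(D.borelSubgroup F) := borel_solvable M.w M.ptri
      exact Group.isSolvable_of_isSolvable_injective
        (f := (Subgroup.subgroupOfEquivOfLe hBG).toMonoidHom) (MulEquiv.injective _)
    · exact hperf
    · rw [hPB]
      exact core_trivial M hlong
  · intro hc
    have hbot : commutator ↥(D.group F) ≤ ⊥ := by
      rw [commutator_def, Subgroup.commutator_le]
      intro g₁ _ g₂ _
      rw [Subgroup.mem_bot, commutatorElement_def, (isMulCommutative_iff.mp hc) g₁ g₂]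
      group
    rw [hperf] at hbot
    exact hne1 (Subgroup.mem_bot.mp (hbot (Subgroup.mem_top _)))

end sem

end Cfsg.Agent.Helper7
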