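import Cfsg.Agent.Helper7.ChevGen
import Cfsg.Agent.Helper7.ChevSimple

set_option autoImplicit false
set_option maxRecDepth 100000
set_option linter.unusedSectionVars false
set_option linter.unusedVariables false
open Cfsg

namespace Cfsg.Agent.Helper7

open Cfsg.Lie

set_option synthInstance.maxSize 4096 in
set_option synthInstance.maxHeartbeats 400000 in
theorem permFacts_D4 : ∀ π : Equiv.Perm (Fin chevD4.rank),
    (∀ i j : Fin chevD4.rank, i ≠ j → chevD4.bonds (π i) (π j) = chevD4.bonds i j) →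
    (∀ j : Fin chevD4.rank, chevD4.permRoot π (chevD4.simple j) = chevD4.simple (π j)) ∧
    (∀ i : Fin chevD4.rank, ∀ s < chevD4.nroots,
      fw chevD4 (π i) (chevD4.permRoot π s) = chevD4.permRoot π (fw chevD4 i s)) ∧
    (∀ s < chevD4.nroots, chevD4.permRoot π s < chevD4.nroots) := by decide +kernel

set_option synthInstance.maxSize 4096 in
set_option synthInstance.maxHeartbeats 400000 in
theorem permFacts_E6 : ∀ π : Equiv.Perm (Fin chevE6.rank),
    (∀ i j : Fin chevE6.rank, i ≠ j → chevE6.bonds (π i) (π j) = chevE6.bonds i j) →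
    (∀ j : Fin chevE6.rank, chevE6.permRoot π (chevE6.simple j) = chevE6.simple (π j)) ∧
    (∀ i : Fin chevE6.rank, ∀ s < chevE6.nroots,
      fw chevE6 (π i) (chevE6.permRoot π s) = chevE6.permRoot π (fw chevE6 i s)) ∧
    (∀ s < chevE6.nroots, chevE6.permRoot π s < chevE6.nroots) := by decide +kernel

section sem

variable {F : Type*} [Field F]

theorem graph_all {D : ChevalleyDatum} (M : MOK D) (π : Equiv.Perm (Fin D.rank))
    (T1 : ∀ j : Fin D.rank, D.permRoot π (D.simple j) = D.simple (π j))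
    (T2 : ∀ i : Fin D.rank, ∀ s < D.nroots,
      fw D (π i) (D.permRoot π s) = D.permRoot π (fw D i s))
    (T3 : ∀ s < D.nroots, D.permRoot π s < D.nroots)
    (φ : ↥(D.group F) ≃* ↥(D.group F))
    (hφ : ∀ (g : ↥(D.group F)) (i : Fin D.rank) (t : F),
      (((g : GL D.Idx F) : Matrix D.Idx D.Idx F) = D.x F (D.simple i) t →
        ((φ g : GL D.Idx F) : Matrix D.Idx D.Idx F) = D.x F (D.simple (π i)) t) ∧
      (((g : GL D.Idx F) : Matrix D.Idx D.Idx F) = D.x F (D.neg (D.simple i)) t →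
        ((φ g : GL D.Idx F) : Matrix D.Idx D.Idx F) = D.x F (D.neg (D.simple (π i))) t))
    (r : ℕ) (hr : r < D.nroots) :
    ∃ ε : F, (ε = 1 ∨ ε = -1) ∧ ∀ (g : ↥(D.group F)) (t : F),
      ((g : GL D.Idx F) : Matrix D.Idx D.Idx F) = D.x F r t →
        ((φ g : GL D.Idx F) : Matrix D.Idx D.Idx F) = D.x F (D.permRoot π r) (ε * t) := by
  have ha := M.w.add
  have hp : ∀ (i : Fin D.rank) (t : F),
      ((φ ⟨xV D ha (D.simple i) t, xV_mem_group D ha _ t⟩ : ↥(D.group F)) : GL D.Idx F) =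
        xV D ha (D.simple (π i)) t := by
    intro i t
    apply Units.ext
    rw [xV_val]
    exact (hφ _ i t).1 (xV_val D ha _ t)
  have hm : ∀ (i : Fin D.rank) (t : F),
      ((φ ⟨xV D ha (D.neg (D.simple i)) t, xV_mem_group D ha _ t⟩ : ↥(D.group F)) :
        GL D.Idx F) = xV D ha (D.neg (D.simple (π i))) t := by
    intro i t
    apply Units.ext
    rw [xV_val]
    exact (hφ _ i t).2 (xV_val D ha _ t)
  have hn : ∀ i : Fin D.rank,
      ((φ ⟨nV D ha (D.simple i) (1 : F), nV_mem_group D ha _ _⟩ : ↥(D.group F)) :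
        GL D.Idx F) = nV D ha (D.simple (π i)) (1 : F) := by
    intro i
    obtain ⟨h1, h2⟩ := simple_lt M.w.fd M.w.n i.isLt
    obtain ⟨h3, h4⟩ := simple_lt M.w.fd M.w.n (π i).isLt
    have e : (⟨nV D ha (D.simple i) (1 : F), nV_mem_group D ha _ _⟩ : ↥(D.group F)) =
        ⟨xV D ha (D.simple i) 1, xV_mem_group D ha _ _⟩ *
          (⟨xV D ha (D.neg (D.simple i)) (-(1 : F)⁻¹), xV_mem_group D ha _ _⟩ *
            ⟨xV D ha (D.simple i) 1, xV_mem_group D ha _ _⟩) := by
      apply Subtype.ext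
      exact nV_eq_xxx D ha h1 h2 1
    rw [e, map_mul, map_mul, Subgroup.coe_mul, Subgroup.coe_mul, hp, hm,
      nV_eq_xxx D ha h3 h4 1]
  have key : ∀ r < D.nroots, ∃ ε : F, (ε = 1 ∨ ε = -1) ∧ ∀ t : F,
      ((φ ⟨xV D ha r t, xV_mem_group D ha _ t⟩ : ↥(D.group F)) : GL D.Idx F) =
        xV D ha (D.permRoot π r) (ε * t) := by
    apply root_induction M.w.reach
    · intro j hj
      refine ⟨1, Or.inl rfl, fun t => ?_⟩
      rw [hp ⟨j, hj⟩ t, T1 ⟨j, hj⟩, one_mul]
    · intro i hi s hs ⟨ε, hε, h⟩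
      have h1 := sgn_pm (F := F) D i s hε
      have h2 := sgn_pm (F := F) D (π ⟨i, hi⟩) (D.permRoot π s) h1
      refine ⟨((nsgn D (π ⟨i, hi⟩) (D.permRoot π s) : ℤ) : F) *
        (((nsgn D i s : ℤ) : F) * ε), h2, fun t => ?_⟩
      have hη : ((nsgn D i s : ℤ) : F) * (((nsgn D i s : ℤ) : F) * t) = t := by
        rcases sgn_pm (F := F) D i s (t := 1) (Or.inl rfl) with h3 | h3
        · rw [mul_one] at h3
          rw [h3, one_mul, one_mul]
        · rw [mul_one] at h3
          rw [h3]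
          ring
      have hc := xV_conj M hi hs (((nsgn D i s : ℤ) : F) * t)
      rw [hη] at hc
      have e : (⟨xV D ha (fw D i s) t, xV_mem_group D ha _ t⟩ : ↥(D.group F)) =
          ⟨nV D ha (D.simple i) (1 : F), nV_mem_group D ha _ _⟩ *
            ⟨xV D ha s (((nsgn D i s : ℤ) : F) * t), xV_mem_group D ha _ _⟩ *
            (⟨nV D ha (D.simple i) (1 : F), nV_mem_group D ha _ _⟩ : ↥(D.group F))⁻¹ := by
        apply Subtype.ext
        exact hc.symm
      rw [e, map_mul, map_mul, map_inv, Subgroup.coe_mul, Subgroup.coe_mul, Subgroup.coe_inv,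
        hn ⟨i, hi⟩, h _, xV_conj M (π ⟨i, hi⟩).isLt (T3 s hs), T2 ⟨i, hi⟩ s hs]
      congr 1
      ring
  obtain ⟨ε, hε, h⟩ := key r hr
  refine ⟨ε, hε, fun g t hg => ?_⟩
  have e : g = ⟨xV D ha r t, xV_mem_group D ha _ t⟩ := by
    apply Subtype.ext
    apply Units.ext
    rw [hg, xV_val]
  rw [e, h t, xV_val]

theorem graph_all_mem {D : ChevalleyDatum} (hD : D ∈ [chevD4, chevE6])
    (π : Equiv.Perm (Fin D.rank)) (hπ : D.IsDiagramSymmetry π)
    (φ : ↥(D.group F) ≃* ↥(D.group F))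
    (hφ : ∀ (g : ↥(D.group F)) (i : Fin D.rank) (t : F),
      (((g : GL D.Idx F) : Matrix D.Idx D.Idx F) = D.x F (D.simple i) t →
        ((φ g : GL D.Idx F) : Matrix D.Idx D.Idx F) = D.x F (D.simple (π i)) t) ∧
      (((g : GL D.Idx F) : Matrix D.Idx D.Idx F) = D.x F (D.neg (D.simple i)) t →
        ((φ g : GL D.Idx F) : Matrix D.Idx D.Idx F) = D.x F (D.neg (D.simple (π i))) t))
    (r : ℕ) (hr : r < D.nroots) :
    ∃ ε : F, (ε = 1 ∨ ε = -1) ∧ ∀ (g : ↥(D.group F)) (t : F),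
      ((g : GL D.Idx F) : Matrix D.Idx D.Idx F) = D.x F r t →
        ((φ g : GL D.Idx F) : Matrix D.Idx D.Idx F) = D.x F (D.permRoot π r) (ε * t) := by
  simp only [List.mem_cons, List.not_mem_nil, or_false] at hD
  rcases hD with rfl | rfl
  · obtain ⟨T1, T2, T3⟩ := permFacts_D4 π hπ
    exact graph_all (mok_of_mem (by simp)) π T1 T2 T3 φ hφ r hr
  · obtain ⟨T1, T2, T3⟩ := permFacts_E6 π hπ
    exact graph_all (mok_of_mem (by simp)) π T1 T2 T3 φ hφ r hr

end sem

end Cfsg.Agent.Helper7
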