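import Cfsg.Agent.Helper7.ChevH

set_option autoImplicit false
set_option maxHeartbeats 4000000
open Cfsg

namespace Cfsg.Agent.Helper7

open Cfsg.Lie

theorem hCheck_G2 : hCheck chevG2 = true := by decide +kernel
theorem hCheck_B2 : hCheck chevB2 = true := by decide +kernel
theorem hCheck_D4 : hCheck chevD4 = true := by decide +kernel
theorem hCheck_F4 : hCheck chevF4 = true := by decide +kernel
theorem hCheck_E6 : hCheck chevE6 = true := by decide +kernel
theorem hCheck_E7 : hCheck chevE7 = true := by decide +kernel
theorem hCheck_E8 : hCheck chevE8 = true := by decide +kernel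

theorem hCheck_of_mem {D : ChevalleyDatum}
    (hD : D ∈ [chevG2, chevB2, chevD4, chevF4, chevE6, chevE7, chevE8]) : hCheck D = true :=
  forall_seven (P := fun D => hCheck D = true) hCheck_G2 hCheck_B2 hCheck_D4 hCheck_F4 hCheck_E6
    hCheck_E7 hCheck_E8 hD

end Cfsg.Agent.Helper7
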