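import Cfsg.Agent.Helper7.ChevG

set_option autoImplicit false
set_option maxHeartbeats 4000000
open Cfsg

namespace Cfsg.Agent.Helper7

open Cfsg.Lie

theorem nOK_E7 : nOK chevE7 = true := by decide +kernel
theorem gOK_E7 : gOK chevE7 = true := by decide +kernel

end Cfsg.Agent.Helper7
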