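import Cfsg.Agent.Helper7.ChkNGa
import Cfsg.Agent.Helper7.ChkNGb
import Cfsg.Agent.Helper7.ChkNGc

set_option autoImplicit false
open Cfsg

namespace Cfsg.Agent.Helper7

open Cfsg.Lie

theorem nOK_of_mem {D : ChevalleyDatum}
    (hD : D ∈ [chevG2, chevB2, chevD4, chevF4, chevE6, chevE7, chevE8]) : nOK D = true :=
  forall_seven (P := fun D => nOK D = true) nOK_G2 nOK_B2 nOK_D4 nOK_F4 nOK_E6 nOK_E7 nOK_E8 hD

theorem gOK_of_mem {D : ChevalleyDatum}
    (hD : D ∈ [chevG2, chevB2, chevD4, chevF4, chevE6, chevE7, chevE8]) : gOK D = true :=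
  forall_seven (P := fun D => gOK D = true) gOK_G2 gOK_B2 gOK_D4 gOK_F4 gOK_E6 gOK_E7 gOK_E8 hD

end Cfsg.Agent.Helper7
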