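import Cfsg.Agent.Helper7.ChevDiag

set_option autoImplicit false
set_option maxHeartbeats 4000000
open Cfsg

namespace Cfsg.Agent.Helper7

open Cfsg.Lie

theorem taOK_G2 : taOK chevG2 = true := by decide +kernel
theorem taOK_B2 : taOK chevB2 = true := by decide +kernel
theorem taOK_D4 : taOK chevD4 = true := by decide +kernel
theorem taOK_F4 : taOK chevF4 = true := by decide +kernel
theorem taOK_E6 : taOK chevE6 = true := by decide +kernel
theorem taOK_E7 : taOK chevE7 = true := by decide +kernel
theorem taOK_E8 : taOK chevE8 = true := by decide +kernel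

theorem taOK_of_mem {D : ChevalleyDatum}
    (hD : D ∈ [chevG2, chevB2, chevD4, chevF4, chevE6, chevE7, chevE8]) : taOK D = true :=
  forall_seven (P := fun D => taOK D = true) taOK_G2 taOK_B2 taOK_D4 taOK_F4 taOK_E6 taOK_E7
    taOK_E8 hD

end Cfsg.Agent.Helper7
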