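import Cfsg.Agent.Helper7.ChevWeyl
import Cfsg.Agent.Helper7.ChkNG
import Cfsg.Agent.Helper7.ChkH
import Cfsg.Agent.Helper7.ChkTA

set_option autoImplicit false
set_option maxHeartbeats 4000000
open Cfsg

namespace Cfsg.Agent.Helper7

open Cfsg.Lie

theorem reachOK_G2 : reachOK chevG2 = true := by decide +kernel
theorem reachOK_B2 : reachOK chevB2 = true := by decide +kernel
theorem reachOK_D4 : reachOK chevD4 = true := by decide +kernel
theorem reachOK_F4 : reachOK chevF4 = true := by decide +kernel
theorem reachOK_E6 : reachOK chevE6 = true := by decide +kernel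
theorem reachOK_E7 : reachOK chevE7 = true := by decide +kernel
theorem reachOK_E8 : reachOK chevE8 = true := by decide +kernel

theorem reachOK_of_mem {D : ChevalleyDatum}
    (hD : D ∈ [chevG2, chevB2, chevD4, chevF4, chevE6, chevE7, chevE8]) : reachOK D = true :=
  forall_seven (P := fun D => reachOK D = true) reachOK_G2 reachOK_B2 reachOK_D4 reachOK_F4
    reachOK_E6 reachOK_E7 reachOK_E8 hD

theorem wok_of_mem {D : ChevalleyDatum}
    (hD : D ∈ [chevG2, chevB2, chevD4, chevF4, chevE6, chevE7, chevE8]) : WOK D :=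
  ⟨fdOK_of_mem hD, nOK_of_mem hD, gOK_of_mem hD, hCheck_of_mem hD, taOK_of_mem hD,
    addCheck_of_mem hD, reachOK_of_mem hD⟩

end Cfsg.Agent.Helper7
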