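import Cfsg.Agent.Helper7.ChevMon
import Cfsg.Agent.Helper7.ChkW

set_option autoImplicit false
set_option maxHeartbeats 4000000
open Cfsg

namespace Cfsg.Agent.Helper7

open Cfsg.Lie

theorem negTriOK_G2 : negTriOK chevG2 = true := by decide +kernel
theorem negTriOK_B2 : negTriOK chevB2 = true := by decide +kernel
theorem negTriOK_D4 : negTriOK chevD4 = true := by decide +kernel
theorem negTriOK_F4 : negTriOK chevF4 = true := by decide +kernel
theorem negTriOK_E6 : negTriOK chevE6 = true := by decide +kernel
theorem negTriOK_E7 : negTriOK chevE7 = true := by decide +kernel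
theorem negTriOK_E8 : negTriOK chevE8 = true := by decide +kernel

theorem simplePosOK_G2 : simplePosOK chevG2 = true := by decide +kernel
theorem simplePosOK_B2 : simplePosOK chevB2 = true := by decide +kernel
theorem simplePosOK_D4 : simplePosOK chevD4 = true := by decide +kernel
theorem simplePosOK_F4 : simplePosOK chevF4 = true := by decide +kernel
theorem simplePosOK_E6 : simplePosOK chevE6 = true := by decide +kernel
theorem simplePosOK_E7 : simplePosOK chevE7 = true := by decide +kernel
theorem simplePosOK_E8 : simplePosOK chevE8 = true := by decide +kernel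

theorem mok_of_mem {D : ChevalleyDatum}
    (hD : D ∈ [chevG2, chevB2, chevD4, chevF4, chevE6, chevE7, chevE8]) : MOK D :=
  ⟨wok_of_mem hD, negOK_of_mem hD, posTriOK_of_mem hD,
    forall_seven (P := fun D => negTriOK D = true) negTriOK_G2 negTriOK_B2 negTriOK_D4
      negTriOK_F4 negTriOK_E6 negTriOK_E7 negTriOK_E8 hD,
    forall_seven (P := fun D => simplePosOK D = true) simplePosOK_G2 simplePosOK_B2
      simplePosOK_D4 simplePosOK_F4 simplePosOK_E6 simplePosOK_E7 simplePosOK_E8 hD,
    posnegOK_of_mem hD⟩

end Cfsg.Agent.Helper7
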