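import Cfsg.Prelude.Def_ChevAutomorphisms
import Cfsg.Agent.Helper7.ChevBN
import Cfsg.Agent.Helper7.ChkM

set_option autoImplicit false
set_option linter.unusedSectionVars false
set_option linter.unusedVariables false
open Cfsg

namespace Cfsg.Agent.Helper7

open Cfsg.Lie

section sem

variable {F : Type*} [Field F]

theorem xV_mem_fw {D : ChevalleyDatum} (M : MOK D) (S : Subgroup (GL D.Idx F)) {i : ℕ}
    (hi : i < D.rank) (hn : nV D M.w.add (D.simple i) (1 : F) ∈ S) {s : ℕ} (hs : s < D.nroots)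
    (h : ∀ t : F, xV D M.w.add s t ∈ S) : ∀ t : F, xV D M.w.add (fw D i s) t ∈ S := by
  intro t
  have h1 := xV_conj M hi hs (((nsgn D i s : ℤ) : F) * t)
  have hη : ((nsgn D i s : ℤ) : F) * (((nsgn D i s : ℤ) : F) * t) = t := by
    rcases sgn_pm (F := F) D i s (t := 1) (Or.inl rfl) with h2 | h2
    · rw [mul_one] at h2
      rw [h2, one_mul, one_mul]
    · rw [mul_one] at h2
      rw [h2]
      ring
  rw [hη] at h1
  rw [← h1]
  exact S.mul_mem (S.mul_mem hn (h _)) (S.inv_mem hn)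

theorem group_le_of_xV {D : ChevalleyDatum} (ha : addCheck2 D = true) (S : Subgroup (GL D.Idx F))
    (h : ∀ r < D.nroots, ∀ t : F, xV D ha r t ∈ S) : D.group F ≤ S := by
  unfold ChevalleyDatum.group
  rw [Subgroup.closure_le]
  rintro g ⟨r, t, hg⟩
  have e : g = xV D ha r.val t := Units.ext (by rw [hg, xV_val, x_of_lt D F r.isLt])
  rw [e]
  exact h r.val r.isLt t

theorem gen_by_simple {D : ChevalleyDatum} (M : MOK D) (S : Subgroup (GL D.Idx F))
    (hp : ∀ i < D.rank, ∀ t : F, xV D M.w.add (D.simple i) t ∈ S)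
    (hm : ∀ i < D.rank, ∀ t : F, xV D M.w.add (D.neg (D.simple i)) t ∈ S) : D.group F ≤ S := by
  have hn : ∀ i < D.rank, nV D M.w.add (D.simple i) (1 : F) ∈ S := by
    intro i hi
    obtain ⟨h1, h2⟩ := simple_lt M.w.fd M.w.n hi
    rw [nV_eq_xxx D M.w.add h1 h2]
    exact S.mul_mem (hp i hi _) (S.mul_mem (hm i hi _) (hp i hi _))
  apply group_le_of_xV M.w.add
  exact root_induction M.w.reach (fun r => ∀ t : F, xV D M.w.add r t ∈ S) hp
    (fun i hi s hs h => xV_mem_fw M S hi (hn i hi) hs h)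

theorem xV_mem_rootSubgroup (D : ChevalleyDatum) (ha : addCheck2 D = true) (r : ℕ) (t : F) :
    xV D ha r t ∈ D.rootSubgroup F r := by
  apply Subgroup.subset_closure
  exact ⟨t, xV_val D ha r t⟩

theorem gen_reach {D : ChevalleyDatum} (M : MOK D) (S : Subgroup (GL D.Idx F))
    (hN : D.monomialSubgroup F ≤ S) (init : List ℕ) (K : ℕ)
    (hinit : ∀ s ∈ init, s < D.nroots ∧ ∀ t : F, xV D M.w.add s t ∈ S) :
    ∀ r, Nat.testBit (rIter D (List.range D.rank) K (maskOf init)) r = true →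
      r < D.nroots ∧ ∀ t : F, xV D M.w.add r t ∈ S := by
  apply reach_induction D (List.range D.rank) init K
    (fun r => r < D.nroots ∧ ∀ t : F, xV D M.w.add r t ∈ S) hinit
  intro i hi s hs h
  have hi' : i < D.rank := List.mem_range.mp hi
  exact ⟨(w_facts M.w.n hi' hs).1,
    xV_mem_fw M S hi' (hN (nV_simple_mem_mon M hi')) hs h.2⟩

theorem gen_two {D : ChevalleyDatum} (M : MOK D) (i j K : ℕ) (hi : i < D.rank) (hj : j < D.rank)
    (hmask : rIter D (List.range D.rank) K (maskOf [D.simple i, D.simple j]) =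
      2 ^ D.nroots - 1) :
    D.group F ≤ D.monomialSubgroup F ⊔ D.rootSubgroup F (D.simple i) ⊔
      D.rootSubgroup F (D.simple j) := by
  apply group_le_of_xV M.w.add
  intro r hr
  have h := gen_reach (F := F) M (D.monomialSubgroup F ⊔ D.rootSubgroup F (D.simple i) ⊔
      D.rootSubgroup F (D.simple j)) (le_sup_of_le_left le_sup_left) [D.simple i, D.simple j] K
    (by
      intro s hs
      simp only [List.mem_cons, List.not_mem_nil, or_false] at hs
      rcases hs with rfl | rfl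
      · exact ⟨(simple_lt M.w.fd M.w.n hi).1, fun t =>
          (le_sup_of_le_left le_sup_right : D.rootSubgroup F (D.simple i) ≤ _)
            (xV_mem_rootSubgroup D M.w.add _ t)⟩
      · exact ⟨(simple_lt M.w.fd M.w.n hj).1, fun t =>
          (le_sup_right : D.rootSubgroup F (D.simple j) ≤ _)
            (xV_mem_rootSubgroup D M.w.add _ t)⟩) r
    (by
      rw [hmask, Nat.testBit_two_pow_sub_one]
      exact decide_eq_true hr)
  exact h.2

end sem

def commSub {G : Type*} [Group G] (f g : G ≃* G) : Subgroup G where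
  carrier := {y | f (g y) = g (f y)}
  mul_mem' := by
    intro a b ha hb
    simp only [Set.mem_ofPred_eq, map_mul] at *
    rw [ha, hb]
  one_mem' := by simp
  inv_mem' := by
    intro a ha
    simp only [Set.mem_ofPred_eq, map_inv] at *
    rw [ha]

theorem field_graph_comm {F : Type*} [Field F] {D : ChevalleyDatum}
    (hD : D ∈ [chevG2, chevB2, chevD4, chevF4, chevE6, chevE7, chevE8])
    (f g : ↥(D.group F) ≃* ↥(D.group F)) (hf : D.IsFieldAut f) (hg : D.IsGraphAut g)
    (y : ↥(D.group F)) : f (g y) = g (f y) := by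
  have M := mok_of_mem hD
  obtain ⟨σ, hσ⟩ := hf
  obtain ⟨π, _, hπ⟩ := hg
  have key : ∀ (x : ↥(D.group F)) (r r' : ℕ) (e : ℕ) (t : F), r < D.nroots → r' < D.nroots →
      ((x : GL D.Idx F) : Matrix D.Idx D.Idx F) = D.x F r t →
      (∀ (x' : ↥(D.group F)) (t' : F),
        ((x' : GL D.Idx F) : Matrix D.Idx D.Idx F) = D.x F r t' →
        ((g x' : GL D.Idx F) : Matrix D.Idx D.Idx F) = D.x F r' (t' ^ e)) →
      x ∈ commSub f g := by
    intro x r r' e t hr hr' hx hgx
    show f (g x) = g (f x)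
    apply Subtype.ext
    apply Units.ext
    rw [hσ (g x) r' (t ^ e) hr' (hgx x t hx), hgx (f x) (σ t) (hσ x r t hr hx), map_pow]
  have hS : D.group F ≤ (commSub f g).map (D.group F).subtype := by
    apply gen_by_simple M
    · intro i hi t
      obtain ⟨h1, h2⟩ := simple_lt M.w.fd M.w.n hi
      refine ⟨⟨xV D M.w.add (D.simple i) t, xV_mem_group D M.w.add _ t⟩, ?_, rfl⟩
      have h3 := simple_lt M.w.fd M.w.n (π ⟨i, hi⟩).isLt
      exact key _ (D.simple i) (D.simple (π ⟨i, hi⟩)) _ t h1 h3.1 (xV_val D M.w.add _ t)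
        (fun x' t' hx' => (hπ x' ⟨i, hi⟩ t').1 hx')
    · intro i hi t
      obtain ⟨h1, h2⟩ := simple_lt M.w.fd M.w.n hi
      refine ⟨⟨xV D M.w.add (D.neg (D.simple i)) t, xV_mem_group D M.w.add _ t⟩, ?_, rfl⟩
      have h3 := simple_lt M.w.fd M.w.n (π ⟨i, hi⟩).isLt
      exact key _ (D.neg (D.simple i)) (D.neg (D.simple (π ⟨i, hi⟩))) _ t h2 h3.2
        (xV_val D M.w.add _ t) (fun x' t' hx' => (hπ x' ⟨i, hi⟩ t').2 hx')
  obtain ⟨y', hy', hyy⟩ := hS y.2
  have e : y' = y := Subtype.ext hyy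
  rw [← e]
  exact hy'

end Cfsg.Agent.Helper7
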