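import Cfsg.Agent.Helper7.ChevCommB
import Cfsg.Agent.Helper7.ChkM

set_option autoImplicit false
set_option maxHeartbeats 4000000
open Cfsg

namespace Cfsg.Agent.Helper7

open Cfsg.Lie

def cfDataB2 : List (ℕ × List ℕ × List ℕ) := [(6, [0], [0, 2, 4]), (7, [1], [1, 3, 5])]
def cfDataD4 : List (ℕ × List ℕ × List ℕ) := [(23, [0, 2, 3], [1, 5, 10, 11, 14])]
def cfDataF4 : List (ℕ × List ℕ × List ℕ) :=
  [(44, [1, 2, 3], [0, 7, 15, 18, 33, 41]), (47, [0, 1, 2], [1, 3, 6, 10, 24, 29])]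
def cfDataE6 : List (ℕ × List ℕ × List ℕ) := [(71, [0, 2, 3, 4, 5], [1, 11, 46])]
def cfDataE7 : List (ℕ × List ℕ × List ℕ) := [(125, [1, 2, 3, 4, 5, 6], [1, 33, 93])]
def cfDataE8 : List (ℕ × List ℕ × List ℕ) := [(239, [0, 1, 2, 3, 4, 5, 6], [1, 13, 120])]

theorem cfAll_G2 : cfAll chevG2 = true := by decide +kernel
theorem cfOK_B2 : cfOK chevB2 16 cfDataB2 = true := by decide +kernel
theorem cfOK_D4 : cfOK chevD4 16 cfDataD4 = true := by decide +kernel
theorem cfOK_F4 : cfOK chevF4 16 cfDataF4 = true := by decide +kernel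
theorem cfOK_E6 : cfOK chevE6 16 cfDataE6 = true := by decide +kernel
theorem cfOK_E7 : cfOK chevE7 16 cfDataE7 = true := by decide +kernel
theorem cfOK_E8 : cfOK chevE8 16 cfDataE8 = true := by decide +kernel

theorem comm_formula {F : Type*} [Field F] {D : ChevalleyDatum}
    (hD : D ∈ [chevG2, chevB2, chevD4, chevF4, chevE6, chevE7, chevE8]) :
    ∀ r < D.nroots, ∀ s < D.nroots, s ≠ r → s ≠ D.neg r → ∀ t u : F,
      D.x F s u * D.x F r t = D.x F r t * D.x F s u * D.wordMat F (D.commWord F r s t u) :=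
  forall_seven (P := fun D => ∀ r < D.nroots, ∀ s < D.nroots, s ≠ r → s ≠ D.neg r → ∀ t u : F,
      D.x F s u * D.x F r t = D.x F r t * D.x F s u * D.wordMat F (D.commWord F r s t u))
    (cf_all fdOK_G2 cfAll_G2)
    (cf_general (mok_of_mem (.tail _ (.head _))) cfOK_B2)
    (cf_general (mok_of_mem (.tail _ (.tail _ (.head _)))) cfOK_D4)
    (cf_general (mok_of_mem (.tail _ (.tail _ (.tail _ (.head _))))) cfOK_F4)
    (cf_general (mok_of_mem (.tail _ (.tail _ (.tail _ (.tail _ (.head _)))))) cfOK_E6)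
    (cf_general (mok_of_mem (.tail _ (.tail _ (.tail _ (.tail _ (.tail _ (.head _))))))) cfOK_E7)
    (cf_general (mok_of_mem (.tail _ (.tail _ (.tail _ (.tail _ (.tail _ (.tail _ (.head _)))))))) cfOK_E8)
    hD

end Cfsg.Agent.Helper7
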