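import Cfsg.Agent.Helper7.ChevUp
import Cfsg.Agent.Helper7.ChkComm

set_option autoImplicit false
set_option maxHeartbeats 4000000
set_option maxRecDepth 100000
open Cfsg

namespace Cfsg.Agent.Helper7

open Cfsg.Lie

def upOK1 (D : ChevalleyDatum) (i : ℕ) : Bool :=
  (List.range (D.nroots - D.nroots / 2)).all fun k =>
    Nat.beq (D.nroots / 2 + k) (fsimple D i) ||
      ((D.commTerms (fsimple D i) (D.nroots / 2 + k)).all fun c =>
        Nat.ble (D.nroots / 2) c.1 && Nat.blt c.1 D.nroots && !(Nat.beq c.1 (fsimple D i))) &&
      ((D.commTerms (fneg D (fsimple D i)) (D.nroots / 2 + k)).all fun c =>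
        Nat.ble (D.nroots / 2) c.1 && Nat.blt c.1 D.nroots && !(Nat.beq c.1 (fsimple D i)))

theorem upOK_of1 (D : ChevalleyDatum) (h : ∀ i < D.rank, upOK1 D i = true) : upOK D = true := by
  unfold upOK
  rw [List.all_eq_true]
  intro i hi
  exact h i (List.mem_range.mp hi)

theorem upOK_G2 : upOK chevG2 = true := by decide +kernel
theorem upOK_B2 : upOK chevB2 = true := by decide +kernel
theorem upOK_D4 : upOK chevD4 = true := by decide +kernel
theorem upOK_F4 : upOK chevF4 = true := by decide +kernel

theorem upE6_0 : upOK1 chevE6 0 = true := by decide +kernel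
theorem upE6_1 : upOK1 chevE6 1 = true := by decide +kernel
theorem upE6_2 : upOK1 chevE6 2 = true := by decide +kernel
theorem upE6_3 : upOK1 chevE6 3 = true := by decide +kernel
theorem upE6_4 : upOK1 chevE6 4 = true := by decide +kernel
theorem upE6_5 : upOK1 chevE6 5 = true := by decide +kernel

theorem upOK_E6 : upOK chevE6 = true := by
  apply upOK_of1
  intro i hi
  have hi' : i < 6 := hi
  interval_cases i
  · exact upE6_0
  · exact upE6_1
  · exact upE6_2
  · exact upE6_3
  · exact upE6_4
  · exact upE6_5

theorem upE7_0 : upOK1 chevE7 0 = true := by decide +kernel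
theorem upE7_1 : upOK1 chevE7 1 = true := by decide +kernel
theorem upE7_2 : upOK1 chevE7 2 = true := by decide +kernel
theorem upE7_3 : upOK1 chevE7 3 = true := by decide +kernel
theorem upE7_4 : upOK1 chevE7 4 = true := by decide +kernel
theorem upE7_5 : upOK1 chevE7 5 = true := by decide +kernel
theorem upE7_6 : upOK1 chevE7 6 = true := by decide +kernel

theorem upOK_E7 : upOK chevE7 = true := by
  apply upOK_of1
  intro i hi
  have hi' : i < 7 := hi
  interval_cases i
  · exact upE7_0
  · exact upE7_1
  · exact upE7_2
  · exact upE7_3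
  · exact upE7_4
  · exact upE7_5
  · exact upE7_6

theorem upE8_0 : upOK1 chevE8 0 = true := by decide +kernel
theorem upE8_1 : upOK1 chevE8 1 = true := by decide +kernel
theorem upE8_2 : upOK1 chevE8 2 = true := by decide +kernel
theorem upE8_3 : upOK1 chevE8 3 = true := by decide +kernel
theorem upE8_4 : upOK1 chevE8 4 = true := by decide +kernel
theorem upE8_5 : upOK1 chevE8 5 = true := by decide +kernel
theorem upE8_6 : upOK1 chevE8 6 = true := by decide +kernel
theorem upE8_7 : upOK1 chevE8 7 = true := by decide +kernel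

theorem upOK_E8 : upOK chevE8 = true := by
  apply upOK_of1
  intro i hi
  have hi' : i < 8 := hi
  interval_cases i
  · exact upE8_0
  · exact upE8_1
  · exact upE8_2
  · exact upE8_3
  · exact upE8_4
  · exact upE8_5
  · exact upE8_6
  · exact upE8_7

theorem wposOK_G2 : wposOK chevG2 = true := by decide +kernel
theorem wposOK_B2 : wposOK chevB2 = true := by decide +kernel
theorem wposOK_D4 : wposOK chevD4 = true := by decide +kernel
theorem wposOK_F4 : wposOK chevF4 = true := by decide +kernel
theorem wposOK_E6 : wposOK chevE6 = true := by decide +kernel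
theorem wposOK_E7 : wposOK chevE7 = true := by decide +kernel
theorem wposOK_E8 : wposOK chevE8 = true := by decide +kernel

theorem negInvOK_G2 : negInvOK chevG2 = true := by decide +kernel
theorem negInvOK_B2 : negInvOK chevB2 = true := by decide +kernel
theorem negInvOK_D4 : negInvOK chevD4 = true := by decide +kernel
theorem negInvOK_F4 : negInvOK chevF4 = true := by decide +kernel
theorem negInvOK_E6 : negInvOK chevE6 = true := by decide +kernel
theorem negInvOK_E7 : negInvOK chevE7 = true := by decide +kernel
theorem negInvOK_E8 : negInvOK chevE8 = true := by decide +kernel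

theorem uok_of_mem {D : ChevalleyDatum}
    (hD : D ∈ [chevG2, chevB2, chevD4, chevF4, chevE6, chevE7, chevE8]) : UOK D :=
  ⟨mok_of_mem hD,
    forall_seven (P := fun D => upOK D = true) upOK_G2 upOK_B2 upOK_D4 upOK_F4 upOK_E6 upOK_E7
      upOK_E8 hD,
    forall_seven (P := fun D => wposOK D = true) wposOK_G2 wposOK_B2 wposOK_D4 wposOK_F4
      wposOK_E6 wposOK_E7 wposOK_E8 hD,
    forall_seven (P := fun D => negInvOK D = true) negInvOK_G2 negInvOK_B2 negInvOK_D4
      negInvOK_F4 negInvOK_E6 negInvOK_E7 negInvOK_E8 hD⟩

theorem cf_of_mem {F : Type*} [Field F] {D : ChevalleyDatum}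
    (hD : D ∈ [chevG2, chevB2, chevD4, chevF4, chevE6, chevE7, chevE8]) : CF D F :=
  comm_formula hD

end Cfsg.Agent.Helper7
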