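import Cfsg.Agent.Helper7.ChevGen
import Cfsg.Agent.Helper7.ChkUp

set_option autoImplicit false
set_option linter.unusedSectionVars false
set_option linter.unusedVariables false
open Cfsg

namespace Cfsg.Agent.Helper7

open Cfsg.Lie

def withNat (m : ℕ) (f : ℕ → Bool) : Bool :=
  match m with
  | 0 => f 0
  | n + 1 => f (n + 1)

theorem withNat_eq (m : ℕ) (f : ℕ → Bool) : withNat m f = f m := by
  cases m <;> rfl

def genOK (D : ChevalleyDatum) (i K : ℕ) (c : ℤ) (tbl : List (ℕ × ℕ)) : Bool :=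
  withNat (rIter D (List.range D.rank) K (maskOf [D.simple i])) fun m =>
    (List.range D.nroots).all fun r =>
      m.testBit r ||
        (decide ((tbl.getD r (0, 0)).1 < D.nroots) && decide ((tbl.getD r (0, 0)).2 < D.nroots) &&
          m.testBit (tbl.getD r (0, 0)).1 && m.testBit (tbl.getD r (0, 0)).2 &&
          decide ((tbl.getD r (0, 0)).2 ≠ (tbl.getD r (0, 0)).1) &&
          decide ((tbl.getD r (0, 0)).2 ≠ D.neg (tbl.getD r (0, 0)).1) &&
          (decide (D.commTerms (tbl.getD r (0, 0)).1 (tbl.getD r (0, 0)).2 = [(r, c, 1, 1)]) ||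
            decide (D.commTerms (tbl.getD r (0, 0)).1 (tbl.getD r (0, 0)).2 = [(r, -c, 1, 1)])))

theorem cast_ne_zero_of_ringChar {K : Type*} [Field K] (p : ℕ) (hp : p.Prime)
    (h : ringChar K ≠ p) : ((p : ℤ) : K) ≠ 0 := by
  intro h0
  have h1 : ((p : ℕ) : K) = 0 := by exact_mod_cast h0
  have h2 := (ringChar.spec K p).mp h1
  rcases (Nat.dvd_prime hp).mp h2 with h3 | h3
  · exact CharP.ringChar_ne_one h3
  · exact h h3

theorem gen_one {F : Type*} [Field F] {D : ChevalleyDatum}
    (hD : D ∈ [chevG2, chevB2, chevD4, chevF4, chevE6, chevE7, chevE8]) (i K : ℕ)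
    (hi : i < D.rank) (c : ℤ) (hc : (c : F) ≠ 0) (tbl : List (ℕ × ℕ))
    (hOK : genOK D i K c tbl = true) :
    D.group F ≤ D.monomialSubgroup F ⊔ D.rootSubgroup F (D.simple i) := by
  have M := mok_of_mem hD
  unfold genOK at hOK
  rw [withNat_eq, List.all_eq_true] at hOK
  have hreach := gen_reach (F := F) M (D.monomialSubgroup F ⊔ D.rootSubgroup F (D.simple i))
    le_sup_left [D.simple i] K (by
      intro s hs
      rw [List.mem_singleton] at hs
      subst hs
      exact ⟨(simple_lt M.w.fd M.w.n hi).1, fun t =>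
        (le_sup_right : D.rootSubgroup F (D.simple i) ≤ _)
          (xV_mem_rootSubgroup D M.w.add _ t)⟩)
  apply group_le_of_xV M.w.add
  intro r hr t
  have h := hOK r (List.mem_range.mpr hr)
  rw [Bool.or_eq_true] at h
  rcases h with h | h
  · exact (hreach r h).2 t
  · simp only [Bool.and_eq_true, Bool.or_eq_true, decide_eq_true_eq] at h
    obtain ⟨⟨⟨⟨⟨⟨ha, hb⟩, hma⟩, hmb⟩, hne⟩, hne'⟩, hct⟩ := h
    have hPa := (hreach _ hma).2
    have hPb := (hreach _ hmb).2
    obtain ⟨m, hm, hm0⟩ : ∃ m : ℤ, D.commTerms (tbl.getD r (0, 0)).1 (tbl.getD r (0, 0)).2 =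
        [(r, m, 1, 1)] ∧ (m : F) ≠ 0 := by
      rcases hct with h1 | h1
      · exact ⟨c, h1, hc⟩
      · refine ⟨-c, h1, ?_⟩
        push_cast
        exact neg_ne_zero.mpr hc
    have hcf := comm_formula (F := F) hD _ ha _ hb hne hne' (-t / (m : F)) 1
    have hw : D.wordMat F (D.commWord F (tbl.getD r (0, 0)).1 (tbl.getD r (0, 0)).2
        (-t / (m : F)) 1) = D.x F r t := by
      unfold ChevalleyDatum.commWord ChevalleyDatum.wordMat
      rw [hm]
      simp only [List.map_cons, List.map_nil, List.prod_cons, List.prod_nil, mul_one, pow_one]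
      congr 1
      field_simp
    rw [hw] at hcf
    have e : xV D M.w.add r t =
        (xV D M.w.add (tbl.getD r (0, 0)).1 (-t / (m : F)) *
          xV D M.w.add (tbl.getD r (0, 0)).2 1)⁻¹ *
        (xV D M.w.add (tbl.getD r (0, 0)).2 1 *
          xV D M.w.add (tbl.getD r (0, 0)).1 (-t / (m : F))) := by
      rw [eq_inv_mul_iff_mul_eq]
      apply Units.ext
      simp only [Units.val_mul, xV_val]
      exact hcf.symm
    rw [e]
    exact Subgroup.mul_mem _ (Subgroup.inv_mem _ (Subgroup.mul_mem _ (hPa _) (hPb _)))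
      (Subgroup.mul_mem _ (hPb _) (hPa _))

end Cfsg.Agent.Helper7
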