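import Cfsg.Agent.Helper7.ChevMon

set_option autoImplicit false
set_option linter.unusedSectionVars false
set_option linter.unusedVariables false
open Cfsg

namespace Cfsg.Agent.Helper7

open Cfsg.Lie

structure GAut where
  rho : List ℕ
  rt : List ℕ
  eps : List ℤ

def gaCol (D : ChevalleyDatum) (A : GAut) (n : ℕ) : List VT :=
  if n < D.rank then [⟨A.rho.getD n 0, 1, 0, 0⟩]
  else if n < D.rank + D.nroots then
    [⟨D.rank + A.rt.getD (n - D.rank) 0, A.eps.getD (n - D.rank) 1, 0, 0⟩]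
  else []

def gaConjOK (D : ChevalleyDatum) (A : GAut) : Bool :=
  (List.range D.nroots).all fun r => (List.range (D.rank + D.nroots)).all fun n =>
    isZeroE (appG (gaCol D A) (col3 D r [(1, 1, 0)] n) ++
      vneg (appG (col3 D (A.rt.getD r 0) [(A.eps.getD r 1, 1, 0)]) (gaCol D A n)))

def gaInvOK (D : ChevalleyDatum) (A B : GAut) : Bool :=
  (List.range (D.rank + D.nroots)).all fun n =>
    isZeroE (appG (gaCol D A) (gaCol D B n) ++ vneg (unitV n))

def gaTabOK (D : ChevalleyDatum) (A B : GAut) : Bool :=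
  ((List.range D.nroots).all fun s =>
      Nat.blt (A.rt.getD s 0) D.nroots && Nat.blt (B.rt.getD s 0) D.nroots &&
      Nat.beq (A.rt.getD (B.rt.getD s 0) 0) s &&
      (decide (A.eps.getD s 1 = 1) || decide (A.eps.getD s 1 = -1))) &&
  ((List.range D.rank).all fun i =>
      Nat.beq (A.rt.getD (fsimple D i) 0) (fsimple D (A.rho.getD i 0)) &&
      decide (A.eps.getD (fsimple D i) 1 = 1) &&
      Nat.beq (A.rt.getD (fneg D (fsimple D i)) 0) (fneg D (fsimple D (A.rho.getD i 0))) &&
      decide (A.eps.getD (fneg D (fsimple D i)) 1 = 1))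

def gaOK (D : ChevalleyDatum) (A B : GAut) : Bool :=
  gaConjOK D A && gaInvOK D A B && gaInvOK D B A && gaTabOK D A B

theorem gaCol_of_ge (D : ChevalleyDatum) (A : GAut) {n : ℕ} (hn : D.rank + D.nroots ≤ n) :
    gaCol D A n = [] := by
  unfold gaCol
  rw [if_neg (by omega), if_neg (by omega)]

theorem gaTabOK_spec {D : ChevalleyDatum} {A B : GAut} (h : gaTabOK D A B = true) :
    (∀ s < D.nroots, A.rt.getD s 0 < D.nroots ∧ B.rt.getD s 0 < D.nroots ∧
      A.rt.getD (B.rt.getD s 0) 0 = s ∧ (A.eps.getD s 1 = 1 ∨ A.eps.getD s 1 = -1)) ∧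
    (∀ i < D.rank, A.rt.getD (D.simple i) 0 = D.simple (A.rho.getD i 0) ∧
      A.eps.getD (D.simple i) 1 = 1 ∧
      A.rt.getD (fneg D (D.simple i)) 0 = fneg D (D.simple (A.rho.getD i 0)) ∧
      A.eps.getD (fneg D (D.simple i)) 1 = 1) := by
  unfold gaTabOK at h
  simp only [Bool.and_eq_true, Bool.or_eq_true, List.all_eq_true, Nat.blt_eq, Nat.beq_eq,
    decide_eq_true_eq, List.mem_range, fsimple_eq] at h
  exact ⟨fun s hs => ⟨(h.1 s hs).1.1.1, (h.1 s hs).1.1.2, (h.1 s hs).1.2, (h.1 s hs).2⟩,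
    fun i hi => ⟨(h.2 i hi).1.1.1, (h.2 i hi).1.1.2, (h.2 i hi).1.2, (h.2 i hi).2⟩⟩

section sem

variable {F : Type*} [Field F]

def gaMat (D : ChevalleyDatum) (A : GAut) (F : Type*) [Field F] : Matrix D.Idx D.Idx F :=
  Matrix.of fun a b => semAt (1 : F) 1 (gaCol D A (code D b)) (code D a)

theorem gaMat_sem (D : ChevalleyDatum) (A : GAut) (x y : F) (a b : D.Idx) :
    gaMat D A F a b = semAt x y (gaCol D A (code D b)) (code D a) := by
  unfold gaMat gaCol
  rw [Matrix.of_apply]
  split_ifs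
  · rw [semAt_single, semAt_single]
    simp [vtVal]
  · rw [semAt_single, semAt_single]
    simp [vtVal]
  · rfl

theorem ga_conj {D : ChevalleyDatum} (h : fdOK D = true) (A : GAut) (hc : gaConjOK D A = true)
    {r : ℕ} (hr : r < D.nroots) (hr' : A.rt.getD r 0 < D.nroots) (t : F) :
    gaMat D A F * D.x F r t =
      D.x F (A.rt.getD r 0) (((A.eps.getD r 1 : ℤ) : F) * t) * gaMat D A F := by
  ext a b
  have eL : (gaMat D A F * D.x F r t) a b =
      semAt t 1 (appG (gaCol D A) (col3 D r [(1, 1, 0)] (code D b))) (code D a) := by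
    rw [appG_sound D (gaMat D A F) (gaCol D A) t 1 (fun a b => gaMat_sem D A t 1 a b)
      (fun n hn' => gaCol_of_ge D A hn'), Matrix.mul_apply]
    apply Finset.sum_congr rfl
    intro j _
    rw [← col3_sound h hr, pev_x]
  have eR : (D.x F (A.rt.getD r 0) (((A.eps.getD r 1 : ℤ) : F) * t) * gaMat D A F) a b =
      semAt t 1 (appG (col3 D (A.rt.getD r 0) [(A.eps.getD r 1, 1, 0)]) (gaCol D A (code D b)))
        (code D a) := by
    rw [appG_sound D (D.x F (A.rt.getD r 0) (((A.eps.getD r 1 : ℤ) : F) * t))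
      (col3 D (A.rt.getD r 0) [(A.eps.getD r 1, 1, 0)]) t 1
      (fun a b => by rw [← col3_sound h hr', pev_zx]) (fun n hn' => col3_of_ge _ _ hn'),
      Matrix.mul_apply]
    apply Finset.sum_congr rfl
    intro j _
    rw [← gaMat_sem D A t 1]
  rw [eL, eR]
  unfold gaConjOK at hc
  rw [List.all_eq_true] at hc
  have h1 := hc r (List.mem_range.mpr hr)
  rw [List.all_eq_true] at h1
  have h2 := isZeroE_sound t 1 _ (h1 (code D b) (List.mem_range.mpr (code_lt D b))) (code D a)
  rw [semAt_append, semAt_vneg] at h2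
  linear_combination h2

theorem ga_mul_inv {D : ChevalleyDatum} (A B : GAut) (hc : gaInvOK D A B = true) :
    gaMat D A F * gaMat D B F = 1 := by
  ext a b
  have e : (gaMat D A F * gaMat D B F) a b =
      semAt (1 : F) 1 (appG (gaCol D A) (gaCol D B (code D b))) (code D a) := by
    rw [appG_sound D (gaMat D A F) (gaCol D A) 1 1 (fun a b => gaMat_sem D A 1 1 a b)
      (fun n hn' => gaCol_of_ge D A hn'), Matrix.mul_apply]
    apply Finset.sum_congr rfl
    intro j _
    rw [← gaMat_sem D B 1 1]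
  rw [e]
  unfold gaInvOK at hc
  rw [List.all_eq_true] at hc
  have h2 := isZeroE_sound (1 : F) 1 _ (hc (code D b) (List.mem_range.mpr (code_lt D b)))
    (code D a)
  rw [semAt_append, semAt_vneg, semAt_unitV] at h2
  rw [Matrix.one_apply]
  by_cases hab : a = b
  · subst hab
    rw [if_pos rfl] at h2 ⊢
    linear_combination h2
  · have hne : ¬ code D b = code D a := fun hh => hab (code_injective D hh).symm
    rw [if_neg hne] at h2
    rw [if_neg hab]
    linear_combination h2

def gaU (D : ChevalleyDatum) (A B : GAut) (h1 : gaInvOK D A B = true)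
    (h2 : gaInvOK D B A = true) : GL D.Idx F where
  val := gaMat D A F
  inv := gaMat D B F
  val_inv := ga_mul_inv A B h1
  inv_val := ga_mul_inv B A h2

theorem ga_exists {D : ChevalleyDatum} (M : MOK D) (A B : GAut) (hOK : gaOK D A B = true) :
    ∃ α : ↥(D.group F) ≃* ↥(D.group F), ∀ (g : ↥(D.group F)) (i : ℕ) (t : F), i < D.rank →
      (((g : GL D.Idx F) : Matrix D.Idx D.Idx F) = D.x F (D.simple i) t →
        ((α g : GL D.Idx F) : Matrix D.Idx D.Idx F) = D.x F (D.simple (A.rho.getD i 0)) t) ∧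
      (((g : GL D.Idx F) : Matrix D.Idx D.Idx F) = D.x F (D.neg (D.simple i)) t →
        ((α g : GL D.Idx F) : Matrix D.Idx D.Idx F) =
          D.x F (D.neg (D.simple (A.rho.getD i 0))) t) := by
  unfold gaOK at hOK
  simp only [Bool.and_eq_true] at hOK
  obtain ⟨⟨⟨hconj, hinv1⟩, hinv2⟩, htab⟩ := hOK
  obtain ⟨hT1, hT2⟩ := gaTabOK_spec htab
  have hc : ∀ r < D.nroots, ∀ t : F,
      gaU (F := F) D A B hinv1 hinv2 * xV D M.w.add r t * (gaU (F := F) D A B hinv1 hinv2)⁻¹ =
        xV D M.w.add (A.rt.getD r 0) (((A.eps.getD r 1 : ℤ) : F) * t) := by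
    intro r hr t
    rw [mul_inv_eq_iff_eq_mul]
    apply Units.ext
    rw [Units.val_mul, Units.val_mul, xV_val, xV_val]
    exact ga_conj M.w.fd A hconj hr (hT1 r hr).1 t
  have hconjF : ∀ x : GL D.Idx F,
      (MulAut.conj (gaU (F := F) D A B hinv1 hinv2)).toMonoidHom x =
        gaU (F := F) D A B hinv1 hinv2 * x * (gaU (F := F) D A B hinv1 hinv2)⁻¹ := fun x => rfl
  have hmap : (D.group F).map (MulAut.conj (gaU (F := F) D A B hinv1 hinv2)).toMonoidHom =
      D.group F := by
    apply le_antisymm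
    · rw [Subgroup.map_le_iff_le_comap]
      refine (Subgroup.closure_le _).mpr ?_
      rintro g ⟨r, t, hg⟩
      have e : g = xV D M.w.add r.val t :=
        Units.ext (by rw [hg, xV_val, x_of_lt D F r.isLt])
      rw [SetLike.mem_coe, Subgroup.mem_comap, hconjF, e, hc r.val r.isLt t]
      exact xV_mem_group D M.w.add _ _
    · unfold ChevalleyDatum.group
      rw [Subgroup.closure_le]
      rintro g ⟨r, t, hg⟩
      have e : g = xV D M.w.add r.val t :=
        Units.ext (by rw [hg, xV_val, x_of_lt D F r.isLt])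
      obtain ⟨_, h2, h3, _⟩ := hT1 r.val r.isLt
      obtain ⟨_, _, _, h4⟩ := hT1 (B.rt.getD r.val 0) h2
      have e2 := hc (B.rt.getD r.val 0) h2
        (((A.eps.getD (B.rt.getD r.val 0) 1 : ℤ) : F) * t)
      rw [h3] at e2
      have e3 : ((A.eps.getD (B.rt.getD r.val 0) 1 : ℤ) : F) *
          (((A.eps.getD (B.rt.getD r.val 0) 1 : ℤ) : F) * t) = t := by
        rcases h4 with h4 | h4 <;> rw [h4] <;> simp
      rw [e3] at e2
      rw [e, ← e2, ← hconjF]
      exact Subgroup.mem_map_of_mem _ (xV_mem_group D M.w.add _ _)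
  refine ⟨(MulEquiv.subgroupMap (MulAut.conj (gaU (F := F) D A B hinv1 hinv2)) (D.group F)).trans
    (MulEquiv.subgroupCongr hmap), ?_⟩
  intro g i t hi
  have hα : (((MulEquiv.subgroupMap (MulAut.conj (gaU (F := F) D A B hinv1 hinv2))
      (D.group F)).trans (MulEquiv.subgroupCongr hmap) g : ↥(D.group F)) : GL D.Idx F) =
      gaU (F := F) D A B hinv1 hinv2 * (g : GL D.Idx F) *
        (gaU (F := F) D A B hinv1 hinv2)⁻¹ := rfl
  obtain ⟨hp, hnp⟩ := simple_lt M.w.fd M.w.n hi
  obtain ⟨h5, h6, h7, h8⟩ := hT2 i hi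
  rw [fneg_eq M.w.fd, fneg_eq M.w.fd] at h7
  rw [fneg_eq M.w.fd] at h8
  constructor
  · intro hg
    have e : (g : GL D.Idx F) = xV D M.w.add (D.simple i) t :=
      Units.ext (by rw [hg, xV_val])
    rw [hα, e, hc _ hp t, xV_val, h5, h6, Int.cast_one, one_mul]
  · intro hg
    have e : (g : GL D.Idx F) = xV D M.w.add (D.neg (D.simple i)) t :=
      Units.ext (by rw [hg, xV_val])
    rw [hα, e, hc _ hnp t, xV_val, h7, h8, Int.cast_one, one_mul]

end sem

end Cfsg.Agent.Helper7
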