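import Cfsg.Agent.Helper7.ChevLin

set_option autoImplicit false
set_option linter.unusedSectionVars false
set_option linter.unusedVariables false
open Cfsg

namespace Cfsg.Agent.Helper7

open Cfsg.Lie

structure Lev where
  J : List ℕ
  x0 : ℕ
  RJ : List ℕ
  TW : List (List ℕ × List ℕ)

def Lev.T (lv : Lev) : List (List ℕ) := lv.TW.map Prod.fst

def goodStep (D : ChevalleyDatum) (RJ : List ℕ) (u : List ℕ) (a : ℕ) : Bool :=
  Nat.ble (D.nroots / 2) (wApply D u.reverse (fsimple D a)) &&
    !(RJ.contains (wApply D u.reverse (fsimple D a)))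

def builtB (D : ChevalleyDatum) (RJ : List ℕ) : List ℕ → Bool
  | [] => true
  | a :: u => goodStep D RJ u a && builtB D RJ u

def stabOK (D : ChevalleyDatum) (J RJ : List ℕ) : Bool :=
  J.all fun j => (List.range (D.nroots - D.nroots / 2)).all fun k =>
    RJ.contains (D.nroots / 2 + k) ||
      (Nat.ble (D.nroots / 2) (fw D j (D.nroots / 2 + k)) &&
        !(RJ.contains (fw D j (D.nroots / 2 + k))))

def chk (D : ChevalleyDatum) (lv : Lev) (u : List ℕ) (a v : ℕ) : Bool :=
  if v < lv.T.length then
    (List.range D.rank).all fun k =>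
      Nat.beq (fw D a (wApply D u (fsimple D k))) (wApply D (lv.T.getD v []) (fsimple D k))
  else
    lv.J.contains (v - lv.T.length) &&
      (List.range D.rank).all fun k =>
        Nat.beq (fw D a (wApply D u (fsimple D k)))
          (wApply D u (fw D (v - lv.T.length) (fsimple D k)))

def levOK (D : ChevalleyDatum) (K : List ℕ) (lv : Lev) : Bool :=
  lv.J.all K.contains &&
  lv.T.all (fun u => u.all K.contains) &&
  lv.T.contains [] &&
  lv.T.all (builtB D lv.RJ) &&
  stabOK D lv.J lv.RJ &&
  Nat.blt lv.x0 D.nroots &&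
  lv.J.all (fun j => Nat.beq (fw D j lv.x0) lv.x0) &&
  decide ((lv.T.map fun u => wApply D u lv.x0).Nodup) &&
  lv.TW.all (fun p => K.all fun a => chk D lv p.1 a (p.2.getD a 0))

def levsOK (D : ChevalleyDatum) : List ℕ → List Lev → Bool
  | K, [] => K.isEmpty
  | K, lv :: rest => levOK D K lv && levsOK D lv.J rest

def words : List Lev → List (List ℕ)
  | [] => [[]]
  | lv :: rest => lv.T.flatMap fun u => (words rest).map fun v => u ++ v

theorem mem_words_cons {lv : Lev} {rest : List Lev} {w : List ℕ} :
    w ∈ words (lv :: rest) ↔ ∃ u ∈ lv.T, ∃ v ∈ words rest, w = u ++ v := by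
  simp only [words, List.mem_flatMap, List.mem_map]
  constructor
  · rintro ⟨u, hu, v, hv, rfl⟩
    exact ⟨u, hu, v, hv, rfl⟩
  · rintro ⟨u, hu, v, hv, rfl⟩
    exact ⟨u, hu, v, hv, rfl⟩

structure LevP (D : ChevalleyDatum) (K : List ℕ) (lv : Lev) : Prop where
  jk : ∀ j ∈ lv.J, j ∈ K
  tk : ∀ u ∈ lv.T, ∀ i ∈ u, i ∈ K
  nil : [] ∈ lv.T
  built : ∀ u ∈ lv.T, builtB D lv.RJ u = true
  stab : stabOK D lv.J lv.RJ = true
  x0lt : lv.x0 < D.nroots
  fix : ∀ j ∈ lv.J, fw D j lv.x0 = lv.x0
  nodup : (lv.T.map fun u => wApply D u lv.x0).Nodup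
  wit : ∀ p ∈ lv.TW, ∀ a ∈ K, chk D lv p.1 a (p.2.getD a 0) = true

theorem levOK_spec {D : ChevalleyDatum} {K : List ℕ} {lv : Lev} (h : levOK D K lv = true) :
    LevP D K lv := by
  unfold levOK at h
  simp only [Bool.and_eq_true, List.all_eq_true, List.contains_iff_mem, Nat.blt_eq, Nat.beq_eq,
    decide_eq_true_eq] at h
  obtain ⟨⟨⟨⟨⟨⟨⟨⟨h1, h2⟩, h3⟩, h4⟩, h5⟩, h6⟩, h7⟩, h8⟩, h9⟩ := h
  exact ⟨h1, h2, h3, h4, h5, h6, h7, h8, h9⟩

theorem levsOK_cons {D : ChevalleyDatum} {K : List ℕ} {lv : Lev} {rest : List Lev}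
    (h : levsOK D K (lv :: rest) = true) : LevP D K lv ∧ levsOK D lv.J rest = true := by
  have h' : (levOK D K lv && levsOK D lv.J rest) = true := h
  rw [Bool.and_eq_true] at h'
  exact ⟨levOK_spec h'.1, h'.2⟩

theorem words_letters {D : ChevalleyDatum} : ∀ (lvs : List Lev) (K : List ℕ),
    levsOK D K lvs = true → ∀ w ∈ words lvs, ∀ i ∈ w, i ∈ K := by
  intro lvs
  induction lvs with
  | nil =>
    intro K _ w hw i hi
    have : w = [] := by simpa [words] using hw
    rw [this] at hi
    exact absurd hi List.not_mem_nil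
  | cons lv rest ih =>
    intro K h w hw i hi
    obtain ⟨P, hrest⟩ := levsOK_cons h
    obtain ⟨u, hu, v, hv, rfl⟩ := mem_words_cons.mp hw
    rcases List.mem_append.mp hi with hi | hi
    · exact P.tk u hu i hi
    · exact P.jk i (ih lv.J hrest v hv i hi)

theorem nil_mem_words {D : ChevalleyDatum} : ∀ (lvs : List Lev) (K : List ℕ),
    levsOK D K lvs = true → [] ∈ words lvs := by
  intro lvs
  induction lvs with
  | nil => intro K _; simp [words]
  | cons lv rest ih =>
    intro K h
    obtain ⟨P, hrest⟩ := levsOK_cons h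
    exact mem_words_cons.mpr ⟨[], P.nil, [], ih lv.J hrest, rfl⟩

theorem stab_word {D : ChevalleyDatum} (hn : nOK D = true) {J RJ : List ℕ}
    (hJ : ∀ j ∈ J, j < D.rank) (hs : stabOK D J RJ = true) :
    ∀ (x : List ℕ), (∀ i ∈ x, i ∈ J) → ∀ ρ, D.nroots / 2 ≤ ρ → ρ < D.nroots → ρ ∉ RJ →
      D.nroots / 2 ≤ wApply D x ρ ∧ wApply D x ρ < D.nroots ∧ wApply D x ρ ∉ RJ := by
  intro x
  induction x with
  | nil => intro _ ρ h1 h2 h3; exact ⟨h1, h2, h3⟩
  | cons j x ih =>
    intro hx ρ h1 h2 h3
    have hj := hx j List.mem_cons_self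
    obtain ⟨g1, g2, g3⟩ := ih (fun i hi => hx i (List.mem_cons_of_mem _ hi)) ρ h1 h2 h3
    rw [wApply_cons]
    unfold stabOK at hs
    rw [List.all_eq_true] at hs
    have hs1 := hs j hj
    rw [List.all_eq_true] at hs1
    have hs2 := hs1 (wApply D x ρ - D.nroots / 2) (List.mem_range.mpr (by omega))
    rw [show D.nroots / 2 + (wApply D x ρ - D.nroots / 2) = wApply D x ρ by omega] at hs2
    simp only [Bool.or_eq_true, Bool.and_eq_true, List.contains_iff_mem, Nat.ble_eq,
      Bool.not_eq_true', ← Bool.not_eq_true] at hs2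
    rcases hs2 with hs2 | hs2
    · exact absurd hs2 g3
    · exact ⟨hs2.1, (w_facts hn (hJ j hj) g2).1, hs2.2⟩

theorem linc_append {D : ChevalleyDatum} (hfd : fdOK D = true) (hn : nOK D = true)
    {J RJ : List ℕ} (hJ : ∀ j ∈ J, j < D.rank)
    (hs : stabOK D J RJ = true) {v : List ℕ} (hv : LInc D v) (hvJ : ∀ i ∈ v, i ∈ J) :
    ∀ u : List ℕ, (∀ i ∈ u, i < D.rank) → builtB D RJ u = true → LInc D (u ++ v) := by
  intro u
  induction u with
  | nil => intro _ _; exact hv
  | cons a u ih =>
    intro hu hb
    have hb' : (goodStep D RJ u a && builtB D RJ u) = true := hb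
    rw [Bool.and_eq_true] at hb'
    have ha := hu a List.mem_cons_self
    have hu' : ∀ i ∈ u, i < D.rank := fun i hi => hu i (List.mem_cons_of_mem _ hi)
    have hg := hb'.1
    unfold goodStep at hg
    simp only [Bool.and_eq_true, Nat.ble_eq, Bool.not_eq_true', ← Bool.not_eq_true,
      List.contains_iff_mem, fsimple_eq] at hg
    have hlt : wApply D u.reverse (D.simple a) < D.nroots :=
      wApply_lt hn u.reverse (fun i hi => hu' i (List.mem_reverse.mp hi))
        (simple_lt hfd hn ha).1
    have h3 := stab_word hn hJ hs v.reverse (fun i hi => hvJ i (List.mem_reverse.mp hi))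
      _ hg.1 hlt hg.2
    refine LInc.cons a (u ++ v) (ih hu' hb'.2) ha ?_
    rw [List.reverse_append, wApply_append]
    exact h3.1

theorem words_linc {D : ChevalleyDatum} (hfd : fdOK D = true) (hn : nOK D = true) :
    ∀ (lvs : List Lev) (K : List ℕ), (∀ k ∈ K, k < D.rank) → levsOK D K lvs = true →
      ∀ w ∈ words lvs, LInc D w := by
  intro lvs
  induction lvs with
  | nil =>
    intro K _ _ w hw
    have : w = [] := by simpa [words] using hw
    rw [this]
    exact LInc.nil
  | cons lv rest ih =>
    intro K hK h w hw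
    obtain ⟨P, hrest⟩ := levsOK_cons h
    obtain ⟨u, hu, v, hv, rfl⟩ := mem_words_cons.mp hw
    have hJ : ∀ j ∈ lv.J, j < D.rank := fun j hj => hK j (P.jk j hj)
    exact linc_append hfd hn hJ P.stab (ih lv.J hJ hrest v hv)
      (words_letters rest lv.J hrest v hv) u (fun i hi => hK i (P.tk u hu i hi)) (P.built u hu)

theorem fix_word {D : ChevalleyDatum} {J : List ℕ} {x0 : ℕ} (hfix : ∀ j ∈ J, fw D j x0 = x0) :
    ∀ (x : List ℕ), (∀ i ∈ x, i ∈ J) → wApply D x x0 = x0 := by
  intro x
  induction x with
  | nil => intro _; rfl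
  | cons j x ih =>
    intro hx
    rw [wApply_cons, ih (fun i hi => hx i (List.mem_cons_of_mem _ hi)),
      hfix j (hx j List.mem_cons_self)]

theorem words_head {D : ChevalleyDatum} {K : List ℕ} {lv : Lev} {rest : List Lev}
    (P : LevP D K lv) (hrest : levsOK D lv.J rest = true) {u u' v v' : List ℕ}
    (hu : u ∈ lv.T) (hu' : u' ∈ lv.T) (hv : v ∈ words rest) (hv' : v' ∈ words rest)
    (e : wApply D (u ++ v) lv.x0 = wApply D (u' ++ v') lv.x0) : u = u' := by
  rw [wApply_append, wApply_append,
    fix_word P.fix v (words_letters rest lv.J hrest v hv),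
    fix_word P.fix v' (words_letters rest lv.J hrest v' hv')] at e
  exact List.inj_on_of_nodup_map P.nodup hu hu' e

theorem words_inj {D : ChevalleyDatum} (hn : nOK D = true) :
    ∀ (lvs : List Lev) (K : List ℕ), (∀ k ∈ K, k < D.rank) → levsOK D K lvs = true →
      ∀ w ∈ words lvs, ∀ w' ∈ words lvs,
        (∀ r < D.nroots, wApply D w r = wApply D w' r) → w = w' := by
  intro lvs
  induction lvs with
  | nil =>
    intro K _ _ w hw w' hw' _
    have e1 : w = [] := by simpa [words] using hw
    have e2 : w' = [] := by simpa [words] using hw'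
    rw [e1, e2]
  | cons lv rest ih =>
    intro K hK h w hw w' hw' hact
    obtain ⟨P, hrest⟩ := levsOK_cons h
    obtain ⟨u, hu, v, hv, rfl⟩ := mem_words_cons.mp hw
    obtain ⟨u', hu', v', hv', rfl⟩ := mem_words_cons.mp hw'
    have hJ : ∀ j ∈ lv.J, j < D.rank := fun j hj => hK j (P.jk j hj)
    have huu : u = u' := words_head P hrest hu hu' hv hv' (hact lv.x0 P.x0lt)
    subst huu
    have hult : ∀ i ∈ u, i < D.rank := fun i hi => hK i (P.tk u hu i hi)
    have hvlt : ∀ i ∈ v, i < D.rank := fun i hi => hJ i (words_letters rest lv.J hrest v hv i hi)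
    have hv'lt : ∀ i ∈ v', i < D.rank :=
      fun i hi => hJ i (words_letters rest lv.J hrest v' hv' i hi)
    have hvv : v = v' := by
      apply ih lv.J hJ hrest v hv v' hv'
      intro r hr
      have h1 := hact r hr
      rw [wApply_append, wApply_append] at h1
      have h2 := congrArg (wApply D u.reverse) h1
      rw [wApply_reverse_cancel' hn u hult (wApply_lt hn v hvlt hr),
        wApply_reverse_cancel' hn u hult (wApply_lt hn v' hv'lt hr)] at h2
      exact h2
    rw [hvv]

theorem words_nodup {D : ChevalleyDatum} :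
    ∀ (lvs : List Lev) (K : List ℕ), levsOK D K lvs = true → (words lvs).Nodup := by
  intro lvs
  induction lvs with
  | nil => intro K _; simp [words]
  | cons lv rest ih =>
    intro K h
    obtain ⟨P, hrest⟩ := levsOK_cons h
    show (lv.T.flatMap fun u => (words rest).map fun v => u ++ v).Nodup
    rw [List.nodup_flatMap]
    refine ⟨fun u _ => (ih lv.J hrest).map (List.append_right_injective u), ?_⟩
    have hT : lv.T.Nodup := List.Nodup.of_map _ P.nodup
    refine List.Pairwise.imp_of_mem ?_ hT
    intro u u' hu hu' hne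
    show List.Disjoint ((words rest).map fun v => u ++ v) ((words rest).map fun v => u' ++ v)
    intro x hx hx'
    rw [List.mem_map] at hx hx'
    obtain ⟨v, hv, rfl⟩ := hx
    obtain ⟨v', hv', e⟩ := hx'
    exact hne (words_head P hrest hu hu' hv hv' (by rw [e]))

theorem words_closed {D : ChevalleyDatum} {adj : List (List ℤ)} {L det : ℤ}
    (Lk : LinOK D adj L det) :
    ∀ (lvs : List Lev) (K : List ℕ), (∀ k ∈ K, k < D.rank) → levsOK D K lvs = true →
      ∀ w ∈ words lvs, ∀ a ∈ K, ∃ w' ∈ words lvs,
        ∀ r < D.nroots, wApply D (a :: w) r = wApply D w' r := by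
  have hn := Lk.w.n
  have hfd := Lk.w.fd
  intro lvs
  induction lvs with
  | nil =>
    intro K _ h w _ a ha
    have hK : K.isEmpty = true := h
    rw [List.isEmpty_iff] at hK
    rw [hK] at ha
    exact absurd ha List.not_mem_nil
  | cons lv rest ih =>
    intro K hK h w hw a ha
    obtain ⟨P, hrest⟩ := levsOK_cons h
    obtain ⟨u, hu, v, hv, rfl⟩ := mem_words_cons.mp hw
    have hJ : ∀ j ∈ lv.J, j < D.rank := fun j hj => hK j (P.jk j hj)
    have hult : ∀ i ∈ u, i < D.rank := fun i hi => hK i (P.tk u hu i hi)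
    have hvlt : ∀ i ∈ v, i < D.rank := fun i hi => hJ i (words_letters rest lv.J hrest v hv i hi)
    have halt := hK a ha
    have haul : ∀ i ∈ a :: u, i < D.rank := by
      intro i hi
      rcases List.mem_cons.mp hi with rfl | hi
      · exact halt
      · exact hult i hi
    have huT : u ∈ lv.TW.map Prod.fst := hu
    rw [List.mem_map] at huT
    obtain ⟨p, hp, rfl⟩ := huT
    have hc := P.wit p hp a ha
    unfold chk at hc
    split_ifs at hc with hlt
    · rw [List.all_eq_true] at hc
      have hu'T : lv.T.getD (p.2.getD a 0) [] ∈ lv.T := by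
        rw [List.getD_eq_getElem _ _ hlt]
        exact List.getElem_mem hlt
      have hu'lt : ∀ i ∈ lv.T.getD (p.2.getD a 0) [], i < D.rank :=
        fun i hi => hK i (P.tk _ hu'T i hi)
      have hext := act_ext Lk (a :: p.1) (lv.T.getD (p.2.getD a 0) []) haul hu'lt (by
        intro k hk
        have h1 := hc k (List.mem_range.mpr hk)
        rw [Nat.beq_eq, fsimple_eq] at h1
        exact h1)
      refine ⟨lv.T.getD (p.2.getD a 0) [] ++ v, mem_words_cons.mpr ⟨_, hu'T, v, hv, rfl⟩, ?_⟩
      intro r hr
      have e1 : wApply D (a :: (p.1 ++ v)) r = wApply D (a :: p.1) (wApply D v r) := by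
        rw [← List.cons_append, wApply_append]
      rw [e1, hext _ (wApply_lt hn v hvlt hr), wApply_append]
    · rw [Bool.and_eq_true, List.contains_iff_mem, List.all_eq_true] at hc
      obtain ⟨hjJ, hc⟩ := hc
      have hjlt := hJ _ hjJ
      have hext := act_ext Lk (a :: p.1) (p.1 ++ [p.2.getD a 0 - lv.T.length]) haul (by
        intro i hi
        rcases List.mem_append.mp hi with hi | hi
        · exact hult i hi
        · rw [List.mem_singleton] at hi
          rw [hi]
          exact hjlt) (by
        intro k hk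
        have h1 := hc k (List.mem_range.mpr hk)
        rw [Nat.beq_eq, fsimple_eq] at h1
        rw [wApply_append]
        exact h1)
      obtain ⟨v', hv', hv'act⟩ := ih lv.J hJ hrest v hv _ hjJ
      refine ⟨p.1 ++ v', mem_words_cons.mpr ⟨p.1, hu, v', hv', rfl⟩, ?_⟩
      intro r hr
      have e1 : wApply D (a :: (p.1 ++ v)) r = wApply D (a :: p.1) (wApply D v r) := by
        rw [← List.cons_append, wApply_append]
      rw [e1, hext _ (wApply_lt hn v hvlt hr), wApply_append, wApply_append, ← hv'act r hr]
      rfl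

def lvSum (q : ℕ) (lvs : List Lev) : ℕ :=
  (lvs.map fun lv => (lv.T.map fun u => q ^ u.length).sum).prod

theorem words_sum (q : ℕ) : ∀ lvs : List Lev,
    ((words lvs).map fun w => q ^ w.length).sum = lvSum q lvs := by
  intro lvs
  induction lvs with
  | nil => simp [words, lvSum]
  | cons lv rest ih =>
    have key : ∀ T : List (List ℕ),
        ((T.flatMap fun u => (words rest).map fun v => u ++ v).map fun w => q ^ w.length).sum =
          (T.map fun u => q ^ u.length).sum * ((words rest).map fun w => q ^ w.length).sum := by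
      intro T
      induction T with
      | nil => simp
      | cons u T ihT =>
        rw [List.flatMap_cons, List.map_append, List.sum_append, ihT, List.map_cons,
          List.sum_cons, add_mul, List.map_map]
        congr 1
        rw [← List.sum_map_mul_left]
        congr 1
        apply List.map_congr_left
        intro v _
        show q ^ (u ++ v).length = q ^ u.length * q ^ v.length
        rw [List.length_append, pow_add]
    show ((lv.T.flatMap fun u => (words rest).map fun v => u ++ v).map
      fun w => q ^ w.length).sum = _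
    rw [key, ih]
    simp [lvSum]

section sem

variable {F : Type*} [Field F]

theorem card_group_levels [Fintype F] {D : ChevalleyDatum} {adj : List (List ℤ)} {L det : ℤ}
    (U : UOK D) (hcf : CF D F) (hu : unitAllOK D = true) (Lk : LinOK D adj L det)
    (lvs : List Lev) (h : levsOK D (List.range D.rank) lvs = true) :
    Nat.card (D.group F) = Nat.card (D.borelSubgroup F) * lvSum (Fintype.card F) lvs := by
  have hK : ∀ k ∈ List.range D.rank, k < D.rank := fun k hk => List.mem_range.mp hk
  rw [card_group_words U hcf hu (words lvs) (words_nodup lvs _ h)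
    (words_linc U.m.w.fd U.m.w.n lvs _ hK h)
    (fun w hw a ha => words_closed Lk lvs _ hK h w hw a (List.mem_range.mpr ha))
    (words_inj U.m.w.n lvs _ hK h) (nil_mem_words lvs _ h), words_sum]

end sem

end Cfsg.Agent.Helper7
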