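import Cfsg.Agent.Helper7.ChevPar

set_option autoImplicit false
set_option linter.unusedSectionVars false
set_option linter.unusedVariables false
open Cfsg

namespace Cfsg.Agent.Helper7

open Cfsg.Lie

theorem chainRoot_mem (D : ChevalleyDatum) {a b i k : ℕ} (h : D.chainRoot a b i = some k) :
    ∃ q ∈ D.chainEntry a b, q.1 = k := by
  unfold ChevalleyDatum.chainRoot at h
  rw [Option.map_eq_some_iff] at h
  obtain ⟨q, hq, hk⟩ := h
  exact ⟨q, List.mem_of_getElem? hq, hk⟩

theorem commTerms_fst (D : ChevalleyDatum) (r s : ℕ) {c : ℕ × ℤ × ℕ × ℕ}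
    (hc : c ∈ D.commTerms r s) :
    (∃ q ∈ D.chainEntry r s, q.1 = c.1) ∨ (∃ q ∈ D.chainEntry s r, q.1 = c.1) ∨
    (∃ q ∈ D.chainEntry r s, ∃ q' ∈ D.chainEntry q.1 s, q'.1 = c.1) ∨
    (∃ q ∈ D.chainEntry s r, ∃ q' ∈ D.chainEntry q.1 r, q'.1 = c.1) := by
  unfold ChevalleyDatum.commTerms at hc
  simp only [List.mem_filterMap, List.mem_cons, List.not_mem_nil, or_false] at hc
  obtain ⟨cand, hcand, hmap⟩ := hc
  rw [Option.map_eq_some_iff] at hmap
  obtain ⟨k, hk, rfl⟩ := hmap
  rcases hcand with rfl | rfl | rfl | rfl | rfl | rfl | rfl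
  · exact Or.inl (chainRoot_mem D hk)
  · exact Or.inl (chainRoot_mem D hk)
  · exact Or.inr (Or.inl (chainRoot_mem D hk))
  · exact Or.inl (chainRoot_mem D hk)
  · exact Or.inr (Or.inl (chainRoot_mem D hk))
  · simp only [Option.bind_eq_some_iff] at hk
    obtain ⟨k', hk', hk2⟩ := hk
    obtain ⟨q, hq, rfl⟩ := chainRoot_mem D hk'
    exact Or.inr (Or.inr (Or.inl ⟨q, hq, chainRoot_mem D hk2⟩))
  · simp only [Option.bind_eq_some_iff] at hk
    obtain ⟨k', hk', hk2⟩ := hk
    obtain ⟨q, hq, rfl⟩ := chainRoot_mem D hk'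
    exact Or.inr (Or.inr (Or.inr ⟨q, hq, chainRoot_mem D hk2⟩))

def commRoots (D : ChevalleyDatum) (r s : ℕ) : List ℕ :=
  (fchain D r s).map Prod.fst ++ (fchain D s r).map Prod.fst ++
    ((fchain D r s).flatMap fun q => (fchain D q.1 s).map Prod.fst) ++
    ((fchain D s r).flatMap fun q => (fchain D q.1 r).map Prod.fst)

theorem commTerms_commRoots {D : ChevalleyDatum} (h : fdOK D = true) (r s : ℕ)
    {c : ℕ × ℤ × ℕ × ℕ} (hc : c ∈ D.commTerms r s) : c.1 ∈ commRoots D r s := by
  unfold commRoots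
  simp only [List.mem_append, List.mem_map, List.mem_flatMap, ← chainEntry_eq h]
  rcases commTerms_fst D r s hc with ⟨q, hq, e⟩ | ⟨q, hq, e⟩ | ⟨q, hq, q', hq', e⟩ |
    ⟨q, hq, q', hq', e⟩
  · exact Or.inl (Or.inl (Or.inl ⟨q, hq, e⟩))
  · exact Or.inl (Or.inl (Or.inr ⟨q, hq, e⟩))
  · exact Or.inl (Or.inr ⟨q, hq, q', hq', e⟩)
  · exact Or.inr ⟨q, hq, q', hq', e⟩

def leviPair (D : ChevalleyDatum) (r s : ℕ) : Bool :=
  (List.range D.rank).all fun i =>
    decide (fcor D s i = 0) || (Nat.blt r (D.nroots / 2) && !(decide (fcor D r i = 0))) ||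
      (commRoots D r s).all fun c =>
        Nat.ble (D.nroots / 2) c && Nat.blt c D.nroots && !(decide (fcor D c i = 0))

def leviRow (D : ChevalleyDatum) (r : ℕ) : Bool :=
  (List.range (D.nroots - D.nroots / 2)).all fun k =>
    Nat.beq r (D.nroots / 2 + k) || Nat.beq r (fneg D (D.nroots / 2 + k)) ||
      leviPair D r (D.nroots / 2 + k)

def leviOK (D : ChevalleyDatum) : Bool :=
  (List.range D.nroots).all fun r => leviRow D r

theorem leviOK_spec {D : ChevalleyDatum} (h : fdOK D = true) (hl : leviOK D = true) {r s i : ℕ}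
    (hr : r < D.nroots) (hs1 : D.nroots / 2 ≤ s) (hs2 : s < D.nroots) (hrs : r ≠ s)
    (hrn : r ≠ D.neg s) (hi : i < D.rank) (hsi : cor D s i ≠ 0)
    (hri : D.nroots / 2 ≤ r ∨ cor D r i = 0) :
    ∀ c ∈ D.commTerms r s, D.nroots / 2 ≤ c.1 ∧ c.1 < D.nroots ∧ cor D c.1 i ≠ 0 := by
  unfold leviOK at hl
  rw [List.all_eq_true] at hl
  have h1 := hl r (List.mem_range.mpr hr)
  unfold leviRow at h1
  rw [List.all_eq_true] at h1
  have h2 := h1 (s - D.nroots / 2) (List.mem_range.mpr (by omega))
  rw [show D.nroots / 2 + (s - D.nroots / 2) = s by omega] at h2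
  simp only [Bool.or_eq_true, Nat.beq_eq, fneg_eq h] at h2
  rcases h2 with (h2 | h2) | h2
  · exact absurd h2 hrs
  · exact absurd h2 hrn
  · unfold leviPair at h2
    rw [List.all_eq_true] at h2
    have h3 := h2 i (List.mem_range.mpr hi)
    simp only [Bool.or_eq_true, Bool.and_eq_true, decide_eq_true_eq, Nat.blt_eq,
      Bool.not_eq_true', decide_eq_false_iff_not, List.all_eq_true, Nat.ble_eq, fcor_eq h] at h3
    rcases h3 with (h3 | h3) | h3
    · exact absurd h3 hsi
    · rcases hri with hri | hri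
      · omega
      · exact absurd hri h3.2
    · intro c hc
      have := h3 c.1 (commTerms_commRoots h r s hc)
      exact ⟨this.1.1, this.1.2, this.2⟩

def gphi (D : ChevalleyDatum) (adj : List (List ℤ)) (i s : ℕ) : ℤ :=
  ((List.range D.rank).map fun k => (adj.getD i []).getD k 0 * D.cartan k s).sum

def gphiF (D : ChevalleyDatum) (adj : List (List ℤ)) (i s : ℕ) : ℤ :=
  ((List.range D.rank).map fun k => (adj.getD i []).getD k 0 * fcar D k s).sum

theorem gphiF_eq {D : ChevalleyDatum} (h : fdOK D = true) (adj : List (List ℤ)) (i s : ℕ) :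
    gphiF D adj i s = gphi D adj i s := by
  unfold gphiF gphi
  simp only [fcar_eq h]

def gradeOK (D : ChevalleyDatum) (adj : List (List ℤ)) : Bool :=
  (List.range D.nroots).all fun s => (List.range D.rank).all fun i =>
    (decide (fcor D s i = 0) == decide (gphiF D adj i s = 0)) &&
      (Nat.blt s (D.nroots / 2) || decide (0 ≤ gphiF D adj i s))

theorem gradeOK_spec {D : ChevalleyDatum} (h : fdOK D = true) {adj : List (List ℤ)}
    (hg : gradeOK D adj = true) {s i : ℕ} (hs : s < D.nroots) (hi : i < D.rank) :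
    (cor D s i = 0 ↔ gphi D adj i s = 0) ∧ (D.nroots / 2 ≤ s → 0 ≤ gphi D adj i s) := by
  unfold gradeOK at hg
  rw [List.all_eq_true] at hg
  have h1 := hg s (List.mem_range.mpr hs)
  rw [List.all_eq_true] at h1
  have h2 := h1 i (List.mem_range.mpr hi)
  simp only [Bool.and_eq_true, beq_iff_eq, Bool.or_eq_true, Nat.blt_eq, decide_eq_true_eq,
    decide_eq_decide, fcor_eq h, gphiF_eq h] at h2
  refine ⟨h2.1, fun hs1 => ?_⟩
  rcases h2.2 with h3 | h3
  · omega
  · exact h3

theorem sum_lin (l : List ℕ) (f g h : ℕ → ℤ) (m : ℤ) (H : ∀ i ∈ l, f i = m * g i + h i) :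
    (l.map f).sum = m * (l.map g).sum + (l.map h).sum := by
  induction l with
  | nil => simp
  | cons a l ih =>
    simp only [List.map_cons, List.sum_cons]
    rw [H a List.mem_cons_self, ih (fun i hi => H i (List.mem_cons_of_mem _ hi))]
    ring

theorem sum_scale (l : List ℕ) (f g : ℕ → ℤ) (m : ℤ) (H : ∀ i ∈ l, f i = m * g i) :
    (l.map f).sum = m * (l.map g).sum := by
  induction l with
  | nil => simp
  | cons a l ih =>
    simp only [List.map_cons, List.sum_cons]
    rw [H a List.mem_cons_self, ih (fun i hi => H i (List.mem_cons_of_mem _ hi))]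
    ring

theorem sum_nonneg_of (l : List ℕ) (f : ℕ → ℤ) (H : ∀ i ∈ l, 0 ≤ f i) : 0 ≤ (l.map f).sum := by
  induction l with
  | nil => simp
  | cons a l ih =>
    simp only [List.map_cons, List.sum_cons]
    have := H a List.mem_cons_self
    have := ih (fun i hi => H i (List.mem_cons_of_mem _ hi))
    omega

theorem sum_pos_of (l : List ℕ) (f : ℕ → ℤ) (H : ∀ i ∈ l, 0 ≤ f i) {i₀ : ℕ} (hi₀ : i₀ ∈ l)
    (h1 : 1 ≤ f i₀) : 1 ≤ (l.map f).sum := by
  induction l with
  | nil => exact absurd hi₀ List.not_mem_nil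
  | cons a l ih =>
    simp only [List.map_cons, List.sum_cons]
    have ha := H a List.mem_cons_self
    have hl := sum_nonneg_of l f (fun i hi => H i (List.mem_cons_of_mem _ hi))
    rcases List.mem_cons.mp hi₀ with e | e
    · rw [e] at h1
      omega
    · have := ih (fun i hi => H i (List.mem_cons_of_mem _ hi)) e
      omega

theorem sum_zero_of (l : List ℕ) (f : ℕ → ℤ) (H : ∀ i ∈ l, f i = 0) : (l.map f).sum = 0 := by
  induction l with
  | nil => simp
  | cons a l ih =>
    simp only [List.map_cons, List.sum_cons]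
    rw [H a List.mem_cons_self, ih (fun i hi => H i (List.mem_cons_of_mem _ hi))]
    rfl

open Classical in
noncomputable def fJ (D : ChevalleyDatum) (adj : List (List ℤ)) (J : Set ℕ) (s : ℕ) : ℤ :=
  ((List.range D.rank).map fun i => if i ∈ J then 0 else gphi D adj i s).sum

theorem fJ_lin {D : ChevalleyDatum} (W : WOK D) (adj : List (List ℤ)) (J : Set ℕ) {r : ℕ}
    (hr : r < D.nroots) (s u : ℕ) {km : ℕ × ℤ} (hkm : km ∈ D.chainCoeff r s u) :
    fJ D adj J u = km.1 * fJ D adj J r + fJ D adj J s := by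
  unfold fJ
  apply sum_lin
  intro i _
  split_ifs
  · ring
  · unfold gphi
    apply sum_lin
    intro k hk
    rw [cartan_chain W.fd W.ta (List.mem_range.mp hk) hr hkm]
    ring

theorem fJ_neg {D : ChevalleyDatum} (W : WOK D) (adj : List (List ℤ)) (J : Set ℕ) {r : ℕ}
    (hr : r < D.nroots) : fJ D adj J (D.neg r) = - fJ D adj J r := by
  rw [neg_eq_neg_one_mul]
  unfold fJ
  apply sum_scale
  intro i _
  split_ifs
  · ring
  · unfold gphi
    apply sum_scale
    intro k hk
    rw [cartan_neg W.fd W.ta (List.mem_range.mp hk) hr]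
    ring

theorem fJ_zero {D : ChevalleyDatum} (h : fdOK D = true) {adj : List (List ℤ)}
    (hg : gradeOK D adj = true) (J : Set ℕ) {r : ℕ} (hr : D.InRootSub J r) :
    fJ D adj J r = 0 := by
  unfold fJ
  apply sum_zero_of
  intro i hi
  split_ifs with hiJ
  · rfl
  · exact (gradeOK_spec h hg hr.1 (List.mem_range.mp hi)).1.mp (hr.2 i (List.mem_range.mp hi) hiJ)

theorem fJ_pos {D : ChevalleyDatum} (M : MOK D) {adj : List (List ℤ)}
    (hg : gradeOK D adj = true) (J : Set ℕ) {r : ℕ} (hr : D.IsPosRoot r)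
    (hrJ : ¬ D.InRootSub J r) : 1 ≤ fJ D adj J r := by
  have hge : D.nroots / 2 ≤ r := (isPos_iff M hr.1).mp hr
  have hex : ∃ i₀, i₀ < D.rank ∧ i₀ ∉ J ∧ cor D r i₀ ≠ 0 := by
    by_contra hcon
    apply hrJ
    refine ⟨hr.1, fun i hi hiJ => ?_⟩
    by_contra hne
    exact hcon ⟨i, hi, hiJ, hne⟩
  obtain ⟨i₀, hi₀, hi₀J, hc⟩ := hex
  unfold fJ
  apply sum_pos_of _ _ _ (List.mem_range.mpr hi₀)
  · rw [if_neg hi₀J]
    have h1 := gradeOK_spec M.w.fd hg hr.1 hi₀
    have h2 := h1.2 hge
    have h3 : gphi D adj i₀ r ≠ 0 := fun e => hc (h1.1.mpr e)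
    omega
  · intro i hi
    split_ifs
    · exact le_refl 0
    · exact (gradeOK_spec M.w.fd hg hr.1 (List.mem_range.mp hi)).2 hge

theorem exists_nat_key {n : Type*} [Fintype n] [DecidableEq n] (kz : n → ℤ) :
    ∃ key : n → ℕ, ∀ a b, (kz b + 1 ≤ kz a → key b + 1 ≤ key a) ∧
      (kz a = kz b → key a = key b) := by
  obtain ⟨m, hm⟩ := Finset.exists_le (Finset.univ.image fun a => - kz a)
  refine ⟨fun a => (kz a + m).toNat, fun a b => ⟨fun h => ?_, fun h => ?_⟩⟩
  · have ha := hm (- kz a) (Finset.mem_image_of_mem _ (Finset.mem_univ a))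
    have hb := hm (- kz b) (Finset.mem_image_of_mem _ (Finset.mem_univ b))
    show (kz b + m).toNat + 1 ≤ (kz a + m).toNat
    omega
  · show (kz a + m).toNat = (kz b + m).toNat
    rw [h]

def kzOf (D : ChevalleyDatum) (f : ℕ → ℤ) : D.Idx → ℤ :=
  Sum.elim (fun _ => 0) (fun s => f s.val)

theorem xMat_entry_grade (D : ChevalleyDatum) (F : Type*) [Field F] (f : ℕ → ℤ)
    (hlin : ∀ r < D.nroots, ∀ s u : ℕ, ∀ km ∈ D.chainCoeff r s u, f u = km.1 * f r + f s)
    (hfneg : ∀ r < D.nroots, f (D.neg r) = - f r)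
    (r : Fin D.nroots) (t : F) (a b : D.Idx) (hab : a ≠ b) (hne : D.xMat F r t a b ≠ 0) :
    ∃ k : ℕ, 1 ≤ k ∧ kzOf D f a = kzOf D f b + k * f r.val := by
  rcases b with i0 | s
  · rcases a with i' | u
    · exfalso
      apply hne
      have : i' ≠ i0 := fun e => hab (by rw [e])
      simp [ChevalleyDatum.xMat, this]
    · by_cases hu : u = r
      · subst hu
        exact ⟨1, le_refl 1, by simp [kzOf]⟩
      · exfalso
        apply hne
        simp [ChevalleyDatum.xMat, hu]
  · by_cases hs : s = r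
    · exfalso
      apply hne
      subst hs
      rcases a with i' | u
      · simp [ChevalleyDatum.xMat]
      · have : u ≠ s := fun e => hab (by rw [e])
        simp [ChevalleyDatum.xMat, this]
    · by_cases hs2 : s.val = D.negIdx.getD r.val 0
      · have hfs : f s.val = - f r.val := by
          rw [hs2]
          exact hfneg r.val r.isLt
        rcases a with i' | u
        · refine ⟨1, le_refl 1, ?_⟩
          simp only [kzOf, Sum.elim_inl, Sum.elim_inr]
          rw [hfs]
          push_cast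
          ring
        · by_cases hu : u = s
          · exact absurd (by rw [hu]) hab
          · by_cases hur : u = r
            · subst hur
              refine ⟨2, by norm_num, ?_⟩
              simp only [kzOf, Sum.elim_inr]
              rw [hfs]
              push_cast
              ring
            · exfalso
              apply hne
              simp only [ChevalleyDatum.xMat, Matrix.of_apply]
              rw [if_neg hs, if_pos hs2]
              simp [hu, hur]
      · rcases a with i' | u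
        · exfalso
          apply hne
          simp only [ChevalleyDatum.xMat, Matrix.of_apply]
          rw [if_neg hs, if_neg hs2]
        · have hus : u ≠ s := fun e => hab (by rw [e])
          have hne' : D.chainCoeff r.val s.val u.val ≠ [] := by
            intro hnil
            apply hne
            simp only [ChevalleyDatum.xMat, Matrix.of_apply]
            rw [if_neg hs, if_neg hs2, hnil]
            simp [hus]
          obtain ⟨km, hkm⟩ := List.exists_mem_of_ne_nil _ hne'
          have h1 := hlin r.val r.isLt s.val u.val km hkm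
          obtain ⟨_, _, _, j, _, hk⟩ := mem_chainCoeff D hkm
          refine ⟨km.1, by omega, ?_⟩
          simp only [kzOf, Sum.elim_inr]
          rw [h1]
          ring

structure LOK (D : ChevalleyDatum) (adj : List (List ℤ)) : Prop where
  u : UOK D
  par : parOK D = true
  levi : leviOK D = true
  grade : gradeOK D adj = true

section sem

variable {F : Type*} [Field F]

def UJSet (D : ChevalleyDatum) (F : Type*) [Field F] (J : Set ℕ) : Set (GL D.Idx F) :=
  {g : GL D.Idx F | ∃ (r : ℕ) (t : F), D.IsPosRoot r ∧ ¬ D.InRootSub J r ∧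
    (g : Matrix D.Idx D.Idx F) = D.x F r t}

theorem xV_mem_UJ {D : ChevalleyDatum} (ha : addCheck2 D = true) {J : Set ℕ} {r : ℕ}
    (hr : D.IsPosRoot r) (hrJ : ¬ D.InRootSub J r) (t : F) :
    xV D ha r t ∈ D.unipotentRadical F J :=
  Subgroup.subset_closure ⟨r, t, hr, hrJ, xV_val D ha r t⟩

theorem inRootSub_neg {D : ChevalleyDatum} (h : fdOK D = true) (hp : parOK D = true)
    {J : Set ℕ} {r : ℕ} (hr : D.InRootSub J r) (hnr : D.neg r < D.nroots) :
    D.InRootSub J (D.neg r) := by
  obtain ⟨_, s2, _⟩ := parOK_spec h hp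
  refine ⟨hnr, fun i hi hiJ => ?_⟩
  have h5 := s2 r hr.1 i hi
  have h6 : cor D r i = 0 := hr.2 i hi hiJ
  rw [h6, neg_zero] at h5
  exact h5

theorem conj_UJ_gen {D : ChevalleyDatum} {adj : List (List ℤ)} (L : LOK D adj) (hcf : CF D F)
    (J : Set ℕ) {r : ℕ} (hr : D.IsPosRoot r ∨ D.InRootSub J r) (t : F) :
    ∀ x ∈ UJSet D F J, xV D L.u.m.w.add r t * x * (xV D L.u.m.w.add r t)⁻¹ ∈
      D.unipotentRadical F J := by
  have U := L.u
  have M := U.m
  rintro x ⟨s, u, hs, hsJ, hx⟩
  have ex : x = xV D M.w.add s u := Units.ext (by rw [hx, xV_val])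
  have hrlt : r < D.nroots := hr.elim (fun h => h.1) (fun h => h.1)
  have hs1 : D.nroots / 2 ≤ s := (isPos_iff M hs.1).mp hs
  rw [ex]
  by_cases hrs : r = s
  · subst hrs
    have e2 : xV D M.w.add r t * xV D M.w.add r u * (xV D M.w.add r t)⁻¹ =
        xV D M.w.add r u := by
      rw [xV_inv D M.w.add hrlt, xV_add D M.w.add hrlt, xV_add D M.w.add hrlt]
      congr 1
      ring
    rw [e2]
    exact xV_mem_UJ M.w.add hs hsJ u
  · by_cases hrn : r = D.neg s
    · exfalso
      have hnegs : D.neg s < D.nroots / 2 := (posTriOK_spec M.ptri hs).2.1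
      rcases hr with hr | hr
      · have := (isPos_iff M hrlt).mp hr
        omega
      · apply hsJ
        have h1 := inRootSub_neg M.w.fd L.par hr (neg_lt M.neg hrlt)
        rw [hrn, neg_neg_root M.w.fd U.ninv hs.1] at h1
        exact h1
    · have hex : ∃ i, i < D.rank ∧ i ∉ J ∧ cor D s i ≠ 0 := by
        by_contra hcon
        apply hsJ
        refine ⟨hs.1, fun i hi hiJ => ?_⟩
        by_contra hne
        exact hcon ⟨i, hi, hiJ, hne⟩
      obtain ⟨i, hi, hiJ, hci⟩ := hex
      have hri : D.nroots / 2 ≤ r ∨ cor D r i = 0 := by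
        rcases hr with hr | hr
        · exact Or.inl ((isPos_iff M hrlt).mp hr)
        · exact Or.inr (hr.2 i hi hiJ)
      have hterms := leviOK_spec M.w.fd L.levi hrlt hs1 hs.1 hrs hrn hi hci hri
      have hsr : s ≠ r := fun e => hrs e.symm
      have hsnr : s ≠ D.neg r := by
        intro e
        apply hrn
        rw [e, neg_neg_root M.w.fd U.ninv hrlt]
      have e := comm_xV M.w.add hcf hrlt hs.1 hsr hsnr (-t) u
      have e2 : xV D M.w.add r t * xV D M.w.add s u * (xV D M.w.add r t)⁻¹ =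
          xV D M.w.add s u * wordU D M.w.add (D.commWord F r s (-t) u) := by
        rw [xV_inv D M.w.add hrlt, mul_assoc, e, ← mul_assoc, ← mul_assoc,
          xV_add D M.w.add hrlt, add_neg_cancel, xV_zero, one_mul]
      rw [e2]
      apply mul_mem (xV_mem_UJ M.w.add hs hsJ u)
      apply wordU_mem
      intro p hp
      unfold ChevalleyDatum.commWord at hp
      rw [List.mem_map] at hp
      obtain ⟨c, hc, rfl⟩ := hp
      obtain ⟨h1, h2, h3⟩ := hterms c hc
      exact xV_mem_UJ M.w.add ((isPos_iff M h2).mpr h1) (fun hin => h3 (hin.2 i hi hiJ)) _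

theorem xV_mem_normalizer_UJ {D : ChevalleyDatum} {adj : List (List ℤ)} (L : LOK D adj)
    (hcf : CF D F) (J : Set ℕ) {r : ℕ} (hr : D.IsPosRoot r ∨ D.InRootSub J r) (t : F) :
    xV D L.u.m.w.add r t ∈
      Subgroup.normalizer (D.unipotentRadical F J : Set (GL D.Idx F)) := by
  have hrlt : r < D.nroots := hr.elim (fun h => h.1) (fun h => h.1)
  rw [Subgroup.mem_normalizer_iff]
  intro h
  constructor
  · intro hh
    exact conj_closure _ _ _ (conj_UJ_gen L hcf J hr t) h hh
  · intro hh
    have h1 := conj_closure _ _ _ (conj_UJ_gen L hcf J hr (-t)) _ hh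
    rw [← xV_inv D L.u.m.w.add hrlt] at h1
    have h2 : (xV D L.u.m.w.add r t)⁻¹ *
        (xV D L.u.m.w.add r t * h * (xV D L.u.m.w.add r t)⁻¹) *
        (xV D L.u.m.w.add r t)⁻¹⁻¹ = h := by
      group
    rw [h2] at h1
    exact h1

theorem parabolic_le_normalizer {D : ChevalleyDatum} {adj : List (List ℤ)} (L : LOK D adj)
    (hcf : CF D F) (J : Set ℕ) :
    D.parabolicSubgroup F J ≤
      Subgroup.normalizer (D.unipotentRadical F J : Set (GL D.Idx F)) := by
  have M := L.u.m
  rw [parabolic_eq L.u L.par J]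
  apply sup_le
  · rw [diag_eq_torus M.w]
    have e : D.unipotentRadical F J =
        rootGen D F (fun r => D.IsPosRoot r ∧ ¬ D.InRootSub J r) := by
      unfold ChevalleyDatum.unipotentRadical rootGen
      congr 1
      ext g
      simp only [Set.mem_ofPred_eq, and_assoc]
    rw [e]
    exact torus_le_normalizer_gen M.w _ (fun r hr => hr.1.1)
  · rw [Subgroup.closure_le]
    rintro g ⟨r, t, hr, hg⟩
    have e : g = xV D M.w.add r t := Units.ext (by rw [hg, xV_val])
    rw [e]
    exact xV_mem_normalizer_UJ L hcf J hr t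

theorem levi_sup {D : ChevalleyDatum} {adj : List (List ℤ)} (L : LOK D adj) (J : Set ℕ) :
    D.unipotentRadical F J ⊔ D.leviSubgroup F J = D.parabolicSubgroup F J := by
  rw [parabolic_eq L.u L.par J]
  apply le_antisymm
  · apply sup_le
    · unfold ChevalleyDatum.unipotentRadical
      rw [Subgroup.closure_le]
      rintro g ⟨r, t, hr, _, hg⟩
      apply (le_sup_right : _ ≤ D.diagonalSubgroup F ⊔ _)
      exact Subgroup.subset_closure ⟨r, t, Or.inl hr, hg⟩
    · unfold ChevalleyDatum.leviSubgroup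
      apply sup_le_sup_left
      apply Subgroup.closure_mono
      rintro g ⟨r, t, hr, hg⟩
      exact ⟨r, t, Or.inr hr, hg⟩
  · apply sup_le
    · exact le_trans (le_sup_left : D.diagonalSubgroup F ≤ D.leviSubgroup F J) le_sup_right
    · rw [Subgroup.closure_le]
      rintro g ⟨r, t, hr, hg⟩
      by_cases hin : D.InRootSub J r
      · apply (le_sup_right : D.leviSubgroup F J ≤ _)
        apply (le_sup_right : _ ≤ D.leviSubgroup F J)
        exact Subgroup.subset_closure ⟨r, t, hin, hg⟩
      · apply (le_sup_left : D.unipotentRadical F J ≤ _)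
        rcases hr with hr | hr
        · exact Subgroup.subset_closure ⟨r, t, hr, hin, hg⟩
        · exact absurd hr hin

def PresSub (D : ChevalleyDatum) (F : Type*) [Field F] (key : D.Idx → ℕ) :
    Subgroup (GL D.Idx F) where
  carrier := {g | (∀ a b, (g : Matrix D.Idx D.Idx F) a b ≠ 0 → key a = key b) ∧
    (∀ a b, ((g⁻¹ : GL D.Idx F) : Matrix D.Idx D.Idx F) a b ≠ 0 → key a = key b)}
  mul_mem' := by
    rintro g h ⟨h1, h2⟩ ⟨h3, h4⟩
    refine ⟨?_, ?_⟩
    · intro a b hab
      rw [Units.val_mul, Matrix.mul_apply] at hab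
      obtain ⟨c, _, hc⟩ := Finset.exists_ne_zero_of_sum_ne_zero hab
      exact (h1 a c (left_ne_zero_of_mul hc)).trans (h3 c b (right_ne_zero_of_mul hc))
    · intro a b hab
      rw [mul_inv_rev, Units.val_mul, Matrix.mul_apply] at hab
      obtain ⟨c, _, hc⟩ := Finset.exists_ne_zero_of_sum_ne_zero hab
      exact (h4 a c (left_ne_zero_of_mul hc)).trans (h2 c b (right_ne_zero_of_mul hc))
  one_mem' := by
    refine ⟨?_, ?_⟩
    · intro a b hab
      by_contra hne
      apply hab
      rw [Units.val_one, Matrix.one_apply_ne (fun e => hne (by rw [e]))]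
    · intro a b hab
      by_contra hne
      apply hab
      rw [inv_one, Units.val_one, Matrix.one_apply_ne (fun e => hne (by rw [e]))]
  inv_mem' := by
    rintro g ⟨h1, h2⟩
    exact ⟨h2, by rw [inv_inv]; exact h1⟩

theorem levi_inf {D : ChevalleyDatum} {adj : List (List ℤ)} (L : LOK D adj) (J : Set ℕ) :
    D.unipotentRadical F J ⊓ D.leviSubgroup F J = ⊥ := by
  have M := L.u.m
  obtain ⟨key, hkey⟩ := exists_nat_key (kzOf D (fJ D adj J))
  have hent : ∀ (r : Fin D.nroots) (t : F) (a b : D.Idx), a ≠ b → D.xMat F r t a b ≠ 0 →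
      ∃ k : ℕ, 1 ≤ k ∧ kzOf D (fJ D adj J) a = kzOf D (fJ D adj J) b + k * fJ D adj J r.val :=
    fun r t a b hab hne => xMat_entry_grade D F (fJ D adj J)
      (fun r hr s u km hkm => fJ_lin M.w adj J hr s u hkm) (fun r hr => fJ_neg M.w adj J hr)
      r t a b hab hne
  have hU : D.unipotentRadical F J ≤ utSub key F 0 := by
    unfold ChevalleyDatum.unipotentRadical
    rw [Subgroup.closure_le]
    rintro g ⟨r, t, hr, hrJ, hg⟩
    change Lvl key (0 + 1) ((g : Matrix D.Idx D.Idx F) - 1)
    rw [hg, x_of_lt D F hr.1]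
    intro a b hab
    by_cases hab' : a = b
    · exfalso
      subst hab'
      have := xMat_sub_one_lvl D M.ptri F ⟨r, hr.1⟩ hr t a a hab
      omega
    · rw [Matrix.sub_apply, Matrix.one_apply_ne hab', sub_zero] at hab
      obtain ⟨k, hk1, hk⟩ := hent ⟨r, hr.1⟩ t a b hab' hab
      have hpos := fJ_pos M L.grade J hr hrJ
      apply (hkey a b).1
      rw [hk]
      have hk1' : (1 : ℤ) ≤ (k : ℤ) := by exact_mod_cast hk1
      have : (1 : ℤ) ≤ (k : ℤ) * fJ D adj J r := by nlinarith
      simp only at this ⊢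
      omega
  have hL : D.leviSubgroup F J ≤ PresSub D F key := by
    unfold ChevalleyDatum.leviSubgroup
    apply sup_le
    · rw [diag_eq_torus M.w]
      rintro g ⟨z, rfl⟩
      refine ⟨?_, ?_⟩
      · intro a b hab
        by_contra hne
        apply hab
        rw [DgU_val]
        exact Matrix.diagonal_apply_ne _ (fun e => hne (by rw [e]))
      · intro a b hab
        by_contra hne
        apply hab
        rw [DgU_inv, DgU_val]
        exact Matrix.diagonal_apply_ne _ (fun e => hne (by rw [e]))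
    · rw [Subgroup.closure_le]
      rintro g ⟨r, t, hr, hg⟩
      have hz := fJ_zero M.w.fd L.grade J hr
      have pres : ∀ t' : F, ∀ a b, D.xMat F ⟨r, hr.1⟩ t' a b ≠ 0 → key a = key b := by
        intro t' a b hab
        by_cases hab' : a = b
        · rw [hab']
        · obtain ⟨k, _, hk⟩ := hent ⟨r, hr.1⟩ t' a b hab' hab
          apply (hkey a b).2
          rw [hk]
          simp only
          rw [hz, mul_zero, add_zero]
      have e : g = xV D M.w.add r t := Units.ext (by rw [hg, xV_val])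
      refine ⟨?_, ?_⟩
      · intro a b hab
        rw [hg, x_of_lt D F hr.1] at hab
        exact pres t a b hab
      · intro a b hab
        rw [e, xV_inv D M.w.add hr.1, xV_val, x_of_lt D F hr.1] at hab
        exact pres (-t) a b hab
  rw [eq_bot_iff]
  rintro g ⟨hgU, hgL⟩
  rw [Subgroup.mem_bot]
  have h1 : Lvl key 1 ((g : Matrix D.Idx D.Idx F) - 1) := hU hgU
  have h2 := (hL hgL).1
  apply Units.ext
  ext a b
  rw [Units.val_one]
  by_cases hab : a = b
  · subst hab
    by_contra hne
    have h3 : ((g : Matrix D.Idx D.Idx F) - 1) a a ≠ 0 := by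
      rw [Matrix.sub_apply]
      exact sub_ne_zero.mpr hne
    have := h1 a a h3
    omega
  · rw [Matrix.one_apply_ne hab]
    by_contra hne
    have hk := h2 a b hne
    have h3 : ((g : Matrix D.Idx D.Idx F) - 1) a b ≠ 0 := by
      rw [Matrix.sub_apply, Matrix.one_apply_ne hab, sub_zero]
      exact hne
    have := h1 a b h3
    omega

end sem

end Cfsg.Agent.Helper7
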