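import Cfsg.Agent.Helper7.ChevDC

set_option autoImplicit false
set_option linter.unusedSectionVars false
set_option linter.unusedVariables false
open Cfsg

namespace Cfsg.Agent.Helper7

open Cfsg.Lie

def lexAllOK (D : ChevalleyDatum) (adj : List (List ℤ)) (L : ℤ) : Bool :=
  (List.range (D.nroots - 1)).all fun k => decide (fLF D adj L k < fLF D adj L (k + 1))

theorem lexAllOK_mono {D : ChevalleyDatum} (h : fdOK D = true) {adj : List (List ℤ)} {L : ℤ}
    (hl : lexAllOK D adj L = true) : ∀ r s, r + 1 ≤ s → s < D.nroots →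
      fL D adj L r < fL D adj L s := by
  have hs : ∀ r, r + 1 < D.nroots → fL D adj L r < fL D adj L (r + 1) := by
    intro r hr
    unfold lexAllOK at hl
    rw [List.all_eq_true] at hl
    have h2 := hl r (List.mem_range.mpr (by omega))
    rw [decide_eq_true_eq, fLF_eq h, fLF_eq h] at h2
    exact h2
  intro r s hrs
  induction s, hrs using Nat.le_induction with
  | base => exact fun hs2 => hs r hs2
  | succ s hrs' ih =>
    intro hs2
    have h1 := ih (by omega)
    have h2 := hs s hs2
    omega

theorem lexAllOK_inj {D : ChevalleyDatum} (h : fdOK D = true) {adj : List (List ℤ)} {L : ℤ}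
    (hl : lexAllOK D adj L = true) {r s : ℕ} (hr : r < D.nroots) (hs : s < D.nroots)
    (e : fL D adj L r = fL D adj L s) : r = s := by
  rcases Nat.lt_trichotomy r s with h1 | h1 | h1
  · have := lexAllOK_mono h hl r s h1 hs
    omega
  · exact h1
  · have := lexAllOK_mono h hl s r h1 hr
    omega

def reflOK (D : ChevalleyDatum) (adj : List (List ℤ)) : Bool :=
  (List.range D.nroots).all fun r => (List.range D.rank).all fun i =>
    (List.range D.rank).all fun j =>
      decide (gphiF D adj j (fw D i r) =
        gphiF D adj j r - fcar D i r * gphiF D adj j (fsimple D i))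

def carLinOK (D : ChevalleyDatum) (adj : List (List ℤ)) (det : ℤ) : Bool :=
  (List.range D.nroots).all fun r => (List.range D.rank).all fun i =>
    decide (det * fcar D i r =
      ((List.range D.rank).map fun k => gphiF D adj k r * fcar D i (fsimple D k)).sum)

def basisOK (D : ChevalleyDatum) (adj : List (List ℤ)) (det : ℤ) : Bool :=
  decide (0 < det) && (List.range D.rank).all fun j => (List.range D.rank).all fun k =>
    decide (gphiF D adj j (fsimple D k) = if j = k then det else 0)

structure LinOK (D : ChevalleyDatum) (adj : List (List ℤ)) (L : ℤ) (det : ℤ) : Prop where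
  w : WOK D
  refl : reflOK D adj = true
  carlin : carLinOK D adj det = true
  basis : basisOK D adj det = true
  lexall : lexAllOK D adj L = true

theorem list_range_sum (f : ℕ → ℤ) (n : ℕ) :
    ((List.range n).map f).sum = ∑ k ∈ Finset.range n, f k := by
  induction n with
  | zero => simp
  | succ n ih => rw [List.range_succ, List.map_append, List.sum_append, ih, Finset.sum_range_succ]; simp

noncomputable def gq (D : ChevalleyDatum) (adj : List (List ℤ)) (r : ℕ) : Fin D.rank → ℚ :=
  fun j => (gphi D adj j.val r : ℚ)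

noncomputable def Srefl (D : ChevalleyDatum) (adj : List (List ℤ)) (det : ℤ) (i : ℕ) :
    (Fin D.rank → ℚ) →ₗ[ℚ] (Fin D.rank → ℚ) :=
  LinearMap.id - (∑ k : Fin D.rank, ((D.cartan i (D.simple k.val) : ℚ) / (det : ℚ)) •
    (LinearMap.proj k : (Fin D.rank → ℚ) →ₗ[ℚ] ℚ)).smulRight (gq D adj (D.simple i))

theorem Srefl_apply (D : ChevalleyDatum) (adj : List (List ℤ)) (det : ℤ) (i : ℕ)
    (v : Fin D.rank → ℚ) (j : Fin D.rank) :
    Srefl D adj det i v j = v j - (∑ k : Fin D.rank,
      ((D.cartan i (D.simple k.val) : ℚ) / (det : ℚ)) * v k) * gq D adj (D.simple i) j := by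
  simp [Srefl, LinearMap.sum_apply]

theorem gq_refl {D : ChevalleyDatum} {adj : List (List ℤ)} {L det : ℤ} (K : LinOK D adj L det)
    {i : ℕ} (hi : i < D.rank) {r : ℕ} (hr : r < D.nroots) :
    gq D adj (fw D i r) = Srefl D adj det i (gq D adj r) := by
  have hfd := K.w.fd
  funext j
  rw [Srefl_apply]
  have h1 : gphi D adj j.val (fw D i r) =
      gphi D adj j.val r - D.cartan i r * gphi D adj j.val (D.simple i) := by
    have hh := K.refl
    unfold reflOK at hh
    rw [List.all_eq_true] at hh
    have h2 := hh r (List.mem_range.mpr hr)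
    rw [List.all_eq_true] at h2
    have h3 := h2 i (List.mem_range.mpr hi)
    rw [List.all_eq_true] at h3
    have h4 := h3 j.val (List.mem_range.mpr j.isLt)
    rw [decide_eq_true_eq, gphiF_eq hfd, gphiF_eq hfd, gphiF_eq hfd, fcar_eq hfd, fsimple_eq] at h4
    exact h4
  have h5 : det * D.cartan i r =
      ∑ k ∈ Finset.range D.rank, gphi D adj k r * D.cartan i (D.simple k) := by
    have hh := K.carlin
    unfold carLinOK at hh
    rw [List.all_eq_true] at hh
    have h2 := hh r (List.mem_range.mpr hr)
    rw [List.all_eq_true] at h2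
    have h3 := h2 i (List.mem_range.mpr hi)
    rw [decide_eq_true_eq, list_range_sum] at h3
    simp only [gphiF_eq hfd, fcar_eq hfd, fsimple_eq] at h3
    exact h3
  have hdet : (det : ℚ) ≠ 0 := by
    have hh := K.basis
    unfold basisOK at hh
    rw [Bool.and_eq_true, decide_eq_true_eq] at hh
    have := hh.1
    exact_mod_cast (ne_of_gt this)
  have h6 : (D.cartan i r : ℚ) = ∑ k : Fin D.rank,
      ((D.cartan i (D.simple k.val) : ℚ) / (det : ℚ)) * gq D adj r k := by
    have h7 : ((det * D.cartan i r : ℤ) : ℚ) =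
        ∑ k ∈ Finset.range D.rank, ((gphi D adj k r * D.cartan i (D.simple k) : ℤ) : ℚ) := by
      rw [h5]
      push_cast
      rfl
    rw [Finset.sum_range] at h7
    have h8 : (D.cartan i r : ℚ) = (∑ k : Fin D.rank,
        ((gphi D adj k.val r * D.cartan i (D.simple k.val) : ℤ) : ℚ)) / (det : ℚ) := by
      rw [← h7]
      push_cast
      field_simp
    rw [h8, Finset.sum_div]
    apply Finset.sum_congr rfl
    intro k _
    unfold gq
    push_cast
    ring
  unfold gq at h6 ⊢
  rw [← h6, h1]
  push_cast
  ring

noncomputable def Sword (D : ChevalleyDatum) (adj : List (List ℤ)) (det : ℤ) (w : List ℕ) :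
    (Fin D.rank → ℚ) →ₗ[ℚ] (Fin D.rank → ℚ) :=
  w.foldr (fun i acc => (Srefl D adj det i).comp acc) LinearMap.id

theorem gq_word {D : ChevalleyDatum} {adj : List (List ℤ)} {L det : ℤ} (K : LinOK D adj L det)
    (w : List ℕ) (hw : ∀ i ∈ w, i < D.rank) {r : ℕ} (hr : r < D.nroots) :
    gq D adj (wApply D w r) = Sword D adj det w (gq D adj r) := by
  induction w with
  | nil => rfl
  | cons i w ih =>
    have hi := hw i List.mem_cons_self
    have hw' : ∀ j ∈ w, j < D.rank := fun j hj => hw j (List.mem_cons_of_mem _ hj)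
    rw [wApply_cons, gq_refl K hi (wApply_lt K.w.n w hw' hr), ih hw']
    rfl

theorem act_ext {D : ChevalleyDatum} {adj : List (List ℤ)} {L det : ℤ} (K : LinOK D adj L det)
    (w w' : List ℕ) (hw : ∀ i ∈ w, i < D.rank) (hw' : ∀ i ∈ w', i < D.rank)
    (h : ∀ k < D.rank, wApply D w (D.simple k) = wApply D w' (D.simple k)) :
    ∀ r < D.nroots, wApply D w r = wApply D w' r := by
  have hfd := K.w.fd
  have hb := K.basis
  unfold basisOK at hb
  rw [Bool.and_eq_true, decide_eq_true_eq, List.all_eq_true] at hb
  have hdet : (det : ℚ) ≠ 0 := by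
    have := hb.1
    exact_mod_cast (ne_of_gt this)
  have hsimple : ∀ k : Fin D.rank, gq D adj (D.simple k.val) = Pi.single k (det : ℚ) := by
    intro k
    funext j
    have h1 := hb.2 j.val (List.mem_range.mpr j.isLt)
    rw [List.all_eq_true] at h1
    have h2 := h1 k.val (List.mem_range.mpr k.isLt)
    rw [decide_eq_true_eq, gphiF_eq hfd, fsimple_eq] at h2
    unfold gq
    rw [h2, Pi.single_apply]
    by_cases hjk : j = k
    · rw [if_pos hjk, if_pos (congrArg Fin.val hjk)]
    · rw [if_neg hjk, if_neg (fun e => hjk (Fin.ext e))]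
      simp
  have hS : Sword D adj det w = Sword D adj det w' := by
    apply LinearMap.pi_ext
    intro k x
    have e1 : (Pi.single k x : Fin D.rank → ℚ) = (x / (det : ℚ)) • gq D adj (D.simple k.val) := by
      rw [hsimple k]
      funext j
      rw [Pi.smul_apply, Pi.single_apply, Pi.single_apply]
      split_ifs
      · rw [smul_eq_mul]
        field_simp
      · simp
    rw [e1, map_smul, map_smul, ← gq_word K w hw (simple_lt K.w.fd K.w.n k.isLt).1,
      ← gq_word K w' hw' (simple_lt K.w.fd K.w.n k.isLt).1, h k.val k.isLt]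
  intro r hr
  have e2 : gq D adj (wApply D w r) = gq D adj (wApply D w' r) := by
    rw [gq_word K w hw hr, gq_word K w' hw' hr, hS]
  apply lexAllOK_inj hfd K.lexall (wApply_lt K.w.n w hw hr) (wApply_lt K.w.n w' hw' hr)
  unfold fL
  congr 1
  apply List.map_congr_left
  intro j hj
  have e3 := congrFun e2 ⟨j, List.mem_range.mp hj⟩
  unfold gq at e3
  have e4 : gphi D adj j (wApply D w r) = gphi D adj j (wApply D w' r) := by
    exact_mod_cast e3
  rw [e4]

end Cfsg.Agent.Helper7
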