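import Cfsg.Agent.Helper7.ChevMon

set_option autoImplicit false
set_option linter.unusedSectionVars false
set_option linter.unusedVariables false
open Cfsg

namespace Cfsg.Agent.Helper7

open Cfsg.Lie

def wApply (D : ChevalleyDatum) (w : List ℕ) (r : ℕ) : ℕ := w.foldr (fun i acc => fw D i acc) r

def longOK (D : ChevalleyDatum) (w : List ℕ) : Bool :=
  (w.all fun i => Nat.blt i D.rank) &&
  (List.range D.nroots).all fun r =>
    (Nat.ble (D.nroots / 2) r == Nat.blt (wApply D w r) (D.nroots / 2)) &&
      Nat.beq (wApply D w (wApply D w r)) r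

theorem longOK_spec {D : ChevalleyDatum} {w : List ℕ} (h : longOK D w = true) :
    (∀ i ∈ w, i < D.rank) ∧ ∀ r < D.nroots,
      (D.nroots / 2 ≤ r ↔ wApply D w r < D.nroots / 2) ∧ wApply D w (wApply D w r) = r := by
  unfold longOK at h
  simp only [Bool.and_eq_true, List.all_eq_true, Nat.blt_eq, Nat.beq_eq, beq_iff_eq,
    List.mem_range] at h
  refine ⟨h.1, fun r hr => ⟨?_, (h.2 r hr).2⟩⟩
  have h1 := (h.2 r hr).1
  constructor
  · intro h2
    have h3 : Nat.ble (D.nroots / 2) r = true := Nat.ble_eq.mpr h2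
    rw [h3] at h1
    exact Nat.blt_eq.mp h1.symm
  · intro h2
    have h3 : Nat.blt (wApply D w r) (D.nroots / 2) = true := Nat.blt_eq.mpr h2
    rw [h3] at h1
    exact Nat.ble_eq.mp h1

theorem wApply_lt {D : ChevalleyDatum} (hn : nOK D = true) (w : List ℕ)
    (hw : ∀ i ∈ w, i < D.rank) {r : ℕ} (hr : r < D.nroots) : wApply D w r < D.nroots := by
  induction w with
  | nil => exact hr
  | cons i w ih =>
    have e : wApply D (i :: w) r = fw D i (wApply D w r) := rfl
    rw [e]
    exact (w_facts hn (hw i List.mem_cons_self)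
      (ih (fun j hj => hw j (List.mem_cons_of_mem _ hj)))).1

theorem isPos_iff {D : ChevalleyDatum} (M : MOK D) {r : ℕ} (hr : r < D.nroots) :
    D.IsPosRoot r ↔ D.nroots / 2 ≤ r := by
  constructor
  · intro h
    exact (posTriOK_spec M.ptri h).1
  · intro h
    rcases posnegOK_spec M.pn hr with hp | hn
    · exact hp
    · have := (negTriOK_spec M.ntri hn).1
      omega

theorem isNeg_iff {D : ChevalleyDatum} (M : MOK D) {r : ℕ} (hr : r < D.nroots) :
    D.IsNegRoot r ↔ r < D.nroots / 2 := by
  constructor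
  · intro h
    exact (negTriOK_spec M.ntri h).1
  · intro h
    rcases posnegOK_spec M.pn hr with hp | hn
    · have := (posTriOK_spec M.ptri hp).1
      omega
    · exact hn

section sem

variable {F : Type*} [Field F]

def nWordU (D : ChevalleyDatum) (ha : addCheck2 D = true) (w : List ℕ) : GL D.Idx F :=
  (w.map fun i => nV D ha (D.simple i) (1 : F)).prod

theorem long_conj {D : ChevalleyDatum} (M : MOK D) (w : List ℕ) (hw : ∀ i ∈ w, i < D.rank)
    {r : ℕ} (hr : r < D.nroots) :
    ∃ ε : F, (ε = 1 ∨ ε = -1) ∧ ∀ t : F,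
      nWordU D M.w.add w * xV D M.w.add r t * (nWordU D M.w.add w)⁻¹ =
        xV D M.w.add (wApply D w r) (ε * t) := by
  induction w with
  | nil => exact ⟨1, Or.inl rfl, fun t => by simp [nWordU, wApply]⟩
  | cons i w ih =>
    have hi : i < D.rank := hw i List.mem_cons_self
    have hw' : ∀ j ∈ w, j < D.rank := fun j hj => hw j (List.mem_cons_of_mem _ hj)
    obtain ⟨ε, hε, h⟩ := ih hw'
    refine ⟨((nsgn D i (wApply D w r) : ℤ) : F) * ε, sgn_pm D i _ hε, fun t => ?_⟩
    have e1 : nWordU D M.w.add (i :: w) =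
        nV D M.w.add (D.simple i) (1 : F) * nWordU D M.w.add w := by
      simp [nWordU]
    have e2 : wApply D (i :: w) r = fw D i (wApply D w r) := rfl
    rw [e1, e2, mul_inv_rev]
    have e3 : nV D M.w.add (D.simple i) (1 : F) * nWordU D M.w.add w * xV D M.w.add r t *
        ((nWordU D M.w.add w)⁻¹ * (nV D M.w.add (D.simple i) (1 : F))⁻¹) =
        nV D M.w.add (D.simple i) (1 : F) *
          (nWordU D M.w.add w * xV D M.w.add r t * (nWordU D M.w.add w)⁻¹) *
          (nV D M.w.add (D.simple i) (1 : F))⁻¹ := by group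
    rw [e3, h t, xV_conj M hi (wApply_lt M.w.n w hw' hr), mul_assoc]

theorem exists_long {D : ChevalleyDatum} (M : MOK D) (w : List ℕ) (hw : longOK D w = true) :
    ∃ n ∈ D.monomialSubgroup F,
      (D.posUnipotent F).map (MulAut.conj n).toMonoidHom = D.negUnipotent F := by
  obtain ⟨hwr, hall⟩ := longOK_spec hw
  have hconj : ∀ x : GL D.Idx F, (MulAut.conj (nWordU D M.w.add w)).toMonoidHom x =
      nWordU D M.w.add w * x * (nWordU D M.w.add w)⁻¹ := fun x => rfl
  refine ⟨nWordU D M.w.add w, ?_, ?_⟩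
  · apply Subgroup.list_prod_mem
    intro x hx
    rw [List.mem_map] at hx
    obtain ⟨i, hi, rfl⟩ := hx
    obtain ⟨hp, hnp⟩ := simple_lt M.w.fd M.w.n (hwr i hi)
    apply (le_sup_right : _ ≤ D.monomialSubgroup F)
    apply Subgroup.subset_closure
    exact ⟨D.simple i, hp, nV_val D M.w.add hp hnp 1⟩
  · apply le_antisymm
    · rw [Subgroup.map_le_iff_le_comap]
      unfold ChevalleyDatum.posUnipotent
      rw [Subgroup.closure_le]
      rintro x ⟨r, t, hr, hx⟩
      have ex : x = xV D M.w.add r t := Units.ext (by rw [hx, xV_val])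
      obtain ⟨ε, _, h⟩ := long_conj (F := F) M w hwr hr.1
      show (MulAut.conj (nWordU D M.w.add w)).toMonoidHom x ∈ D.negUnipotent F
      rw [hconj, ex, h t]
      apply Subgroup.subset_closure
      have hwr' := wApply_lt M.w.n w hwr hr.1
      exact ⟨wApply D w r, ε * t,
        (isNeg_iff M hwr').mpr ((hall r hr.1).1.mp ((isPos_iff M hr.1).mp hr)),
        xV_val D M.w.add _ _⟩
    · unfold ChevalleyDatum.negUnipotent
      rw [Subgroup.closure_le]
      rintro y ⟨s, t, hs, hy⟩
      have ey : y = xV D M.w.add s t := Units.ext (by rw [hy, xV_val])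
      have hs' := wApply_lt M.w.n w hwr hs.1
      obtain ⟨ε, hε, h⟩ := long_conj (F := F) M w hwr hs'
      have h2 := (hall s hs.1).2
      have hpos : D.IsPosRoot (wApply D w s) := by
        rw [isPos_iff M hs']
        have h1 := (hall (wApply D w s) hs').1
        rw [h2] at h1
        exact h1.mpr ((isNeg_iff M hs.1).mp hs)
      have e2 := h (ε * t)
      rw [h2] at e2
      have e3 : ε * (ε * t) = t := by
        rcases hε with rfl | rfl <;> simp
      rw [e3] at e2
      rw [ey, ← e2, ← hconj]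
      exact Subgroup.mem_map_of_mem _
        (Subgroup.subset_closure ⟨wApply D w s, ε * t, hpos, xV_val D M.w.add _ _⟩)

end sem

end Cfsg.Agent.Helper7
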