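import Cfsg.Agent.Helper7.ChevWeyl

set_option autoImplicit false
set_option linter.unusedSectionVars false
set_option linter.unusedVariables false
set_option linter.style.haveILetI false
open Cfsg

namespace Cfsg.Agent.Helper7

open Cfsg.Lie

def rkey (D : ChevalleyDatum) (a : D.Idx) : ℕ := D.nroots - ckey D a

def negTriOK (D : ChevalleyDatum) : Bool :=
  (List.range D.nroots).all fun r =>
    !(decide (D.IsNegRoot r)) ||
      (decide (r < D.nroots / 2) && decide (D.nroots / 2 ≤ D.negIdx.getD r 0) &&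
        ((D.chain.getD r #[]).toList.all fun e => e.2.toList.all fun q => decide (q.1 < e.1)))

def simplePosOK (D : ChevalleyDatum) : Bool :=
  (List.range D.rank).all fun j => decide (D.IsPosRoot (D.simple j))

structure MOK (D : ChevalleyDatum) : Prop where
  w : WOK D
  neg : negOK D = true
  ptri : posTriOK D = true
  ntri : negTriOK D = true
  spos : simplePosOK D = true
  pn : posnegOK D = true

theorem negTriOK_spec {D : ChevalleyDatum} (h : negTriOK D = true) {r : ℕ} (hr : D.IsNegRoot r) :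
    r < D.nroots / 2 ∧ D.nroots / 2 ≤ D.negIdx.getD r 0 ∧
      ∀ e ∈ (D.chain.getD r #[]).toList, ∀ q ∈ e.2.toList, q.1 < e.1 := by
  unfold negTriOK at h
  rw [List.all_eq_true] at h
  have h1 := h r (List.mem_range.mpr hr.1)
  simp only [hr, decide_true, Bool.not_true, Bool.false_or, Bool.and_eq_true, decide_eq_true_eq,
    List.all_eq_true] at h1
  exact ⟨h1.1.1, h1.1.2, h1.2⟩

theorem simplePos_spec {D : ChevalleyDatum} (h : simplePosOK D = true) {j : ℕ} (hj : j < D.rank) :
    D.IsPosRoot (D.simple j) := by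
  unfold simplePosOK at h
  rw [List.all_eq_true] at h
  have := h j (List.mem_range.mpr hj)
  exact of_decide_eq_true this

theorem neg_lt {D : ChevalleyDatum} (h : negOK D = true) {r : ℕ} (hr : r < D.nroots) :
    D.neg r < D.nroots := (negOK_spec h hr).2

theorem xMat_neg_key (D : ChevalleyDatum) (h : negTriOK D = true) (F : Type*) [Field F]
    (r : Fin D.nroots) (hr : D.IsNegRoot r.val) (t : F) (i j : D.Idx)
    (hij : (D.xMat F r t - 1) i j ≠ 0) : ckey D i + 1 ≤ ckey D j := by
  obtain ⟨h1, h2, h3⟩ := negTriOK_spec h hr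
  rw [Matrix.sub_apply] at hij
  rcases j with i0 | s
  · rcases i with i' | u
    · exfalso; apply hij
      simp [ChevalleyDatum.xMat, Matrix.one_apply]
    · by_cases hu : u = r
      · subst hu
        simp only [ckey]
        rw [if_pos (by omega)]
        omega
      · exfalso; apply hij
        simp [ChevalleyDatum.xMat, hu]
  · by_cases hs : s = r
    · exfalso; apply hij
      subst hs
      rcases i with i' | u
      · simp [ChevalleyDatum.xMat]
      · simp [ChevalleyDatum.xMat, Matrix.one_apply]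
    · by_cases hs2 : s.val = D.negIdx.getD r.val 0
      · rcases i with i' | u
        · simp only [ckey]
          rw [if_neg (by omega)]
          omega
        · by_cases hu : u = s
          · exfalso; apply hij
            subst hu
            simp only [ChevalleyDatum.xMat, Matrix.of_apply, Matrix.one_apply]
            rw [if_neg hs, if_pos hs2]
            simp
          · by_cases hur : u = r
            · subst hur
              simp only [ckey]
              rw [if_pos (by omega), if_neg (by omega)]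
              omega
            · exfalso; apply hij
              simp only [ChevalleyDatum.xMat, Matrix.of_apply, Matrix.one_apply]
              rw [if_neg hs, if_pos hs2]
              simp [hu, hur]
      · rcases i with i' | u
        · exfalso; apply hij
          simp only [ChevalleyDatum.xMat, Matrix.of_apply, Matrix.one_apply]
          rw [if_neg hs, if_neg hs2]
          simp
        · have hne : D.chainCoeff r.val s.val u.val ≠ [] := by
            intro hnil
            apply hij
            simp only [ChevalleyDatum.xMat, Matrix.of_apply, Matrix.one_apply]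
            rw [if_neg hs, if_neg hs2, hnil]
            simp
          obtain ⟨e, he, hes, q, hq, hqu⟩ := chainCoeff_ne_nil D hne
          have := h3 e he q hq
          rw [hes, hqu] at this
          simp only [ckey]
          split_ifs <;> omega

theorem xMat_sub_one_lvl_neg (D : ChevalleyDatum) (h : negTriOK D = true) (F : Type*) [Field F]
    (r : Fin D.nroots) (hr : D.IsNegRoot r.val) (t : F) :
    Lvl (rkey D) 1 (D.xMat F r t - 1) := by
  intro i j hij
  have h1 := xMat_neg_key D h F r hr t i j hij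
  have h2 := ckey_lt D i
  have h3 := ckey_lt D j
  unfold rkey
  omega

theorem negUnipotent_le_utSub (D : ChevalleyDatum) (h : negTriOK D = true) (F : Type*)
    [Field F] : D.negUnipotent F ≤ utSub (rkey D) F 0 := by
  unfold ChevalleyDatum.negUnipotent
  rw [Subgroup.closure_le]
  rintro g ⟨r, t, hr, hg⟩
  change Lvl (rkey D) (0 + 1) ((g : Matrix D.Idx D.Idx F) - 1)
  rw [hg, x_of_lt D F hr.1]
  exact xMat_sub_one_lvl_neg D h F ⟨r, hr.1⟩ hr t

section sem

variable {F : Type*} [Field F]

theorem tri_inter {D : ChevalleyDatum} {u b : Matrix D.Idx D.Idx F} {d : D.Idx → F}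
    (hb : b = u * Matrix.diagonal d) (hu : Lvl (ckey D) 1 (u - 1))
    (hv : Lvl (rkey D) 1 (b - 1)) : b = 1 := by
  ext a c
  by_cases hac : a = c
  · subst hac
    rw [Matrix.one_apply_eq]
    by_contra hne
    have := hv a a (by rw [Matrix.sub_apply, Matrix.one_apply_eq]; exact sub_ne_zero.mpr hne)
    omega
  · rw [Matrix.one_apply_ne hac]
    by_contra hne
    have h1 := hv a c (by rw [Matrix.sub_apply, Matrix.one_apply_ne hac, sub_zero]; exact hne)
    have h2 : u a c ≠ 0 := by
      intro h0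
      apply hne
      rw [hb, Matrix.mul_diagonal, h0, zero_mul]
    have h3 := hu a c (by rw [Matrix.sub_apply, Matrix.one_apply_ne hac, sub_zero]; exact h2)
    have h4 := ckey_lt D a
    have h5 := ckey_lt D c
    unfold rkey at h1
    omega

theorem borel_inf_negU {D : ChevalleyDatum} (M : MOK D) :
    D.borelSubgroup F ⊓ D.negUnipotent F = ⊥ := by
  rw [eq_bot_iff]
  rintro b ⟨hbB, hbV⟩
  rw [Subgroup.mem_bot]
  obtain ⟨u, hu, h, ⟨z, rfl⟩, rfl⟩ := borel_dec M.w hbB
  apply Units.ext
  rw [Units.val_one]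
  exact tri_inter (by rw [Units.val_mul]; rfl) (posUnipotent_le_utSub D M.ptri F hu)
    (negUnipotent_le_utSub D M.ntri F hbV)

theorem borel_inf_negBorel {D : ChevalleyDatum} (M : MOK D) :
    D.borelSubgroup F ⊓ (D.negUnipotent F ⊔ D.diagonalSubgroup F) = D.diagonalSubgroup F := by
  apply le_antisymm
  · rintro b ⟨hbB, hbVH⟩
    have hHV : D.diagonalSubgroup F ≤
        Subgroup.normalizer (D.negUnipotent F : Set (GL D.Idx F)) := by
      rw [diag_eq_torus M.w]
      exact torus_le_normalizer_gen M.w D.IsNegRoot (fun r hr => hr.1)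
    have hb' : b ∈ ((D.negUnipotent F ⊔ D.diagonalSubgroup F : Subgroup (GL D.Idx F)) :
        Set (GL D.Idx F)) := hbVH
    rw [Subgroup.coe_mul_of_right_le_normalizer_left _ _ hHV, Set.mem_mul] at hb'
    obtain ⟨v, hv, h, hh, rfl⟩ := hb'
    rw [SetLike.mem_coe] at hv hh
    have hvB : v ∈ D.borelSubgroup F := by
      have e : v = v * h * h⁻¹ := by group
      rw [e]
      exact mul_mem hbB
        (inv_mem ((le_sup_right : D.diagonalSubgroup F ≤ D.borelSubgroup F) hh))
    have hv1 : v ∈ D.borelSubgroup F ⊓ D.negUnipotent F := ⟨hvB, hv⟩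
    rw [borel_inf_negU M, Subgroup.mem_bot] at hv1
    rw [hv1, one_mul]
    exact hh
  · exact le_inf le_sup_right le_sup_right

def xV (D : ChevalleyDatum) (ha : addCheck2 D = true) (r : ℕ) (t : F) : GL D.Idx F :=
  if h : r < D.nroots then xU D ha r h t else 1

theorem xV_val (D : ChevalleyDatum) (ha : addCheck2 D = true) (r : ℕ) (t : F) :
    (xV D ha r t : Matrix D.Idx D.Idx F) = D.x F r t := by
  unfold xV
  split_ifs with h
  · rfl
  · unfold ChevalleyDatum.x
    rw [dif_neg h]
    rfl

def nV (D : ChevalleyDatum) (ha : addCheck2 D = true) (r : ℕ) (t : F) : GL D.Idx F :=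
  if h : r < D.nroots ∧ D.neg r < D.nroots then nU D ha r h.1 h.2 t else 1

theorem nV_val (D : ChevalleyDatum) (ha : addCheck2 D = true) {r : ℕ} (hr : r < D.nroots)
    (hnr : D.neg r < D.nroots) (t : F) :
    (nV D ha r t : Matrix D.Idx D.Idx F) = D.nMat F r t := by
  unfold nV
  rw [dif_pos ⟨hr, hnr⟩]
  rfl

theorem nV_neg (D : ChevalleyDatum) (ha : addCheck2 D = true) (r : ℕ) (t : F) :
    nV D ha r (-t) = (nV D ha r t)⁻¹ := by
  unfold nV
  split_ifs with h
  · exact Units.ext rfl
  · rw [inv_one]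

theorem nconj_nMat {D : ChevalleyDatum} (W : WOK D) {i : ℕ} (hi : i < D.rank) {s : ℕ}
    (hs : s < D.nroots) (t : F) :
    D.nMat F (D.simple i) 1 * D.nMat F s t =
      D.nMat F (fw D i s) (((nsgn D i s : ℤ) : F) * t) * D.nMat F (D.simple i) 1 := by
  obtain ⟨hws, hns, hinv, hwn, hsg⟩ := w_facts W.n hi hs
  have hns' : D.neg s < D.nroots := by
    rw [← fneg_eq W.fd]
    exact hns
  have e := nconj_word W.fd W.n W.g hi (D.nWord s t) (by
    intro p hp
    simp only [ChevalleyDatum.nWord, List.mem_cons, List.not_mem_nil, or_false] at hp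
    rcases hp with rfl | rfl | rfl <;> assumption)
  have h1 : fw D i (D.neg s) = D.neg (fw D i s) := by
    rw [← fneg_eq W.fd, ← fneg_eq W.fd]
    exact hwn
  have h2 : nsgn D i (D.neg s) = nsgn D i s := by
    rw [← fneg_eq W.fd]
    exact hsg
  have h3 : ((nsgn D i s : ℤ) : F) * -t⁻¹ = -(((nsgn D i s : ℤ) : F) * t)⁻¹ := by
    rcases sg_cases (nbit D i s) with h | h
    · have hη : nsgn D i s = 1 := h
      rw [hη]
      simp
    · have hη : nsgn D i s = -1 := h
      rw [hη]
      simp [inv_neg]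
  have hmap : (D.nWord s t).map (fun p => (fw D i p.1, ((nsgn D i p.1 : ℤ) : F) * p.2)) =
      D.nWord (fw D i s) (((nsgn D i s : ℤ) : F) * t) := by
    simp only [ChevalleyDatum.nWord, List.map_cons, List.map_nil, h1, h2, h3]
  rw [hmap] at e
  exact e

theorem sgn_sq (D : ChevalleyDatum) (i s : ℕ) (t : F) :
    ((nsgn D i s : ℤ) : F) * (((nsgn D i s : ℤ) : F) * t) = t := by
  rw [← mul_assoc, ← Int.cast_mul]
  unfold nsgn
  rw [sg_mul_self, Int.cast_one, one_mul]

theorem sgn_pm (D : ChevalleyDatum) (i s : ℕ) {t : F} (ht : t = 1 ∨ t = -1) :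
    ((nsgn D i s : ℤ) : F) * t = 1 ∨ ((nsgn D i s : ℤ) : F) * t = -1 := by
  unfold nsgn
  rcases sg_cases (nbit D i s) with h | h <;> rcases ht with rfl | rfl <;> simp [h]

theorem nV_conj {D : ChevalleyDatum} (M : MOK D) {i : ℕ} (hi : i < D.rank) {s : ℕ}
    (hs : s < D.nroots) (t : F) :
    nV D M.w.add (D.simple i) (1 : F) * nV D M.w.add s t *
      (nV D M.w.add (D.simple i) (1 : F))⁻¹ =
      nV D M.w.add (fw D i s) (((nsgn D i s : ℤ) : F) * t) := by
  obtain ⟨hp, hnp⟩ := simple_lt M.w.fd M.w.n hi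
  have hws := (w_facts M.w.n hi hs).1
  rw [mul_inv_eq_iff_eq_mul]
  apply Units.ext
  rw [Units.val_mul, Units.val_mul, nV_val D M.w.add hp hnp, nV_val D M.w.add hs (neg_lt M.neg hs),
    nV_val D M.w.add hws (neg_lt M.neg hws)]
  exact nconj_nMat M.w hi hs t

theorem xV_conj {D : ChevalleyDatum} (M : MOK D) {i : ℕ} (hi : i < D.rank) {s : ℕ}
    (hs : s < D.nroots) (t : F) :
    nV D M.w.add (D.simple i) (1 : F) * xV D M.w.add s t *
      (nV D M.w.add (D.simple i) (1 : F))⁻¹ =
      xV D M.w.add (fw D i s) (((nsgn D i s : ℤ) : F) * t) := by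
  obtain ⟨hp, hnp⟩ := simple_lt M.w.fd M.w.n hi
  rw [mul_inv_eq_iff_eq_mul]
  apply Units.ext
  rw [Units.val_mul, Units.val_mul, nV_val D M.w.add hp hnp, xV_val, xV_val]
  exact nconj M.w.fd M.w.n M.w.g hi hs t

theorem nV_mem_of_simple {D : ChevalleyDatum} (M : MOK D) (K : Subgroup (GL D.Idx F))
    (hK : ∀ i < D.rank, nV D M.w.add (D.simple i) (1 : F) ∈ K) :
    ∀ r < D.nroots, ∀ t : F, t = 1 ∨ t = -1 → nV D M.w.add r t ∈ K := by
  apply root_induction M.w.reach (fun r => ∀ t : F, t = 1 ∨ t = -1 → nV D M.w.add r t ∈ K)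
  · intro j hj t ht
    rcases ht with rfl | rfl
    · exact hK j hj
    · rw [nV_neg]
      exact inv_mem (hK j hj)
  · intro i hi s hs ih t ht
    have e := nV_conj M hi hs (((nsgn D i s : ℤ) : F) * t)
    rw [sgn_sq] at e
    rw [← e]
    exact mul_mem (mul_mem (hK i hi) (ih _ (sgn_pm D i s ht))) (inv_mem (hK i hi))

def IsMonM (D : ChevalleyDatum) (A : Matrix D.Idx D.Idx F) : Prop :=
  (∀ (s : Fin D.nroots) (j : Fin D.rank), A (Sum.inr s) (Sum.inl j) = 0) ∧
  (∀ s : Fin D.nroots, ∃ s' : Fin D.nroots, ∀ a : D.Idx, a ≠ Sum.inr s' → A a (Sum.inr s) = 0)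

theorem IsMonM.mul {D : ChevalleyDatum} {A B : Matrix D.Idx D.Idx F} (h : IsMonM D A)
    (h' : IsMonM D B) : IsMonM D (A * B) := by
  constructor
  · intro s j
    rw [Matrix.mul_apply]
    apply Finset.sum_eq_zero
    intro b _
    rcases b with k | u
    · rw [h.1 s k, zero_mul]
    · rw [h'.1 u j, mul_zero]
  · intro s
    obtain ⟨s1, hs1⟩ := h'.2 s
    obtain ⟨s2, hs2⟩ := h.2 s1
    refine ⟨s2, fun a ha => ?_⟩
    rw [Matrix.mul_apply]
    apply Finset.sum_eq_zero
    intro b _
    by_cases hb : b = Sum.inr s1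
    · rw [hb, hs2 a ha, zero_mul]
    · rw [hs1 b hb, mul_zero]

theorem IsMonM.diag (D : ChevalleyDatum) (v : D.Idx → F) : IsMonM D (Matrix.diagonal v) := by
  constructor
  · intro s j
    exact Matrix.diagonal_apply_ne _ (by simp)
  · intro s
    exact ⟨s, fun a ha => Matrix.diagonal_apply_ne _ ha⟩

theorem IsMonM.nsimple {D : ChevalleyDatum} (h : fdOK D = true) (hn : nOK D = true) {i : ℕ}
    (hi : i < D.rank) : IsMonM D (D.nMat F (D.simple i) 1) := by
  constructor
  · intro s j
    rw [ncol_sound h hn hi (0 : F) 0]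
    have hb : code D (Sum.inl j) = j.val := rfl
    rw [hb, ncol_h i j.isLt]
    have h1 : ¬ j.val = D.rank + s.val := by have := j.isLt; omega
    have h2 : ¬ i = D.rank + s.val := by omega
    simp [semAt_cons', semAt_nil, ind, code, h1, h2]
  · intro s
    refine ⟨⟨fw D i s.val, (w_facts hn hi s.isLt).1⟩, fun a ha => ?_⟩
    rw [ncol_sound h hn hi (0 : F) 0]
    have hb : code D (Sum.inr s) = D.rank + s.val := rfl
    rw [hb, ncol_root i s.isLt, semAt_single, if_neg]
    intro hc
    apply ha
    rcases a with k | u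
    · exfalso
      have := k.isLt
      simp only [code] at hc
      omega
    · simp only [code] at hc
      congr 1
      apply Fin.ext
      simp only
      omega

def MonSub (D : ChevalleyDatum) (F : Type*) [Field F] : Subgroup (GL D.Idx F) where
  carrier := {g | IsMonM D (g : Matrix D.Idx D.Idx F) ∧
    IsMonM D ((g⁻¹ : GL D.Idx F) : Matrix D.Idx D.Idx F)}
  mul_mem' := by
    rintro a b ⟨ha, ha'⟩ ⟨hb, hb'⟩
    exact ⟨by rw [Units.val_mul]; exact ha.mul hb,
      by rw [mul_inv_rev, Units.val_mul]; exact hb'.mul ha'⟩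
  one_mem' := ⟨by rw [Units.val_one, ← Matrix.diagonal_one]; exact IsMonM.diag D _,
    by rw [inv_one, Units.val_one, ← Matrix.diagonal_one]; exact IsMonM.diag D _⟩
  inv_mem' := by
    rintro a ⟨ha, ha'⟩
    exact ⟨ha', by rw [inv_inv]; exact ha⟩

theorem hMat_eq_nn (D : ChevalleyDatum) (r : ℕ) (t : F) :
    D.hMat F r t = D.nMat F r t * D.nMat F r (-1) := by
  unfold ChevalleyDatum.hMat ChevalleyDatum.hWord
  rw [wordMat_append]
  rfl

theorem torus_le_MonSub (D : ChevalleyDatum) : torus D F ≤ MonSub D F := by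
  rintro g ⟨z, rfl⟩
  refine ⟨IsMonM.diag D _, ?_⟩
  rw [DgU_inv]
  exact IsMonM.diag D _

theorem nV_simple_mem_MonSub {D : ChevalleyDatum} (M : MOK D) {i : ℕ} (hi : i < D.rank) :
    nV D M.w.add (D.simple i) (1 : F) ∈ MonSub D F := by
  obtain ⟨hp, hnp⟩ := simple_lt M.w.fd M.w.n hi
  refine ⟨?_, ?_⟩
  · rw [nV_val D M.w.add hp hnp]
    exact IsMonM.nsimple M.w.fd M.w.n hi
  · rw [← nV_neg, nV_val D M.w.add hp hnp]
    have e : D.nMat F (D.simple i) (-1) =
        D.hMat F (D.simple i) (-1) * D.nMat F (D.simple i) 1 := by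
      rw [hMat_eq_nn, mul_assoc, nMat_neg_mul M.w.add hp hnp, mul_one]
    rw [e]
    apply IsMonM.mul _ (IsMonM.nsimple M.w.fd M.w.n hi)
    have e2 := hMat_simple_U M.w.fd M.w.hc hi (-1 : Fˣ)
    rw [Units.val_neg, Units.val_one] at e2
    rw [e2]
    exact IsMonM.diag D _

theorem monomial_le {D : ChevalleyDatum} (M : MOK D) (K : Subgroup (GL D.Idx F))
    (hT : torus D F ≤ K) (hK : ∀ i < D.rank, nV D M.w.add (D.simple i) (1 : F) ∈ K) :
    D.monomialSubgroup F ≤ K := by
  unfold ChevalleyDatum.monomialSubgroup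
  apply sup_le
  · rw [diag_eq_torus M.w]
    exact hT
  · rw [Subgroup.closure_le]
    rintro g ⟨r, hr, hg⟩
    have e : g = nV D M.w.add r (1 : F) :=
      Units.ext (by rw [hg, nV_val D M.w.add hr (neg_lt M.neg hr)])
    rw [e]
    exact nV_mem_of_simple M K hK r hr 1 (Or.inl rfl)

theorem posU_inf_mon {D : ChevalleyDatum} (M : MOK D) :
    D.posUnipotent F ⊓ D.monomialSubgroup F = ⊥ := by
  rw [eq_bot_iff]
  rintro g ⟨hgU, hgN⟩
  rw [Subgroup.mem_bot]
  have hL : Lvl (ckey D) 1 ((g : Matrix D.Idx D.Idx F) - 1) :=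
    posUnipotent_le_utSub D M.ptri F hgU
  have hM : IsMonM D (g : Matrix D.Idx D.Idx F) :=
    (monomial_le M (MonSub D F) (torus_le_MonSub D)
      (fun i hi => nV_simple_mem_MonSub M hi) hgN).1
  apply Units.ext
  rw [Units.val_one]
  have hdiag : ∀ c : D.Idx, (g : Matrix D.Idx D.Idx F) c c = 1 := by
    intro c
    by_contra hne
    have := hL c c (by rw [Matrix.sub_apply, Matrix.one_apply_eq]; exact sub_ne_zero.mpr hne)
    omega
  ext a b
  rcases b with j | s
  · rcases a with k | u
    · by_cases hkj : k = j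
      · subst hkj
        rw [hdiag, Matrix.one_apply_eq]
      · have hne : (Sum.inl k : D.Idx) ≠ Sum.inl j := by simpa using hkj
        rw [Matrix.one_apply_ne hne]
        by_contra hne'
        have := hL (Sum.inl k) (Sum.inl j)
          (by rw [Matrix.sub_apply, Matrix.one_apply_ne hne, sub_zero]; exact hne')
        simp only [ckey] at this
        omega
    · rw [hM.1 u j, Matrix.one_apply_ne (by simp)]
  · obtain ⟨s', hs'⟩ := hM.2 s
    by_cases ha : a = Sum.inr s
    · subst ha
      rw [hdiag, Matrix.one_apply_eq]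
    · rw [Matrix.one_apply_ne ha]
      have hss' : (Sum.inr s : D.Idx) = Sum.inr s' := by
        by_contra hne
        have := hs' (Sum.inr s) hne
        rw [hdiag] at this
        exact one_ne_zero this
      rw [hss'] at ha
      exact hs' a ha

theorem borel_inf_mon {D : ChevalleyDatum} (M : MOK D) :
    D.borelSubgroup F ⊓ D.monomialSubgroup F = D.diagonalSubgroup F := by
  apply le_antisymm
  · rintro b ⟨hbB, hbN⟩
    obtain ⟨u, hu, h, hh, rfl⟩ := borel_dec M.w hbB
    have hhH : h ∈ D.diagonalSubgroup F := by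
      rw [diag_eq_torus M.w]
      exact hh
    have huN : u ∈ D.monomialSubgroup F := by
      have e : u = u * h * h⁻¹ := by group
      rw [e]
      exact mul_mem hbN
        (inv_mem ((le_sup_left : D.diagonalSubgroup F ≤ D.monomialSubgroup F) hhH))
    have hu1 : u ∈ D.posUnipotent F ⊓ D.monomialSubgroup F := ⟨hu, huN⟩
    rw [posU_inf_mon M, Subgroup.mem_bot] at hu1
    rw [hu1, one_mul]
    exact hhH
  · exact le_inf le_sup_right le_sup_left

theorem chi_single (D : ChevalleyDatum) {i : ℕ} (hi : i < D.rank) (c : Fˣ) (s : ℕ) :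
    chi D (fun j => if j = i then c else 1) s = c ^ D.cartan i s := by
  unfold chi
  rw [Finset.prod_eq_single i]
  · simp
  · intro j _ hji
    simp [hji]
  · intro hni
    exact absurd (Finset.mem_range.mpr hi) hni

theorem chi_refl {D : ChevalleyDatum} (W : WOK D) {i : ℕ} (hi : i < D.rank) (z : ℕ → Fˣ) {s : ℕ}
    (hs : s < D.nroots) :
    chi D z (fw D i s) =
      chi D (fun j => z j * if j = i then (chi D z (D.simple i))⁻¹ else 1) s := by
  rw [chi_mul, chi_single D hi]
  generalize hc : chi D z (D.simple i) = c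
  unfold chi at hc ⊢
  rw [← hc, inv_zpow, ← zpow_neg, ← Finset.prod_zpow, ← Finset.prod_mul_distrib]
  apply Finset.prod_congr rfl
  intro j hj
  rw [cartan_refl W hi hs (Finset.mem_range.mp hj), sub_eq_add_neg, zpow_add, ← zpow_mul, mul_neg]

theorem nV_conj_DgU {D : ChevalleyDatum} (M : MOK D) {i : ℕ} (hi : i < D.rank) (d : ℕ → Fˣ) :
    nV D M.w.add (D.simple i) (1 : F) * DgU D d * (nV D M.w.add (D.simple i) (1 : F))⁻¹ =
      DgU D (fun u => d (fw D i u)) := by
  obtain ⟨hp, hnp⟩ := simple_lt M.w.fd M.w.n hi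
  rw [mul_inv_eq_iff_eq_mul]
  apply Units.ext
  rw [Units.val_mul, Units.val_mul, nV_val D M.w.add hp hnp]
  exact nDg M.w.fd M.w.n hi d

theorem nV_conj_DgU' {D : ChevalleyDatum} (M : MOK D) {i : ℕ} (hi : i < D.rank) (d : ℕ → Fˣ) :
    (nV D M.w.add (D.simple i) (1 : F))⁻¹ * DgU D d * nV D M.w.add (D.simple i) (1 : F) =
      DgU D (fun u => d (fw D i u)) := by
  have e := nV_conj_DgU M hi (fun u => d (fw D i u))
  have e2 : DgU D (fun u => d (fw D i (fw D i u))) = DgU D d :=
    DgU_congr D (fun u hu => by rw [(w_facts M.w.n hi hu).2.2.1])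
  rw [e2] at e
  rw [← e]
  group

theorem nV_simple_normalizes {D : ChevalleyDatum} (M : MOK D) {i : ℕ} (hi : i < D.rank) :
    nV D M.w.add (D.simple i) (1 : F) ∈ Subgroup.normalizer (torus D F : Set (GL D.Idx F)) := by
  rw [Subgroup.mem_normalizer_iff]
  intro h
  constructor
  · rintro ⟨z, rfl⟩
    rw [nV_conj_DgU M hi]
    exact ⟨_, DgU_congr D (fun u hu => chi_refl M.w hi z hu)⟩
  · rintro ⟨z, hz⟩
    have e : h = (nV D M.w.add (D.simple i) (1 : F))⁻¹ * DgU D (chi D z) *
        nV D M.w.add (D.simple i) (1 : F) := by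
      rw [← hz]
      group
    rw [e, nV_conj_DgU' M hi]
    exact ⟨_, DgU_congr D (fun u hu => chi_refl M.w hi z hu)⟩

theorem diag_normal_mon {D : ChevalleyDatum} (M : MOK D) :
    ((D.diagonalSubgroup F).subgroupOf (D.monomialSubgroup F)).Normal := by
  apply Subgroup.normal_subgroupOf_of_le_normalizer
  rw [diag_eq_torus M.w]
  exact monomial_le M _ Subgroup.le_normalizer (fun i hi => nV_simple_normalizes M hi)

theorem xV_mem_group (D : ChevalleyDatum) (ha : addCheck2 D = true) (r : ℕ) (t : F) :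
    xV D ha r t ∈ D.group F := by
  unfold xV
  split_ifs with h
  · apply Subgroup.subset_closure
    exact ⟨⟨r, h⟩, t, by rw [xU_val, x_of_lt D F h]⟩
  · exact one_mem _

def wordU (D : ChevalleyDatum) (ha : addCheck2 D = true) (w : List (ℕ × F)) : GL D.Idx F :=
  (w.map fun p => xV D ha p.1 p.2).prod

theorem wordU_val (D : ChevalleyDatum) (ha : addCheck2 D = true) (w : List (ℕ × F)) :
    (wordU D ha w : Matrix D.Idx D.Idx F) = D.wordMat F w := by
  induction w with
  | nil => simp [wordU, wordMat_nil]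
  | cons p w ih =>
    have e : wordU D ha (p :: w) = xV D ha p.1 p.2 * wordU D ha w := by
      simp [wordU]
    rw [e, Units.val_mul, xV_val, ih, wordMat_cons]

theorem mem_group_of_word (D : ChevalleyDatum) (ha : addCheck2 D = true) {g : GL D.Idx F}
    (w : List (ℕ × F)) (hg : (g : Matrix D.Idx D.Idx F) = D.wordMat F w) : g ∈ D.group F := by
  have e : g = wordU D ha w := Units.ext (by rw [hg, wordU_val])
  rw [e]
  apply Subgroup.list_prod_mem
  intro x hx
  rw [List.mem_map] at hx
  obtain ⟨p, _, rfl⟩ := hx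
  exact xV_mem_group D ha p.1 p.2

theorem xV_mem_BN {D : ChevalleyDatum} (M : MOK D) : ∀ r < D.nroots, ∀ t : F,
    xV D M.w.add r t ∈ D.borelSubgroup F ⊔ D.monomialSubgroup F := by
  apply root_induction M.w.reach
    (fun r => ∀ t : F, xV D M.w.add r t ∈ D.borelSubgroup F ⊔ D.monomialSubgroup F)
  · intro j hj t
    apply (le_sup_left : D.borelSubgroup F ≤ D.borelSubgroup F ⊔ D.monomialSubgroup F)
    apply (le_sup_left : D.posUnipotent F ≤ D.borelSubgroup F)
    apply Subgroup.subset_closure
    exact ⟨D.simple j, t, simplePos_spec M.spos hj, xV_val D M.w.add _ t⟩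
  · intro i hi s hs ih t
    obtain ⟨hp, hnp⟩ := simple_lt M.w.fd M.w.n hi
    have e := xV_conj M hi hs (((nsgn D i s : ℤ) : F) * t)
    rw [sgn_sq] at e
    rw [← e]
    have hn : nV D M.w.add (D.simple i) (1 : F) ∈
        D.borelSubgroup F ⊔ D.monomialSubgroup F := by
      apply (le_sup_right : D.monomialSubgroup F ≤ D.borelSubgroup F ⊔ D.monomialSubgroup F)
      apply (le_sup_right : _ ≤ D.monomialSubgroup F)
      apply Subgroup.subset_closure
      exact ⟨D.simple i, hp, nV_val D M.w.add hp hnp 1⟩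
    exact mul_mem (mul_mem hn (ih _)) (inv_mem hn)

theorem borel_mon_group {D : ChevalleyDatum} (M : MOK D) :
    D.borelSubgroup F ≤ D.group F ∧ D.monomialSubgroup F ≤ D.group F ∧
      D.borelSubgroup F ⊔ D.monomialSubgroup F = D.group F := by
  have hH : D.diagonalSubgroup F ≤ D.group F := by
    unfold ChevalleyDatum.diagonalSubgroup
    rw [Subgroup.closure_le]
    rintro g ⟨r, t, _, _, hg⟩
    exact mem_group_of_word D M.w.add (D.hWord r t) hg
  have hB : D.borelSubgroup F ≤ D.group F := by
    apply sup_le _ hH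
    unfold ChevalleyDatum.posUnipotent
    rw [Subgroup.closure_le]
    rintro g ⟨r, t, _, hg⟩
    exact mem_group_of_word D M.w.add [(r, t)]
      (by rw [hg, wordMat_cons, wordMat_nil, mul_one])
  have hN : D.monomialSubgroup F ≤ D.group F := by
    apply sup_le hH
    rw [Subgroup.closure_le]
    rintro g ⟨r, _, hg⟩
    exact mem_group_of_word D M.w.add (D.nWord r 1) hg
  refine ⟨hB, hN, le_antisymm (sup_le hB hN) ?_⟩
  unfold ChevalleyDatum.group
  rw [Subgroup.closure_le]
  rintro g ⟨r, t, hg⟩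
  have e : g = xV D M.w.add r.val t :=
    Units.ext (by rw [hg, xV_val, x_of_lt D F r.isLt])
  rw [e]
  exact xV_mem_BN M r.val r.isLt t

end sem

end Cfsg.Agent.Helper7
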