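import Cfsg.Agent.Helper7.Eval3

set_option autoImplicit false
set_option linter.unusedSectionVars false
set_option linter.unusedVariables false
open Cfsg

namespace Cfsg.Agent.Helper7

open Cfsg.Lie

def nW (p np : ℕ) : List (ℕ × List PT) := [(p, [(1, 0, 0)]), (np, [(-1, 0, 0)]), (p, [(1, 0, 0)])]

def nColE (D : ChevalleyDatum) (i n : ℕ) : List VT :=
  appNW D (nW (fsimple D i) (fneg D (fsimple D i))) (unitV n)

def nNegB (D : ChevalleyDatum) (i s : ℕ) : Bool :=
  match nColE D i (D.rank + s) with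
  | [t] => decide (t.c = -1)
  | _ => false

def nMask (D : ChevalleyDatum) (i : ℕ) : ℕ :=
  (List.range D.nroots).foldl (fun acc s => bif nNegB D i s then Nat.lor acc (Nat.pow 2 s) else acc) 0

def nMaskT (D : ChevalleyDatum) : ℕ := ntab D.nroots ((List.range D.rank).map (nMask D))

def nbit (D : ChevalleyDatum) (i s : ℕ) : Bool := Nat.testBit (nget D.nroots (nMaskT D) i) s

def sg (b : Bool) : ℤ := bif b then -1 else 1

def nsgn (D : ChevalleyDatum) (i s : ℕ) : ℤ := sg (nbit D i s)

def wRow (D : ChevalleyDatum) (i : ℕ) : ℕ := ntab 8 ((List.range D.nroots).map (frefl D i))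

def wTT (D : ChevalleyDatum) : ℕ := ntab (8 * D.nroots) ((List.range D.rank).map (wRow D))

def fw (D : ChevalleyDatum) (i s : ℕ) : ℕ := nget 8 (nget (8 * D.nroots) (wTT D) i) s

def ncol (D : ChevalleyDatum) (i n : ℕ) : List VT :=
  if n < D.rank then [⟨n, 1, 0, 0⟩, ⟨i, -(fcar D n (fsimple D i)), 0, 0⟩]
  else if n < D.rank + D.nroots then [⟨D.rank + fw D i (n - D.rank), nsgn D i (n - D.rank), 0, 0⟩]
  else []

def nCheck1 (D : ChevalleyDatum) (i : ℕ) : Bool :=
  ((List.range D.rank).all fun n => isZeroE (nColE D i n ++ vneg (ncol D i n))) &&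
  ((List.range D.nroots).all fun s =>
    isZeroE (nColE D i (D.rank + s) ++ vneg (ncol D i (D.rank + s))))

def wCheck1 (D : ChevalleyDatum) (i : ℕ) : Bool :=
  (List.range D.nroots).all fun s =>
    decide (frefl D i s < D.nroots) && decide (fneg D s < D.nroots) &&
      Nat.beq (fw D i (fw D i s)) s && Nat.beq (fw D i (fneg D s)) (fneg D (fw D i s)) &&
      (nbit D i (fneg D s) == nbit D i s)

def nOK (D : ChevalleyDatum) : Bool :=
  decide (D.nroots ≤ 256) && (List.range D.rank).all fun i =>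
    decide (fsimple D i < D.nroots) && decide (fneg D (fsimple D i) < D.nroots) &&
    decide (wRow D i < 2 ^ (8 * D.nroots)) && wCheck1 D i && nCheck1 D i

theorem sg_xor (a b : Bool) : sg (Bool.xor a b) = sg a * sg b := by
  cases a <;> cases b <;> simp [sg]

theorem sg_mul_self (a : Bool) : sg a * sg a = 1 := by
  cases a <;> simp [sg]

theorem sg_cases (a : Bool) : sg a = 1 ∨ sg a = -1 := by
  cases a <;> simp [sg]

theorem nOK_spec {D : ChevalleyDatum} (hn : nOK D = true) :
    D.nroots ≤ 256 ∧ ∀ i < D.rank, D.simple i < D.nroots ∧ fneg D (D.simple i) < D.nroots ∧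
      wRow D i < 2 ^ (8 * D.nroots) ∧ wCheck1 D i = true ∧ nCheck1 D i = true := by
  unfold nOK at hn
  simp only [Bool.and_eq_true, decide_eq_true_eq, List.all_eq_true, List.mem_range, fsimple_eq] at hn
  exact ⟨hn.1, fun i hi => ⟨(hn.2 i hi).1.1.1.1, (hn.2 i hi).1.1.1.2, (hn.2 i hi).1.1.2,
    (hn.2 i hi).1.2, (hn.2 i hi).2⟩⟩

theorem getD_map_range (f : ℕ → ℕ) {N i : ℕ} (hi : i < N) :
    ((List.range N).map f).getD i 0 = f i := by
  rw [List.getD_eq_getElem?_getD, List.getElem?_map, List.getElem?_range hi]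
  rfl

theorem wCheck1_spec {D : ChevalleyDatum} {i : ℕ} (hw : wCheck1 D i = true) {s : ℕ}
    (hs : s < D.nroots) :
    frefl D i s < D.nroots ∧ fneg D s < D.nroots ∧ fw D i (fw D i s) = s ∧
      fw D i (fneg D s) = fneg D (fw D i s) ∧ nbit D i (fneg D s) = nbit D i s := by
  unfold wCheck1 at hw
  rw [List.all_eq_true] at hw
  have := hw s (List.mem_range.mpr hs)
  simp only [Bool.and_eq_true, decide_eq_true_eq, Nat.beq_eq, beq_iff_eq] at this
  exact ⟨this.1.1.1.1, this.1.1.1.2, this.1.1.2, this.1.2, this.2⟩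

theorem fw_eq {D : ChevalleyDatum} (hn : nOK D = true) {i : ℕ} (hi : i < D.rank) {s : ℕ}
    (hs : s < D.nroots) : fw D i s = frefl D i s := by
  obtain ⟨h256, hall⟩ := nOK_spec hn
  unfold fw wTT
  rw [nget_ntab (8 * D.nroots) _ (by
    intro b hb
    rw [List.mem_map] at hb
    obtain ⟨j, hj, rfl⟩ := hb
    exact (hall j (List.mem_range.mp hj)).2.2.1), getD_map_range _ hi]
  unfold wRow
  rw [nget_ntab 8 _ (by
    intro b hb
    rw [List.mem_map] at hb
    obtain ⟨u, hu, rfl⟩ := hb
    have := (wCheck1_spec (hall i hi).2.2.2.1 (List.mem_range.mp hu)).1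
    calc frefl D i u < D.nroots := this
      _ ≤ 256 := h256
      _ = 2 ^ 8 := by norm_num), getD_map_range _ hs]

theorem ncol_root {D : ChevalleyDatum} (i : ℕ) {s : ℕ} (hs : s < D.nroots) :
    ncol D i (D.rank + s) = [⟨D.rank + fw D i s, nsgn D i s, 0, 0⟩] := by
  unfold ncol
  rw [if_neg (by omega), if_pos (by omega), Nat.add_sub_cancel_left]

theorem ncol_h {D : ChevalleyDatum} (i : ℕ) {j : ℕ} (hj : j < D.rank) :
    ncol D i j = [⟨j, 1, 0, 0⟩, ⟨i, -(fcar D j (fsimple D i)), 0, 0⟩] := by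
  unfold ncol
  rw [if_pos hj]

theorem ncol_of_ge {D : ChevalleyDatum} (i : ℕ) {n : ℕ} (hn : D.rank + D.nroots ≤ n) :
    ncol D i n = [] := by
  unfold ncol
  rw [if_neg (by omega), if_neg (by omega)]

section sem

variable {F : Type*} [Field F]

theorem nW_eval (p np : ℕ) (x y : F) :
    (nW p np).map (fun a => (a.1, pev x y a.2)) = [(p, (1 : F)), (np, -1), (p, 1)] := by
  simp [nW, pev, ptVal]

theorem nMat_one_eq_word (D : ChevalleyDatum) (p : ℕ) :
    D.nMat F p 1 = D.wordMat F [(p, 1), (D.neg p, -1), (p, 1)] := by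
  unfold ChevalleyDatum.nMat ChevalleyDatum.nWord
  rw [inv_one]

theorem ncol_sound {D : ChevalleyDatum} (h : fdOK D = true) (hn : nOK D = true) {i : ℕ}
    (hi : i < D.rank) (x y : F) (a b : D.Idx) :
    D.nMat F (D.simple i) 1 a b = semAt x y (ncol D i (code D b)) (code D a) := by
  obtain ⟨_, hall⟩ := nOK_spec hn
  obtain ⟨hp, hnp, _, _, hc⟩ := hall i hi
  rw [fneg_eq h] at hnp
  have hw : ∀ q ∈ nW (D.simple i) (D.neg (D.simple i)), q.1 < D.nroots := by
    intro q hq
    simp only [nW, List.mem_cons, List.not_mem_nil, or_false] at hq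
    rcases hq with rfl | rfl | rfl <;> assumption
  have e1 := appNW_unit h (nW (D.simple i) (D.neg (D.simple i))) hw x y a b
  rw [nW_eval, ← nMat_one_eq_word] at e1
  have hz : isZeroE (nColE D i (code D b) ++ vneg (ncol D i (code D b))) = true := by
    unfold nCheck1 at hc
    rw [Bool.and_eq_true, List.all_eq_true, List.all_eq_true] at hc
    rcases b with j | s
    · exact hc.1 j.val (List.mem_range.mpr j.isLt)
    · exact hc.2 s.val (List.mem_range.mpr s.isLt)
  have e2 := isZeroE_sound x y _ hz (code D a)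
  rw [semAt_append, semAt_vneg] at e2
  have e3 : nColE D i (code D b) =
      appNW D (nW (D.simple i) (D.neg (D.simple i))) (unitV (code D b)) := by
    unfold nColE
    rw [fsimple_eq, fneg_eq h]
  rw [e3, e1] at e2
  linear_combination e2

end sem

end Cfsg.Agent.Helper7
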