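import Cfsg.Agent.Helper7.ChevLevi
import Cfsg.Agent.S0311

set_option autoImplicit false
set_option linter.unusedSectionVars false
set_option linter.unusedVariables false
open Cfsg

namespace Cfsg.Agent.Helper7

open Cfsg.Lie

variable {F : Type*} [Field F]

theorem normalizer_UJ {D : ChevalleyDatum} {adj : List (List ℤ)} (L : LOK D adj) (hcf : CF D F)
    (J : Set ℕ) :
    Subgroup.normalizer (D.unipotentRadical F J : Set (GL D.Idx F)) ⊓ D.group F =
      D.parabolicSubgroup F J := by
  have U := L.u
  have M := U.m
  obtain ⟨hBG, hNG, hsup⟩ := borel_mon_group (F := F) M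
  have hPG : D.parabolicSubgroup F J ≤ D.group F := by
    unfold ChevalleyDatum.parabolicSubgroup
    apply sup_le hBG
    rw [Subgroup.closure_le]
    rintro g ⟨j, _, hj, hg⟩
    exact mem_group_of_word D M.w.add (D.nWord (D.simple j) 1) hg
  apply le_antisymm
  · obtain ⟨P, hPB, hPN, hPS⟩ := chev_bn U hcf
    have hBK : P.B ≤ (Subgroup.normalizer (D.unipotentRadical F J : Set (GL D.Idx F)) ⊓
        D.group F).subgroupOf (D.group F) := by
      rw [hPB]
      intro x hx
      rw [Subgroup.mem_subgroupOf] at hx ⊢
      exact ⟨parabolic_le_normalizer L hcf J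
        ((le_sup_left : D.borelSubgroup F ≤ D.parabolicSubgroup F J) hx), x.2⟩
    obtain ⟨J', hJ', hK⟩ := Cfsg.Agent.S0311.result P _ hBK
    intro x hx
    have hx' : (⟨x, hx.2⟩ : ↥(D.group F)) ∈
        (Subgroup.normalizer (D.unipotentRadical F J : Set (GL D.Idx F)) ⊓
          D.group F).subgroupOf (D.group F) := by
      rw [Subgroup.mem_subgroupOf]
      exact hx
    rw [hK] at hx'
    have hle : P.parabolic J' ≤ (D.parabolicSubgroup F J).subgroupOf (D.group F) := by
      unfold Cfsg.BNPair.parabolic
      apply sup_le
      · rw [hPB]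
        intro y hy
        rw [Subgroup.mem_subgroupOf] at hy ⊢
        exact (le_sup_left : D.borelSubgroup F ≤ D.parabolicSubgroup F J) hy
      · rw [Subgroup.closure_le]
        intro s hs
        have hsS := hJ' hs
        rw [hPS] at hsS
        obtain ⟨j, hj, hsj⟩ := hsS
        obtain ⟨hpj, hnpj, hposj, hnegpj⟩ := simple_facts M hj
        have esj : (s : GL D.Idx F) = nV D M.w.add (D.simple j) (1 : F) :=
          Units.ext (by rw [hsj, nV_val D M.w.add hpj hnpj])
        have hsK : s ∈ (Subgroup.normalizer (D.unipotentRadical F J : Set (GL D.Idx F)) ⊓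
            D.group F).subgroupOf (D.group F) := by
          rw [hK]
          exact (le_sup_right : Subgroup.closure J' ≤ P.parabolic J')
            (Subgroup.subset_closure hs)
        rw [Subgroup.mem_subgroupOf] at hsK
        have hsN := hsK.1
        show (s : GL D.Idx F) ∈ D.parabolicSubgroup F J
        by_cases hjJ : j ∈ J
        · apply (le_sup_right : _ ≤ D.parabolicSubgroup F J)
          exact Subgroup.subset_closure ⟨j, hjJ, hj, hsj⟩
        · exfalso
          obtain ⟨s1, _, _⟩ := parOK_spec M.w.fd L.par
          have hnotin : ¬ D.InRootSub J (D.simple j) :=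
            fun hin => (s1 j hj).1 (hin.2 j hj hjJ)
          have hxU : xV D M.w.add (D.simple j) (1 : F) ∈ D.unipotentRadical F J :=
            xV_mem_UJ M.w.add (simplePos_spec M.spos hj) hnotin 1
          have h3 := (Subgroup.mem_normalizer_iff.mp hsN _).mp hxU
          rw [esj, xV_conj M hj hpj, fw_simple M hj] at h3
          have hUJU : D.unipotentRadical F J ≤ D.posUnipotent F := by
            unfold ChevalleyDatum.unipotentRadical ChevalleyDatum.posUnipotent
            apply Subgroup.closure_mono
            rintro g ⟨r, t, hr, _, hg⟩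
            exact ⟨r, t, hr, hg⟩
          exact xV_neg_simple_not_mem M hj (sgn_ne_zero D j (D.simple j))
            ((le_sup_left : D.posUnipotent F ≤ D.borelSubgroup F) (hUJU h3))
    have h4 := hle hx'
    rw [Subgroup.mem_subgroupOf] at h4
    exact h4
  · exact le_inf (parabolic_le_normalizer L hcf J) hPG

end Cfsg.Agent.Helper7
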