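import Cfsg.Agent.Helper7.ChevLevels

set_option autoImplicit false
set_option linter.unusedSectionVars false
set_option linter.unusedVariables false
open Cfsg

namespace Cfsg.Agent.Helper7

open Cfsg.Lie

def cev (p : List ℕ) (q : ℕ) : ℕ := p.foldr (fun c acc => c + q * acc) 0

theorem cev_cons (c : ℕ) (p : List ℕ) (q : ℕ) : cev (c :: p) q = c + q * cev p q := rfl

theorem cev_nil (q : ℕ) : cev [] q = 0 := rfl

def cadd : List ℕ → List ℕ → List ℕ
  | [], b => b
  | x :: a, [] => x :: a
  | x :: a, y :: b => (x + y) :: cadd a b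

theorem cev_cadd (q : ℕ) : ∀ a b : List ℕ, cev (cadd a b) q = cev a q + cev b q
  | [], b => by simp [cadd, cev_nil]
  | x :: a, [] => by simp [cadd, cev_nil]
  | x :: a, y :: b => by
    simp only [cadd, cev_cons]
    rw [cev_cadd q a b]
    ring

def cscale (x : ℕ) (b : List ℕ) : List ℕ := b.map fun c => x * c

theorem cev_cscale (x q : ℕ) : ∀ b : List ℕ, cev (cscale x b) q = x * cev b q
  | [] => by simp [cscale, cev_nil]
  | c :: b => by
    have ih := cev_cscale x q b
    unfold cscale at ih ⊢
    rw [List.map_cons, cev_cons, cev_cons, ih]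
    ring

def cmul : List ℕ → List ℕ → List ℕ
  | [], _ => []
  | x :: a, b => cadd (cscale x b) (0 :: cmul a b)

theorem cev_cmul (q : ℕ) : ∀ a b : List ℕ, cev (cmul a b) q = cev a q * cev b q
  | [], b => by simp [cmul, cev_nil]
  | x :: a, b => by
    simp only [cmul]
    rw [cev_cadd, cev_cscale, cev_cons, cev_cons, cev_cmul q a b]
    ring

def cmono (l : ℕ) : List ℕ := List.replicate l 0 ++ [1]

theorem cev_cmono (q : ℕ) : ∀ l : ℕ, cev (cmono l) q = q ^ l
  | 0 => by simp [cmono, cev]
  | l + 1 => by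
    have ih := cev_cmono q l
    unfold cmono at ih ⊢
    rw [List.replicate_succ, List.cons_append, cev_cons, ih]
    ring

def cpolyT (T : List (List ℕ)) : List ℕ := T.foldr (fun u p => cadd (cmono u.length) p) []

theorem cev_cpolyT (q : ℕ) : ∀ T : List (List ℕ),
    cev (cpolyT T) q = (T.map fun u => q ^ u.length).sum
  | [] => by simp [cpolyT, cev_nil]
  | u :: T => by
    have ih := cev_cpolyT q T
    unfold cpolyT at ih ⊢
    rw [List.foldr_cons, cev_cadd, cev_cmono, ih, List.map_cons, List.sum_cons]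

def cgeom (d : ℕ) : List ℕ := List.replicate d 1

theorem cev_cgeom_aux (m : ℕ) : ∀ d : ℕ, m * cev (cgeom d) (m + 1) + 1 = (m + 1) ^ d
  | 0 => by simp [cgeom, cev_nil]
  | d + 1 => by
    have ih := cev_cgeom_aux m d
    unfold cgeom at ih ⊢
    rw [List.replicate_succ, cev_cons, pow_succ, ← ih]
    ring

theorem cev_cgeom (q d : ℕ) (hq : 1 ≤ q) : (q - 1) * cev (cgeom d) q = q ^ d - 1 := by
  obtain ⟨m, rfl⟩ : ∃ m, q = m + 1 := ⟨q - 1, by omega⟩
  rw [Nat.add_sub_cancel, ← cev_cgeom_aux m d, Nat.add_sub_cancel]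

def cprod (ps : List (List ℕ)) : List ℕ := ps.foldr cmul [1]

theorem cev_cprod (q : ℕ) : ∀ ps : List (List ℕ),
    cev (cprod ps) q = (ps.map fun p => cev p q).prod
  | [] => by simp [cprod, cev]
  | p :: ps => by
    have ih := cev_cprod q ps
    unfold cprod at ih ⊢
    rw [List.foldr_cons, cev_cmul, ih, List.map_cons, List.prod_cons]

theorem geom_prod (q : ℕ) (hq : 1 ≤ q) : ∀ ds : List ℕ,
    (q - 1) ^ ds.length * (ds.map fun d => cev (cgeom d) q).prod =
      (ds.map fun d => q ^ d - 1).prod
  | [] => by simp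
  | d :: ds => by
    rw [List.length_cons, List.map_cons, List.prod_cons, List.map_cons, List.prod_cons,
      ← geom_prod q hq ds, ← cev_cgeom q d hq]
    ring

section sem

variable {F : Type*} [Field F]

theorem order_formula [Fintype F] {D : ChevalleyDatum} {adj adj' : List (List ℤ)}
    {L L' det : ℤ} (U : UOK D) (hcf : CF D F) (hu : unitAllOK D = true)
    (Lk : LinOK D adj L det) (V : VOK D adj' L') (lvs : List Lev)
    (hlv : levsOK D (List.range D.rank) lvs = true) (ds : List ℕ) (hds : ds.length = D.rank)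
    (hpoly : cprod (lvs.map fun lv => cpolyT lv.T) = cprod (ds.map cgeom)) (d : ℕ)
    (hH : d * Nat.card (D.diagonalSubgroup F) = (Fintype.card F - 1) ^ D.rank) :
    d * Nat.card (D.group F) =
      Fintype.card F ^ (D.nroots / 2) * (ds.map fun e => Fintype.card F ^ e - 1).prod := by
  have hq : 1 ≤ Fintype.card F := Fintype.card_pos
  rw [card_group_levels U hcf hu Lk lvs hlv, card_borel U.m, card_posU V hcf]
  have h1 : lvSum (Fintype.card F) lvs = cev (cprod (ds.map cgeom)) (Fintype.card F) := by
    rw [← hpoly, cev_cprod, List.map_map]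
    unfold lvSum
    congr 1
    apply List.map_congr_left
    intro lv _
    exact (cev_cpolyT _ _).symm
  rw [h1, cev_cprod, List.map_map, ← geom_prod _ hq ds, hds, ← hH]
  simp only [Function.comp_def]
  ring

end sem

end Cfsg.Agent.Helper7
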