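import Cfsg.Agent.Helper7.ChevBN

set_option autoImplicit false
set_option linter.unusedSectionVars false
set_option linter.unusedVariables false
open Cfsg

namespace Cfsg.Agent.Helper7

open Cfsg.Lie

def cor (D : ChevalleyDatum) (r i : ℕ) : ℤ := (D.coroot.getD r #[]).getD i 0

def parOK (D : ChevalleyDatum) : Bool :=
  ((List.range D.rank).all fun j => decide (fcor D (fsimple D j) j ≠ 0) &&
    (List.range D.rank).all fun i =>
      Nat.beq i j || (decide (fcor D (fsimple D j) i = 0) &&
        decide (fcor D (fneg D (fsimple D j)) i = 0))) &&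
  ((List.range D.nroots).all fun r => (List.range D.rank).all fun i =>
      decide (fcor D (fneg D r) i = - fcor D r i)) &&
  ((List.range (D.nroots - D.nroots / 2)).all fun k =>
      ((List.range D.rank).any fun j => Nat.beq (fsimple D j) (D.nroots / 2 + k)) ||
      ((List.range D.rank).any fun j =>
        decide (fcor D (D.nroots / 2 + k) j ≠ 0) &&
          Nat.ble (D.nroots / 2) (fw D j (D.nroots / 2 + k)) &&
          Nat.blt (fw D j (D.nroots / 2 + k)) (D.nroots / 2 + k) &&
          (List.range D.rank).all fun i => decide (fcor D (D.nroots / 2 + k) i ≠ 0) ||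
            decide (fcor D (fw D j (D.nroots / 2 + k)) i = 0)))

theorem parOK_spec {D : ChevalleyDatum} (h : fdOK D = true) (hp : parOK D = true) :
    (∀ j < D.rank, cor D (D.simple j) j ≠ 0 ∧ ∀ i < D.rank, i ≠ j →
      cor D (D.simple j) i = 0 ∧ cor D (D.neg (D.simple j)) i = 0) ∧
    (∀ r < D.nroots, ∀ i < D.rank, cor D (D.neg r) i = - cor D r i) ∧
    (∀ r, D.nroots / 2 ≤ r → r < D.nroots →
      (∃ j < D.rank, D.simple j = r) ∨
      (∃ j < D.rank, cor D r j ≠ 0 ∧ D.nroots / 2 ≤ fw D j r ∧ fw D j r < r ∧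
        ∀ i < D.rank, cor D r i = 0 → cor D (fw D j r) i = 0)) := by
  unfold parOK at hp
  simp only [Bool.and_eq_true, List.all_eq_true, List.mem_range, Bool.or_eq_true, Nat.beq_eq,
    decide_eq_true_eq, List.any_eq_true, Nat.ble_eq, Nat.blt_eq, fsimple_eq, fneg_eq h,
    fcor_eq h] at hp
  obtain ⟨⟨h1, h2⟩, h3⟩ := hp
  refine ⟨fun j hj => ⟨(h1 j hj).1, fun i hi hij => ?_⟩, h2, fun r hr1 hr2 => ?_⟩
  · rcases (h1 j hj).2 i hi with h4 | h4
    · exact absurd h4 hij
    · exact h4
  · have h4 := h3 (r - D.nroots / 2) (by omega)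
    rw [show D.nroots / 2 + (r - D.nroots / 2) = r by omega] at h4
    rcases h4 with ⟨j, hj, h5⟩ | ⟨j, hj, h5⟩
    · exact Or.inl ⟨j, hj, h5⟩
    · refine Or.inr ⟨j, hj, h5.1.1.1, h5.1.1.2, h5.1.2, fun i hi hz => ?_⟩
      rcases h5.2 i hi with h6 | h6
      · exact absurd hz h6
      · exact h6

section sem

variable {F : Type*} [Field F]

theorem parabolic_eq {D : ChevalleyDatum} (U : UOK D) (hp : parOK D = true) (J : Set ℕ) :
    D.parabolicSubgroup F J = D.diagonalSubgroup F ⊔
      Subgroup.closure {g : GL D.Idx F | ∃ (r : ℕ) (t : F),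
        (D.IsPosRoot r ∨ D.InRootSub J r) ∧ (g : Matrix D.Idx D.Idx F) = D.x F r t} := by
  have M := U.m
  obtain ⟨s1, s2, s3⟩ := parOK_spec M.w.fd hp
  have hUB : D.posUnipotent F ≤ D.borelSubgroup F := le_sup_left
  have hBP : D.borelSubgroup F ≤ D.parabolicSubgroup F J := le_sup_left
  have nP : ∀ j ∈ J, j < D.rank →
      nV D M.w.add (D.simple j) (1 : F) ∈ D.parabolicSubgroup F J := by
    intro j hjJ hj
    obtain ⟨hpj, hnpj⟩ := simple_lt M.w.fd M.w.n hj
    apply (le_sup_right : _ ≤ D.parabolicSubgroup F J)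
    apply Subgroup.subset_closure
    exact ⟨j, hjJ, hj, nV_val D M.w.add hpj hnpj 1⟩
  have xP_pos : ∀ r, D.IsPosRoot r → ∀ t : F, xV D M.w.add r t ∈ D.parabolicSubgroup F J :=
    fun r hr t => hBP (hUB (xV_mem_posU M.w.add hr t))
  have key : ∀ r', D.nroots / 2 ≤ r' → r' < D.nroots → D.InRootSub J r' →
      ∀ t : F, xV D M.w.add (D.neg r') t ∈ D.parabolicSubgroup F J := by
    intro r'
    induction r' using Nat.strong_induction_on with
    | _ r' ih =>
      intro h1 h2 hin t
      rcases s3 r' h1 h2 with ⟨j, hj, hsj⟩ | ⟨j, hj, hc, hw1, hw2, hsupp⟩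
      · have hjJ : j ∈ J := by
          by_contra hn
          have := hin.2 j hj hn
          rw [← hsj] at this
          exact (s1 j hj).1 this
        obtain ⟨hpj, hnpj⟩ := simple_lt M.w.fd M.w.n hj
        have e := xV_conj M hj hpj (((nsgn D j (D.simple j) : ℤ) : F) * t)
        rw [sgn_sq, fw_simple M hj] at e
        rw [← hsj, ← e]
        exact mul_mem (mul_mem (nP j hjJ hj) (xP_pos _ (simplePos_spec M.spos hj) _))
          (inv_mem (nP j hjJ hj))
      · have hjJ : j ∈ J := by
          by_contra hn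
          exact hc (hin.2 j hj hn)
        have hwlt := (w_facts M.w.n hj h2).1
        have ih' := ih (fw D j r') hw2 hw1 hwlt
          ⟨hwlt, fun i hi hiJ => hsupp i hi (hin.2 i hi hiJ)⟩
        have hnw := neg_lt M.neg hwlt
        have e := xV_conj M hj hnw (((nsgn D j (D.neg (fw D j r')) : ℤ) : F) * t)
        rw [sgn_sq] at e
        have e2 : fw D j (D.neg (fw D j r')) = D.neg r' := by
          have := (w_facts M.w.n hj hwlt).2.2.2.1
          rw [fneg_eq M.w.fd, fneg_eq M.w.fd, (w_facts M.w.n hj h2).2.2.1] at this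
          exact this
        rw [e2] at e
        rw [← e]
        exact mul_mem (mul_mem (nP j hjJ hj) (ih' _)) (inv_mem (nP j hjJ hj))
  apply le_antisymm
  · unfold ChevalleyDatum.parabolicSubgroup
    apply sup_le
    · unfold ChevalleyDatum.borelSubgroup
      apply sup_le
      · unfold ChevalleyDatum.posUnipotent
        rw [Subgroup.closure_le]
        rintro g ⟨r, t, hr, hg⟩
        apply (le_sup_right : _ ≤ D.diagonalSubgroup F ⊔ _)
        exact Subgroup.subset_closure ⟨r, t, Or.inl hr, hg⟩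
      · exact le_sup_left
    · rw [Subgroup.closure_le]
      rintro g ⟨j, hjJ, hj, hg⟩
      obtain ⟨hpj, hnpj⟩ := simple_lt M.w.fd M.w.n hj
      have e : g = nV D M.w.add (D.simple j) (1 : F) :=
        Units.ext (by rw [hg, nV_val D M.w.add hpj hnpj])
      rw [e, nV_eq_xxx D M.w.add hpj hnpj]
      apply (le_sup_right : _ ≤ D.diagonalSubgroup F ⊔ _)
      have hx1 : xV D M.w.add (D.simple j) (1 : F) ∈ Subgroup.closure {g : GL D.Idx F |
          ∃ (r : ℕ) (t : F), (D.IsPosRoot r ∨ D.InRootSub J r) ∧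
            (g : Matrix D.Idx D.Idx F) = D.x F r t} :=
        Subgroup.subset_closure ⟨_, _, Or.inl (simplePos_spec M.spos hj), xV_val D M.w.add _ _⟩
      have hx2 : xV D M.w.add (D.neg (D.simple j)) (-(1 : F)⁻¹) ∈
          Subgroup.closure {g : GL D.Idx F |
            ∃ (r : ℕ) (t : F), (D.IsPosRoot r ∨ D.InRootSub J r) ∧
              (g : Matrix D.Idx D.Idx F) = D.x F r t} := by
        apply Subgroup.subset_closure
        refine ⟨_, _, Or.inr ⟨hnpj, fun i hi hiJ => ?_⟩, xV_val D M.w.add _ _⟩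
        exact ((s1 j hj).2 i hi (fun h => hiJ (h ▸ hjJ))).2
      exact mul_mem hx1 (mul_mem hx2 hx1)
  · apply sup_le
    · exact le_trans (le_sup_right : D.diagonalSubgroup F ≤ D.borelSubgroup F) hBP
    · rw [Subgroup.closure_le]
      rintro g ⟨r, t, hr, hg⟩
      have e : g = xV D M.w.add r t := Units.ext (by rw [hg, xV_val])
      rw [e]
      rcases hr with hr | hr
      · exact xP_pos r hr t
      · rcases posnegOK_spec M.pn hr.1 with hpos | hneg
        · exact xP_pos r hpos t
        · have hnn : D.neg (D.neg r) = r := neg_neg_root M.w.fd U.ninv hr.1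
          rw [← hnn]
          refine key (D.neg r) (negTriOK_spec M.ntri hneg).2.1 (neg_lt M.neg hr.1)
            ⟨neg_lt M.neg hr.1, fun i hi hiJ => ?_⟩ t
          have h5 := s2 r hr.1 i hi
          have h6 : cor D r i = 0 := hr.2 i hi hiJ
          rw [h6, neg_zero] at h5
          exact h5

end sem

end Cfsg.Agent.Helper7
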