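import Cfsg.Agent.Helper7.ChevBN

set_option autoImplicit false
set_option linter.unusedSectionVars false
set_option linter.unusedVariables false
open Cfsg

namespace Cfsg.Agent.Helper7

open Cfsg.Lie

open scoped commutatorElement

theorem comm_mem_map {G : Type*} [Group G] (H : Subgroup G) {a b : G} (ha : a ∈ H)
    (hb : b ∈ H) : a * b * a⁻¹ * b⁻¹ ∈ (commutator ↥H).map H.subtype :=
  ⟨⁅(⟨a, ha⟩ : ↥H), ⟨b, hb⟩⁆,
    Subgroup.commutator_mem_commutator (Subgroup.mem_top _) (Subgroup.mem_top _), rfl⟩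

theorem conj_mem_map {G : Type*} [Group G] (H : Subgroup G) {g k : G} (hg : g ∈ H)
    (hk : k ∈ (commutator ↥H).map H.subtype) :
    g * k * g⁻¹ ∈ (commutator ↥H).map H.subtype := by
  obtain ⟨y, hy, rfl⟩ := hk
  exact ⟨⟨g, hg⟩ * y * ⟨g, hg⟩⁻¹,
    (inferInstance : (commutator ↥H).Normal).conj_mem y hy ⟨g, hg⟩, rfl⟩

theorem perfect_of_le {G : Type*} [Group G] (H : Subgroup G)
    (h : H ≤ (commutator ↥H).map H.subtype) : commutator ↥H = ⊤ := by
  rw [eq_top_iff]
  intro x _
  obtain ⟨y, hy, hyx⟩ := h x.2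
  have : y = x := Subtype.ext hyx
  rw [← this]
  exact hy

def perfOK (D : ChevalleyDatum) (certs : List (ℕ × ℕ)) : Bool :=
  (List.range D.rank).all fun j =>
    Nat.blt (certs.getD j (0, 0)).1 D.nroots && Nat.blt (certs.getD j (0, 0)).2 D.nroots &&
      !(Nat.beq (certs.getD j (0, 0)).2 (certs.getD j (0, 0)).1) &&
      !(Nat.beq (certs.getD j (0, 0)).2 (fneg D (certs.getD j (0, 0)).1)) &&
      (decide (D.commTerms (certs.getD j (0, 0)).1 (certs.getD j (0, 0)).2 =
          [(fsimple D j, 1, 1, 1)]) ||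
        decide (D.commTerms (certs.getD j (0, 0)).1 (certs.getD j (0, 0)).2 =
          [(fsimple D j, -1, 1, 1)]))

theorem perfOK_spec {D : ChevalleyDatum} (h : fdOK D = true) {certs : List (ℕ × ℕ)}
    (hp : perfOK D certs = true) {j : ℕ} (hj : j < D.rank) :
    ∃ r s : ℕ, ∃ c : ℤ, r < D.nroots ∧ s < D.nroots ∧ s ≠ r ∧ s ≠ D.neg r ∧
      D.commTerms r s = [(D.simple j, c, 1, 1)] ∧ (c = 1 ∨ c = -1) := by
  unfold perfOK at hp
  rw [List.all_eq_true] at hp
  have h1 := hp j (List.mem_range.mpr hj)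
  simp only [Bool.and_eq_true, Bool.or_eq_true, Nat.blt_eq, Bool.not_eq_true',
    decide_eq_true_eq, fsimple_eq, fneg_eq h] at h1
  obtain ⟨⟨⟨⟨a1, a2⟩, a3⟩, a4⟩, a5⟩ := h1
  rcases a5 with a5 | a5
  · exact ⟨_, _, 1, a1, a2, beq_false_ne a3, beq_false_ne a4, a5, Or.inl rfl⟩
  · exact ⟨_, _, -1, a1, a2, beq_false_ne a3, beq_false_ne a4, a5, Or.inr rfl⟩

section sem

variable {F : Type*} [Field F]

def PK (D : ChevalleyDatum) (F : Type*) [Field F] : Subgroup (GL D.Idx F) :=
  (commutator ↥(D.group F)).map (D.group F).subtype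

theorem perf_comm {D : ChevalleyDatum} (M : MOK D) (hcf : CF D F) {r s p : ℕ} {c : ℤ}
    (hr : r < D.nroots) (hs : s < D.nroots) (h1 : s ≠ r) (h2 : s ≠ D.neg r)
    (hct : D.commTerms r s = [(p, c, 1, 1)]) (hc : (c : F) ≠ 0) (t : F) :
    xV D M.w.add p t ∈ PK D F := by
  have e := comm_xV M.w.add hcf hr hs h1 h2 (-(t / (c : F))) (1 : F)
  have ew : wordU D M.w.add (D.commWord F r s (-(t / (c : F))) 1) = xV D M.w.add p t := by
    unfold ChevalleyDatum.commWord
    rw [hct]
    simp only [List.map_cons, List.map_nil, wordU, List.prod_cons, List.prod_nil, mul_one]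
    congr 1
    field_simp
  rw [ew] at e
  have e2 : xV D M.w.add p t = (xV D M.w.add s (1 : F))⁻¹ *
      (xV D M.w.add r (-(t / (c : F))))⁻¹ * (xV D M.w.add s (1 : F))⁻¹⁻¹ *
      (xV D M.w.add r (-(t / (c : F))))⁻¹⁻¹ := by
    have e3 : xV D M.w.add p t = (xV D M.w.add r (-(t / (c : F))) * xV D M.w.add s (1 : F))⁻¹ *
        (xV D M.w.add s (1 : F) * xV D M.w.add r (-(t / (c : F)))) := by
      rw [e]
      group
    rw [e3]
    group
  rw [e2]
  exact comm_mem_map _ (inv_mem (xV_mem_group D M.w.add s 1))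
    (inv_mem (xV_mem_group D M.w.add r _))

theorem perf_torus {D : ChevalleyDatum} (M : MOK D) {i p : ℕ} (hi : i < D.rank)
    (hp : p < D.nroots) (c : Fˣ) (hc : c ^ D.cartan i p ≠ 1) (t : F) :
    xV D M.w.add p t ∈ PK D F := by
  have hχ : chi D (fun j => if j = i then c else 1) p = c ^ D.cartan i p := chi_single D hi c p
  have hh : DgU D (chi D (fun j => if j = i then c else 1)) ∈ D.group F := by
    apply (borel_mon_group (F := F) M).1
    apply (le_sup_right : D.diagonalSubgroup F ≤ D.borelSubgroup F)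
    rw [diag_eq_torus M.w]
    exact ⟨_, rfl⟩
  have hne : ((chi D (fun j => if j = i then c else 1) p : Fˣ) : F) - 1 ≠ 0 := by
    rw [hχ]
    intro h
    apply hc
    apply Units.ext
    rw [Units.val_one]
    exact sub_eq_zero.mp h
  have e := DgU_xV M.w (fun j => if j = i then c else 1) hp
    (t / (((chi D (fun j => if j = i then c else 1) p : Fˣ) : F) - 1))
  have e2 : xV D M.w.add p t = DgU D (chi D (fun j => if j = i then c else 1)) *
      xV D M.w.add p (t / (((chi D (fun j => if j = i then c else 1) p : Fˣ) : F) - 1)) *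
      (DgU D (chi D (fun j => if j = i then c else 1)))⁻¹ *
      (xV D M.w.add p (t / (((chi D (fun j => if j = i then c else 1) p : Fˣ) : F) - 1)))⁻¹ := by
    rw [e, mul_assoc (xV D M.w.add p _) (DgU D _), mul_inv_cancel, mul_one,
      xV_inv D M.w.add hp, xV_add D M.w.add hp]
    congr 1
    field_simp
    ring
  rw [e2]
  exact comm_mem_map _ hh (xV_mem_group D M.w.add p _)

theorem perfect_of_base {D : ChevalleyDatum} (U : UOK D)
    (hbase : ∀ j < D.rank, ∀ t : F, xV D U.m.w.add (D.simple j) t ∈ PK D F) :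
    commutator ↥(D.group F) = ⊤ := by
  have M := U.m
  obtain ⟨hBG, hNG, hsup⟩ := borel_mon_group (F := F) M
  have hall : ∀ r < D.nroots, ∀ t : F, xV D M.w.add r t ∈ PK D F := by
    apply root_induction M.w.reach (fun r => ∀ t : F, xV D M.w.add r t ∈ PK D F)
    · exact hbase
    · intro i hi s hs ih t
      have e := xV_conj M hi hs (((nsgn D i s : ℤ) : F) * t)
      rw [sgn_sq] at e
      rw [← e]
      exact conj_mem_map _ (hNG (nV_simple_mem_mon M hi)) (ih _)
  apply perfect_of_le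
  refine (Subgroup.closure_le (K := PK D F)).mpr ?_
  rintro g ⟨r, t, hg⟩
  have e : g = xV D M.w.add r.val t :=
    Units.ext (by rw [hg, xV_val, x_of_lt D F r.isLt])
  rw [e]
  exact hall r.val r.isLt t

theorem perfect_of_certs {D : ChevalleyDatum} (U : UOK D) (hcf : CF D F)
    (certs : List (ℕ × ℕ)) (h : perfOK D certs = true) : commutator ↥(D.group F) = ⊤ := by
  apply perfect_of_base U
  intro j hj t
  obtain ⟨r, s, c, hr, hs, h1, h2, hct, hc⟩ := perfOK_spec U.m.w.fd h hj
  apply perf_comm U.m hcf hr hs h1 h2 hct _ t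
  rcases hc with rfl | rfl <;> simp

end sem

end Cfsg.Agent.Helper7
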