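import Cfsg.Agent.Helper7.ChevOrdU

set_option autoImplicit false
set_option linter.unusedSectionVars false
set_option linter.unusedVariables false
open Cfsg

namespace Cfsg.Agent.Helper7

open Cfsg.Lie

theorem filter_le_range (m : ℕ) : ∀ n : ℕ,
    (List.range n).filter (fun r => decide (m ≤ r)) = List.range' m (n - m) := by
  intro n
  induction n with
  | zero => simp
  | succ n ih =>
    rw [List.range_succ, List.filter_append, ih]
    by_cases h : m ≤ n
    · rw [show n + 1 - m = (n - m) + 1 by omega, List.range'_concat]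
      simp [h]
    · rw [show n + 1 - m = 0 by omega, show n - m = 0 by omega]
      simp [h]

theorem posRoots_eq {D : ChevalleyDatum} (M : MOK D) :
    D.posRoots = List.range' (D.nroots / 2) (D.nroots - D.nroots / 2) := by
  unfold ChevalleyDatum.posRoots
  rw [← filter_le_range]
  apply List.filter_congr
  intro r hr
  rw [decide_eq_decide]
  exact isPos_iff M (List.mem_range.mp hr)

section sem

variable {F : Type*} [Field F]

def wk (t : ℕ → F) (k j : ℕ) : List (ℕ × F) := (List.range' k j).map fun r => (r, t r)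

theorem wk_succ (t : ℕ → F) (k j : ℕ) : wk t k (j + 1) = (k, t k) :: wk t (k + 1) j := by
  unfold wk
  rw [List.range'_succ, List.map_cons]

theorem wk_congr {t t' : ℕ → F} (k j : ℕ) (h : ∀ r, k ≤ r → r < k + j → t r = t' r) :
    wk t k j = wk t' k j := by
  unfold wk
  apply List.map_congr_left
  intro r hr
  rw [List.mem_range'_1] at hr
  rw [h r hr.1 hr.2]

theorem wordU_cons (D : ChevalleyDatum) (ha : addCheck2 D = true) (p : ℕ × F)
    (w : List (ℕ × F)) : wordU D ha (p :: w) = xV D ha p.1 p.2 * wordU D ha w := by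
  unfold wordU
  rw [List.map_cons, List.prod_cons]

theorem wk_mem {D : ChevalleyDatum} (ha : addCheck2 D = true) (t : ℕ → F) : ∀ j k,
    k + j = D.nroots → wordU D ha (wk t k j) ∈ Vk D F k := by
  intro j
  induction j with
  | zero =>
    intro k _
    unfold wk wordU
    simp [one_mem]
  | succ j ih =>
    intro k hk
    rw [wk_succ, wordU_cons]
    exact mul_mem (xV_mem_Vk ha (le_refl k) (by omega) _)
      (Vk_anti D (Nat.le_succ k) (ih (k + 1) (by omega)))

theorem wk_exists {D : ChevalleyDatum} {adj : List (List ℤ)} {L : ℤ} (V : VOK D adj L)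
    (hcf : CF D F) : ∀ j k, k + j = D.nroots → D.nroots / 2 ≤ k → ∀ g ∈ Vk D F k,
      ∃ t : ℕ → F, g = wordU D V.u.m.w.add (wk t k j) := by
  have ha := V.u.m.w.add
  intro j
  induction j with
  | zero =>
    intro k hk _ g hg
    rw [show k = D.nroots by omega, Vk_top, Subgroup.mem_bot] at hg
    refine ⟨fun _ => 0, ?_⟩
    rw [hg]
    unfold wk wordU
    simp
  | succ j ih =>
    intro k hk hk1 g hg
    obtain ⟨t₀, v, hv, rfl⟩ := Vk_dec V hcf hk1 (by omega) hg
    obtain ⟨t', rfl⟩ := ih (k + 1) (by omega) (by omega) v hv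
    refine ⟨Function.update t' k t₀, ?_⟩
    rw [wk_succ, wordU_cons, Function.update_self]
    congr 2
    apply wk_congr
    intro r hr1 hr2
    rw [Function.update_of_ne (by omega)]

theorem wk_unique {D : ChevalleyDatum} {adj : List (List ℤ)} {L : ℤ} (V : VOK D adj L) :
    ∀ j k, k + j = D.nroots → D.nroots / 2 ≤ k → ∀ t t' : ℕ → F,
      wordU D V.u.m.w.add (wk t k j) = wordU D V.u.m.w.add (wk t' k j) →
        ∀ r, k ≤ r → r < D.nroots → t r = t' r := by
  have ha := V.u.m.w.add
  intro j
  induction j with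
  | zero =>
    intro k hk _ t t' _ r hr1 hr2
    omega
  | succ j ih =>
    intro k hk hk1 t t' e r hr1 hr2
    rw [wk_succ, wordU_cons, wk_succ, wordU_cons] at e
    obtain ⟨h1, h2⟩ := Vk_unique V hk1 (by omega) (wk_mem ha t j (k + 1) (by omega))
      (wk_mem ha t' j (k + 1) (by omega)) e
    by_cases hrk : r = k
    · rw [hrk]
      exact h1
    · exact ih (k + 1) (by omega) (by omega) t t' h2 r (by omega) hr2

theorem posU_product {D : ChevalleyDatum} {adj : List (List ℤ)} {L : ℤ} (V : VOK D adj L)
    (hcf : CF D F) :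
    (∀ g : GL D.Idx F, g ∈ D.posUnipotent F →
      ∃! t : ℕ → F, (∀ r, ¬ D.IsPosRoot r → t r = 0) ∧
        (g : Matrix D.Idx D.Idx F) = D.wordMat F (D.posRoots.map fun r => (r, t r))) ∧
    (∀ t : ℕ → F, ∃ g : GL D.Idx F, g ∈ D.posUnipotent F ∧
      (g : Matrix D.Idx D.Idx F) = D.wordMat F (D.posRoots.map fun r => (r, t r))) := by
  have M := V.u.m
  have ha := M.w.add
  have hsum : D.nroots / 2 + (D.nroots - D.nroots / 2) = D.nroots := by omega
  have hword : ∀ t : ℕ → F, D.posRoots.map (fun r => (r, t r)) =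
      wk t (D.nroots / 2) (D.nroots - D.nroots / 2) := by
    intro t
    rw [posRoots_eq M]
    rfl
  constructor
  · intro g hg
    rw [← Vk_half M] at hg
    obtain ⟨t₁, ht₁⟩ := wk_exists V hcf _ _ hsum (le_refl _) g hg
    classical
    refine ⟨fun r => if D.IsPosRoot r then t₁ r else 0, ⟨fun r hr => if_neg hr, ?_⟩, ?_⟩
    · rw [hword, ht₁, wordU_val]
      congr 1
      apply wk_congr
      intro r hr1 hr2
      rw [if_pos ((isPos_iff M (by omega)).mpr hr1)]
    · rintro t' ⟨ht'0, ht'⟩
      have e : wordU D ha (wk t' (D.nroots / 2) (D.nroots - D.nroots / 2)) =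
          wordU D ha (wk t₁ (D.nroots / 2) (D.nroots - D.nroots / 2)) := by
        apply Units.ext
        rw [wordU_val, ← hword, ← ht', ht₁, wordU_val]
      have h1 := wk_unique V _ _ hsum (le_refl _) t' t₁ e
      funext r
      by_cases hr : D.IsPosRoot r
      · rw [if_pos hr]
        exact h1 r ((isPos_iff M hr.1).mp hr) hr.1
      · rw [if_neg hr]
        exact ht'0 r hr
  · intro t
    refine ⟨wordU D ha (wk t (D.nroots / 2) (D.nroots - D.nroots / 2)), ?_, ?_⟩
    · rw [← Vk_half M]
      exact wk_mem ha t _ _ hsum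
    · rw [wordU_val, hword]

end sem

end Cfsg.Agent.Helper7
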