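import Cfsg.Prelude.Def_ChevAutomorphisms
import Cfsg.Agent.Helper7.ChevDC
import Cfsg.Agent.Helper7.ChkUp

set_option autoImplicit false
set_option linter.unusedSectionVars false
set_option linter.unusedVariables false
open Cfsg

namespace Cfsg.Agent.Helper7

open Cfsg.Lie

def rcGo (D : ChevalleyDatum) (r : ℕ) : ℕ → List (ℕ × ℤ) → Bool
  | _, [] => true
  | prev, (u, _) :: rest =>
    decide (prev < D.nroots) && decide (D.chainRoot r prev 1 = some u) && rcGo D r u rest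

def rcOK (D : ChevalleyDatum) : Bool :=
  (List.range D.nroots).all fun r =>
    (D.chain.getD r #[]).toList.all fun e => rcGo D r e.1 e.2.toList

section sem

variable {F : Type*} [Field F]

theorem rcGo_spec {D : ChevalleyDatum} {r : ℕ} (hr : r < D.nroots) {χ : ℕ → Fˣ}
    (hχ : D.IsRootCharacter χ) : ∀ (L : List (ℕ × ℤ)) (prev : ℕ), rcGo D r prev L = true →
      ∀ (j u : ℕ) (m : ℤ), L[j]? = some (u, m) → χ u = χ r ^ (j + 1) * χ prev := by
  intro L
  induction L with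
  | nil =>
    intro prev _ j u m h
    simp at h
  | cons a L ih =>
    intro prev h j u m hj
    obtain ⟨u0, m0⟩ := a
    simp only [rcGo, Bool.and_eq_true, decide_eq_true_eq] at h
    obtain ⟨⟨hprev, hc⟩, hrest⟩ := h
    have h0 : χ u0 = χ r * χ prev := hχ.2 r prev u0 hr hprev hc
    cases j with
    | zero =>
      simp only [List.getElem?_cons_zero, Option.some.injEq, Prod.mk.injEq] at hj
      obtain ⟨rfl, _⟩ := hj
      rw [h0]
      simp
    | succ j =>
      rw [List.getElem?_cons_succ] at hj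
      rw [ih u0 hrest j u m hj, h0, pow_succ (χ r) (j + 1), mul_assoc]

theorem rc_chain {D : ChevalleyDatum} (hrc : rcOK D = true) {χ : ℕ → Fˣ}
    (hχ : D.IsRootCharacter χ) {r s u : ℕ} (hr : r < D.nroots) {km : ℕ × ℤ}
    (hkm : km ∈ D.chainCoeff r s u) : χ u = χ r ^ km.1 * χ s := by
  obtain ⟨e, he, hes, j, hj, hk⟩ := mem_chainCoeff D hkm
  unfold rcOK at hrc
  rw [List.all_eq_true] at hrc
  have h1 := hrc r (List.mem_range.mpr hr)
  rw [List.all_eq_true] at h1
  have h2 := h1 e he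
  rw [hk, ← hes]
  exact rcGo_spec hr hχ _ _ h2 j u km.2 hj

theorem rc_conj {D : ChevalleyDatum} (hrc : rcOK D = true) (χ : ℕ → Fˣ)
    (hχ : D.IsRootCharacter χ) {r : ℕ} (hr : r < D.nroots) (t : F) :
    (DgU D χ : Matrix D.Idx D.Idx F) * D.x F r t =
      D.x F r ((χ r : F) * t) * (DgU D χ : Matrix D.Idx D.Idx F) := by
  rw [x_of_lt D F hr, x_of_lt D F hr]
  apply diag_conj D χ ⟨r, hr⟩ t
  · show χ (D.neg r) * χ r = 1
    rw [hχ.1 r hr, inv_mul_cancel]
  · intro s u km hkm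
    exact rc_chain hrc hχ hr hkm

theorem rc_inv {D : ChevalleyDatum} {χ : ℕ → Fˣ} (hχ : D.IsRootCharacter χ) :
    D.IsRootCharacter (fun s => (χ s)⁻¹) := by
  refine ⟨fun r hr => ?_, fun r s k hr hs hk => ?_⟩
  · show (χ (D.neg r))⁻¹ = ((χ r)⁻¹)⁻¹
    rw [hχ.1 r hr]
  · show (χ k)⁻¹ = (χ r)⁻¹ * (χ s)⁻¹
    rw [hχ.2 r s k hr hs hk, mul_inv]

theorem DgU_comm (D : ChevalleyDatum) (d d' : ℕ → Fˣ) : DgU D d * DgU D d' = DgU D d' * DgU D d := by
  rw [DgU_mul, DgU_mul]
  exact DgU_congr D (fun s _ => mul_comm _ _)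

theorem rc_conj_borel {D : ChevalleyDatum} (W : WOK D) (hrc : rcOK D = true) (χ : ℕ → Fˣ)
    (hχ : D.IsRootCharacter χ) :
    ∀ b ∈ D.borelSubgroup F, DgU D χ * b * (DgU D χ)⁻¹ ∈ D.borelSubgroup F := by
  have hUall : ∀ u ∈ D.posUnipotent F, DgU D χ * u * (DgU D χ)⁻¹ ∈ D.posUnipotent F := by
    unfold ChevalleyDatum.posUnipotent
    apply conj_closure
    rintro x ⟨r, t, hr, hx⟩
    have e : DgU D χ * x * (DgU D χ)⁻¹ = xV D W.add r ((χ r : F) * t) := by
      rw [mul_inv_eq_iff_eq_mul]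
      apply Units.ext
      rw [Units.val_mul, Units.val_mul, hx, xV_val]
      exact rc_conj hrc χ hχ hr.1 t
    rw [e]
    exact Subgroup.subset_closure ⟨r, _, hr, xV_val D W.add r _⟩
  intro b hb
  obtain ⟨u, hu, h, hh, rfl⟩ := borel_dec W hb
  have hU := hUall u hu
  have hH : DgU D χ * h * (DgU D χ)⁻¹ = h := by
    obtain ⟨z, rfl⟩ := hh
    rw [DgU_comm, mul_inv_cancel_right]
  have e : DgU D χ * (u * h) * (DgU D χ)⁻¹ =
      (DgU D χ * u * (DgU D χ)⁻¹) * (DgU D χ * h * (DgU D χ)⁻¹) := by group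
  rw [e, hH]
  apply Subgroup.mul_mem
  · exact (le_sup_left : D.posUnipotent F ≤ D.borelSubgroup F) hU
  · apply (le_sup_right : D.diagonalSubgroup F ≤ D.borelSubgroup F)
    rw [diag_eq_torus W]
    exact hh

theorem charDiag_mem {D : ChevalleyDatum}
    (hD : D ∈ [chevG2, chevB2, chevD4, chevF4, chevE6, chevE7, chevE8]) (hrc : rcOK D = true)
    (χ : ℕ → Fˣ) (hχ : D.IsRootCharacter χ) (g : GL D.Idx F) (hg : g ∈ D.group F)
    (hgχ : (g : Matrix D.Idx D.Idx F) = D.charDiag F χ) : g ∈ D.diagonalSubgroup F := by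
  have U := uok_of_mem hD
  have W := U.m.w
  have e : g = DgU D χ := by
    apply Units.ext
    rw [hgχ, DgU_val]
    unfold ChevalleyDatum.charDiag
    congr 1
    funext a
    rcases a with a | a <;> simp [dgv]
  subst e
  have hnorm : DgU D χ ∈ Subgroup.normalizer (D.borelSubgroup F : Set (GL D.Idx F)) := by
    rw [Subgroup.mem_normalizer_iff]
    intro b
    constructor
    · exact rc_conj_borel W hrc χ hχ b
    · intro hb
      have h1 := rc_conj_borel W hrc (fun s => (χ s)⁻¹) (rc_inv hχ) _ hb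
      rw [← DgU_inv] at h1
      have e2 : (DgU D χ)⁻¹ * (DgU D χ * b * (DgU D χ)⁻¹) * ((DgU D χ)⁻¹)⁻¹ = b := by group
      rw [e2] at h1
      exact h1
  have hB := normalizer_borel_mem U (cf_of_mem hD) hg hnorm
  obtain ⟨u, hu, h, hh, e2⟩ := borel_dec W hB
  obtain ⟨z, rfl⟩ := hh
  have hu1 : u = 1 := by
    have e3 : u = DgU D (fun s => χ s * (chi D z s)⁻¹) := by
      rw [← DgU_mul, ← DgU_inv, e2, mul_inv_cancel_right]
    have hL : Lvl (ckey D) 1 ((u : Matrix D.Idx D.Idx F) - 1) :=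
      posUnipotent_le_utSub D U.m.ptri F hu
    rw [e3] at hL ⊢
    apply Units.ext
    rw [Units.val_one]
    exact diag_eq_one_of_lvl _ _ hL
  rw [e2, hu1, one_mul, diag_eq_torus W]
  exact ⟨z, rfl⟩

end sem

end Cfsg.Agent.Helper7
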