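import Cfsg.Agent.Helper7.ChevG

set_option autoImplicit false
set_option linter.unusedSectionVars false
set_option linter.unusedVariables false
open Cfsg

namespace Cfsg.Agent.Helper7

open Cfsg.Lie

def rStep (D : ChevalleyDatum) (i : ℕ) (acc s : ℕ) : ℕ :=
  bif Nat.testBit acc s then Nat.lor acc (Nat.pow 2 (fw D i s)) else acc

def sfoldN {α : Type} (f : ℕ → α → ℕ) : ℕ → List α → ℕ
  | acc, [] => acc
  | acc, a :: l =>
    match f acc a with
    | 0 => sfoldN f 0 l
    | n + 1 => sfoldN f (n + 1) l

theorem sfoldN_eq {α : Type} (f : ℕ → α → ℕ) (acc : ℕ) (l : List α) :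
    sfoldN f acc l = l.foldl f acc := by
  induction l generalizing acc with
  | nil => rfl
  | cons a l ih =>
    rw [List.foldl_cons]
    unfold sfoldN
    split
    · next h => rw [ih, h]
    · next n h => rw [ih, h]

def rPass (D : ChevalleyDatum) (J : List ℕ) (acc : ℕ) : ℕ :=
  sfoldN (fun a i => sfoldN (rStep D i) a (List.range D.nroots)) acc J

def rIter (D : ChevalleyDatum) (J : List ℕ) : ℕ → ℕ → ℕ
  | 0, m => m
  | k + 1, m => rIter D J k (rPass D J m)

def maskOf (l : List ℕ) : ℕ := l.foldl (fun a s => Nat.lor a (Nat.pow 2 s)) 0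

def reachOK (D : ChevalleyDatum) : Bool :=
  Nat.beq (rIter D (List.range D.rank) 6 (maskOf ((List.range D.rank).map (fsimple D))))
    (2 ^ D.nroots - 1)

theorem foldl_inv {α β : Type*} (Inv : β → Prop) (f : β → α → β) (l : List α)
    (hf : ∀ b, ∀ a ∈ l, Inv b → Inv (f b a)) : ∀ b, Inv b → Inv (l.foldl f b) := by
  induction l with
  | nil => intro b hb; exact hb
  | cons a l ih =>
    intro b hb
    rw [List.foldl_cons]
    exact ih (fun b' a' ha' => hf b' a' (List.mem_cons_of_mem _ ha')) _
      (hf b a List.mem_cons_self hb)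

theorem testBit_maskOf_aux (l : List ℕ) (s : ℕ) : ∀ acc,
    (l.foldl (fun a s => Nat.lor a (Nat.pow 2 s)) acc).testBit s = true →
      acc.testBit s = true ∨ s ∈ l := by
  induction l with
  | nil => intro acc h; left; exact h
  | cons x l ih =>
    intro acc h
    rw [List.foldl_cons] at h
    rcases ih _ h with h1 | h1
    · change (acc ||| 2 ^ x).testBit s = true at h1
      rw [Nat.testBit_or, Bool.or_eq_true, Nat.testBit_two_pow, decide_eq_true_eq] at h1
      rcases h1 with h1 | h1
      · left; exact h1
      · right; rw [h1]; exact List.mem_cons_self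
    · right; exact List.mem_cons_of_mem _ h1

theorem testBit_maskOf (l : List ℕ) (s : ℕ) (h : (maskOf l).testBit s = true) : s ∈ l := by
  rcases testBit_maskOf_aux l s 0 h with h1 | h1
  · rw [Nat.zero_testBit] at h1
    exact Bool.noConfusion h1
  · exact h1

theorem rStep_good (D : ChevalleyDatum) (P : ℕ → Prop) (i : ℕ)
    (hstep : ∀ s < D.nroots, P s → P (fw D i s)) (acc s : ℕ) (hs : s < D.nroots)
    (hg : ∀ u, acc.testBit u = true → P u) : ∀ u, (rStep D i acc s).testBit u = true → P u := by
  intro u hu
  unfold rStep at hu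
  cases hb : Nat.testBit acc s with
  | false =>
    rw [hb, cond_false] at hu
    exact hg u hu
  | true =>
    rw [hb, cond_true] at hu
    change (acc ||| 2 ^ (fw D i s)).testBit u = true at hu
    rw [Nat.testBit_or, Bool.or_eq_true, Nat.testBit_two_pow, decide_eq_true_eq] at hu
    rcases hu with hu | hu
    · exact hg u hu
    · rw [← hu]
      exact hstep s hs (hg s hb)

theorem rPass_good (D : ChevalleyDatum) (J : List ℕ) (P : ℕ → Prop)
    (hstep : ∀ i ∈ J, ∀ s < D.nroots, P s → P (fw D i s)) (acc : ℕ)
    (hg : ∀ u, acc.testBit u = true → P u) : ∀ u, (rPass D J acc).testBit u = true → P u := by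
  unfold rPass
  rw [sfoldN_eq]
  apply foldl_inv (fun m : ℕ => ∀ u, m.testBit u = true → P u) _ J _ acc hg
  intro b i hi hb
  rw [sfoldN_eq]
  apply foldl_inv (fun m : ℕ => ∀ u, m.testBit u = true → P u) _ (List.range D.nroots) _ b hb
  intro b' s hs hb'
  exact rStep_good D P i (hstep i hi) b' s (List.mem_range.mp hs) hb'

theorem reach_induction (D : ChevalleyDatum) (J init : List ℕ) (K : ℕ) (P : ℕ → Prop)
    (hinit : ∀ s ∈ init, P s) (hstep : ∀ i ∈ J, ∀ s < D.nroots, P s → P (fw D i s)) :
    ∀ r, Nat.testBit (rIter D J K (maskOf init)) r = true → P r := by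
  have key : ∀ (K m : ℕ), (∀ u, m.testBit u = true → P u) →
      ∀ u, (rIter D J K m).testBit u = true → P u := by
    intro K
    induction K with
    | zero => intro m hm; exact hm
    | succ K ih =>
      intro m hm
      exact ih _ (rPass_good D J P hstep m hm)
  exact key K _ (fun u hu => hinit u (testBit_maskOf init u hu))

theorem root_induction {D : ChevalleyDatum} (hr : reachOK D = true) (P : ℕ → Prop)
    (hsimp : ∀ j < D.rank, P (D.simple j))
    (hstep : ∀ i < D.rank, ∀ s < D.nroots, P s → P (fw D i s)) : ∀ r < D.nroots, P r := by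
  intro r hr'
  apply reach_induction D (List.range D.rank) ((List.range D.rank).map (fsimple D)) 6 P
  · intro s hs
    rw [List.mem_map] at hs
    obtain ⟨j, hj, rfl⟩ := hs
    rw [fsimple_eq]
    exact hsimp j (List.mem_range.mp hj)
  · intro i hi
    exact hstep i (List.mem_range.mp hi)
  · unfold reachOK at hr
    rw [Nat.eq_of_beq_eq_true hr, Nat.testBit_two_pow_sub_one]
    exact decide_eq_true hr'

end Cfsg.Agent.Helper7
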