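import Mathlib

set_option autoImplicit false
set_option linter.unusedSectionVars false
set_option linter.unusedVariables false

namespace Cfsg.Agent.Helper7

open scoped Matrix

section defs

variable {F : Type*} [Field F]

def xS (t : F) : Matrix.SpecialLinearGroup (Fin 2) F := ⟨!![1, t; 0, 1], by simp [Matrix.det_fin_two]⟩

def yS (t : F) : Matrix.SpecialLinearGroup (Fin 2) F := ⟨!![1, 0; t, 1], by simp [Matrix.det_fin_two]⟩

def wS : Matrix.SpecialLinearGroup (Fin 2) F := ⟨!![0, 1; -1, 0], by simp [Matrix.det_fin_two]⟩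

theorem sl2_mul_apply (g h : Matrix.SpecialLinearGroup (Fin 2) F) (i j : Fin 2) :
    (g * h).1 i j = g.1 i 0 * h.1 0 j + g.1 i 1 * h.1 1 j := by
  show (g.1 * h.1) i j = _
  rw [Matrix.mul_apply, Fin.sum_univ_two]

theorem sl2_det (g : Matrix.SpecialLinearGroup (Fin 2) F) :
    g.1 0 0 * g.1 1 1 - g.1 0 1 * g.1 1 0 = 1 := by
  have h := g.2
  rwa [Matrix.det_fin_two] at h

theorem sl2_ext {g h : Matrix.SpecialLinearGroup (Fin 2) F} (h00 : g.1 0 0 = h.1 0 0)
    (h01 : g.1 0 1 = h.1 0 1) (h10 : g.1 1 0 = h.1 1 0) (h11 : g.1 1 1 = h.1 1 1) : g = h := by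
  apply Subtype.ext
  ext i j
  fin_cases i <;> fin_cases j
  · exact h00
  · exact h01
  · exact h10
  · exact h11

@[simp] theorem xS_00 (t : F) : (xS t).1 0 0 = 1 := rfl
@[simp] theorem xS_01 (t : F) : (xS t).1 0 1 = t := rfl
@[simp] theorem xS_10 (t : F) : (xS t).1 1 0 = 0 := rfl
@[simp] theorem xS_11 (t : F) : (xS t).1 1 1 = 1 := rfl
@[simp] theorem yS_00 (t : F) : (yS t).1 0 0 = 1 := rfl
@[simp] theorem yS_01 (t : F) : (yS t).1 0 1 = 0 := rfl
@[simp] theorem yS_10 (t : F) : (yS t).1 1 0 = t := rfl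
@[simp] theorem yS_11 (t : F) : (yS t).1 1 1 = 1 := rfl
@[simp] theorem wS_00 : (wS : Matrix.SpecialLinearGroup (Fin 2) F).1 0 0 = 0 := rfl
@[simp] theorem wS_01 : (wS : Matrix.SpecialLinearGroup (Fin 2) F).1 0 1 = 1 := rfl
@[simp] theorem wS_10 : (wS : Matrix.SpecialLinearGroup (Fin 2) F).1 1 0 = -1 := rfl
@[simp] theorem wS_11 : (wS : Matrix.SpecialLinearGroup (Fin 2) F).1 1 1 = 0 := rfl

theorem xS_mul (t : F) (g : Matrix.SpecialLinearGroup (Fin 2) F) :
    (xS t * g).1 0 0 = g.1 0 0 + t * g.1 1 0 ∧ (xS t * g).1 0 1 = g.1 0 1 + t * g.1 1 1 ∧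
      (xS t * g).1 1 0 = g.1 1 0 ∧ (xS t * g).1 1 1 = g.1 1 1 := by
  simp [sl2_mul_apply]

theorem wS_mul (g : Matrix.SpecialLinearGroup (Fin 2) F) :
    (wS * g).1 0 0 = g.1 1 0 ∧ (wS * g).1 0 1 = g.1 1 1 ∧
      (wS * g).1 1 0 = -g.1 0 0 ∧ (wS * g).1 1 1 = -g.1 0 1 := by
  simp [sl2_mul_apply]

theorem yS_eq (t : F) : yS t = wS * xS (-t) * wS⁻¹ := by
  rw [eq_mul_inv_iff_mul_eq]
  apply sl2_ext <;> simp [sl2_mul_apply]

theorem wS_eq : (wS : Matrix.SpecialLinearGroup (Fin 2) F) = xS 1 * yS (-1) * xS 1 := by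
  apply sl2_ext <;> simp [sl2_mul_apply]

def dG (a : F) : Matrix.SpecialLinearGroup (Fin 2) F :=
  xS a * wS * wS * wS * xS a⁻¹ * wS * xS a * wS * wS * wS

theorem dG_apply {a : F} (ha : a ≠ 0) :
    (dG a).1 0 0 = a ∧ (dG a).1 0 1 = 0 ∧ (dG a).1 1 0 = 0 ∧ (dG a).1 1 1 = a⁻¹ := by
  unfold dG
  simp [sl2_mul_apply]
  field_simp
  ring_nf
  simp

theorem sl2_gen (g : Matrix.SpecialLinearGroup (Fin 2) F) :
    g ∈ Submonoid.closure (Set.range (xS : F → Matrix.SpecialLinearGroup (Fin 2) F) ∪ {wS}) := by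
  have hx : ∀ t : F, xS t ∈ Submonoid.closure
      (Set.range (xS : F → Matrix.SpecialLinearGroup (Fin 2) F) ∪ {wS}) :=
    fun t => Submonoid.subset_closure (Or.inl ⟨t, rfl⟩)
  have hw : (wS : Matrix.SpecialLinearGroup (Fin 2) F) ∈ Submonoid.closure
      (Set.range (xS : F → Matrix.SpecialLinearGroup (Fin 2) F) ∪ {wS}) :=
    Submonoid.subset_closure (Or.inr rfl)
  have hd : ∀ a : F, dG a ∈ Submonoid.closure
      (Set.range (xS : F → Matrix.SpecialLinearGroup (Fin 2) F) ∪ {wS}) := by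
    intro a
    unfold dG
    exact mul_mem (mul_mem (mul_mem (mul_mem (mul_mem (mul_mem (mul_mem (mul_mem (mul_mem
      (hx _) hw) hw) hw) (hx _)) hw) (hx _)) hw) hw) hw
  have hdet := sl2_det g
  by_cases hc : g.1 1 0 = 0
  · have ha : g.1 0 0 ≠ 0 := by
      intro h0
      rw [h0, hc] at hdet
      simp at hdet
    have e : g = xS (g.1 0 0 * g.1 0 1) * dG (g.1 0 0) := by
      obtain ⟨d1, d2, d3, d4⟩ := dG_apply ha
      apply sl2_ext
      · simp [sl2_mul_apply, d1, d3]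
      · simp [sl2_mul_apply, d2, d4]
        field_simp
      · simp [sl2_mul_apply, d1, d3, hc]
      · simp [sl2_mul_apply, d2, d4]
        rw [hc] at hdet
        field_simp
        linear_combination hdet
    rw [e]
    exact mul_mem (hx _) (hd _)
  · have hc' : -(g.1 1 0)⁻¹ ≠ 0 := neg_ne_zero.mpr (inv_ne_zero hc)
    have e : g = xS (g.1 0 0 / g.1 1 0) * dG (-(g.1 1 0)⁻¹) * wS * xS (g.1 1 1 / g.1 1 0) := by
      obtain ⟨d1, d2, d3, d4⟩ := dG_apply hc'
      apply sl2_ext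
      · simp [sl2_mul_apply, d1, d2, d3, d4]
        field_simp
      · simp [sl2_mul_apply, d1, d2, d3, d4]
        field_simp
        linear_combination -hdet
      · simp [sl2_mul_apply, d1, d2, d3, d4]
      · simp [sl2_mul_apply, d1, d2, d3, d4]
        field_simp
    rw [e]
    exact mul_mem (mul_mem (mul_mem (hx _) (hd _)) hw) (hx _)

end defs

section hom

variable {F : Type*} [Field F] {G : Type*} [Group G]

open Classical in
noncomputable def phi0 (X H : F → G) (n : G) (g : Matrix.SpecialLinearGroup (Fin 2) F) : G :=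
  if g.1 1 0 = 0 then X (g.1 0 0 * g.1 0 1) * H (g.1 0 0)
  else X (g.1 0 0 / g.1 1 0) * H (-(g.1 1 0)⁻¹) * n * X (g.1 1 1 / g.1 1 0)

variable (X H : F → G) (n : G)
  (X_add : ∀ t u : F, X (t + u) = X t * X u)
  (XH : ∀ a u : F, a ≠ 0 → H a * X u = X (a ^ 2 * u) * H a)
  (nH : ∀ a : F, a ≠ 0 → n * H a = H a⁻¹ * n)
  (nn : n * n = H (-1))
  (H_mul : ∀ a b : F, a ≠ 0 → b ≠ 0 → H a * H b = H (a * b))
  (H_one : H 1 = 1)
  (nX : ∀ u : F, u ≠ 0 → n * X u = X (-u⁻¹) * H u⁻¹ * n * X (-u⁻¹) * n)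

include X_add in
theorem X_zero_of : X 0 = 1 := by
  have h := X_add 0 0
  rw [add_zero] at h
  have h2 : X 0 * X 0 = X 0 * 1 := by rw [mul_one]; exact h.symm
  exact mul_left_cancel h2

include X_add in
theorem phi0_xS_mul (t : F) (g : Matrix.SpecialLinearGroup (Fin 2) F) :
    phi0 X H n (xS t * g) = X t * phi0 X H n g := by
  obtain ⟨e00, e01, e10, e11⟩ := xS_mul t g
  have hdet := sl2_det g
  unfold phi0
  rw [e00, e01, e10, e11]
  by_cases hc : g.1 1 0 = 0
  · rw [if_pos hc, if_pos hc, hc, mul_zero, add_zero]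
    rw [hc, mul_zero, sub_zero] at hdet
    rw [← mul_assoc, ← X_add]
    congr 2
    linear_combination t * hdet
  · rw [if_neg hc, if_neg hc]
    have e : (g.1 0 0 + t * g.1 1 0) / g.1 1 0 = t + g.1 0 0 / g.1 1 0 := by
      field_simp
      ring
    rw [e, X_add]
    simp only [mul_assoc]

include XH nH in
theorem m2a (a b : F) (ha : a ≠ 0) : H a⁻¹ * n * X (b / a) = n * (X (a * b) * H a) := by
  have e3 : X (a * b) * H a = H a * X (b / a) := by
    rw [XH a (b / a) ha]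
    congr 2
    field_simp
  rw [e3, ← mul_assoc, nH a ha]

include XH nH nn H_mul in
theorem m2b (c d : F) (hc : c ≠ 0) :
    X (c * d) * H c = n * (H (-c⁻¹) * n * X (d / c)) := by
  have hc1 : -c⁻¹ ≠ 0 := neg_ne_zero.mpr (inv_ne_zero hc)
  have e1 : X (c * d) * H c = H c * X (d / c) := by
    rw [XH c (d / c) hc]
    congr 2
    field_simp
  have e2 : H c = H (-c) * H (-1) := by
    rw [H_mul (-c) (-1) (neg_ne_zero.mpr hc) (by norm_num)]
    congr 1
    ring
  have e3 : n * H (-c⁻¹) = H (-c) * n := by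
    rw [nH _ hc1]
    congr 2
    field_simp
  calc X (c * d) * H c = H c * X (d / c) := e1
    _ = H (-c) * (n * n) * X (d / c) := by rw [e2, nn]
    _ = (H (-c) * n) * n * X (d / c) := by simp only [mul_assoc]
    _ = (n * H (-c⁻¹)) * n * X (d / c) := by rw [e3]
    _ = n * (H (-c⁻¹) * n * X (d / c)) := by simp only [mul_assoc]

include X_add XH nH nn H_mul nX in
theorem m2c (a b c d : F) (ha : a ≠ 0) (hc : c ≠ 0) (hdet : a * d - b * c = 1) :
    X (-(c / a)) * H a⁻¹ * n * X (b / a) =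
      n * (X (a / c) * H (-c⁻¹) * n * X (d / c)) := by
  have hu : a / c ≠ 0 := div_ne_zero ha hc
  have hc1 : -c⁻¹ ≠ 0 := neg_ne_zero.mpr (inv_ne_zero hc)
  have e1 : n * X (a / c) = X (-(c / a)) * H (c / a) * n * X (-(c / a)) * n := by
    rw [nX _ hu, inv_div]
  have e2 : n * H (-c⁻¹) = H (-c) * n := by
    rw [nH _ hc1]
    congr 2
    field_simp
  have e3 : H (-c) * H (-1) = H c := by
    rw [H_mul (-c) (-1) (neg_ne_zero.mpr hc) (by norm_num)]
    congr 1
    ring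
  have e4 : X (-(c / a)) * H c = H c * X (-(1 / (c * a))) := by
    rw [XH c _ hc]
    congr 2
    field_simp
  have e5 : H (c / a) * H c⁻¹ = H a⁻¹ := by
    rw [H_mul _ _ (div_ne_zero hc ha) (inv_ne_zero hc)]
    congr 1
    field_simp
  have e6 : X (-(1 / (c * a))) * X (d / c) = X (b / a) := by
    rw [← X_add]
    congr 1
    field_simp
    linear_combination hdet
  calc X (-(c / a)) * H a⁻¹ * n * X (b / a)
      = X (-(c / a)) * (H (c / a) * H c⁻¹) * n * (X (-(1 / (c * a))) * X (d / c)) := by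
        rw [e5, e6]
    _ = X (-(c / a)) * H (c / a) * (H c⁻¹ * n) * X (-(1 / (c * a))) * X (d / c) := by
        simp only [mul_assoc]
    _ = X (-(c / a)) * H (c / a) * (n * H c) * X (-(1 / (c * a))) * X (d / c) := by
        rw [nH c hc]
    _ = X (-(c / a)) * H (c / a) * n * (H c * X (-(1 / (c * a)))) * X (d / c) := by
        simp only [mul_assoc]
    _ = X (-(c / a)) * H (c / a) * n * (X (-(c / a)) * (H (-c) * H (-1))) * X (d / c) := by
        rw [e3, e4]
    _ = X (-(c / a)) * H (c / a) * n * X (-(c / a)) * (H (-c) * (n * n)) * X (d / c) := by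
        rw [nn]
        simp only [mul_assoc]
    _ = X (-(c / a)) * H (c / a) * n * X (-(c / a)) * ((H (-c) * n) * n) * X (d / c) := by
        simp only [mul_assoc]
    _ = X (-(c / a)) * H (c / a) * n * X (-(c / a)) * ((n * H (-c⁻¹)) * n) * X (d / c) := by
        rw [e2]
    _ = (X (-(c / a)) * H (c / a) * n * X (-(c / a)) * n) * H (-c⁻¹) * n * X (d / c) := by
        simp only [mul_assoc]
    _ = n * (X (a / c) * H (-c⁻¹) * n * X (d / c)) := by
        rw [← e1]
        simp only [mul_assoc]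

include X_add XH nH nn H_mul nX in
theorem phi0_wS_mul (g : Matrix.SpecialLinearGroup (Fin 2) F) :
    phi0 X H n (wS * g) = n * phi0 X H n g := by
  obtain ⟨e00, e01, e10, e11⟩ := wS_mul g
  have hdet := sl2_det g
  have hX0 := X_zero_of X X_add
  unfold phi0
  rw [e00, e01, e10, e11]
  by_cases hc : g.1 1 0 = 0
  · have ha : g.1 0 0 ≠ 0 := by
      intro h0
      rw [h0, hc] at hdet
      simp at hdet
    rw [if_neg (neg_ne_zero.mpr ha), if_pos hc, hc, zero_div, hX0, one_mul]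
    have e1 : -(-g.1 0 0)⁻¹ = (g.1 0 0)⁻¹ := by
      field_simp
    have e2 : -g.1 0 1 / -g.1 0 0 = g.1 0 1 / g.1 0 0 := neg_div_neg_eq _ _
    rw [e1, e2]
    exact m2a X H n XH nH _ _ ha
  · by_cases ha : g.1 0 0 = 0
    · rw [ha, neg_zero, if_pos rfl, if_neg hc, zero_div, hX0, one_mul]
      exact m2b X H n XH nH nn H_mul _ _ hc
    · rw [if_neg (neg_ne_zero.mpr ha), if_neg hc]
      have e1 : -(-g.1 0 0)⁻¹ = (g.1 0 0)⁻¹ := by
        field_simp
      have e2 : -g.1 0 1 / -g.1 0 0 = g.1 0 1 / g.1 0 0 := neg_div_neg_eq _ _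
      have e3 : g.1 1 0 / -g.1 0 0 = -(g.1 1 0 / g.1 0 0) := div_neg _
      rw [e1, e2, e3]
      exact m2c X H n X_add XH nH nn H_mul nX _ _ _ _ ha hc hdet

include X_add XH nH nn H_mul H_one nX in
theorem sl2_hom : ∃ φ : Matrix.SpecialLinearGroup (Fin 2) F →* G,
    (∀ t, φ (xS t) = X t) ∧ φ wS = n := by
  have hX0 := X_zero_of X X_add
  have h1 : phi0 X H n 1 = 1 := by
    unfold phi0
    have e10 : (1 : Matrix.SpecialLinearGroup (Fin 2) F).1 1 0 = 0 := by
      show (1 : Matrix (Fin 2) (Fin 2) F) 1 0 = 0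
      simp
    have e00 : (1 : Matrix.SpecialLinearGroup (Fin 2) F).1 0 0 = 1 := by
      show (1 : Matrix (Fin 2) (Fin 2) F) 0 0 = 1
      simp
    have e01 : (1 : Matrix.SpecialLinearGroup (Fin 2) F).1 0 1 = 0 := by
      show (1 : Matrix (Fin 2) (Fin 2) F) 0 1 = 0
      simp
    rw [if_pos e10, e00, e01, mul_zero, hX0, H_one, mul_one]
  have hx : ∀ t, phi0 X H n (xS t) = X t := by
    intro t
    unfold phi0
    rw [if_pos (xS_10 t), xS_00, xS_01, one_mul, H_one, mul_one]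
  have hw : phi0 X H n wS = n := by
    unfold phi0
    rw [if_neg (by rw [wS_10]; norm_num), wS_00, wS_10, wS_11, zero_div, hX0]
    have e : -(-1 : F)⁻¹ = 1 := by norm_num
    rw [e, H_one, one_mul, one_mul, mul_one]
  have key : ∀ g g', phi0 X H n (g * g') = phi0 X H n g * phi0 X H n g' := by
    intro g
    have hg := sl2_gen g
    induction hg using Submonoid.closure_induction with
    | mem x hx' =>
      rcases hx' with ⟨t, rfl⟩ | hx'
      · intro g'
        rw [phi0_xS_mul X H n X_add, hx]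
      · rw [Set.mem_singleton_iff] at hx'
        subst hx'
        intro g'
        rw [phi0_wS_mul X H n X_add XH nH nn H_mul nX, hw]
    | one =>
      intro g'
      rw [one_mul, h1, one_mul]
    | mul a b _ _ iha ihb =>
      intro g'
      rw [mul_assoc, iha, ihb, iha b, mul_assoc]
  exact ⟨⟨⟨phi0 X H n, h1⟩, key⟩, hx, hw⟩

end hom

section sgn

variable {F : Type*} [Field F]

def sgnFun (ε : F) (hε : ε * ε = 1) (g : Matrix.SpecialLinearGroup (Fin 2) F) :
    Matrix.SpecialLinearGroup (Fin 2) F :=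
  ⟨!![g.1 0 0, ε * g.1 0 1; ε * g.1 1 0, g.1 1 1], by
    rw [Matrix.det_fin_two]
    have hdet := sl2_det g
    show g.1 0 0 * g.1 1 1 - ε * g.1 0 1 * (ε * g.1 1 0) = 1
    linear_combination hdet - g.1 0 1 * g.1 1 0 * hε⟩

theorem sgnFun_00 (ε : F) (hε : ε * ε = 1) (g : Matrix.SpecialLinearGroup (Fin 2) F) :
    (sgnFun ε hε g).1 0 0 = g.1 0 0 := rfl

theorem sgnFun_01 (ε : F) (hε : ε * ε = 1) (g : Matrix.SpecialLinearGroup (Fin 2) F) :
    (sgnFun ε hε g).1 0 1 = ε * g.1 0 1 := rfl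

theorem sgnFun_10 (ε : F) (hε : ε * ε = 1) (g : Matrix.SpecialLinearGroup (Fin 2) F) :
    (sgnFun ε hε g).1 1 0 = ε * g.1 1 0 := rfl

theorem sgnFun_11 (ε : F) (hε : ε * ε = 1) (g : Matrix.SpecialLinearGroup (Fin 2) F) :
    (sgnFun ε hε g).1 1 1 = g.1 1 1 := rfl

theorem sl2_one_00 : (1 : Matrix.SpecialLinearGroup (Fin 2) F).1 0 0 = 1 := rfl

theorem sl2_one_01 : (1 : Matrix.SpecialLinearGroup (Fin 2) F).1 0 1 = 0 := rfl

theorem sl2_one_10 : (1 : Matrix.SpecialLinearGroup (Fin 2) F).1 1 0 = 0 := rfl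

theorem sl2_one_11 : (1 : Matrix.SpecialLinearGroup (Fin 2) F).1 1 1 = 1 := rfl

def sgnAut (ε : F) (hε : ε * ε = 1) :
    Matrix.SpecialLinearGroup (Fin 2) F →* Matrix.SpecialLinearGroup (Fin 2) F where
  toFun := sgnFun ε hε
  map_one' := by
    apply sl2_ext
    · rw [sgnFun_00]
    · rw [sgnFun_01, sl2_one_01, mul_zero]
    · rw [sgnFun_10, sl2_one_10, mul_zero]
    · rw [sgnFun_11]
  map_mul' g h := by
    apply sl2_ext
    · simp only [sl2_mul_apply, sgnFun_00, sgnFun_01, sgnFun_10, sgnFun_11]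
      linear_combination (-(g.1 0 1 * h.1 1 0)) * hε
    · simp only [sl2_mul_apply, sgnFun_00, sgnFun_01, sgnFun_10, sgnFun_11]
      ring
    · simp only [sl2_mul_apply, sgnFun_00, sgnFun_01, sgnFun_10, sgnFun_11]
      ring
    · simp only [sl2_mul_apply, sgnFun_00, sgnFun_01, sgnFun_10, sgnFun_11]
      linear_combination (-(g.1 1 0 * h.1 0 1)) * hε

theorem sgnAut_apply (ε : F) (hε : ε * ε = 1) (g : Matrix.SpecialLinearGroup (Fin 2) F) :
    sgnAut ε hε g = sgnFun ε hε g := rfl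

theorem sgnAut_xS (ε : F) (hε : ε * ε = 1) (t : F) : sgnAut ε hε (xS t) = xS (ε * t) := by
  rw [sgnAut_apply]
  apply sl2_ext
  · rw [sgnFun_00, xS_00, xS_00]
  · rw [sgnFun_01, xS_01, xS_01]
  · rw [sgnFun_10, xS_10, xS_10, mul_zero]
  · rw [sgnFun_11, xS_11, xS_11]

theorem sgnAut_yS (ε : F) (hε : ε * ε = 1) (t : F) : sgnAut ε hε (yS t) = yS (ε * t) := by
  rw [sgnAut_apply]
  apply sl2_ext
  · rw [sgnFun_00, yS_00, yS_00]
  · rw [sgnFun_01, yS_01, yS_01, mul_zero]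
  · rw [sgnFun_10, yS_10, yS_10]
  · rw [sgnFun_11, yS_11, yS_11]

theorem sl2_closure :
    Subgroup.closure (Set.range (xS : F → Matrix.SpecialLinearGroup (Fin 2) F) ∪
      Set.range (yS : F → Matrix.SpecialLinearGroup (Fin 2) F)) = ⊤ := by
  rw [eq_top_iff]
  intro g _
  have hg := sl2_gen g
  have hle : Submonoid.closure (Set.range (xS : F → Matrix.SpecialLinearGroup (Fin 2) F) ∪ {wS}) ≤
      (Subgroup.closure (Set.range (xS : F → Matrix.SpecialLinearGroup (Fin 2) F) ∪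
        Set.range (yS : F → Matrix.SpecialLinearGroup (Fin 2) F))).toSubmonoid := by
    rw [Submonoid.closure_le]
    rintro x (⟨t, rfl⟩ | hx)
    · exact Subgroup.subset_closure (Or.inl ⟨t, rfl⟩)
    · rw [Set.mem_singleton_iff] at hx
      rw [hx, wS_eq]
      exact mul_mem (mul_mem (Subgroup.subset_closure (Or.inl ⟨1, rfl⟩))
        (Subgroup.subset_closure (Or.inr ⟨-1, rfl⟩))) (Subgroup.subset_closure (Or.inl ⟨1, rfl⟩))
  exact hle hg

end sgn

end Cfsg.Agent.Helper7
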