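import Cfsg.Agent.Helper7.ChevGen
import Cfsg.Agent.Helper7.SL2Hom

set_option autoImplicit false
set_option linter.unusedSectionVars false
set_option linter.unusedVariables false
set_option maxRecDepth 100000
open Cfsg

namespace Cfsg.Agent.Helper7

open Cfsg.Lie

def slOK (D : ChevalleyDatum) : Bool :=
  (List.range D.rank).all fun i =>
    decide (nsgn D i (D.simple i) = -1) && decide (D.cartan i (D.simple i) = 2)

theorem slOK_G2 : slOK chevG2 = true := by decide +kernel
theorem slOK_B2 : slOK chevB2 = true := by decide +kernel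
theorem slOK_D4 : slOK chevD4 = true := by decide +kernel
theorem slOK_F4 : slOK chevF4 = true := by decide +kernel
theorem slOK_E6 : slOK chevE6 = true := by decide +kernel
theorem slOK_E7 : slOK chevE7 = true := by decide +kernel
theorem slOK_E8 : slOK chevE8 = true := by decide +kernel

theorem slOK_of_mem {D : ChevalleyDatum}
    (hD : D ∈ [chevG2, chevB2, chevD4, chevF4, chevE6, chevE7, chevE8]) : slOK D = true :=
  forall_seven (P := fun D => slOK D = true) slOK_G2 slOK_B2 slOK_D4 slOK_F4 slOK_E6 slOK_E7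
    slOK_E8 hD

theorem slOK_spec {D : ChevalleyDatum} (h : slOK D = true) {i : ℕ} (hi : i < D.rank) :
    nsgn D i (D.simple i) = -1 ∧ D.cartan i (D.simple i) = 2 := by
  unfold slOK at h
  rw [List.all_eq_true] at h
  have h2 := h i (List.mem_range.mpr hi)
  rw [Bool.and_eq_true, decide_eq_true_eq, decide_eq_true_eq] at h2
  exact h2

section sem

variable {F : Type*} [Field F]

def slH (D : ChevalleyDatum) (i : ℕ) (c : Fˣ) : GL D.Idx F := DgU D (fun s => c ^ D.cartan i s)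

open Classical in
noncomputable def slHF (D : ChevalleyDatum) (i : ℕ) (a : F) : GL D.Idx F :=
  if h : a = 0 then 1 else slH D i (Units.mk0 a h)

theorem slHF_unit (D : ChevalleyDatum) (i : ℕ) (c : Fˣ) : slHF D i (c : F) = slH D i c := by
  unfold slHF
  rw [dif_neg c.ne_zero, Units.mk0_val]

theorem slH_mul (D : ChevalleyDatum) (i : ℕ) (c d : Fˣ) :
    slH D i c * slH D i d = slH D i (c * d) := by
  unfold slH
  rw [DgU_mul]
  apply DgU_congr
  intro s _
  exact (mul_zpow c d _).symm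

theorem slH_one (D : ChevalleyDatum) (i : ℕ) : slH D i (1 : Fˣ) = 1 := by
  unfold slH
  rw [← DgU_one]
  apply DgU_congr
  intro s _
  exact one_zpow _

theorem slH_X {D : ChevalleyDatum} (M : MOK D) (hsl : slOK D = true) {i : ℕ} (hi : i < D.rank)
    (c : Fˣ) (u : F) :
    slH D i c * xV D M.w.add (D.simple i) u =
      xV D M.w.add (D.simple i) ((c : F) ^ 2 * u) * slH D i c := by
  obtain ⟨hp, hnp⟩ := simple_lt M.w.fd M.w.n hi
  apply Units.ext
  rw [Units.val_mul, Units.val_mul, xV_val, xV_val]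
  have h := zchar_conj M.w.fd M.w.ta hi c hp u
  rw [(slOK_spec hsl hi).2] at h
  have e : ((c ^ (2 : ℤ) : Fˣ) : F) = (c : F) ^ 2 := by
    rw [zpow_ofNat, Units.val_pow_eq_pow_val]
  rw [e] at h
  exact h

theorem slH_n {D : ChevalleyDatum} (M : MOK D) (hsl : slOK D = true) {i : ℕ} (hi : i < D.rank)
    (c : Fˣ) :
    nV D M.w.add (D.simple i) (1 : F) * slH D i c =
      slH D i c⁻¹ * nV D M.w.add (D.simple i) (1 : F) := by
  have h := nV_conj_DgU M hi (fun s => c ^ D.cartan i s)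
  rw [mul_inv_eq_iff_eq_mul] at h
  unfold slH
  rw [h]
  congr 1
  apply DgU_congr
  intro s hs
  show c ^ D.cartan i (fw D i s) = c⁻¹ ^ D.cartan i s
  rw [cartan_refl M.w hi hs hi, (slOK_spec hsl hi).2, inv_zpow, ← zpow_neg]
  congr 1
  ring

theorem nV_eq_slH {D : ChevalleyDatum} (M : MOK D) {i : ℕ} (hi : i < D.rank) (c : Fˣ) :
    nV D M.w.add (D.simple i) (c : F) = slH D i c * nV D M.w.add (D.simple i) (1 : F) := by
  obtain ⟨hp, hnp⟩ := simple_lt M.w.fd M.w.n hi
  rw [← mul_inv_eq_iff_eq_mul, ← nV_neg]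
  apply Units.ext
  rw [Units.val_mul, nV_val D M.w.add hp hnp, nV_val D M.w.add hp hnp, ← hMat_eq_nn,
    hMat_simple_U M.w.fd M.w.hc hi c]
  rfl

theorem slH_nn {D : ChevalleyDatum} (M : MOK D) {i : ℕ} (hi : i < D.rank) :
    nV D M.w.add (D.simple i) (1 : F) * nV D M.w.add (D.simple i) (1 : F) =
      slH D i (-1 : Fˣ) := by
  have h := nV_eq_slH (F := F) M hi (-1 : Fˣ)
  rw [Units.val_neg, Units.val_one, nV_neg] at h
  have h2 : slH D i (-1 : Fˣ) * slH D i (-1 : Fˣ) = (1 : GL D.Idx F) := by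
    rw [slH_mul, neg_mul_neg, one_mul, slH_one]
  generalize nV D M.w.add (D.simple i) (1 : F) = n at h ⊢
  generalize slH D i (-1 : Fˣ) = S at h h2 ⊢
  have h3 : S = n⁻¹ * n⁻¹ := eq_mul_inv_of_mul_eq h.symm
  have h4 : S = S⁻¹ := eq_inv_of_mul_eq_one_left h2
  calc n * n = (n⁻¹ * n⁻¹)⁻¹ := by rw [mul_inv_rev, inv_inv]
    _ = S⁻¹ := by rw [← h3]
    _ = S := h4.symm

theorem n_X_conj {D : ChevalleyDatum} (M : MOK D) (hsl : slOK D = true) {i : ℕ}
    (hi : i < D.rank) (t : F) :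
    nV D M.w.add (D.simple i) (1 : F) * xV D M.w.add (D.simple i) t *
      (nV D M.w.add (D.simple i) (1 : F))⁻¹ = xV D M.w.add (D.neg (D.simple i)) (-t) := by
  obtain ⟨hp, hnp⟩ := simple_lt M.w.fd M.w.n hi
  rw [xV_conj M hi hp t, fw_simple M hi, (slOK_spec hsl hi).1]
  congr 1
  simp

theorem slH_nX {D : ChevalleyDatum} (M : MOK D) (hsl : slOK D = true) {i : ℕ} (hi : i < D.rank)
    (c : Fˣ) :
    nV D M.w.add (D.simple i) (1 : F) * xV D M.w.add (D.simple i) (c : F) =
      xV D M.w.add (D.simple i) (-(c : F)⁻¹) * slH D i c⁻¹ * nV D M.w.add (D.simple i) (1 : F) *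
        xV D M.w.add (D.simple i) (-(c : F)⁻¹) * nV D M.w.add (D.simple i) (1 : F) := by
  obtain ⟨hp, hnp⟩ := simple_lt M.w.fd M.w.n hi
  have h1 := nV_eq_xxx D M.w.add hp hnp ((c : F)⁻¹)
  rw [inv_inv, ← n_X_conj M hsl hi (c : F)] at h1
  have h2 := nV_eq_slH (F := F) M hi c⁻¹
  rw [Units.val_inv_eq_inv_val] at h2
  rw [h2] at h1
  rw [← xV_inv D M.w.add hp ((c : F)⁻¹)]
  generalize nV D M.w.add (D.simple i) (1 : F) = n at h1 ⊢
  generalize slH D i c⁻¹ = S at h1 ⊢
  generalize xV D M.w.add (D.simple i) ((c : F)⁻¹) = Xi at h1 ⊢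
  generalize xV D M.w.add (D.simple i) (c : F) = Xc at h1 ⊢
  calc n * Xc = Xi⁻¹ * (Xi * (n * Xc * n⁻¹ * Xi)) * Xi⁻¹ * n := by group
    _ = Xi⁻¹ * (S * n) * Xi⁻¹ * n := by rw [← h1]
    _ = Xi⁻¹ * S * n * Xi⁻¹ * n := by group

theorem sl2_simple {D : ChevalleyDatum} (M : MOK D) (hsl : slOK D = true) {i : ℕ}
    (hi : i < D.rank) :
    ∃ φ : Matrix.SpecialLinearGroup (Fin 2) F →* GL D.Idx F,
      (∀ t, φ (xS t) = xV D M.w.add (D.simple i) t) ∧
      (∀ t, φ (yS t) = xV D M.w.add (D.neg (D.simple i)) t) := by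
  obtain ⟨hp, hnp⟩ := simple_lt M.w.fd M.w.n hi
  obtain ⟨φ, hφx, hφw⟩ := sl2_hom (fun t : F => xV D M.w.add (D.simple i) t) (slHF D i)
    (nV D M.w.add (D.simple i) (1 : F))
    (fun t u => (xV_add D M.w.add hp t u).symm)
    (by
      intro a u ha
      obtain ⟨c, rfl⟩ : ∃ c : Fˣ, (c : F) = a := ⟨Units.mk0 a ha, rfl⟩
      rw [slHF_unit]
      exact slH_X M hsl hi c u)
    (by
      intro a ha
      obtain ⟨c, rfl⟩ : ∃ c : Fˣ, (c : F) = a := ⟨Units.mk0 a ha, rfl⟩
      rw [slHF_unit, ← Units.val_inv_eq_inv_val, slHF_unit]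
      exact slH_n M hsl hi c)
    (by
      have e : (-1 : F) = ((-1 : Fˣ) : F) := by rw [Units.val_neg, Units.val_one]
      rw [e, slHF_unit]
      exact slH_nn M hi)
    (by
      intro a b ha hb
      obtain ⟨c, rfl⟩ : ∃ c : Fˣ, (c : F) = a := ⟨Units.mk0 a ha, rfl⟩
      obtain ⟨d, rfl⟩ : ∃ c : Fˣ, (c : F) = b := ⟨Units.mk0 b hb, rfl⟩
      rw [slHF_unit, slHF_unit, ← Units.val_mul, slHF_unit]
      exact slH_mul D i c d)
    (by
      have e : slHF D i (1 : F) = slH D i (1 : Fˣ) := by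
        rw [← slHF_unit, Units.val_one]
      rw [e]
      exact slH_one D i)
    (by
      intro u hu
      obtain ⟨c, rfl⟩ : ∃ c : Fˣ, (c : F) = u := ⟨Units.mk0 u hu, rfl⟩
      have e : slHF D i ((c : F)⁻¹) = slH D i c⁻¹ := by
        rw [← Units.val_inv_eq_inv_val, slHF_unit]
      rw [e]
      exact slH_nX M hsl hi c)
  refine ⟨φ, hφx, ?_⟩
  intro t
  rw [yS_eq, map_mul, map_mul, map_inv, hφw, hφx, n_X_conj M hsl hi, neg_neg]

theorem sl2_root {D : ChevalleyDatum} (M : MOK D) (hsl : slOK D = true) :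
    ∀ r < D.nroots, ∃ φ : Matrix.SpecialLinearGroup (Fin 2) F →* GL D.Idx F,
      (∀ t, φ (xS t) = xV D M.w.add r t) ∧ (∀ t, φ (yS t) = xV D M.w.add (D.neg r) t) := by
  apply root_induction M.w.reach
  · intro j hj
    exact sl2_simple M hsl hj
  · rintro i hi s hs ⟨φ, hx, hy⟩
    obtain ⟨hws, hns, _, hwn, hsn⟩ := w_facts M.w.n hi hs
    simp only [fneg_eq M.w.fd] at hns hwn hsn
    have hη : ((nsgn D i s : ℤ) : F) * ((nsgn D i s : ℤ) : F) = 1 := by
      rcases sgn_pm (F := F) D i s (Or.inl rfl) with h | h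
      · rw [mul_one] at h
        rw [h, mul_one]
      · rw [mul_one] at h
        rw [h]
        ring
    refine ⟨(MulAut.conj (nV D M.w.add (D.simple i) (1 : F))).toMonoidHom.comp
      (φ.comp (sgnAut _ hη)), ?_, ?_⟩
    · intro t
      simp only [MonoidHom.comp_apply, MulEquiv.coe_toMonoidHom, MulAut.conj_apply]
      rw [sgnAut_xS, hx, xV_conj M hi hs, ← mul_assoc, hη, one_mul]
    · intro t
      simp only [MonoidHom.comp_apply, MulEquiv.coe_toMonoidHom, MulAut.conj_apply]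
      rw [sgnAut_yS, hy, xV_conj M hi hns, hwn, hsn, ← mul_assoc, hη, one_mul]

theorem sl2_result {D : ChevalleyDatum} (M : MOK D) (hsl : slOK D = true) {r : ℕ}
    (hr : r < D.nroots) :
    ∃ φ : Matrix.SpecialLinearGroup (Fin 2) F →* GL D.Idx F,
      φ.range = D.rootSubgroup F r ⊔ D.rootSubgroup F (D.neg r) ∧
      ∀ (g : Matrix.SpecialLinearGroup (Fin 2) F) (t : F),
        ((g : Matrix (Fin 2) (Fin 2) F) = !![1, t; 0, 1] →
          ((φ g : GL D.Idx F) : Matrix D.Idx D.Idx F) = D.x F r t) ∧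
        ((g : Matrix (Fin 2) (Fin 2) F) = !![1, 0; t, 1] →
          ((φ g : GL D.Idx F) : Matrix D.Idx D.Idx F) = D.x F (D.neg r) t) := by
  obtain ⟨φ, hx, hy⟩ := sl2_root (F := F) M hsl r hr
  have hrs : ∀ s : ℕ, D.rootSubgroup F s =
      Subgroup.closure (Set.range (fun t : F => xV D M.w.add s t)) := by
    intro s
    unfold ChevalleyDatum.rootSubgroup
    congr 1
    ext g
    constructor
    · rintro ⟨t, ht⟩
      exact ⟨t, Units.ext (by rw [xV_val, ht])⟩
    · rintro ⟨t, rfl⟩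
      exact ⟨t, xV_val D M.w.add s t⟩
  refine ⟨φ, ?_, ?_⟩
  · have e1 : (φ : Matrix.SpecialLinearGroup (Fin 2) F → GL D.Idx F) '' Set.range xS =
        Set.range (fun t : F => xV D M.w.add r t) := by
      rw [← Set.range_comp]
      congr 1
      funext t
      exact hx t
    have e2 : (φ : Matrix.SpecialLinearGroup (Fin 2) F → GL D.Idx F) '' Set.range yS =
        Set.range (fun t : F => xV D M.w.add (D.neg r) t) := by
      rw [← Set.range_comp]
      congr 1
      funext t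
      exact hy t
    rw [MonoidHom.range_eq_map, ← sl2_closure, MonoidHom.map_closure, Set.image_union,
      Subgroup.closure_union, e1, e2, hrs, hrs]
  · intro g t
    constructor
    · intro hg
      have e : g = xS t := Subtype.ext hg
      rw [e, hx, xV_val]
    · intro hg
      have e : g = yS t := Subtype.ext hg
      rw [e, hy, xV_val]

end sem

end Cfsg.Agent.Helper7
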