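import Cfsg.Agent.Helper7.ChevGraph
import Cfsg.Agent.Helper7.ChevAut
import Cfsg.Agent.Helper7.ChevLevi

set_option autoImplicit false
set_option maxHeartbeats 4000000
set_option linter.unusedSectionVars false
set_option linter.unusedVariables false
open Cfsg

namespace Cfsg.Agent.Helper7

open Cfsg.Lie

section sem

variable {F : Type*} [Field F]

def sigU (D : ChevalleyDatum) (A B : GAut) (h1 : gaInvOK D A B = true)
    (h2 : gaInvOK D B A = true) (φ : F →+* F) (g : GL D.Idx F) : GL D.Idx F :=
  gaU (F := F) D A B h1 h2 * Matrix.GeneralLinearGroup.map φ g * (gaU (F := F) D A B h1 h2)⁻¹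

theorem sigU_mul (D : ChevalleyDatum) (A B : GAut) (h1 : gaInvOK D A B = true)
    (h2 : gaInvOK D B A = true) (φ : F →+* F) (g g' : GL D.Idx F) :
    sigU D A B h1 h2 φ (g * g') = sigU D A B h1 h2 φ g * sigU D A B h1 h2 φ g' := by
  unfold sigU
  rw [map_mul]
  group

theorem sigU_one (D : ChevalleyDatum) (A B : GAut) (h1 : gaInvOK D A B = true)
    (h2 : gaInvOK D B A = true) (φ : F →+* F) : sigU D A B h1 h2 φ (1 : GL D.Idx F) = 1 := by
  unfold sigU
  rw [map_one]
  group

def sigFix (D : ChevalleyDatum) (A B : GAut) (h1 : gaInvOK D A B = true)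
    (h2 : gaInvOK D B A = true) (φ : F →+* F) : Subgroup (GL D.Idx F) where
  carrier := {g | sigU D A B h1 h2 φ g = g}
  mul_mem' := by
    intro a b ha hb
    have ha' : sigU D A B h1 h2 φ a = a := ha
    have hb' : sigU D A B h1 h2 φ b = b := hb
    show sigU D A B h1 h2 φ (a * b) = a * b
    rw [sigU_mul, ha', hb']
  one_mem' := sigU_one D A B h1 h2 φ
  inv_mem' := by
    intro a ha
    have ha' : sigU D A B h1 h2 φ a = a := ha
    show sigU D A B h1 h2 φ a⁻¹ = a⁻¹
    have h := sigU_mul D A B h1 h2 φ a a⁻¹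
    rw [mul_inv_cancel, sigU_one, ha'] at h
    exact eq_inv_of_mul_eq_one_right h.symm

theorem mem_sigFix {D : ChevalleyDatum} {A B : GAut} {h1 : gaInvOK D A B = true}
    {h2 : gaInvOK D B A = true} {φ : F →+* F} {g : GL D.Idx F} :
    g ∈ sigFix D A B h1 h2 φ ↔ sigU D A B h1 h2 φ g = g := Iff.rfl

theorem GLmap_val (D : ChevalleyDatum) (φ : F →+* F) (g : GL D.Idx F) :
    ((Matrix.GeneralLinearGroup.map φ g : GL D.Idx F) : Matrix D.Idx D.Idx F) =
      (g : Matrix D.Idx D.Idx F).map φ := by
  ext i j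
  simp [Matrix.GeneralLinearGroup.map_apply]

theorem sigU_xV {D : ChevalleyDatum} (M : MOK D) {A B : GAut} (hOK : gaOK D A B = true)
    (h1 : gaInvOK D A B = true) (h2 : gaInvOK D B A = true) (φ : F →+* F) {r : ℕ}
    (hr : r < D.nroots) (t : F) :
    sigU D A B h1 h2 φ (xV D M.w.add r t) =
      xV D M.w.add (A.rt.getD r 0) (((A.eps.getD r 1 : ℤ) : F) * φ t) := by
  unfold gaOK at hOK
  simp only [Bool.and_eq_true] at hOK
  obtain ⟨⟨⟨hconj, _⟩, _⟩, htab⟩ := hOK
  obtain ⟨hT1, hT2⟩ := gaTabOK_spec htab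
  have e1 : Matrix.GeneralLinearGroup.map φ (xV D M.w.add r t) = xV D M.w.add r (φ t) := by
    apply Units.ext
    rw [GLmap_val, xV_val, xV_val, x_of_lt D F hr, x_of_lt D F hr, xMat_map]
  unfold sigU
  rw [e1, mul_inv_eq_iff_eq_mul]
  apply Units.ext
  rw [Units.val_mul, Units.val_mul, xV_val, xV_val]
  exact ga_conj M.w.fd A hconj hr (hT1 r hr).1 (φ t)

theorem gaMat_inl (D : ChevalleyDatum) (A : GAut) (a : D.Idx) (k : Fin D.rank) :
    gaMat D A F a (Sum.inl k) = if A.rho.getD k.val 0 = code D a then 1 else 0 := by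
  unfold gaMat gaCol
  rw [Matrix.of_apply]
  have e : code D (Sum.inl k : D.Idx) = k.val := rfl
  rw [e, if_pos k.isLt, semAt_single]
  simp [vtVal]

theorem gaMat_inr (D : ChevalleyDatum) (A : GAut) (a : D.Idx) (s : Fin D.nroots) :
    gaMat D A F a (Sum.inr s) =
      if D.rank + A.rt.getD s.val 0 = code D a then ((A.eps.getD s.val 1 : ℤ) : F) else 0 := by
  unfold gaMat gaCol
  rw [Matrix.of_apply]
  have e : code D (Sum.inr s : D.Idx) = D.rank + s.val := rfl
  have h3 : D.rank + s.val < D.rank + D.nroots := by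
    have := s.isLt
    omega
  rw [e, if_neg (by omega), if_pos h3, semAt_single, Nat.add_sub_cancel_left]
  simp [vtVal]

theorem sig_entry {D : ChevalleyDatum} {A B : GAut} (hOK' : gaOK D B A = true)
    (h1 : gaInvOK D A B = true) (h2 : gaInvOK D B A = true) (φ : F →+* F)
    (hrho : ∀ i < D.rank, A.rho.getD i 0 < D.rank)
    {g : GL D.Idx F} (hg : sigU D A B h1 h2 φ g = g) (r : Fin D.nroots) (k : Fin D.rank)
    (r' : Fin D.nroots) (hr' : r'.val = A.rt.getD r.val 0) (k' : Fin D.rank)
    (hk' : k'.val = A.rho.getD k.val 0) :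
    (g : Matrix D.Idx D.Idx F) (Sum.inr r') (Sum.inl k') =
      ((A.eps.getD r.val 1 : ℤ) : F) * φ ((g : Matrix D.Idx D.Idx F) (Sum.inr r) (Sum.inl k)) := by
  unfold gaOK at hOK'
  simp only [Bool.and_eq_true] at hOK'
  obtain ⟨_, htab⟩ := hOK'
  obtain ⟨hT1, _⟩ := gaTabOK_spec htab
  have hmat : gaMat D A F * ((g : Matrix D.Idx D.Idx F).map φ) =
      (g : Matrix D.Idx D.Idx F) * gaMat D A F := by
    have h := hg
    unfold sigU at h
    rw [mul_inv_eq_iff_eq_mul] at h
    have h' := congrArg Units.val h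
    rw [Units.val_mul, Units.val_mul, GLmap_val] at h'
    exact h'
  have hent := congrFun (congrFun hmat (Sum.inr r')) (Sum.inl k)
  rw [Matrix.mul_apply, Matrix.mul_apply] at hent
  have sL : ∑ c, gaMat D A F (Sum.inr r') c * ((g : Matrix D.Idx D.Idx F).map φ) c (Sum.inl k) =
      ((A.eps.getD r.val 1 : ℤ) : F) * φ ((g : Matrix D.Idx D.Idx F) (Sum.inr r) (Sum.inl k)) := by
    rw [Finset.sum_eq_single (Sum.inr r)]
    · rw [gaMat_inr, Matrix.map_apply]
      have e : code D (Sum.inr r' : D.Idx) = D.rank + r'.val := rfl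
      rw [e, hr', if_pos rfl]
    · intro c _ hc
      rcases c with i | s
      · rw [gaMat_inl]
        have e : code D (Sum.inr r' : D.Idx) = D.rank + r'.val := rfl
        have := hrho i.val i.isLt
        rw [e, if_neg (by omega), zero_mul]
      · rw [gaMat_inr]
        have e : code D (Sum.inr r' : D.Idx) = D.rank + r'.val := rfl
        rw [e, hr']
        have hne : ¬ (D.rank + A.rt.getD s.val 0 = D.rank + A.rt.getD r.val 0) := by
          intro h
          have h3 : A.rt.getD s.val 0 = A.rt.getD r.val 0 := by omega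
          have h4 := (hT1 s.val s.isLt).2.2.1
          have h5 := (hT1 r.val r.isLt).2.2.1
          rw [h3, h5] at h4
          exact hc (congrArg Sum.inr (Fin.ext h4.symm))
        rw [if_neg hne, zero_mul]
    · intro h
      exact absurd (Finset.mem_univ _) h
  have sR : ∑ c, (g : Matrix D.Idx D.Idx F) (Sum.inr r') c * gaMat D A F c (Sum.inl k) =
      (g : Matrix D.Idx D.Idx F) (Sum.inr r') (Sum.inl k') := by
    rw [Finset.sum_eq_single (Sum.inl k')]
    · rw [gaMat_inl]
      have e : code D (Sum.inl k' : D.Idx) = k'.val := rfl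
      rw [e, hk', if_pos rfl, mul_one]
    · intro c _ hc
      rw [gaMat_inl]
      have hne : ¬ (A.rho.getD k.val 0 = code D c) := by
        intro h
        have e : code D (Sum.inl k' : D.Idx) = k'.val := rfl
        have h3 : code D c = code D (Sum.inl k' : D.Idx) := by rw [e, hk', h]
        exact hc (code_injective D h3)
      rw [if_neg hne, mul_zero]
    · intro h
      exact absurd (Finset.mem_univ _) h
  rw [sL, sR] at hent
  exact hent.symm

theorem levi_keys {D : ChevalleyDatum} {adj : List (List ℤ)} (L : LOK D adj) (J : Set ℕ) :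
    ∃ key : D.Idx → ℕ,
      (∀ a b, kzOf D (fJ D adj J) a = kzOf D (fJ D adj J) b → key a = key b) ∧
      D.unipotentRadical F J ≤ utSub key F 0 ∧ D.leviSubgroup F J ≤ PresSub D F key := by
  have M := L.u.m
  obtain ⟨key, hkey⟩ := exists_nat_key (kzOf D (fJ D adj J))
  have hent : ∀ (r : Fin D.nroots) (t : F) (a b : D.Idx), a ≠ b → D.xMat F r t a b ≠ 0 →
      ∃ k : ℕ, 1 ≤ k ∧ kzOf D (fJ D adj J) a = kzOf D (fJ D adj J) b + k * fJ D adj J r.val :=
    fun r t a b hab hne => xMat_entry_grade D F (fJ D adj J)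
      (fun r hr s u km hkm => fJ_lin M.w adj J hr s u hkm) (fun r hr => fJ_neg M.w adj J hr)
      r t a b hab hne
  refine ⟨key, fun a b h => (hkey a b).2 h, ?_, ?_⟩
  · unfold ChevalleyDatum.unipotentRadical
    rw [Subgroup.closure_le]
    rintro g ⟨r, t, hr, hrJ, hg⟩
    change Lvl key (0 + 1) ((g : Matrix D.Idx D.Idx F) - 1)
    rw [hg, x_of_lt D F hr.1]
    intro a b hab
    by_cases hab' : a = b
    · exfalso
      subst hab'
      have := xMat_sub_one_lvl D M.ptri F ⟨r, hr.1⟩ hr t a a hab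
      omega
    · rw [Matrix.sub_apply, Matrix.one_apply_ne hab', sub_zero] at hab
      obtain ⟨k, hk1, hk⟩ := hent ⟨r, hr.1⟩ t a b hab' hab
      have hpos := fJ_pos M L.grade J hr hrJ
      apply (hkey a b).1
      rw [hk]
      have hk1' : (1 : ℤ) ≤ (k : ℤ) := by exact_mod_cast hk1
      have : (1 : ℤ) ≤ (k : ℤ) * fJ D adj J r := by nlinarith
      simp only at this ⊢
      omega
  · unfold ChevalleyDatum.leviSubgroup
    apply sup_le
    · rw [diag_eq_torus M.w]
      rintro g ⟨z, rfl⟩
      refine ⟨?_, ?_⟩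
      · intro a b hab
        by_contra hne
        apply hab
        rw [DgU_val]
        exact Matrix.diagonal_apply_ne _ (fun e => hne (by rw [e]))
      · intro a b hab
        by_contra hne
        apply hab
        rw [DgU_inv, DgU_val]
        exact Matrix.diagonal_apply_ne _ (fun e => hne (by rw [e]))
    · rw [Subgroup.closure_le]
      rintro g ⟨r, t, hr, hg⟩
      have hz := fJ_zero M.w.fd L.grade J hr
      have pres : ∀ t' : F, ∀ a b, D.xMat F ⟨r, hr.1⟩ t' a b ≠ 0 → key a = key b := by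
        intro t' a b hab
        by_cases hab' : a = b
        · rw [hab']
        · obtain ⟨k, _, hk⟩ := hent ⟨r, hr.1⟩ t' a b hab' hab
          apply (hkey a b).2
          rw [hk]
          simp only
          rw [hz, mul_zero, add_zero]
      have e : g = xV D M.w.add r t := Units.ext (by rw [hg, xV_val])
      refine ⟨?_, ?_⟩
      · intro a b hab
        rw [hg, x_of_lt D F hr.1] at hab
        exact pres t a b hab
      · intro a b hab
        rw [e, xV_inv D M.w.add hr.1, xV_val, x_of_lt D F hr.1] at hab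
        exact pres (-t) a b hab

theorem block_left {D : ChevalleyDatum} {key : D.Idx → ℕ} {v l : GL D.Idx F}
    (hv : v ∈ utSub key F 0) (hl : l ∈ PresSub D F key) {a c : D.Idx} (hac : key a = key c) :
    ((v * l : GL D.Idx F) : Matrix D.Idx D.Idx F) a c = (l : Matrix D.Idx D.Idx F) a c := by
  rw [Units.val_mul, Matrix.mul_apply]
  have h1 : Lvl key 1 ((v : Matrix D.Idx D.Idx F) - 1) := hv
  rw [Finset.sum_eq_single a]
  · have hd : (v : Matrix D.Idx D.Idx F) a a = 1 := by
      by_contra hne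
      have h3 : ((v : Matrix D.Idx D.Idx F) - 1) a a ≠ 0 := by
        rw [Matrix.sub_apply, Matrix.one_apply_eq]
        exact sub_ne_zero.mpr hne
      have := h1 a a h3
      omega
    rw [hd, one_mul]
  · intro d _ hda
    by_contra hne
    have hv' : (v : Matrix D.Idx D.Idx F) a d ≠ 0 := left_ne_zero_of_mul hne
    have hl' : (l : Matrix D.Idx D.Idx F) d c ≠ 0 := right_ne_zero_of_mul hne
    have h3 : ((v : Matrix D.Idx D.Idx F) - 1) a d ≠ 0 := by
      rw [Matrix.sub_apply, Matrix.one_apply_ne (Ne.symm hda), sub_zero]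
      exact hv'
    have h4 := h1 a d h3
    have h5 := hl.1 d c hl'
    omega
  · intro h
    exact absurd (Finset.mem_univ _) h

end sem

end Cfsg.Agent.Helper7
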