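import Cfsg.Agent.Helper7.ChevMon

set_option autoImplicit false
set_option linter.unusedSectionVars false
set_option linter.unusedVariables false
open Cfsg

namespace Cfsg.Agent.Helper7

open Cfsg.Lie

section pw

variable {n : ℕ} {A : Type*} [CommGroup A]

def pw (M : Matrix (Fin n) (Fin n) ℤ) (z : Fin n → A) : Fin n → A :=
  fun i => ∏ j, z j ^ M i j

theorem prod_zpow_sum {ι : Type*} (s : Finset ι) (e : ι → ℤ) (z : A) :
    ∏ j ∈ s, z ^ e j = z ^ ∑ j ∈ s, e j := by
  classical
  induction s using Finset.induction_on with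
  | empty => simp
  | insert a s ha ih => rw [Finset.prod_insert ha, Finset.sum_insert ha, zpow_add, ih]

theorem pw_mul (M N : Matrix (Fin n) (Fin n) ℤ) (z : Fin n → A) :
    pw (M * N) z = pw M (pw N z) := by
  funext i
  unfold pw
  simp only [Matrix.mul_apply]
  have h : ∀ j, (∏ k, z k ^ N j k) ^ M i j = ∏ k, z k ^ (M i j * N j k) := by
    intro j
    rw [← Finset.prod_zpow]
    apply Finset.prod_congr rfl
    intro k _
    rw [← zpow_mul, mul_comm]
  simp only [h]
  rw [Finset.prod_comm]
  apply Finset.prod_congr rfl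
  intro k _
  rw [prod_zpow_sum]

theorem pw_one (z : Fin n → A) : pw (1 : Matrix (Fin n) (Fin n) ℤ) z = z := by
  funext i
  unfold pw
  rw [Finset.prod_eq_single i]
  · rw [Matrix.one_apply_eq, zpow_one]
  · intro j _ hji
    rw [Matrix.one_apply_ne (Ne.symm hji), zpow_zero]
  · intro h
    exact absurd (Finset.mem_univ i) h

theorem pw_triv (M : Matrix (Fin n) (Fin n) ℤ) : pw M (1 : Fin n → A) = 1 := by
  funext i
  unfold pw
  simp

theorem pw_diag (d : Fin n → ℤ) (z : Fin n → A) (i : Fin n) :
    pw (Matrix.diagonal d) z i = z i ^ d i := by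
  unfold pw
  rw [Finset.prod_eq_single i]
  · rw [Matrix.diagonal_apply_eq]
  · intro j _ hji
    rw [Matrix.diagonal_apply_ne _ (Ne.symm hji), zpow_zero]
  · intro h
    exact absurd (Finset.mem_univ i) h

theorem card_pw_ker [Finite A] (C P Pi Q Qi : Matrix (Fin n) (Fin n) ℤ) (d : Fin n → ℕ)
    (h1 : P * C * Q = Matrix.diagonal (fun i => (d i : ℤ))) (h2 : Pi * P = 1)
    (h3 : Q * Qi = 1) (h4 : Qi * Q = 1) :
    Nat.card {z : Fin n → A // pw C z = 1} = ∏ i, Nat.card {y : A // y ^ d i = 1} := by
  have e : {z : Fin n → A // pw C z = 1} ≃ {y : Fin n → A // ∀ i, y i ^ d i = 1} :=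
    { toFun := fun z => ⟨pw Qi z.1, by
        intro i
        have h5 : pw (Matrix.diagonal (fun i => (d i : ℤ))) (pw Qi z.1) = 1 := by
          rw [← h1, ← pw_mul, Matrix.mul_assoc, h3, Matrix.mul_one, pw_mul, z.2, pw_triv]
        have h6 := congrFun h5 i
        rw [pw_diag, zpow_natCast] at h6
        exact h6⟩
      invFun := fun y => ⟨pw Q y.1, by
        have h5 : pw P (pw C (pw Q y.1)) = 1 := by
          rw [← pw_mul, ← pw_mul, h1]
          funext i
          rw [pw_diag, zpow_natCast]
          exact y.2 i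
        have h6 : pw Pi (pw P (pw C (pw Q y.1))) = 1 := by rw [h5, pw_triv]
        rw [← pw_mul, h2, pw_one] at h6
        exact h6⟩
      left_inv := by
        rintro ⟨z, hz⟩
        apply Subtype.ext
        show pw Q (pw Qi z) = z
        rw [← pw_mul, h3, pw_one]
      right_inv := by
        rintro ⟨y, hy⟩
        apply Subtype.ext
        show pw Qi (pw Q y) = y
        rw [← pw_mul, h4, pw_one] }
  rw [Nat.card_congr e, Nat.card_congr (Equiv.subtypePiEquivPi (β := fun _ : Fin n => A)
    (p := fun i y => y ^ d i = 1)), Nat.card_pi]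

end pw

section sem

variable {F : Type*} [Field F]

def extz (D : ChevalleyDatum) (z : Fin D.rank → Fˣ) (j : ℕ) : Fˣ :=
  if h : j < D.rank then z ⟨j, h⟩ else 1

def Cm (D : ChevalleyDatum) : Matrix (Fin D.rank) (Fin D.rank) ℤ :=
  fun i j => D.cartan j.val (D.simple i.val)

theorem extz_mul (D : ChevalleyDatum) (z z' : Fin D.rank → Fˣ) :
    extz D (z * z') = fun j => extz D z j * extz D z' j := by
  funext j
  unfold extz
  split_ifs
  · rfl
  · rw [one_mul]

theorem extz_one (D : ChevalleyDatum) : extz D (1 : Fin D.rank → Fˣ) = fun _ => 1 := by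
  funext j
  unfold extz
  split_ifs <;> rfl

def torusHom (D : ChevalleyDatum) (F : Type*) [Field F] : (Fin D.rank → Fˣ) →* GL D.Idx F where
  toFun z := DgU D (chi D (extz D z))
  map_one' := by
    rw [← DgU_one, extz_one]
    exact DgU_congr D (fun s _ => chi_one D s)
  map_mul' z z' := by
    rw [DgU_mul, extz_mul]
    exact DgU_congr D (fun s _ => chi_mul D _ _ s)

theorem torusHom_range (D : ChevalleyDatum) : (torusHom D F).range = torus D F := by
  ext g
  constructor
  · rintro ⟨z, rfl⟩
    exact ⟨extz D z, rfl⟩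
  · rintro ⟨z, rfl⟩
    refine ⟨fun i => z i.val, ?_⟩
    show DgU D (chi D (extz D fun i => z i.val)) = DgU D (chi D z)
    apply DgU_congr
    intro s _
    unfold chi
    apply Finset.prod_congr rfl
    intro j hj
    unfold extz
    rw [dif_pos (Finset.mem_range.mp hj)]

theorem DgU_eq_one (D : ChevalleyDatum) {d : ℕ → Fˣ} (h : DgU D d = 1) :
    ∀ s < D.nroots, d s = 1 := by
  intro s hs
  have h1 := congrArg (fun g : GL D.Idx F => (g : Matrix D.Idx D.Idx F) (Sum.inr ⟨s, hs⟩)
    (Sum.inr ⟨s, hs⟩)) h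
  simp only [DgU_val, Matrix.diagonal_apply_eq, Units.val_one, Matrix.one_apply_eq, dgv,
    Sum.elim_inr] at h1
  exact Units.ext h1

theorem pw_Cm (D : ChevalleyDatum) (z : Fin D.rank → Fˣ) (i : Fin D.rank) :
    pw (Cm D) z i = chi D (extz D z) (D.simple i.val) := by
  unfold pw chi Cm
  rw [Finset.prod_range]
  apply Finset.prod_congr rfl
  intro j _
  unfold extz
  rw [dif_pos j.isLt]

theorem torusHom_ker {D : ChevalleyDatum} (W : WOK D) (z : Fin D.rank → Fˣ) :
    z ∈ (torusHom D F).ker ↔ pw (Cm D) z = 1 := by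
  rw [MonoidHom.mem_ker]
  constructor
  · intro h
    funext i
    rw [pw_Cm]
    exact DgU_eq_one D h _ (simple_lt W.fd W.n i.isLt).1
  · intro h
    show DgU D (chi D (extz D z)) = 1
    rw [← DgU_one]
    apply DgU_congr
    apply root_induction W.reach (fun s => chi D (extz D z) s = 1)
    · intro j hj
      have := congrFun h ⟨j, hj⟩
      rw [pw_Cm] at this
      exact this
    · intro i hi s hs hP
      have hi1 := congrFun h ⟨i, hi⟩
      rw [pw_Cm, Pi.one_apply] at hi1
      rw [chi_refl W hi _ hs, hi1]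
      have e : (fun j => extz D z j * if j = i then (1 : Fˣ)⁻¹ else 1) = extz D z := by
        funext j
        split_ifs <;> simp
      rw [e]
      exact hP

theorem card_root_unity [Fintype F] (d : ℕ) :
    Nat.card {y : Fˣ // y ^ d = 1} = Nat.gcd (Fintype.card F - 1) d := by
  have h := IsCyclic.card_powMonoidHom_ker Fˣ d
  rw [Nat.card_units, Nat.card_eq_fintype_card (α := F)] at h
  rw [← h]
  rfl

theorem card_torus [Fintype F] {D : ChevalleyDatum} (W : WOK D)
    (P Pi Q Qi : Matrix (Fin D.rank) (Fin D.rank) ℤ) (d : Fin D.rank → ℕ)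
    (h1 : P * Cm D * Q = Matrix.diagonal (fun i => (d i : ℤ))) (h2 : Pi * P = 1)
    (h3 : Q * Qi = 1) (h4 : Qi * Q = 1) :
    (∏ i, Nat.gcd (Fintype.card F - 1) (d i)) * Nat.card (D.diagonalSubgroup F) =
      (Fintype.card F - 1) ^ D.rank := by
  rw [diag_eq_torus W, ← torusHom_range, ← Subgroup.index_ker]
  have hk : Nat.card (torusHom D F).ker = ∏ i, Nat.gcd (Fintype.card F - 1) (d i) := by
    rw [Nat.card_congr (Equiv.subtypeEquivRight (torusHom_ker W)),
      card_pw_ker (Cm D) P Pi Q Qi d h1 h2 h3 h4]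
    apply Finset.prod_congr rfl
    intro i _
    exact card_root_unity (d i)
  rw [← hk, Subgroup.card_mul_index, Nat.card_fun, Nat.card_units, Nat.card_eq_fintype_card,
    Nat.card_eq_fintype_card, Fintype.card_fin]

end sem

end Cfsg.Agent.Helper7
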