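import Cfsg.Agent.Helper7.ChevTwCore

set_option autoImplicit false
set_option maxHeartbeats 4000000
open Cfsg

namespace Cfsg.Agent.Helper7

open Cfsg.Lie

theorem tw2 {G : Type*} [Group G] (a b c d : G) (hca : Commute c a) (hcb : Commute c b)
    (hda : Commute d a) : (a * b * a) * (c * d * c) = (a * c) * (b * d) * (a * c) := by
  calc (a * b * a) * (c * d * c) = a * b * (a * c) * d * c := by group
    _ = a * b * (c * a) * d * c := by rw [hca.eq]
    _ = a * (b * c) * (a * d) * c := by group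
    _ = a * (c * b) * (d * a) * c := by rw [hcb.eq, hda.eq]
    _ = (a * c) * (b * d) * (a * c) := by group

theorem tw3 {G : Type*} [Group G] (a b c d e f : G) (hca : Commute c a) (hcb : Commute c b)
    (hda : Commute d a) (hea : Commute e a) (heb : Commute e b) (hec : Commute e c)
    (hed : Commute e d) (hfa : Commute f a) (hfc : Commute f c) :
    (a * b * a) * (c * d * c) * (e * f * e) = (a * c * e) * (b * d * f) * (a * c * e) := by
  rw [tw2 a b c d hca hcb hda, tw2 (a * c) (b * d) e f (hea.mul_right hec)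
    (heb.mul_right hed) (hfa.mul_right hfc)]

section sem

variable {F : Type*} [Field F]

theorem xV_commute {D : ChevalleyDatum} (ha : addCheck2 D = true) (hcf : CF D F) {r s : ℕ}
    (hr : r < D.nroots) (hs : s < D.nroots) (h1 : s ≠ r) (h2 : s ≠ D.neg r)
    (hT : D.commTerms r s = []) (t u : F) :
    Commute (xV D ha s u) (xV D ha r t) := by
  have h := comm_xV ha hcf hr hs h1 h2 t u
  have e : D.commWord F r s t u = [] := by
    unfold ChevalleyDatum.commWord
    rw [hT]
    rfl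
  rw [e] at h
  have e2 : wordU D ha ([] : List (ℕ × F)) = 1 := by simp [wordU]
  rw [e2, mul_one] at h
  exact h

theorem nV_eq_xV (D : ChevalleyDatum) (ha : addCheck2 D = true) {r : ℕ} (hr : r < D.nroots)
    (hnr : D.neg r < D.nroots) :
    nV D ha r (1 : F) = xV D ha r 1 * xV D ha (D.neg r) (-1) * xV D ha r 1 := by
  apply Units.ext
  rw [nV_val D ha hr hnr, nMat_eq, Units.val_mul, Units.val_mul, xV_val, xV_val, inv_one,
    mul_assoc]

theorem nWordU_flatten_mem (D : ChevalleyDatum) (ha : addCheck2 D = true)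
    (G1 : Subgroup (GL D.Idx F)) (bl : List (List ℕ))
    (h : ∀ b ∈ bl, nWordU (F := F) D ha b ∈ G1) : nWordU (F := F) D ha bl.flatten ∈ G1 := by
  induction bl with
  | nil => simp [nWordU]
  | cons b bl ih =>
    have e : nWordU (F := F) D ha (b :: bl).flatten = nWordU D ha b * nWordU D ha bl.flatten := by
      simp [nWordU]
    rw [e]
    exact mul_mem (h b List.mem_cons_self) (ih (fun c hc => h c (List.mem_cons_of_mem _ hc)))

theorem neg_one_pow_of_card [Fintype F] {q k : ℕ} (hk : k ≠ 0) (hF : Fintype.card F = q ^ k) :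
    (-1 : F) ^ q = -1 := by
  rcases Nat.even_or_odd q with he | ho
  · have h2 : Fintype.card F % 2 = 0 := by
      rw [hF]
      exact Nat.even_iff.mp (Even.pow_of_ne_zero he hk)
    have hc : ringChar F = 2 := FiniteField.even_card_iff_char_two.mpr h2
    have : CharP F 2 := ringChar.of_eq hc
    rw [CharTwo.neg_eq, one_pow]
  · exact ho.neg_one_pow

theorem gen_mem (D : ChevalleyDatum) (ha : addCheck2 D = true) (S : Set (List (ℕ × F)))
    (w : List (ℕ × F)) (hw : w ∈ S) : wordU D ha w ∈ D.genSubgroup F S :=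
  Subgroup.subset_closure ⟨w, hw, wordU_val D ha w⟩

def orthOK (D : ChevalleyDatum) (i j : ℕ) : Bool :=
  decide (i < D.rank) && decide (j < D.rank) &&
  decide (D.simple j ≠ D.simple i) && decide (D.simple j ≠ D.neg (D.simple i)) &&
  (D.commTerms (D.simple i) (D.simple j)).isEmpty &&
  decide (D.simple j ≠ D.neg (D.neg (D.simple i))) &&
  (D.commTerms (D.neg (D.simple i)) (D.simple j)).isEmpty &&
  decide (D.neg (D.simple j) ≠ D.simple i) && decide (D.neg (D.simple j) ≠ D.neg (D.simple i)) &&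
  (D.commTerms (D.simple i) (D.neg (D.simple j))).isEmpty

theorem orth_spec {D : ChevalleyDatum} (M : MOK D) (hcf : CF D F) {i j : ℕ}
    (h : orthOK D i j = true) (t u : F) :
    Commute (xV D M.w.add (D.simple j) t) (xV D M.w.add (D.simple i) u) ∧
    Commute (xV D M.w.add (D.simple j) t) (xV D M.w.add (D.neg (D.simple i)) u) ∧
    Commute (xV D M.w.add (D.neg (D.simple j)) t) (xV D M.w.add (D.simple i) u) := by
  unfold orthOK at h
  simp only [Bool.and_eq_true, decide_eq_true_eq, List.isEmpty_iff] at h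
  obtain ⟨⟨⟨⟨⟨⟨⟨⟨⟨hi, hj⟩, c1⟩, c2⟩, T1⟩, c3⟩, T2⟩, c4⟩, c5⟩, T3⟩ := h
  obtain ⟨hp, hnp, _, _⟩ := simple_facts M hi
  obtain ⟨hq, hnq, _, _⟩ := simple_facts M hj
  exact ⟨xV_commute M.w.add hcf hp hq c1 c2 T1 u t,
    xV_commute M.w.add hcf hnp hq c2 c3 T2 u t,
    xV_commute M.w.add hcf hp hnq c4 c5 T3 u t⟩

theorem orth_lt {D : ChevalleyDatum} {i j : ℕ} (h : orthOK D i j = true) :
    i < D.rank ∧ j < D.rank := by
  unfold orthOK at h
  simp only [Bool.and_eq_true, decide_eq_true_eq, List.isEmpty_iff] at h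
  exact ⟨h.1.1.1.1.1.1.1.1.1, h.1.1.1.1.1.1.1.1.2⟩

theorem fix_block_mem {D : ChevalleyDatum} (M : MOK D) (G1 : Subgroup (GL D.Idx F)) {i : ℕ}
    (hi : i < D.rank) (hp : xV D M.w.add (D.simple i) (1 : F) ∈ G1)
    (hm : xV D M.w.add (D.neg (D.simple i)) (-1 : F) ∈ G1) :
    nWordU (F := F) D M.w.add [i] ∈ G1 := by
  obtain ⟨h1, h2, _, _⟩ := simple_facts M hi
  have e : nWordU (F := F) D M.w.add [i] = nV D M.w.add (D.simple i) (1 : F) := by
    simp [nWordU]
  rw [e, nV_eq_xV D M.w.add h1 h2]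
  exact mul_mem (mul_mem hp hm) hp

theorem pair_block_mem {D : ChevalleyDatum} (M : MOK D) (hcf : CF D F)
    (G1 : Subgroup (GL D.Idx F)) {i j : ℕ} (h : orthOK D i j = true)
    (hp : xV D M.w.add (D.simple i) (1 : F) * xV D M.w.add (D.simple j) (1 : F) ∈ G1)
    (hm : xV D M.w.add (D.neg (D.simple i)) (-1 : F) *
      xV D M.w.add (D.neg (D.simple j)) (-1 : F) ∈ G1) :
    nWordU (F := F) D M.w.add [i, j] ∈ G1 := by
  obtain ⟨hi, hj⟩ := orth_lt h
  obtain ⟨h1, h2, _, _⟩ := simple_facts M hi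
  obtain ⟨h3, h4, _, _⟩ := simple_facts M hj
  have e : nWordU (F := F) D M.w.add [i, j] =
      nV D M.w.add (D.simple i) (1 : F) * nV D M.w.add (D.simple j) (1 : F) := by
    simp [nWordU]
  rw [e, nV_eq_xV D M.w.add h1 h2, nV_eq_xV D M.w.add h3 h4,
    tw2 _ _ _ _ (orth_spec M hcf h 1 1).1 (orth_spec M hcf h 1 (-1)).2.1
      (orth_spec M hcf h (-1) 1).2.2]
  exact mul_mem (mul_mem hp hm) hp

theorem triple_block_mem {D : ChevalleyDatum} (M : MOK D) (hcf : CF D F)
    (G1 : Subgroup (GL D.Idx F)) {i j k : ℕ} (hij : orthOK D i j = true)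
    (hik : orthOK D i k = true) (hjk : orthOK D j k = true)
    (hp : xV D M.w.add (D.simple i) (1 : F) * xV D M.w.add (D.simple j) (1 : F) *
      xV D M.w.add (D.simple k) (1 : F) ∈ G1)
    (hm : xV D M.w.add (D.neg (D.simple i)) (-1 : F) *
      xV D M.w.add (D.neg (D.simple j)) (-1 : F) *
      xV D M.w.add (D.neg (D.simple k)) (-1 : F) ∈ G1) :
    nWordU (F := F) D M.w.add [i, j, k] ∈ G1 := by
  obtain ⟨hi, hj⟩ := orth_lt hij
  obtain ⟨_, hk⟩ := orth_lt hik
  obtain ⟨h1, h2, _, _⟩ := simple_facts M hi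
  obtain ⟨h3, h4, _, _⟩ := simple_facts M hj
  obtain ⟨h5, h6, _, _⟩ := simple_facts M hk
  have e : nWordU (F := F) D M.w.add [i, j, k] =
      nV D M.w.add (D.simple i) (1 : F) * nV D M.w.add (D.simple j) (1 : F) *
        nV D M.w.add (D.simple k) (1 : F) := by
    simp [nWordU, mul_assoc]
  rw [e, nV_eq_xV D M.w.add h1 h2, nV_eq_xV D M.w.add h3 h4, nV_eq_xV D M.w.add h5 h6,
    tw3 _ _ _ _ _ _ (orth_spec M hcf hij 1 1).1 (orth_spec M hcf hij 1 (-1)).2.1
      (orth_spec M hcf hij (-1) 1).2.2 (orth_spec M hcf hik 1 1).1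
      (orth_spec M hcf hik 1 (-1)).2.1 (orth_spec M hcf hjk 1 1).1
      (orth_spec M hcf hjk 1 (-1)).2.1 (orth_spec M hcf hik (-1) 1).2.2
      (orth_spec M hcf hjk (-1) 1).2.2]
  exact mul_mem (mul_mem hp hm) hp

end sem

end Cfsg.Agent.Helper7
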