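import Cfsg.Agent.Helper7.ChevTwF

set_option autoImplicit false
set_option maxHeartbeats 4000000
set_option linter.unusedSectionVars false
set_option linter.unusedVariables false
open Cfsg

namespace Cfsg.Agent.Helper7

open Cfsg.Lie

theorem pL_map {G : Type*} [Group G] (J : List ℕ) (g : ℕ → ℕ) (f : ℕ → G) :
    pL (J.map g) f = pL J (fun j => f (g j)) := by
  unfold pL
  rw [List.map_map]
  rfl

theorem pL_perm {G : Type*} [Group G] {J J' : List ℕ} (f : ℕ → G) (hp : J.Perm J')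
    (hnd : J.Nodup) (hc : ∀ i ∈ J, ∀ j ∈ J, i ≠ j → Commute (f i) (f j)) :
    pL J f = pL J' f := by
  unfold pL
  apply List.Perm.prod_eq' (hp.map f)
  rw [List.pairwise_map]
  exact List.Pairwise.imp_of_mem (fun {a b} ha hb hne => hc a ha b hb hne) hnd

theorem pL_single {G : Type*} [Group G] (j : ℕ) (f : ℕ → G) : pL [j] f = f j := by
  simp [pL]

theorem pL_pair {G : Type*} [Group G] (i j : ℕ) (f : ℕ → G) : pL [i, j] f = f i * f j := by
  simp [pL]

theorem pL_triple {G : Type*} [Group G] (i j k : ℕ) (f : ℕ → G) :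
    pL [i, j, k] f = f i * f j * f k := by
  simp [pL, mul_assoc]

section sem

variable {F : Type*} [Field F]

theorem sigU_pL (D : ChevalleyDatum) (A B : GAut) (h1 : gaInvOK D A B = true)
    (h2 : gaInvOK D B A = true) (φ : F →+* F) (J : List ℕ) (f : ℕ → GL D.Idx F) :
    sigU D A B h1 h2 φ (pL J f) = pL J (fun j => sigU D A B h1 h2 φ (f j)) := by
  induction J with
  | nil => rw [pL_nil, pL_nil, sigU_one]
  | cons a J ih => rw [pL_cons, pL_cons, sigU_mul, ih]

theorem sig_fix_xP {D : ChevalleyDatum} (M : MOK D) {A B : GAut} (hOK : gaOK D A B = true)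
    (h1 : gaInvOK D A B = true) (h2 : gaInvOK D B A = true) (φ : F →+* F) {J : List ℕ}
    (h : OrthR D M.w.add F J) (hperm : (J.map (fun j => A.rho.getD j 0)).Perm J)
    {ts : ℕ → F} (htw : TwC A φ J ts) :
    sigU D A B h1 h2 φ (pL J (xPf D M.w.add ts)) = pL J (xPf D M.w.add ts) := by
  have htab := hOK
  unfold gaOK at htab
  simp only [Bool.and_eq_true] at htab
  obtain ⟨hT1, hT2⟩ := gaTabOK_spec htab.2
  rw [sigU_pL]
  have e : pL J (fun j => sigU D A B h1 h2 φ (xPf D M.w.add ts j)) =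
      pL J (fun j => xPf D M.w.add ts (A.rho.getD j 0)) := by
    apply pL_congr
    intro j hj
    obtain ⟨hp, _⟩ := simple_lt M.w.fd M.w.n (h.2.1 j hj)
    obtain ⟨h5, h6, _, _⟩ := hT2 j (h.2.1 j hj)
    unfold xPf
    rw [sigU_xV M hOK h1 h2 φ hp, h5, h6, htw j hj, Int.cast_one, one_mul]
  rw [e, ← pL_map J (fun j => A.rho.getD j 0)]
  exact (pL_perm _ hperm.symm h.1 (h.comm (fun j _ => xPf_mem D M.w.add ts j)
    (fun j _ => xPf_mem D M.w.add ts j))).symm

theorem sig_fix_xM {D : ChevalleyDatum} (M : MOK D) {A B : GAut} (hOK : gaOK D A B = true)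
    (h1 : gaInvOK D A B = true) (h2 : gaInvOK D B A = true) (φ : F →+* F) {J : List ℕ}
    (h : OrthR D M.w.add F J) (hperm : (J.map (fun j => A.rho.getD j 0)).Perm J)
    {ts : ℕ → F} (htw : TwC A φ J ts) :
    sigU D A B h1 h2 φ (pL J (xMf D M.w.add ts)) = pL J (xMf D M.w.add ts) := by
  have htab := hOK
  unfold gaOK at htab
  simp only [Bool.and_eq_true] at htab
  obtain ⟨hT1, hT2⟩ := gaTabOK_spec htab.2
  rw [sigU_pL]
  have e : pL J (fun j => sigU D A B h1 h2 φ (xMf D M.w.add ts j)) =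
      pL J (fun j => xMf D M.w.add ts (A.rho.getD j 0)) := by
    apply pL_congr
    intro j hj
    obtain ⟨_, hnp⟩ := simple_lt M.w.fd M.w.n (h.2.1 j hj)
    obtain ⟨_, _, h7, h8⟩ := hT2 j (h.2.1 j hj)
    rw [fneg_eq M.w.fd, fneg_eq M.w.fd] at h7
    rw [fneg_eq M.w.fd] at h8
    unfold xMf
    rw [sigU_xV M hOK h1 h2 φ hnp, h7, h8, htw j hj, Int.cast_one, one_mul]
  rw [e, ← pL_map J (fun j => A.rho.getD j 0)]
  exact (pL_perm _ hperm.symm h.1 (h.comm (fun j _ => xMf_mem D M.w.add ts j)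
    (fun j _ => xMf_mem D M.w.add ts j))).symm

theorem rt_iter {D : ChevalleyDatum} {A B : GAut} (htab : gaTabOK D A B = true)
    (hrho : ∀ i < D.rank, A.rho.getD i 0 < D.rank) {j : ℕ} (hj : j < D.rank) (m : ℕ) :
    (fun i => A.rho.getD i 0)^[m] j < D.rank ∧
    (fun r => A.rt.getD r 0)^[m] (D.simple j) = D.simple ((fun i => A.rho.getD i 0)^[m] j) := by
  obtain ⟨hT1, hT2⟩ := gaTabOK_spec htab
  induction m with
  | zero => exact ⟨hj, rfl⟩
  | succ m ih =>
    rw [Function.iterate_succ_apply', Function.iterate_succ_apply', ih.2]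
    exact ⟨hrho _ ih.1, (hT2 _ ih.1).1⟩

theorem twc_single {A : GAut} {φ : F →+* F} {j : ℕ} {t : F} (ht : φ t = t) :
    TwC A φ [j] (fun _ => t) := by
  intro i hi
  exact ht.symm

theorem twc_pair {A : GAut} {φ : F →+* F} {i j : ℕ} (hij : i ≠ j) (hi : A.rho.getD i 0 = j)
    (hj : A.rho.getD j 0 = i) {t : F} (ht : φ (φ t) = t) :
    TwC A φ [i, j] (fun m => if m = i then t else φ t) := by
  intro m hm
  simp only [List.mem_cons, List.not_mem_nil, or_false] at hm
  rcases hm with rfl | rfl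
  · rw [hi]
    simp [hij.symm]
  · rw [hj]
    simp [hij.symm, ht]

theorem twc_triple {A : GAut} {φ : F →+* F} {i j k : ℕ} (hij : i ≠ j) (hik : i ≠ k)
    (hjk : j ≠ k) (hi : A.rho.getD i 0 = j) (hj : A.rho.getD j 0 = k)
    (hk : A.rho.getD k 0 = i) {t : F} (ht : φ (φ (φ t)) = t) :
    TwC A φ [i, j, k] (fun m => if m = i then t else if m = j then φ t else φ (φ t)) := by
  intro m hm
  simp only [List.mem_cons, List.not_mem_nil, or_false] at hm
  rcases hm with rfl | rfl | rfl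
  · rw [hi]
    simp [hij.symm]
  · rw [hj]
    simp [hij.symm, hik.symm, hjk.symm]
  · rw [hk]
    simp [hik.symm, hjk.symm, ht]

theorem orthR_single (D : ChevalleyDatum) (ha : addCheck2 D = true) {j : ℕ} (hj : j < D.rank) :
    OrthR D ha F [j] := by
  refine ⟨List.nodup_singleton j, ?_, ?_⟩
  · intro i hi
    rw [List.mem_singleton.mp hi]
    exact hj
  · intro i hi j' hj' hij
    exact absurd ((List.mem_singleton.mp hi).trans (List.mem_singleton.mp hj').symm) hij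

theorem orthR_pair {D : ChevalleyDatum} (M : MOK D) (hcf : CF D F) {i j : ℕ}
    (h : orth2OK D i j = true) (hij : i ≠ j) : OrthR D M.w.add F [i, j] := by
  obtain ⟨h0, hc, _⟩ := orth2_spec (F := F) M hcf h
  obtain ⟨hi, hj⟩ := orth_lt h0
  have hR := Rk_comm (F := F) hc
  refine ⟨by simp [hij], ?_, ?_⟩
  · intro k hk
    simp only [List.mem_cons, List.not_mem_nil, or_false] at hk
    rcases hk with rfl | rfl <;> assumption
  · intro a ha b hb hab x hx y hy
    simp only [List.mem_cons, List.not_mem_nil, or_false] at ha hb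
    rcases ha with rfl | rfl <;> rcases hb with rfl | rfl
    · exact absurd rfl hab
    · exact hR x hx y hy
    · exact (hR y hy x hx).symm
    · exact absurd rfl hab

theorem orthR_triple {D : ChevalleyDatum} (M : MOK D) (hcf : CF D F) {i j k : ℕ}
    (h1 : orth2OK D i j = true) (h2 : orth2OK D i k = true) (h3 : orth2OK D j k = true)
    (hij : i ≠ j) (hik : i ≠ k) (hjk : j ≠ k) : OrthR D M.w.add F [i, j, k] := by
  obtain ⟨a0, ac, _⟩ := orth2_spec (F := F) M hcf h1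
  obtain ⟨b0, bc, _⟩ := orth2_spec (F := F) M hcf h2
  obtain ⟨c0, cc, _⟩ := orth2_spec (F := F) M hcf h3
  obtain ⟨hi, hj⟩ := orth_lt a0
  obtain ⟨_, hk⟩ := orth_lt b0
  have hA := Rk_comm (F := F) ac
  have hB := Rk_comm (F := F) bc
  have hC := Rk_comm (F := F) cc
  refine ⟨by simp [hij, hik, hjk], ?_, ?_⟩
  · intro m hm
    simp only [List.mem_cons, List.not_mem_nil, or_false] at hm
    rcases hm with rfl | rfl | rfl <;> assumption
  · intro a ha b hb hab x hx y hy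
    simp only [List.mem_cons, List.not_mem_nil, or_false] at ha hb
    rcases ha with rfl | rfl | rfl <;> rcases hb with rfl | rfl | rfl
    · exact absurd rfl hab
    · exact hA x hx y hy
    · exact hB x hx y hy
    · exact (hA y hy x hx).symm
    · exact absurd rfl hab
    · exact hC x hx y hy
    · exact (hB y hy x hx).symm
    · exact (hC y hy x hx).symm
    · exact absurd rfl hab

theorem tw_data {D : ChevalleyDatum} {adj : List (List ℤ)} (L : LOK D adj) (hcf : CF D F)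
    (hu : unitAllOK D = true) {A B : GAut} (hOK : gaOK D A B = true) (hOK' : gaOK D B A = true)
    (h1 : gaInvOK D A B = true) (h2 : gaInvOK D B A = true) (φ : F →+* F)
    (G1 : Subgroup (GL D.Idx F)) (bl : List (List ℕ))
    (hrho : ∀ i < D.rank, A.rho.getD i 0 < D.rank)
    (hsg : ∀ r < D.nroots, (D.nroots / 2 ≤ A.rt.getD r 0 ↔ D.nroots / 2 ≤ r))
    (hsgn : ∀ j < D.rank, nsgn D j (D.simple j) = -1)
    (horth : ∀ J ∈ bl, OrthR D L.u.m.w.add F J)
    (hperm : ∀ J ∈ bl, (J.map (fun j => A.rho.getD j 0)).Perm J)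
    (hne : ∀ J ∈ bl, J ≠ [])
    (hk : ∀ J ∈ bl, ∀ j ∈ J, ∃ k < D.rank, D.cartan k (D.simple j) = -1 ∧
      D.cartan (A.rho.getD k 0) (D.simple (A.rho.getD j 0)) = -1)
    (hroot : ∀ J ∈ bl, ∀ r < D.nroots, D.nroots / 2 ≤ r →
      (∀ i < D.rank, i ∉ J → fcor D r i = 0) → ∃ j ∈ J, r = D.simple j)
    (horb : ∀ J ∈ bl, ∀ j ∈ J, ∀ j' ∈ J, ∃ m : ℕ, (fun i => A.rho.getD i 0)^[m] j = j')
    (hnb : ∀ J ∈ bl, ∃ j ∈ J, wApply D J (D.simple j) < D.nroots / 2)
    (hinj : ∀ J ∈ bl, ∀ J' ∈ bl, (∀ r < D.nroots, wApply D J r = wApply D J' r) → J = J')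
    (hG : ∀ J ∈ bl, ∀ ts, TwC A φ J ts →
      pL J (xPf D L.u.m.w.add ts) ∈ G1 ∧ pL J (xMf D L.u.m.w.add ts) ∈ G1)
    (hgen : G1 ≤ Subgroup.closure {g | ∃ J ∈ bl, ∃ ts, TwC A φ J ts ∧
      (g = pL J (xPf D L.u.m.w.add ts) ∨ g = pL J (xMf D L.u.m.w.add ts))}) :
    TwData (D.borelSubgroup F) (D.monomialSubgroup F) G1 {J : List ℕ // J ∈ bl}
      (fun J => nWordU D L.u.m.w.add J.val)
      (fun J => {x | ∃ ts, TwC A φ J.val ts ∧ x = pL J.val (xPf D L.u.m.w.add ts)}) := by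
  have M := L.u.m
  have hUB : D.posUnipotent F ≤ D.borelSubgroup F := le_sup_left
  have hHB : D.diagonalSubgroup F ≤ D.borelSubgroup F := le_sup_right
  have htab := hOK
  unfold gaOK at htab
  simp only [Bool.and_eq_true] at htab
  have hjs : ∀ J ∈ bl, ∀ j ∈ J, A.rho.getD j 0 ∈ J := by
    intro J hJ j hj
    exact (hperm J hJ).mem_iff.mp (List.mem_map_of_mem hj)
  have twc_neg : ∀ J, ∀ ts : ℕ → F, TwC A φ J ts → TwC A φ J (fun j => -ts j) := by
    intro J ts ht j hj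
    show -ts (A.rho.getD j 0) = φ (-ts j)
    rw [map_neg, ht j hj]
  have twc_inv : ∀ J, ∀ ts : ℕ → F, TwC A φ J ts → TwC A φ J (fun j => (ts j)⁻¹) := by
    intro J ts ht j hj
    show (ts (A.rho.getD j 0))⁻¹ = φ ((ts j)⁻¹)
    rw [map_inv₀, ht j hj]
  have twc_one : ∀ J, TwC A φ J (fun _ => (1 : F)) := fun J j _ => (map_one φ).symm
  have hsG : ∀ J ∈ bl, nWordU D L.u.m.w.add J ∈ G1 := by
    intro J hJ
    have h := horth J hJ
    have t2 : TwC A φ J (fun j => -((fun _ => (1 : F)) j)⁻¹) :=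
      twc_neg J _ (twc_inv J _ (twc_one J))
    rw [nWordU_pL, nPf_eq M h]
    exact mul_mem (mul_mem (hG J hJ _ (twc_one J)).1 (hG J hJ _ t2).2) (hG J hJ _ (twc_one J)).1
  have hfix : G1 ≤ sigFix D A B h1 h2 φ := by
    refine le_trans hgen ?_
    rw [Subgroup.closure_le]
    rintro g ⟨J, hJ, ts, htw, hg | hg⟩
    · rw [hg]
      exact mem_sigFix.mpr (sig_fix_xP M hOK h1 h2 φ (horth J hJ) (hperm J hJ) htw)
    · rw [hg]
      exact mem_sigFix.mpr (sig_fix_xM M hOK h1 h2 φ (horth J hJ) (hperm J hJ) htw)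
  have hrootP : ∀ J ∈ bl, ∀ r, D.IsPosRoot r → D.InRootSub {j | j ∈ J} r →
      ∃ j ∈ J, r = D.simple j := by
    intro J hJ r hr hin
    refine hroot J hJ r hin.1 ((isPos_iff M hin.1).mp hr) ?_
    intro i hi hiJ
    rw [fcor_eq M.w.fd]
    exact hin.2 i hi hiJ
  refine { hNB := ?_, hs := ?_, hsq := ?_, hX := ?_, hdec := ?_, hrk := ?_, hsign := ?_,
           hne := ?_, hnb := ?_, hinj := ?_, hgen := ?_, huniq := ?_ }
  · intro n hn t ht
    rw [borel_inf_mon M, diag_eq_torus M.w] at ht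
    exact torus_le_borel M.w
      ((Subgroup.mem_normalizer_iff.mp (mon_normalizes_torus M hn) t).mp ht)
  · rintro ⟨J, hJ⟩
    exact ⟨nWordU_mem_mon M J (horth J hJ).2.1, hsG J hJ⟩
  · rintro ⟨J, hJ⟩
    exact hHB (nWordU_sq M (horth J hJ))
  · rintro ⟨J, hJ⟩ x ⟨ts, htw, rfl⟩
    have h := horth J hJ
    exact ⟨(hG J hJ ts htw).1, hUB (xPf_posU M h.2.1 ts),
      ⟨fun j => -ts j, twc_neg J ts htw, xPf_inv M h ts⟩⟩
  · rintro ⟨J, hJ⟩ b hb
    have h := horth J hJ
    obtain ⟨ts, htw, c, hc, e, hsc⟩ := tw_split L hcf hOK hOK' h1 h2 φ hrho h (hjs J hJ)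
      (hk J hJ) (hrootP J hJ) (mi1 hb) (mem_sigFix.mp (hfix (mi2 hb)))
    exact ⟨_, ⟨ts, htw, rfl⟩, c, hc, e, hsc⟩
  · rintro ⟨J, hJ⟩ x ⟨ts, htw, rfl⟩
    have h := horth J hJ
    by_cases hz : ∀ j ∈ J, ts j ≠ 0
    · right
      exact tw_rank1 L.u h (fun j hj => hsgn j (h.2.1 j hj)) G1 (TwC A φ J) (twc_neg J)
        (twc_inv J) (hG J hJ) (hsG J hJ) ts htw hz
    · left
      push Not at hz
      obtain ⟨j₀, hj₀, hz₀⟩ := hz
      have hit : ∀ m : ℕ, (fun i => A.rho.getD i 0)^[m] j₀ ∈ J ∧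
          ts ((fun i => A.rho.getD i 0)^[m] j₀) = 0 := by
        intro m
        induction m with
        | zero => exact ⟨hj₀, hz₀⟩
        | succ m ih =>
          rw [Function.iterate_succ_apply']
          exact ⟨hjs J hJ _ ih.1, by rw [htw _ ih.1, ih.2, map_zero]⟩
      have hall : ∀ j ∈ J, ts j = 0 := by
        intro j hj
        obtain ⟨m, hm⟩ := horb J hJ j₀ hj₀ j hj
        rw [← hm]
        exact (hit m).2
      have e : pL J (xPf D L.u.m.w.add ts) = pL J (xPf D L.u.m.w.add (fun _ => (0 : F))) :=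
        pL_congr (fun j hj => by unfold xPf; rw [hall j hj])
      show pL J (xPf D L.u.m.w.add ts) = 1
      rw [e, xPf_zero]
  · rintro ⟨J, hJ⟩ n hn
    have h := horth J hJ
    have horb' : ∀ j ∈ J, ∀ j' ∈ J, ∃ m : ℕ,
        (fun r => A.rt.getD r 0)^[m] (D.simple j) = D.simple j' := by
      intro j hj j' hj'
      obtain ⟨m, hm⟩ := horb J hJ j hj j' hj'
      refine ⟨m, ?_⟩
      rw [(rt_iter htab.2 hrho (h.2.1 j hj) m).2, hm]
    rcases tw_signs L.u hOK h1 h2 φ hu hsg h horb' (mi1 hn)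
      (mem_sigFix.mp (hfix (mi2 hn))) with hA | hB
    · left
      rintro x ⟨ts, _, rfl⟩
      exact hUB (hA ts)
    · right
      rintro x ⟨ts, _, rfl⟩
      exact hUB (hB ts)
  · rintro ⟨J, hJ⟩
    have h := horth J hJ
    obtain ⟨j, hj⟩ := List.exists_mem_of_ne_nil J (hne J hJ)
    obtain ⟨k, hkr, hc, _⟩ := hk J hJ j hj
    exact ⟨_, ⟨fun _ => 1, twc_one J, rfl⟩, xPf_ne_one L h hj hkr hc _ one_ne_zero⟩
  · rintro ⟨J, hJ⟩
    have h := horth J hJ
    obtain ⟨j, hj, hlt⟩ := hnb J hJ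
    exact word_not_mem_borel M J h.2.1 (simplePos_spec M.spos (h.2.1 j hj)) hlt
  · rintro ⟨J, hJ⟩ ⟨J', hJ'⟩ hmem
    have e := hinj J hJ J' hJ'
      (act_eq_of_mem L.u hu J J' (horth J hJ).2.1 (horth J' hJ').2.1 hmem)
    show nWordU D L.u.m.w.add J = nWordU D L.u.m.w.add J'
    rw [e]
  · refine le_trans hgen ?_
    rw [Subgroup.closure_le]
    rintro g ⟨J, hJ, ts, htw, hg | hg⟩
    · apply Subgroup.subset_closure
      left
      rw [hg]
      exact mi (hUB (xPf_posU M (horth J hJ).2.1 ts)) (hG J hJ ts htw).1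
    · have h := horth J hJ
      have e := nWordU_conj_xP M h (fun j hj => hsgn j (h.2.1 j hj)) (fun j => -ts j)
      have e3 : pL J (xMf D L.u.m.w.add ts) = nWordU D L.u.m.w.add J *
          pL J (xPf D L.u.m.w.add (fun j => -ts j)) * (nWordU D L.u.m.w.add J)⁻¹ := by
        rw [e]
        exact pL_congr (fun j _ => by simp only [xMf, neg_neg])
      have hsC : nWordU D L.u.m.w.add J ∈ Subgroup.closure
          ((((D.borelSubgroup F ⊓ G1 : Subgroup (GL D.Idx F)) : Set (GL D.Idx F))) ∪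
            Set.range (fun J : {J : List ℕ // J ∈ bl} => nWordU D L.u.m.w.add J.val)) :=
        Subgroup.subset_closure (Or.inr ⟨⟨J, hJ⟩, rfl⟩)
      have hxC : pL J (xPf D L.u.m.w.add (fun j => -ts j)) ∈ Subgroup.closure
          ((((D.borelSubgroup F ⊓ G1 : Subgroup (GL D.Idx F)) : Set (GL D.Idx F))) ∪
            Set.range (fun J : {J : List ℕ // J ∈ bl} => nWordU D L.u.m.w.add J.val)) :=
        Subgroup.subset_closure (Or.inl (mi (hUB (xPf_posU M h.2.1 _))
          (hG J hJ _ (twc_neg J ts htw)).1))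
      rw [SetLike.mem_coe, hg, e3]
      exact mul_mem (mul_mem hsC hxC) (inv_mem hsC)
  · intro n hn n' hn' b₁ hb₁ b₂ hb₂ e
    exact bruhat_unique L.u hcf hn hn' hb₁ hb₂ e

end sem

end Cfsg.Agent.Helper7
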