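import Cfsg.Agent.Helper7.ChevBruhat

set_option autoImplicit false
set_option maxHeartbeats 4000000
open Cfsg

namespace Cfsg.Agent.Helper7

open Cfsg.Lie

section sem

variable {F : Type*} [Field F]

theorem long_map {D : ChevalleyDatum} (M : MOK D) (w : List ℕ) (hw : longOK D w = true) :
    (D.posUnipotent F).map (MulAut.conj (nWordU D M.w.add w)).toMonoidHom =
      D.negUnipotent F := by
  obtain ⟨hwr, hall⟩ := longOK_spec hw
  have hconj : ∀ x : GL D.Idx F, (MulAut.conj (nWordU D M.w.add w)).toMonoidHom x =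
      nWordU D M.w.add w * x * (nWordU D M.w.add w)⁻¹ := fun x => rfl
  apply le_antisymm
  · rw [Subgroup.map_le_iff_le_comap]
    unfold ChevalleyDatum.posUnipotent
    rw [Subgroup.closure_le]
    rintro x ⟨r, t, hr, hx⟩
    have ex : x = xV D M.w.add r t := Units.ext (by rw [hx, xV_val])
    obtain ⟨ε, _, h⟩ := long_conj (F := F) M w hwr hr.1
    show (MulAut.conj (nWordU D M.w.add w)).toMonoidHom x ∈ D.negUnipotent F
    rw [hconj, ex, h t]
    apply Subgroup.subset_closure
    have hwr' := wApply_lt M.w.n w hwr hr.1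
    exact ⟨wApply D w r, ε * t,
      (isNeg_iff M hwr').mpr ((hall r hr.1).1.mp ((isPos_iff M hr.1).mp hr)),
      xV_val D M.w.add _ _⟩
  · unfold ChevalleyDatum.negUnipotent
    rw [Subgroup.closure_le]
    rintro y ⟨s, t, hs, hy⟩
    have ey : y = xV D M.w.add s t := Units.ext (by rw [hy, xV_val])
    have hs' := wApply_lt M.w.n w hwr hs.1
    obtain ⟨ε, hε, h⟩ := long_conj (F := F) M w hwr hs'
    have h2 := (hall s hs.1).2
    have hpos : D.IsPosRoot (wApply D w s) := by
      rw [isPos_iff M hs']
      have h1 := (hall (wApply D w s) hs').1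
      rw [h2] at h1
      exact h1.mpr ((isNeg_iff M hs.1).mp hs)
    have e2 := h (ε * t)
    rw [h2] at e2
    have e3 : ε * (ε * t) = t := by
      rcases hε with rfl | rfl <;> simp
    rw [e3] at e2
    rw [ey, ← e2, ← hconj]
    exact Subgroup.mem_map_of_mem _
      (Subgroup.subset_closure ⟨wApply D w s, ε * t, hpos, xV_val D M.w.add _ _⟩)

theorem conj_list_prod {G : Type*} [Group G] (g : G) (l : List G) :
    g * l.prod * g⁻¹ = (l.map fun x => g * x * g⁻¹).prod := by
  induction l with
  | nil => simp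
  | cons a l ih =>
    rw [List.prod_cons, List.map_cons, List.prod_cons, ← ih]
    group

theorem neg_simple_conj_mem {D : ChevalleyDatum} (U : UOK D) {α : Type*} (k : α → ℕ)
    (f : α → F) {a : ℕ} (ha : a < D.rank) (L : List α)
    (hL : ∀ p ∈ L, k p < D.rank ∧ D.simple (k p) ≠ D.simple a) :
    nV D U.m.w.add (D.simple a) (1 : F) *
      (L.map fun p => xV D U.m.w.add (D.neg (D.simple (k p))) (f p)).prod *
        (nV D U.m.w.add (D.simple a) (1 : F))⁻¹ ∈ D.negUnipotent F := by
  have M := U.m
  rw [conj_list_prod]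
  apply Subgroup.list_prod_mem
  intro x hx
  rw [List.mem_map] at hx
  obtain ⟨y, hy, rfl⟩ := hx
  rw [List.mem_map] at hy
  obtain ⟨p, hp, rfl⟩ := hy
  obtain ⟨hpk, hne⟩ := hL p hp
  obtain ⟨h1, h2, h3, h4⟩ := simple_facts M hpk
  rw [xV_conj M ha h2]
  apply xV_mem_negU
  have hlt := (w_facts M.w.n ha h2).1
  rw [isNeg_iff M hlt]
  apply fw_neg_of_neg U ha h2 h4
  intro heq
  apply hne
  have e1 := neg_neg_root M.w.fd U.ninv h1
  have e2 := neg_neg_root M.w.fd U.ninv (simple_facts M ha).1
  rw [← e1, heq, e2]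

theorem neg_prod_inj {D : ChevalleyDatum} (U : UOK D) {α : Type*} (k : α → ℕ)
    (f g : α → F) : ∀ L : List α, (L.map fun p => D.simple (k p)).Nodup →
      (∀ p ∈ L, k p < D.rank) →
      (L.map fun p => xV D U.m.w.add (D.neg (D.simple (k p))) (f p)).prod =
        (L.map fun p => xV D U.m.w.add (D.neg (D.simple (k p))) (g p)).prod →
      ∀ p ∈ L, f p = g p := by
  have M := U.m
  intro L
  induction L with
  | nil => intro _ _ _ p hp; exact absurd hp List.not_mem_nil
  | cons q L ih =>
    intro hnd hlt heq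
    rw [List.map_cons, List.nodup_cons] at hnd
    obtain ⟨hq, hnd'⟩ := hnd
    have hqk : k q < D.rank := hlt q List.mem_cons_self
    have hL : ∀ p ∈ L, k p < D.rank ∧ D.simple (k p) ≠ D.simple (k q) := by
      intro p hp
      refine ⟨hlt p (List.mem_cons_of_mem _ hp), fun h => hq ?_⟩
      rw [← h]
      exact List.mem_map.mpr ⟨p, hp, rfl⟩
    obtain ⟨h1, h2, h3, h4⟩ := simple_facts M hqk
    rw [List.map_cons, List.map_cons, List.prod_cons, List.prod_cons] at heq
    have e1 : xV D U.m.w.add (D.neg (D.simple (k q))) (f q - g q) =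
        (L.map fun p => xV D U.m.w.add (D.neg (D.simple (k p))) (g p)).prod *
          ((L.map fun p => xV D U.m.w.add (D.neg (D.simple (k p))) (f p)).prod)⁻¹ := by
      rw [sub_eq_add_neg, add_comm, ← xV_add D U.m.w.add h2, ← xV_inv D U.m.w.add h2,
        eq_mul_inv_iff_mul_eq, mul_assoc, heq]
      group
    have e2 : nV D U.m.w.add (D.simple (k q)) (1 : F) *
        xV D U.m.w.add (D.neg (D.simple (k q))) (f q - g q) *
        (nV D U.m.w.add (D.simple (k q)) (1 : F))⁻¹ ∈ D.negUnipotent F := by
      rw [e1]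
      have e3 : nV D U.m.w.add (D.simple (k q)) (1 : F) *
          ((L.map fun p => xV D U.m.w.add (D.neg (D.simple (k p))) (g p)).prod *
            ((L.map fun p => xV D U.m.w.add (D.neg (D.simple (k p))) (f p)).prod)⁻¹) *
          (nV D U.m.w.add (D.simple (k q)) (1 : F))⁻¹ =
          (nV D U.m.w.add (D.simple (k q)) (1 : F) *
            (L.map fun p => xV D U.m.w.add (D.neg (D.simple (k p))) (g p)).prod *
            (nV D U.m.w.add (D.simple (k q)) (1 : F))⁻¹) *
          (nV D U.m.w.add (D.simple (k q)) (1 : F) *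
            (L.map fun p => xV D U.m.w.add (D.neg (D.simple (k p))) (f p)).prod *
            (nV D U.m.w.add (D.simple (k q)) (1 : F))⁻¹)⁻¹ := by group
      rw [e3]
      exact mul_mem (neg_simple_conj_mem U k g hqk L hL)
        (inv_mem (neg_simple_conj_mem U k f hqk L hL))
    rw [xV_conj M hqk h2] at e2
    have e4 : fw D (k q) (D.neg (D.simple (k q))) = D.simple (k q) := by
      rw [← fw_simple M hqk]
      exact (w_facts M.w.n hqk h1).2.2.1
    rw [e4] at e2
    have e5 : xV D U.m.w.add (D.simple (k q))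
        (((nsgn D (k q) (D.neg (D.simple (k q))) : ℤ) : F) * (f q - g q)) ∈
        D.borelSubgroup F ⊓ D.negUnipotent F :=
      ⟨(le_sup_left : D.posUnipotent F ≤ D.borelSubgroup F)
        (xV_mem_posU M.w.add ((isPos_iff M h1).mpr h3) _), e2⟩
    rw [borel_inf_negU M, Subgroup.mem_bot] at e5
    have e6 := xV_eq_one M h1 e5
    have e7 : f q = g q := by
      rcases mul_eq_zero.mp e6 with h | h
      · exfalso
        rcases sgn_pm (F := F) D (k q) (D.neg (D.simple (k q))) (Or.inl rfl) with h' | h'
        · rw [mul_one] at h'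
          rw [h] at h'
          exact zero_ne_one h'
        · rw [mul_one] at h'
          rw [h] at h'
          exact one_ne_zero (neg_eq_zero.mp h'.symm)
      · exact sub_eq_zero.mp h
    have heq' : (L.map fun p => xV D U.m.w.add (D.neg (D.simple (k p))) (f p)).prod =
        (L.map fun p => xV D U.m.w.add (D.neg (D.simple (k p))) (g p)).prod := by
      rw [e7] at heq
      exact mul_left_cancel heq
    intro p hp
    rcases List.mem_cons.mp hp with rfl | hp
    · exact e7
    · exact ih hnd' (fun p hp => hlt p (List.mem_cons_of_mem _ hp)) heq' p hp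

theorem core_trivial_tw {D : ChevalleyDatum} (U : UOK D) (G1 : Subgroup (GL D.Idx F))
    (w : List ℕ) (hw : longOK D w = true) (hn0 : nWordU D U.m.w.add w ∈ G1)
    (hgen : ∀ i < D.rank, ∃ L : List (ℕ × F), (L.map fun p => D.simple p.1).Nodup ∧
      (∀ p ∈ L, p.1 < D.rank) ∧ (∃ c : F, c ≠ 0 ∧ (i, c) ∈ L) ∧
      (L.map fun p => xV D U.m.w.add (D.neg (D.simple p.1)) p.2).prod ∈ G1) :
    ((D.borelSubgroup F ⊓ G1).subgroupOf G1).normalCore = ⊥ := by
  have M := U.m
  obtain ⟨hwr, -⟩ := longOK_spec hw
  have hn0N := nWordU_mem_mon (F := F) M w hwr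
  have hUV := long_map (F := F) M w hw
  rw [eq_bot_iff]
  rintro ⟨a, haG⟩ ha
  rw [Subgroup.mem_bot]
  apply Subtype.ext
  change a = 1
  have key : ∀ b ∈ G1, b * a * b⁻¹ ∈ D.borelSubgroup F := by
    intro b hb
    have h1 := ha ⟨b, hb⟩
    rw [Subgroup.mem_subgroupOf] at h1
    exact h1.1
  have haB : a ∈ D.borelSubgroup F := by
    have := key 1 (one_mem _)
    simpa using this
  have hnorm := mon_normalizes_torus M hn0N
  have haVH : a ∈ D.negUnipotent F ⊔ D.diagonalSubgroup F := by
    have h1 : (nWordU D U.m.w.add w)⁻¹ * a * (nWordU D U.m.w.add w)⁻¹⁻¹ ∈ D.borelSubgroup F :=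
      key _ (inv_mem hn0)
    have h2 : a = (MulAut.conj (nWordU D U.m.w.add w)).toMonoidHom
        ((nWordU D U.m.w.add w)⁻¹ * a * (nWordU D U.m.w.add w)⁻¹⁻¹) := by
      change a = nWordU D U.m.w.add w *
        ((nWordU D U.m.w.add w)⁻¹ * a * (nWordU D U.m.w.add w)⁻¹⁻¹) *
          (nWordU D U.m.w.add w)⁻¹
      group
    have h3 : a ∈ (D.borelSubgroup F).map
        (MulAut.conj (nWordU D U.m.w.add w)).toMonoidHom := by
      rw [h2]
      exact Subgroup.mem_map_of_mem _ h1
    unfold ChevalleyDatum.borelSubgroup at h3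
    rw [Subgroup.map_sup, hUV] at h3
    have h4 : (D.diagonalSubgroup F).map (MulAut.conj (nWordU D U.m.w.add w)).toMonoidHom ≤
        D.diagonalSubgroup F := by
      rw [diag_eq_torus M.w]
      rintro _ ⟨h, hh, rfl⟩
      exact ((Subgroup.mem_normalizer_iff.mp hnorm) h).mp hh
    exact (sup_le_sup_left h4 (D.negUnipotent F)) h3
  have haH : a ∈ torus D F := by
    rw [← diag_eq_torus M.w, ← borel_inf_negBorel M]
    exact ⟨haB, haVH⟩
  obtain ⟨z, rfl⟩ := haH
  have hnegs : ∀ i < D.rank, chi D z (D.neg (D.simple i)) = 1 := by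
    intro i hi
    obtain ⟨L, hnd, hlt, ⟨c, hc0, hcL⟩, hy⟩ := hgen i hi
    have h1 := key _ hy
    have hyV : (L.map fun p => xV D U.m.w.add (D.neg (D.simple p.1)) p.2).prod ∈
        D.negUnipotent F := by
      apply Subgroup.list_prod_mem
      intro x hx
      rw [List.mem_map] at hx
      obtain ⟨p, hp, rfl⟩ := hx
      obtain ⟨e1, e2, e3, e4⟩ := simple_facts M (hlt p hp)
      exact xV_mem_negU M.w.add ((isNeg_iff M e2).mpr e4) _
    have hconj : DgU D (chi D z) *
        (L.map fun p => xV D U.m.w.add (D.neg (D.simple p.1)) p.2).prod *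
        (DgU D (chi D z))⁻¹ =
        (L.map fun p => xV D U.m.w.add (D.neg (D.simple p.1))
          ((chi D z (D.neg (D.simple p.1)) : F) * p.2)).prod := by
      rw [conj_list_prod, List.map_map]
      congr 1
      apply List.map_congr_left
      intro p hp
      obtain ⟨e1, e2, e3, e4⟩ := simple_facts M (hlt p hp)
      show DgU D (chi D z) * xV D U.m.w.add (D.neg (D.simple p.1)) p.2 *
        (DgU D (chi D z))⁻¹ = _
      rw [DgU_xV M.w z e2, mul_assoc, mul_inv_cancel, mul_one]
    have hconjV : DgU D (chi D z) *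
        (L.map fun p => xV D U.m.w.add (D.neg (D.simple p.1)) p.2).prod *
        (DgU D (chi D z))⁻¹ ∈ D.negUnipotent F := by
      rw [hconj]
      apply Subgroup.list_prod_mem
      intro x hx
      rw [List.mem_map] at hx
      obtain ⟨p, hp, rfl⟩ := hx
      obtain ⟨e1, e2, e3, e4⟩ := simple_facts M (hlt p hp)
      exact xV_mem_negU M.w.add ((isNeg_iff M e2).mpr e4) _
    have h2 : (L.map fun p => xV D U.m.w.add (D.neg (D.simple p.1)) p.2).prod *
        (DgU D (chi D z) *
          (L.map fun p => xV D U.m.w.add (D.neg (D.simple p.1)) p.2).prod *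
          (DgU D (chi D z))⁻¹)⁻¹ ∈ D.borelSubgroup F ⊓ D.negUnipotent F := by
      refine Subgroup.mem_inf.mpr ⟨?_, mul_mem hyV (inv_mem hconjV)⟩
      have e : (L.map fun p => xV D U.m.w.add (D.neg (D.simple p.1)) p.2).prod *
          (DgU D (chi D z) *
            (L.map fun p => xV D U.m.w.add (D.neg (D.simple p.1)) p.2).prod *
            (DgU D (chi D z))⁻¹)⁻¹ =
          ((L.map fun p => xV D U.m.w.add (D.neg (D.simple p.1)) p.2).prod *
            DgU D (chi D z) *
            ((L.map fun p => xV D U.m.w.add (D.neg (D.simple p.1)) p.2).prod)⁻¹) *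
          (DgU D (chi D z))⁻¹ := by group
      rw [e]
      exact mul_mem h1 (inv_mem haB)
    rw [borel_inf_negU M, Subgroup.mem_bot, mul_inv_eq_one, hconj] at h2
    have h3 := neg_prod_inj U (fun p : ℕ × F => p.1) (fun p => p.2)
      (fun p => (chi D z (D.neg (D.simple p.1)) : F) * p.2) L hnd hlt h2 (i, c) hcL
    have h4 : (chi D z (D.neg (D.simple i)) : F) = 1 := by
      have h5 : ((chi D z (D.neg (D.simple i)) : F) - 1) * c = 0 := by
        have : c = (chi D z (D.neg (D.simple i)) : F) * c := h3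
        linear_combination -this
      rcases mul_eq_zero.mp h5 with h | h
      · exact sub_eq_zero.mp h
      · exact absurd h hc0
    apply Units.ext
    rw [Units.val_one]
    exact h4
  have hsimp : ∀ i < D.rank, chi D z (D.simple i) = 1 := by
    intro i hi
    have h1 := chi_neg_mul M.w z (simple_facts M hi).1
    rw [hnegs i hi, one_mul] at h1
    exact h1
  have hall : ∀ r < D.nroots, chi D z r = 1 := by
    apply root_induction M.w.reach (fun r => chi D z r = 1)
    · exact hsimp
    · intro i hi s hs hP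
      show chi D z (fw D i s) = 1
      rw [chi_refl M.w hi z hs]
      have e : (fun j => z j * if j = i then (chi D z (D.simple i))⁻¹ else 1) = z := by
        funext j
        rw [hsimp i hi]
        simp
      rw [e]
      exact hP
  rw [← DgU_one]
  exact DgU_congr D hall

end sem

end Cfsg.Agent.Helper7
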