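import Cfsg.Agent.Helper7.TwBNAbs
import Cfsg.Agent.Helper7.ChevCox

set_option autoImplicit false
set_option maxHeartbeats 4000000
set_option linter.unusedSectionVars false
set_option linter.unusedVariables false
open Cfsg

namespace Cfsg.Agent.Helper7

open Cfsg.Agent.Helper3

theorem tw_weyl_abs {G : Type*} [Group G] {B N G1 : Subgroup G} {ι : Type*} {sf : ι → G}
    {X : ι → Set G} (T : TwData B N G1 ι sf X) {n : ℕ} (M : CoxeterMatrix (Fin n))
    (e0 : Fin n → ι) (he0 : Function.Surjective e0)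
    (hord : ∀ i j : Fin n, i ≠ j → 0 < M i j ∧ (sf (e0 i) * sf (e0 j)) ^ (M i j) ∈ B ∧
      ∀ k, 0 < k → k < M i j → (sf (e0 i) * sf (e0 j)) ^ k ∉ B) :
    ∃ φ : ↥(N ⊓ G1) →* M.Group, Function.Surjective φ ∧
      φ.ker = (B ⊓ N ⊓ G1).subgroupOf (N ⊓ G1) := by
  classical
  obtain ⟨P, hPB, hPN, hPS⟩ := tw_bn_abs T
  have : ((P.B ⊓ P.N).subgroupOf P.N).Normal := bn_normal P
  obtain ⟨hsq, hinj, cs, hcs⟩ := weyl_coxeter_ord P
  have hS : ∀ i : Fin n, (⟨sf (e0 i), (T.hs (e0 i)).2⟩ : ↥G1) ∈ P.S := by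
    intro i
    rw [hPS]
    exact ⟨e0 i, rfl⟩
  obtain ⟨e1, he1⟩ : ∃ e1 : Fin n → P.S, ∀ i, ((e1 i : ↥G1) : G) = sf (e0 i) :=
    ⟨fun i => ⟨⟨sf (e0 i), (T.hs (e0 i)).2⟩, hS i⟩, fun i => rfl⟩
  have hpow : ∀ (i j : Fin n) (k : ℕ), (weylGen P (e1 i) * weylGen P (e1 j)) ^ k = 1 ↔
      (sf (e0 i) * sf (e0 j)) ^ k ∈ B := by
    intro i j k
    rw [← he1 i, ← he1 j]
    unfold weylGen
    rw [← QuotientGroup.mk_mul, ← QuotientGroup.mk_pow, QuotientGroup.eq_one_iff,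
      Subgroup.mem_subgroupOf]
    constructor
    · intro h
      have h1 := mi1 h
      rw [hPB, Subgroup.mem_subgroupOf] at h1
      exact mi1 h1
    · intro h
      refine mi ?_ (SetLike.coe_mem _)
      rw [hPB, Subgroup.mem_subgroupOf]
      exact mi h (SetLike.coe_mem _)
  have hord' : ∀ i j : Fin n, i ≠ j →
      orderOf (weylGen P (e1 i) * weylGen P (e1 j)) = M i j := by
    intro i j hij
    obtain ⟨h0, h1, h2⟩ := hord i j hij
    rw [orderOf_eq_iff h0]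
    constructor
    · rw [hpow]
      exact h1
    · intro k hk hk0 hone
      rw [hpow] at hone
      exact h2 k hk0 hk hone
  have he1inj : Function.Injective e1 := by
    intro i j hij
    by_contra hne
    have h1 := hord' i j hne
    rw [hij, hsq, orderOf_one] at h1
    exact M.off_diagonal i j hne h1.symm
  have he1surj : Function.Surjective e1 := by
    rintro ⟨s, hs⟩
    have hs' := hs
    rw [hPS] at hs'
    obtain ⟨i', hi'⟩ := hs'
    obtain ⟨i, rfl⟩ := he0 i'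
    refine ⟨i, Subtype.ext (Subtype.ext ?_)⟩
    rw [he1, hi']
  obtain ⟨e, he⟩ : ∃ e : Fin n ≃ P.S, ∀ i, e i = e1 i :=
    ⟨Equiv.ofBijective e1 ⟨he1inj, he1surj⟩, fun i => rfl⟩
  have hmat : ∀ i j, ordMatrix (weylGen P) hsq hinj (e i) (e j) = M i j := by
    intro i j
    by_cases hij : i = j
    · subst hij
      exact ((ordMatrix (weylGen P) hsq hinj).diagonal (e i)).trans (M.diagonal i).symm
    · rw [ordMatrix_apply, he, he]
      exact hord' i j hij
  obtain ⟨cs2, hcs2⟩ := cox_transfer M cs e hmat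
  have hfmem : ∀ g : ↥(N ⊓ G1), (⟨g.1, mi2 g.2⟩ : ↥G1) ∈ P.N := by
    intro g
    rw [hPN, Subgroup.mem_subgroupOf]
    exact g.2
  obtain ⟨f, hf⟩ : ∃ f : ↥(N ⊓ G1) →* ↥P.N, ∀ g, ((f g : ↥G1) : G) = g.1 :=
    ⟨{ toFun := fun g => ⟨⟨g.1, mi2 g.2⟩, hfmem g⟩
       map_one' := rfl
       map_mul' := fun _ _ => rfl }, fun g => rfl⟩
  have hfsurj : Function.Surjective f := by
    rintro ⟨⟨y, hy⟩, hyN⟩
    have hyN' := hyN
    rw [hPN, Subgroup.mem_subgroupOf] at hyN'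
    exact ⟨⟨y, hyN'⟩, Subtype.ext (Subtype.ext (hf _))⟩
  refine ⟨cs2.mulEquiv.toMonoidHom.comp ((QuotientGroup.mk' _).comp f), ?_, ?_⟩
  · exact cs2.mulEquiv.surjective.comp ((QuotientGroup.mk'_surjective _).comp hfsurj)
  · ext g
    rw [MonoidHom.mem_ker, Subgroup.mem_subgroupOf]
    show cs2.mulEquiv (QuotientGroup.mk (f g)) = 1 ↔ _
    rw [MulEquiv.map_eq_one_iff, QuotientGroup.eq_one_iff, Subgroup.mem_subgroupOf]
    constructor
    · intro h
      have h1 := mi1 h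
      rw [hPB, Subgroup.mem_subgroupOf, hf] at h1
      exact mi (mi (mi1 h1) (mi1 g.2)) (mi2 g.2)
    · intro h1
      refine mi ?_ (SetLike.coe_mem _)
      rw [hPB, Subgroup.mem_subgroupOf, hf]
      exact mi (mi1 (mi1 h1)) (mi2 g.2)

end Cfsg.Agent.Helper7
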