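import Cfsg.Agent.Helper7.ChevTwSimple
import Cfsg.Agent.Helper7.TwCoxAbs

set_option autoImplicit false
set_option maxHeartbeats 4000000
set_option linter.unusedSectionVars false
set_option linter.unusedVariables false
open Cfsg

namespace Cfsg.Agent.Helper7

open Cfsg.Lie

def repL (J J' : List ℕ) : ℕ → List ℕ
  | 0 => []
  | k + 1 => J ++ J' ++ repL J J' k

theorem repL_lt {n : ℕ} {J J' : List ℕ} (hJ : ∀ x ∈ J, x < n) (hJ' : ∀ x ∈ J', x < n) (k : ℕ) :
    ∀ x ∈ repL J J' k, x < n := by
  induction k with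
  | zero =>
    intro x hx
    simp [repL] at hx
  | succ k ih =>
    intro x hx
    simp only [repL, List.mem_append] at hx
    rcases hx with (hx | hx) | hx
    · exact hJ x hx
    · exact hJ' x hx
    · exact ih x hx

def twCoxOK (D : ChevalleyDatum) (bl : List (List ℕ)) (mm : List (List ℕ)) : Bool :=
  (List.range bl.length).all fun i => (List.range bl.length).all fun j =>
    Nat.beq i j ||
      (Nat.blt 0 ((mm.getD i []).getD j 0) &&
        ((List.range D.nroots).all fun r =>
          Nat.beq (wApply D (repL (bl.getD i []) (bl.getD j []) ((mm.getD i []).getD j 0)) r) r) &&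
        ((List.range ((mm.getD i []).getD j 0)).all fun k =>
          Nat.beq k 0 || (List.range D.nroots).any fun r =>
            !(Nat.beq (wApply D (repL (bl.getD i []) (bl.getD j []) k) r) r)))

theorem twCoxOK_spec {D : ChevalleyDatum} {bl mm : List (List ℕ)}
    (h : twCoxOK D bl mm = true) :
    ∀ i < bl.length, ∀ j < bl.length, i ≠ j → 0 < (mm.getD i []).getD j 0 ∧
      (∀ r < D.nroots, wApply D (repL (bl.getD i []) (bl.getD j [])
        ((mm.getD i []).getD j 0)) r = r) ∧
      ∀ k < (mm.getD i []).getD j 0, 0 < k →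
        ∃ r < D.nroots, wApply D (repL (bl.getD i []) (bl.getD j []) k) r ≠ r := by
  intro i hi j hj hij
  unfold twCoxOK at h
  rw [List.all_eq_true] at h
  have h1 := h i (List.mem_range.mpr hi)
  rw [List.all_eq_true] at h1
  have h2 := h1 j (List.mem_range.mpr hj)
  rw [Bool.or_eq_true] at h2
  rcases h2 with h2 | h2
  · exact absurd (Nat.eq_of_beq_eq_true h2) hij
  · rw [Bool.and_eq_true, Bool.and_eq_true] at h2
    obtain ⟨⟨ha, hb⟩, hc⟩ := h2
    refine ⟨Nat.blt_eq.mp ha, ?_, ?_⟩
    · intro r hr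
      rw [List.all_eq_true] at hb
      exact Nat.eq_of_beq_eq_true (hb r (List.mem_range.mpr hr))
    · intro k hk hk0
      rw [List.all_eq_true] at hc
      have h3 := hc k (List.mem_range.mpr hk)
      rw [Bool.or_eq_true] at h3
      rcases h3 with h3 | h3
      · exact absurd (Nat.eq_of_beq_eq_true h3) (by omega)
      · rw [List.any_eq_true] at h3
        obtain ⟨r, hr, hne⟩ := h3
        refine ⟨r, List.mem_range.mp hr, ?_⟩
        intro he
        rw [he] at hne
        simp at hne

section sem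

variable {F : Type*} [Field F]

theorem nWordU_repL (D : ChevalleyDatum) (ha : addCheck2 D = true) (J J' : List ℕ) (k : ℕ) :
    nWordU (F := F) D ha (repL J J' k) = (nWordU D ha J * nWordU D ha J') ^ k := by
  induction k with
  | zero => simp [repL, nWordU]
  | succ k ih => rw [repL, nWordU_append, nWordU_append, ih, pow_succ']

theorem tw_weyl {D : ChevalleyDatum} {adj : List (List ℤ)} (L : LOK D adj) (hcf : CF D F)
    (hu : unitAllOK D = true) {G1 : Subgroup (GL D.Idx F)} {bl : List (List ℕ)}
    {X : {J : List ℕ // J ∈ bl} → Set (GL D.Idx F)}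
    (T : TwData (D.borelSubgroup F) (D.monomialSubgroup F) G1 {J : List ℕ // J ∈ bl}
      (fun J => nWordU D L.u.m.w.add J.val) X)
    (hlt : ∀ J ∈ bl, ∀ x ∈ J, x < D.rank)
    {n : ℕ} (hn : bl.length = n) (M : CoxeterMatrix (Fin n)) (mm : List (List ℕ))
    (hM : ∀ i j : Fin n, M i j = (mm.getD i []).getD j 0)
    (hc : twCoxOK D bl mm = true) :
    ∃ φ : ↥(D.monomialSubgroup F ⊓ G1) →* M.Group, Function.Surjective φ ∧
      φ.ker = (D.diagonalSubgroup F ⊓ G1).subgroupOf (D.monomialSubgroup F ⊓ G1) := by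
  subst hn
  have Mk := L.u.m
  have hHB : D.diagonalSubgroup F ≤ D.borelSubgroup F := le_sup_right
  have e1 : (nWordU (F := F) D L.u.m.w.add [])⁻¹ = 1 := by simp [nWordU]
  have hsurj0 : Function.Surjective
      (fun i : Fin bl.length => (⟨bl[i], List.getElem_mem i.2⟩ : {J : List ℕ // J ∈ bl})) := by
    rintro ⟨J, hJ⟩
    obtain ⟨i, hi, rfl⟩ := List.getElem_of_mem hJ
    exact ⟨⟨i, hi⟩, rfl⟩
  obtain ⟨φ, hsurj, hker⟩ := tw_weyl_abs T M
    (fun i : Fin bl.length => (⟨bl[i], List.getElem_mem i.2⟩ : {J : List ℕ // J ∈ bl})) hsurj0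
    (by
      intro i j hij
      obtain ⟨h0, h1, h2⟩ := twCoxOK_spec hc i i.2 j j.2 (fun h => hij (Fin.ext h))
      rw [List.getD_eq_getElem _ _ i.2, List.getD_eq_getElem _ _ j.2] at h1
      rw [hM i j]
      refine ⟨h0, ?_, ?_⟩
      · show (nWordU D L.u.m.w.add bl[i] * nWordU D L.u.m.w.add bl[j]) ^
          ((mm.getD i []).getD j 0) ∈ D.borelSubgroup F
        rw [← nWordU_repL]
        have h3 := same_act_mem (F := F) L.u hcf
          (repL bl[i] bl[j] ((mm.getD i []).getD j 0)) []
          (repL_lt (hlt _ (List.getElem_mem i.2)) (hlt _ (List.getElem_mem j.2)) _) (by simp)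
          (fun r hr => h1 r hr)
        rw [e1, one_mul] at h3
        exact hHB h3
      · intro k hk0 hk hmem
        have hmem' : (nWordU D L.u.m.w.add bl[i] * nWordU D L.u.m.w.add bl[j]) ^ k ∈
            D.borelSubgroup F := hmem
        rw [← nWordU_repL] at hmem'
        obtain ⟨r, hr, hne⟩ := h2 k hk hk0
        rw [List.getD_eq_getElem _ _ i.2, List.getD_eq_getElem _ _ j.2] at hne
        have h3 := act_eq_of_mem (F := F) L.u hu [] (repL bl[i] bl[j] k) (by simp)
          (repL_lt (hlt _ (List.getElem_mem i.2)) (hlt _ (List.getElem_mem j.2)) _)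
          (by rw [e1, one_mul]; exact hmem') r hr
        exact hne h3.symm)
  refine ⟨φ, hsurj, ?_⟩
  rw [hker, borel_inf_mon Mk]

end sem

end Cfsg.Agent.Helper7
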