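import Cfsg.Agent.Helper7.ChevTwL

set_option autoImplicit false
set_option maxHeartbeats 4000000
set_option linter.unusedSectionVars false
set_option linter.unusedVariables false
open Cfsg

namespace Cfsg.Agent.Helper7

open Cfsg.Lie

section sem

variable {F : Type*} [Field F]

theorem posU_dec {D : ChevalleyDatum} {adj : List (List ℤ)} (L : LOK D adj) (hcf : CF D F)
    {js : List ℕ} (h : OrthR D L.u.m.w.add F js)
    (hroot : ∀ r, D.IsPosRoot r → D.InRootSub {j | j ∈ js} r → ∃ j ∈ js, r = D.simple j)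
    {u : GL D.Idx F} (hu : u ∈ D.posUnipotent F) :
    ∃ v ∈ D.unipotentRadical F {j | j ∈ js}, ∃ ts : ℕ → F,
      u = v * pL js (xPf D L.u.m.w.add ts) := by
  have hnorm : ∀ ts : ℕ → F, pL js (xPf D L.u.m.w.add ts) ∈
      Subgroup.normalizer (D.unipotentRadical F {j | j ∈ js} : Set (GL D.Idx F)) :=
    fun ts => pL_mem _ (fun j hj => xV_mem_normalizer_UJ L hcf _
      (Or.inl (simplePos_spec L.u.m.spos (h.2.1 j hj))) _)
  unfold ChevalleyDatum.posUnipotent at hu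
  induction hu using Subgroup.closure_induction with
  | mem x hx =>
    obtain ⟨r, t, hr, hx⟩ := hx
    have ex : x = xV D L.u.m.w.add r t := Units.ext (by rw [hx, xV_val])
    by_cases hin : D.InRootSub {j | j ∈ js} r
    · obtain ⟨j, hj, rfl⟩ := hroot r hr hin
      refine ⟨1, one_mem _, fun i => if i = j then t else 0, ?_⟩
      rw [one_mul, pL_erase js _ j h.1 hj (fun i hi hij =>
        h.2.2 i hi j hj hij _ (xPf_mem D L.u.m.w.add _ i) _ (xPf_mem D L.u.m.w.add _ j))]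
      have e1 : pL (js.erase j) (xPf D L.u.m.w.add (fun i => if i = j then t else 0)) =
          pL (js.erase j) (fun _ => (1 : GL D.Idx F)) := by
        apply pL_congr
        intro i hi
        have hi' := (List.Nodup.mem_erase_iff h.1).mp hi
        unfold xPf
        dsimp only
        rw [if_neg hi'.1, xV_zero]
      rw [e1, pL_one, one_mul, ex]
      unfold xPf
      dsimp only
      rw [if_pos rfl]
    · exact ⟨x, Subgroup.subset_closure ⟨r, t, hr, hin, hx⟩, fun _ => 0,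
        by rw [xPf_zero, mul_one]⟩
  | one => exact ⟨1, one_mem _, fun _ => 0, by rw [xPf_zero, mul_one]⟩
  | mul a b _ _ iha ihb =>
    obtain ⟨v, hv, ts, rfl⟩ := iha
    obtain ⟨v', hv', ts', rfl⟩ := ihb
    refine ⟨v * (pL js (xPf D L.u.m.w.add ts) * v' * (pL js (xPf D L.u.m.w.add ts))⁻¹),
      mul_mem hv ((Subgroup.mem_normalizer_iff.mp (hnorm ts) v').mp hv'),
      fun j => ts j + ts' j, ?_⟩
    rw [← xPf_add L.u.m h]
    group
  | inv a _ iha =>
    obtain ⟨v, hv, ts, rfl⟩ := iha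
    refine ⟨(pL js (xPf D L.u.m.w.add ts))⁻¹ * v⁻¹ * (pL js (xPf D L.u.m.w.add ts))⁻¹⁻¹, ?_,
      fun j => -ts j, ?_⟩
    · exact (Subgroup.mem_normalizer_iff.mp (inv_mem (hnorm ts)) v⁻¹).mp (inv_mem hv)
    · rw [← xPf_inv L.u.m h]
      group

theorem entry_simple {D : ChevalleyDatum} {adj : List (List ℤ)} (L : LOK D adj) {js : List ℕ}
    (h : OrthR D L.u.m.w.add F js) {v h₀ : GL D.Idx F}
    (hv : v ∈ D.unipotentRadical F {j | j ∈ js}) (hh : h₀ ∈ torus D F) (ts : ℕ → F) {j : ℕ}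
    (hj : j ∈ js) (k : Fin D.rank) (hjl : D.simple j < D.nroots) :
    ((v * pL js (xPf D L.u.m.w.add ts) * h₀ : GL D.Idx F) : Matrix D.Idx D.Idx F)
      (Sum.inr ⟨D.simple j, hjl⟩) (Sum.inl k) =
        -((D.cartan k.val (D.simple j) : ℤ) : F) * ts j := by
  have M := L.u.m
  have hjr := h.2.1 j hj
  obtain ⟨hpar1, _, _⟩ := parOK_spec M.w.fd L.par
  obtain ⟨key, hkey, hU, hL⟩ := levi_keys (F := F) L ({j} : Set ℕ)
  have hJj : D.InRootSub ({j} : Set ℕ) (D.simple j) :=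
    ⟨hjl, fun i hi hiJ => ((hpar1 j hjr).2 i hi (fun e => hiJ (Set.mem_singleton_iff.mpr e))).1⟩
  have e : v * pL js (xPf D L.u.m.w.add ts) * h₀ =
      (v * pL (js.erase j) (xPf D L.u.m.w.add ts)) * (xPf D L.u.m.w.add ts j * h₀) := by
    rw [pL_erase js _ j h.1 hj (fun i hi hij =>
      h.2.2 i hi j hj hij _ (xPf_mem D L.u.m.w.add _ i) _ (xPf_mem D L.u.m.w.add _ j))]
    group
  have hv1 : v * pL (js.erase j) (xPf D L.u.m.w.add ts) ∈
      D.unipotentRadical F ({j} : Set ℕ) := by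
    apply mul_mem
    · have hmono : D.unipotentRadical F {j' | j' ∈ js} ≤ D.unipotentRadical F ({j} : Set ℕ) := by
        unfold ChevalleyDatum.unipotentRadical
        apply Subgroup.closure_mono
        rintro g ⟨r, t, hr, hrJ, hg⟩
        refine ⟨r, t, hr, fun hin => hrJ ⟨hin.1, fun i hi hiJ => hin.2 i hi (fun e => hiJ ?_)⟩, hg⟩
        rw [Set.mem_singleton_iff] at e
        rw [e]
        exact hj
      exact hmono hv
    · apply pL_mem
      intro i hi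
      have hi' := (List.Nodup.mem_erase_iff h.1).mp hi
      have hir := h.2.1 i hi'.2
      exact xV_mem_UJ M.w.add (simplePos_spec M.spos hir)
        (fun hin => (hpar1 i hir).1 (hin.2 i hir (fun e => hi'.1 (Set.mem_singleton_iff.mp e)))) _
  have hl1 : xPf D L.u.m.w.add ts j * h₀ ∈ D.leviSubgroup F ({j} : Set ℕ) := by
    apply mul_mem
    · apply (le_sup_right : _ ≤ D.leviSubgroup F ({j} : Set ℕ))
      apply Subgroup.subset_closure
      exact ⟨D.simple j, ts j, hJj, xV_val _ _ _ _⟩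
    · apply (le_sup_left : D.diagonalSubgroup F ≤ D.leviSubgroup F ({j} : Set ℕ))
      rw [diag_eq_torus M.w]
      exact hh
  have hkz : key (Sum.inr ⟨D.simple j, hjl⟩) = key (Sum.inl k) := by
    apply hkey
    show fJ D adj ({j} : Set ℕ) (D.simple j) = 0
    exact fJ_zero M.w.fd L.grade _ hJj
  rw [e, block_left (hU hv1) (hL hl1) hkz]
  obtain ⟨z, rfl⟩ := hh
  rw [Units.val_mul, DgU_val, Matrix.mul_diagonal]
  unfold xPf
  rw [xV_val, x_of_lt D F hjl, xMat_entry_car]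
  simp [dgv]

def TwC (A : GAut) (φ : F →+* F) (js : List ℕ) (ts : ℕ → F) : Prop :=
  ∀ j ∈ js, ts (A.rho.getD j 0) = φ (ts j)

theorem tw_coords {D : ChevalleyDatum} {adj : List (List ℤ)} (L : LOK D adj) {A B : GAut}
    (hOK : gaOK D A B = true) (hOK' : gaOK D B A = true) (h1 : gaInvOK D A B = true)
    (h2 : gaInvOK D B A = true) (φ : F →+* F) (hrho : ∀ i < D.rank, A.rho.getD i 0 < D.rank)
    {js : List ℕ} (h : OrthR D L.u.m.w.add F js) (hjs : ∀ j ∈ js, A.rho.getD j 0 ∈ js)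
    (hk : ∀ j ∈ js, ∃ k < D.rank, D.cartan k (D.simple j) = -1 ∧
      D.cartan (A.rho.getD k 0) (D.simple (A.rho.getD j 0)) = -1)
    {v h₀ : GL D.Idx F} (hv : v ∈ D.unipotentRadical F {j | j ∈ js}) (hh : h₀ ∈ torus D F)
    (ts : ℕ → F)
    (hfix : sigU D A B h1 h2 φ (v * pL js (xPf D L.u.m.w.add ts) * h₀) =
      v * pL js (xPf D L.u.m.w.add ts) * h₀) : TwC A φ js ts := by
  intro j hj
  have M := L.u.m
  have hjr := h.2.1 j hj
  obtain ⟨k, hkr, hc1, hc2⟩ := hk j hj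
  obtain ⟨hp, hnp⟩ := simple_lt M.w.fd M.w.n hjr
  have hj' := hjs j hj
  have hjr' := h.2.1 _ hj'
  obtain ⟨hp', _⟩ := simple_lt M.w.fd M.w.n hjr'
  have htab := hOK
  unfold gaOK at htab
  simp only [Bool.and_eq_true] at htab
  obtain ⟨hT1, hT2⟩ := gaTabOK_spec htab.2
  obtain ⟨h5, h6, _, _⟩ := hT2 j hjr
  have hent := sig_entry hOK' h1 h2 φ hrho hfix ⟨D.simple j, hp⟩ ⟨k, hkr⟩
    ⟨D.simple (A.rho.getD j 0), hp'⟩ h5.symm ⟨A.rho.getD k 0, hrho k hkr⟩ rfl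
  rw [entry_simple L h hv hh ts hj' ⟨A.rho.getD k 0, hrho k hkr⟩ hp',
    entry_simple L h hv hh ts hj ⟨k, hkr⟩ hp] at hent
  dsimp only at hent
  rw [hc1, hc2, h6] at hent
  have e1 : -(((-1 : ℤ) : F)) = 1 := by
    push_cast
    ring
  rw [e1, one_mul, one_mul, Int.cast_one, one_mul] at hent
  exact hent

theorem tw_split {D : ChevalleyDatum} {adj : List (List ℤ)} (L : LOK D adj) (hcf : CF D F)
    {A B : GAut} (hOK : gaOK D A B = true) (hOK' : gaOK D B A = true)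
    (h1 : gaInvOK D A B = true) (h2 : gaInvOK D B A = true) (φ : F →+* F)
    (hrho : ∀ i < D.rank, A.rho.getD i 0 < D.rank)
    {js : List ℕ} (h : OrthR D L.u.m.w.add F js) (hjs : ∀ j ∈ js, A.rho.getD j 0 ∈ js)
    (hk : ∀ j ∈ js, ∃ k < D.rank, D.cartan k (D.simple j) = -1 ∧
      D.cartan (A.rho.getD k 0) (D.simple (A.rho.getD j 0)) = -1)
    (hroot : ∀ r, D.IsPosRoot r → D.InRootSub {j | j ∈ js} r → ∃ j ∈ js, r = D.simple j)
    {b : GL D.Idx F} (hb : b ∈ D.borelSubgroup F) (hfix : sigU D A B h1 h2 φ b = b) :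
    ∃ ts : ℕ → F, TwC A φ js ts ∧ ∃ c ∈ D.borelSubgroup F,
      b = pL js (xPf D L.u.m.w.add ts) * c ∧
      nWordU D L.u.m.w.add js * c * (nWordU D L.u.m.w.add js)⁻¹ ∈ D.borelSubgroup F := by
  have M := L.u.m
  obtain ⟨u, hu, h₀, hh, rfl⟩ := borel_dec M.w hb
  obtain ⟨v, hv, ts, rfl⟩ := posU_dec L hcf h hroot hu
  have htw := tw_coords L hOK hOK' h1 h2 φ hrho h hjs hk hv hh ts hfix
  have hxn : pL js (xPf D L.u.m.w.add ts) ∈
      Subgroup.normalizer (D.unipotentRadical F {j | j ∈ js} : Set (GL D.Idx F)) :=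
    pL_mem _ (fun j hj => xV_mem_normalizer_UJ L hcf _
      (Or.inl (simplePos_spec M.spos (h.2.1 j hj))) _)
  have hv' : (pL js (xPf D L.u.m.w.add ts))⁻¹ * v * (pL js (xPf D L.u.m.w.add ts))⁻¹⁻¹ ∈
      D.unipotentRadical F {j | j ∈ js} :=
    (Subgroup.mem_normalizer_iff.mp (inv_mem hxn) v).mp hv
  have hUJ : D.unipotentRadical F {j | j ∈ js} ≤ D.posUnipotent F := by
    unfold ChevalleyDatum.unipotentRadical ChevalleyDatum.posUnipotent
    apply Subgroup.closure_mono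
    rintro g ⟨r, t, hr, _, hg⟩
    exact ⟨r, t, hr, hg⟩
  have hUB : D.posUnipotent F ≤ D.borelSubgroup F := le_sup_left
  have hHB := torus_le_borel (F := F) M.w
  have hsP : nWordU (F := F) D L.u.m.w.add js ∈ D.parabolicSubgroup F {j | j ∈ js} := by
    apply Subgroup.list_prod_mem
    intro x hx
    rw [List.mem_map] at hx
    obtain ⟨j, hj, rfl⟩ := hx
    obtain ⟨hp, hnp⟩ := simple_lt M.w.fd M.w.n (h.2.1 j hj)
    apply (le_sup_right : _ ≤ D.parabolicSubgroup F {j | j ∈ js})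
    apply Subgroup.subset_closure
    exact ⟨j, hj, h.2.1 j hj, nV_val D M.w.add hp hnp 1⟩
  have hsn := parabolic_le_normalizer L hcf {j | j ∈ js} hsP
  have hsT := mon_normalizes_torus M (nWordU_mem_mon (F := F) M js h.2.1)
  refine ⟨ts, htw, (pL js (xPf D L.u.m.w.add ts))⁻¹ * v * (pL js (xPf D L.u.m.w.add ts))⁻¹⁻¹ * h₀,
    mul_mem (hUB (hUJ hv')) (hHB hh), by group, ?_⟩
  have e : nWordU D L.u.m.w.add js * ((pL js (xPf D L.u.m.w.add ts))⁻¹ * v *
      (pL js (xPf D L.u.m.w.add ts))⁻¹⁻¹ * h₀) * (nWordU D L.u.m.w.add js)⁻¹ =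
      (nWordU D L.u.m.w.add js * ((pL js (xPf D L.u.m.w.add ts))⁻¹ * v *
        (pL js (xPf D L.u.m.w.add ts))⁻¹⁻¹) * (nWordU D L.u.m.w.add js)⁻¹) *
      (nWordU D L.u.m.w.add js * h₀ * (nWordU D L.u.m.w.add js)⁻¹) := by group
  rw [e]
  exact mul_mem (hUB (hUJ ((Subgroup.mem_normalizer_iff.mp hsn _).mp hv')))
    (hHB ((Subgroup.mem_normalizer_iff.mp hsT h₀).mp hh))

theorem tw_signs {D : ChevalleyDatum} (U : UOK D) {A B : GAut} (hOK : gaOK D A B = true)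
    (h1 : gaInvOK D A B = true) (h2 : gaInvOK D B A = true) (φ : F →+* F)
    (hu : unitAllOK D = true)
    (hsg : ∀ r < D.nroots, (D.nroots / 2 ≤ A.rt.getD r 0 ↔ D.nroots / 2 ≤ r))
    {js : List ℕ} (h : OrthR D U.m.w.add F js)
    (horb : ∀ j ∈ js, ∀ j' ∈ js, ∃ m : ℕ,
      (fun r => A.rt.getD r 0)^[m] (D.simple j) = D.simple j')
    {n : GL D.Idx F} (hn : n ∈ D.monomialSubgroup F) (hfix : sigU D A B h1 h2 φ n = n) :
    (∀ ts : ℕ → F, n⁻¹ * pL js (xPf D U.m.w.add ts) * n ∈ D.posUnipotent F) ∨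
    (∀ ts : ℕ → F, (nWordU D U.m.w.add js * n)⁻¹ * pL js (xPf D U.m.w.add ts) *
      (nWordU D U.m.w.add js * n) ∈ D.posUnipotent F) := by
  have M := U.m
  have htab := hOK
  unfold gaOK at htab
  simp only [Bool.and_eq_true] at htab
  obtain ⟨hT1, hT2⟩ := gaTabOK_spec htab.2
  obtain ⟨π, c, hπ, hact⟩ := (mon_le_NAct M hn).2
  have hfix' : sigU D A B h1 h2 φ n⁻¹ = n⁻¹ :=
    (sigFix D A B h1 h2 φ).inv_mem (mem_sigFix.mpr hfix)
  have hfix'' : sigU D A B h1 h2 φ n⁻¹⁻¹ = n⁻¹⁻¹ :=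
    (sigFix D A B h1 h2 φ).inv_mem (mem_sigFix.mpr hfix')
  have hepsne : ∀ r < D.nroots, ((A.eps.getD r 1 : ℤ) : F) ≠ 0 := by
    intro r hr
    rcases (hT1 r hr).2.2.2 with e | e <;> rw [e] <;> simp
  have key : ∀ r < D.nroots, π (A.rt.getD r 0) = A.rt.getD (π r) 0 := by
    intro r hr
    have hr' := (hT1 r hr).1
    have e1 := congrArg (sigU D A B h1 h2 φ) (hact r hr 1)
    rw [sigU_mul, sigU_mul, hfix', hfix'', sigU_xV M hOK h1 h2 φ hr, hact _ hr',
      sigU_xV M hOK h1 h2 φ (hπ r hr).1] at e1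
    refine xV_root_inj M hu U.ninv (hπ _ hr').1 (hT1 _ (hπ r hr).1).1 ?_ e1
    rw [map_one, mul_one]
    exact mul_ne_zero (Units.ne_zero _) (hepsne r hr)
  have hiter : ∀ m : ℕ, ∀ r < D.nroots, (fun r => A.rt.getD r 0)^[m] r < D.nroots ∧
      π ((fun r => A.rt.getD r 0)^[m] r) = (fun r => A.rt.getD r 0)^[m] (π r) ∧
      (D.nroots / 2 ≤ (fun r => A.rt.getD r 0)^[m] (π r) ↔ D.nroots / 2 ≤ π r) ∧
      (fun r => A.rt.getD r 0)^[m] (π r) < D.nroots := by
    intro m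
    induction m with
    | zero =>
      intro r hr
      exact ⟨hr, rfl, Iff.rfl, (hπ r hr).1⟩
    | succ m ih =>
      intro r hr
      obtain ⟨i1, i2, i3, i4⟩ := ih r hr
      rw [Function.iterate_succ_apply', Function.iterate_succ_apply']
      refine ⟨(hT1 _ i1).1, ?_, ?_, (hT1 _ i4).1⟩
      · rw [key _ i1, i2]
      · rw [hsg _ i4]
        exact i3
  have hsame : ∀ j ∈ js, ∀ j' ∈ js, (D.nroots / 2 ≤ π (D.simple j) →
      D.nroots / 2 ≤ π (D.simple j')) := by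
    intro j hj j' hj' hpos
    obtain ⟨m, hm⟩ := horb j hj j' hj'
    obtain ⟨hp, _⟩ := simple_lt M.w.fd M.w.n (h.2.1 j hj)
    obtain ⟨_, i2, i3, _⟩ := hiter m _ hp
    rw [← hm, i2, i3]
    exact hpos
  by_cases hpos : ∀ j ∈ js, D.nroots / 2 ≤ π (D.simple j)
  · left
    intro ts
    have e : n⁻¹ * pL js (xPf D U.m.w.add ts) * n =
        n⁻¹ * pL js (xPf D U.m.w.add ts) * n⁻¹⁻¹ := by rw [inv_inv]
    rw [e, pL_conj]
    apply pL_mem
    intro j hj
    obtain ⟨hp, _⟩ := simple_lt M.w.fd M.w.n (h.2.1 j hj)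
    unfold xPf
    rw [hact _ hp]
    exact xV_mem_posU M.w.add ((isPos_iff M (hπ _ hp).1).mpr (hpos j hj)) _
  · right
    push Not at hpos
    obtain ⟨j₀, hj₀, hlt₀⟩ := hpos
    have hneg : ∀ j ∈ js, π (D.simple j) < D.nroots / 2 := by
      intro j hj
      by_contra hge
      have := hsame j hj j₀ hj₀ (by omega)
      omega
    intro ts
    have e : (nWordU D U.m.w.add js * n)⁻¹ * pL js (xPf D U.m.w.add ts) *
        (nWordU D U.m.w.add js * n) =
        (nWordU D U.m.w.add js * n)⁻¹ * pL js (xPf D U.m.w.add ts) *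
        (nWordU D U.m.w.add js * n)⁻¹⁻¹ := by rw [inv_inv]
    rw [e, pL_conj]
    apply pL_mem
    intro j hj
    obtain ⟨hp, hnp⟩ := simple_lt M.w.fd M.w.n (h.2.1 j hj)
    obtain ⟨ε, _, hε⟩ := nWordU_conj_xM U h hj (ts j)
    have e2 : (nWordU D U.m.w.add js * n)⁻¹ * xPf D U.m.w.add ts j *
        (nWordU D U.m.w.add js * n)⁻¹⁻¹ =
        n⁻¹ * ((nWordU D U.m.w.add js)⁻¹ * xV D U.m.w.add (D.simple j) (ts j) *
          nWordU D U.m.w.add js) * n⁻¹⁻¹ := by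
      unfold xPf
      group
    rw [e2, hε, hact _ hnp, (hπ _ hp).2]
    have hn2 := (negTriOK_spec M.ntri ((isNeg_iff M (hπ _ hp).1).mpr (hneg j hj))).2.1
    exact xV_mem_posU M.w.add ((isPos_iff M (neg_lt M.neg (hπ _ hp).1)).mpr hn2) _

theorem tw_rank1 {D : ChevalleyDatum} (U : UOK D) {js : List ℕ} (h : OrthR D U.m.w.add F js)
    (hsgn : ∀ j ∈ js, nsgn D j (D.simple j) = -1) (G1 : Subgroup (GL D.Idx F))
    (P : (ℕ → F) → Prop) (hPneg : ∀ ts, P ts → P (fun j => -ts j))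
    (hPinv : ∀ ts, P ts → P (fun j => (ts j)⁻¹))
    (hG : ∀ ts, P ts → pL js (xPf D U.m.w.add ts) ∈ G1 ∧ pL js (xMf D U.m.w.add ts) ∈ G1)
    (hs : nWordU (F := F) D U.m.w.add js ∈ G1)
    (ts : ℕ → F) (hts : P ts) (hnz : ∀ j ∈ js, ts j ≠ 0) :
    ∃ b₁ ∈ D.borelSubgroup F ⊓ G1, ∃ b₂ ∈ D.borelSubgroup F ⊓ G1,
      nWordU D U.m.w.add js * pL js (xPf D U.m.w.add ts) * (nWordU D U.m.w.add js)⁻¹ =
        b₁ * nWordU D U.m.w.add js * b₂ := by
  have M := U.m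
  have hUB : D.posUnipotent F ≤ D.borelSubgroup F := le_sup_left
  have hHB : D.diagonalSubgroup F ≤ D.borelSubgroup F := le_sup_right
  have hcs := hPinv ts hts
  have hncs := hPneg _ hcs
  have hnts := hPneg ts hts
  have eN := nPf_eq M h (fun j => (ts j)⁻¹)
  have ef : (fun j => -((ts j)⁻¹)⁻¹) = (fun j => -ts j) := by
    funext j
    rw [inv_inv]
  rw [ef] at eN
  have hNG : pL js (nPf D U.m.w.add (fun j => (ts j)⁻¹)) ∈ G1 := by
    rw [eN]
    exact mul_mem (mul_mem (hG _ hcs).1 (hG _ hnts).2) (hG _ hcs).1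
  have hT := nPf_torus M h (fun j => (ts j)⁻¹) (fun j hj => inv_ne_zero (hnz j hj))
  have hx := xPf_inv M h (fun j => (ts j)⁻¹)
  refine ⟨pL js (xPf D U.m.w.add (fun j => -(ts j)⁻¹)) *
      (pL js (nPf D U.m.w.add (fun j => (ts j)⁻¹)) * (nWordU D U.m.w.add js)⁻¹),
    mi (mul_mem (hUB (xPf_posU M h.2.1 _)) (hHB hT))
      (mul_mem (hG _ hncs).1 (mul_mem hNG (inv_mem hs))),
    pL js (xPf D U.m.w.add (fun j => -(ts j)⁻¹)),
    mi (hUB (xPf_posU M h.2.1 _)) (hG _ hncs).1, ?_⟩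
  rw [nWordU_conj_xP M h hsgn, ← hx, eN]
  group

theorem xPf_ne_one {D : ChevalleyDatum} {adj : List (List ℤ)} (L : LOK D adj) {js : List ℕ}
    (h : OrthR D L.u.m.w.add F js) {j : ℕ} (hj : j ∈ js) {k : ℕ} (hkr : k < D.rank)
    (hc : D.cartan k (D.simple j) = -1) (ts : ℕ → F) (hne : ts j ≠ 0) :
    pL js (xPf D L.u.m.w.add ts) ≠ 1 := by
  intro e
  obtain ⟨hp, _⟩ := simple_lt L.u.m.w.fd L.u.m.w.n (h.2.1 j hj)
  have h1 := entry_simple L h (one_mem _) (one_mem (torus D F)) ts hj ⟨k, hkr⟩ hp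
  rw [one_mul, mul_one, e, Units.val_one, Matrix.one_apply_ne (by simp)] at h1
  dsimp only at h1
  rw [hc] at h1
  apply hne
  push_cast at h1
  linear_combination -h1

end sem

end Cfsg.Agent.Helper7
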