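import Cfsg.Agent.Helper7.ChkTwU
import Cfsg.Agent.Helper7.ChevTorus

set_option autoImplicit false
set_option maxHeartbeats 4000000
set_option linter.unusedSectionVars false
set_option linter.unusedVariables false
open Cfsg

namespace Cfsg.Agent.Helper7

open Cfsg.Lie

theorem d4_ker {K : Type*} [Field K] (φ : K →+* K) {x y : K} (hx : x ≠ 0)
    (h0 : x ^ 2 = y) (h1 : y ^ 2 = x * φ x * φ (φ x)) (hy : φ y = y)
    (hx3 : φ (φ (φ x)) = x) : x = 1 ∧ y = 1 := by
  have hs : (φ x) ^ 2 = x ^ 2 := by rw [← map_pow, h0, hy]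
  have hφx : φ x = x := by
    rcases eq_or_eq_neg_of_sq_eq_sq _ _ hs with h | h
    · exact h
    · have h3 := hx3
      rw [h, map_neg, h, neg_neg, h] at h3
      rw [h, h3]
  rw [hφx, hφx] at h1
  have h4 : x * x * x * (x - 1) = 0 := by
    rw [← h0] at h1
    linear_combination h1
  have hx1 : x = 1 := by
    rcases mul_eq_zero.mp h4 with h | h
    · exfalso
      exact hx (by
        rcases mul_eq_zero.mp h with h' | h'
        · rcases mul_eq_zero.mp h' with h'' | h'' <;> exact h''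
        · exact h')
    · exact sub_eq_zero.mp h
  refine ⟨hx1, ?_⟩
  rw [← h0, hx1, one_pow]

theorem d4_inj {K : Type*} [Field K] (φ : K →+* K) (h3 : ∀ t, φ (φ (φ t)) = t)
    {A U A' U' : K} (hA : A ≠ 0) (hU : U ≠ 0) (hA' : A' ≠ 0) (hU' : U' ≠ 0)
    (hφA : φ A = A) (hφA' : φ A' = A')
    (P0 : A⁻¹ * U ^ 2 = A'⁻¹ * U' ^ 2)
    (P1 : A ^ 2 * (U⁻¹ * ((φ U)⁻¹ * (φ (φ U))⁻¹)) =
      A' ^ 2 * (U'⁻¹ * ((φ U')⁻¹ * (φ (φ U'))⁻¹))) :
    A = A' ∧ U = U' := by
  have hφU : φ U ≠ 0 := (map_ne_zero φ).mpr hU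
  have hφφU : φ (φ U) ≠ 0 := (map_ne_zero φ).mpr hφU
  have hφU' : φ U' ≠ 0 := (map_ne_zero φ).mpr hU'
  have hφφU' : φ (φ U') ≠ 0 := (map_ne_zero φ).mpr hφU'
  have h0 : (U / U') ^ 2 = A / A' := by
    have h := P0
    field_simp at h
    field_simp
    linear_combination h
  have h1 : (A / A') ^ 2 = U / U' * φ (U / U') * φ (φ (U / U')) := by
    have h := P1
    simp only [map_div₀]
    field_simp at h
    field_simp
    linear_combination h
  obtain ⟨e1, e2⟩ := d4_ker φ (div_ne_zero hU hU') h0 h1 (by rw [map_div₀, hφA, hφA']) (h3 _)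
  exact ⟨(div_eq_one_iff_eq hA').mp e2, (div_eq_one_iff_eq hU').mp e1⟩

section sem

variable {F : Type*} [Field F]

theorem chi_ext {D : ChevalleyDatum} (W : WOK D) (z z' : ℕ → Fˣ)
    (h : ∀ i < D.rank, chi D z (D.simple i) = chi D z' (D.simple i)) :
    ∀ s < D.nroots, chi D z s = chi D z' s := by
  apply root_induction W.reach (fun s => chi D z s = chi D z' s)
  · exact h
  · intro i hi s hs hP
    have hP' : chi D z s = chi D z' s := hP
    show chi D z (fw D i s) = chi D z' (fw D i s)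
    rw [chi_refl W hi z hs, chi_refl W hi z' hs, chi_mul, chi_mul, hP', h i hi]

theorem sig_mat {D : ChevalleyDatum} {A B : GAut} (h1 : gaInvOK D A B = true)
    (h2 : gaInvOK D B A = true) (φ : F →+* F) {g : GL D.Idx F}
    (hg : sigU D A B h1 h2 φ g = g) :
    gaMat D A F * ((g : Matrix D.Idx D.Idx F).map φ) =
      (g : Matrix D.Idx D.Idx F) * gaMat D A F := by
  have h := hg
  unfold sigU at h
  rw [mul_inv_eq_iff_eq_mul] at h
  have h' := congrArg Units.val h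
  rw [Units.val_mul, Units.val_mul, GLmap_val] at h'
  exact h'

theorem sig_diag {D : ChevalleyDatum} {A B : GAut} (hOK : gaOK D A B = true)
    (h1 : gaInvOK D A B = true) (h2 : gaInvOK D B A = true) (φ : F →+* F)
    {d : ℕ → Fˣ} (hg : sigU D A B h1 h2 φ (DgU D d) = DgU D d) (r r' : Fin D.nroots)
    (hr' : r'.val = A.rt.getD r.val 0) :
    ((d r'.val : Fˣ) : F) = φ ((d r.val : Fˣ) : F) := by
  unfold gaOK at hOK
  simp only [Bool.and_eq_true] at hOK
  obtain ⟨_, htab⟩ := hOK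
  obtain ⟨hT1, _⟩ := gaTabOK_spec htab
  have heps := (hT1 r.val r.isLt).2.2.2
  have hmat := sig_mat h1 h2 φ hg
  rw [DgU_val] at hmat
  have hent := congrFun (congrFun hmat (Sum.inr r')) (Sum.inr r)
  rw [Matrix.mul_apply, Matrix.mul_apply] at hent
  have e : code D (Sum.inr r' : D.Idx) = D.rank + r'.val := rfl
  have sL : ∑ c, gaMat D A F (Sum.inr r') c *
      ((Matrix.diagonal fun a => ((dgv D d a : Fˣ) : F)).map φ) c (Sum.inr r) =
      ((A.eps.getD r.val 1 : ℤ) : F) * φ ((dgv D d (Sum.inr r) : Fˣ) : F) := by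
    rw [Finset.sum_eq_single (Sum.inr r)]
    · rw [gaMat_inr, Matrix.map_apply, Matrix.diagonal_apply_eq, e, hr', if_pos rfl]
    · intro c _ hc
      rw [Matrix.map_apply, Matrix.diagonal_apply_ne _ hc, map_zero, mul_zero]
    · intro h
      exact absurd (Finset.mem_univ _) h
  have sR : ∑ c, (Matrix.diagonal fun a => ((dgv D d a : Fˣ) : F)) (Sum.inr r') c *
      gaMat D A F c (Sum.inr r) =
      ((dgv D d (Sum.inr r') : Fˣ) : F) * ((A.eps.getD r.val 1 : ℤ) : F) := by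
    rw [Finset.sum_eq_single (Sum.inr r')]
    · rw [gaMat_inr, Matrix.diagonal_apply_eq, e, hr', if_pos rfl]
    · intro c _ hc
      rw [Matrix.diagonal_apply_ne _ hc.symm, zero_mul]
    · intro h
      exact absurd (Finset.mem_univ _) h
  rw [sL, sR] at hent
  show ((dgv D d (Sum.inr r') : Fˣ) : F) = φ ((dgv D d (Sum.inr r) : Fˣ) : F)
  rcases heps with h | h
  · rw [h] at hent
    push_cast at hent
    rw [one_mul, mul_one] at hent
    exact hent.symm
  · rw [h] at hent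
    push_cast at hent
    rw [neg_one_mul, mul_neg_one, neg_inj] at hent
    exact hent.symm

theorem DgU_inj (D : ChevalleyDatum) {d d' : ℕ → Fˣ} (h : DgU (F := F) D d = DgU D d') :
    ∀ s < D.nroots, d s = d' s := by
  intro s hs
  have h1 := congrArg (fun g : GL D.Idx F => (g : Matrix D.Idx D.Idx F) (Sum.inr ⟨s, hs⟩)
    (Sum.inr ⟨s, hs⟩)) h
  simp only [DgU_val, Matrix.diagonal_apply_eq, dgv, Sum.elim_inr] at h1
  exact Units.ext h1

theorem hV_simple {D : ChevalleyDatum} (M : MOK D) {j : ℕ} (hj : j < D.rank) (c : Fˣ) :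
    nV D M.w.add (D.simple j) (c : F) * (nV D M.w.add (D.simple j) (1 : F))⁻¹ =
      DgU D (fun s => c ^ D.cartan j s) := by
  obtain ⟨hp, hnp⟩ := simple_lt M.w.fd M.w.n hj
  apply Units.ext
  rw [← nV_neg, Units.val_mul, nV_val D M.w.add hp hnp, nV_val D M.w.add hp hnp, ← hMat_eq_nn]
  exact hMat_simple_U M.w.fd M.w.hc hj c

theorem pL_DgU (D : ChevalleyDatum) (u : ℕ → Fˣ) : ∀ J : List ℕ,
    pL J (fun j => DgU (F := F) D (fun s => u j ^ D.cartan j s)) =
      DgU D (fun s => (J.map fun j => u j ^ D.cartan j s).prod)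
  | [] => by
    rw [pL_nil, ← DgU_one]
    exact DgU_congr D (fun s _ => by simp)
  | a :: J => by
    rw [pL_cons, pL_DgU D u J, DgU_mul]
    exact DgU_congr D (fun s _ => by simp)

theorem hJ_eq {D : ChevalleyDatum} (M : MOK D) {J : List ℕ} (h : OrthR D M.w.add F J)
    (u : ℕ → Fˣ) :
    pL J (nPf D M.w.add (fun j => (u j : F))) * (nWordU D M.w.add J)⁻¹ =
      DgU D (fun s => (J.map fun j => u j ^ D.cartan j s).prod) := by
  have hm : ∀ cs' : ℕ → F, ∀ j ∈ J, nPf D M.w.add cs' j ∈ Rk D M.w.add j :=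
    fun cs' j hj => nPf_mem M cs' (h.2.1 j hj)
  rw [nWordU_pL, pL_inv J _ h.1 (h.comm (hm _) (hm _)),
    ← pL_mul J _ _ h.1 (h.comm (hm _) (fun j hj => inv_mem (hm _ j hj))), ← pL_DgU D u J]
  exact pL_congr (fun j hj => hV_simple M (h.2.1 j hj) (u j))

theorem tw_h_mem {D : ChevalleyDatum} (M : MOK D) {A : GAut} {φ : F →+* F}
    (G1 : Subgroup (GL D.Idx F)) {J : List ℕ} (h : OrthR D M.w.add F J)
    (hsgn : ∀ j ∈ J, nsgn D j (D.simple j) = -1)
    (hx : ∀ ts, TwC A φ J ts → pL J (xPf D M.w.add ts) ∈ G1)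
    (hs : nWordU D M.w.add J ∈ G1) (cs : ℕ → F) (htw : TwC A φ J cs) :
    pL J (nPf D M.w.add cs) * (nWordU D M.w.add J)⁻¹ ∈ G1 := by
  have tinv : TwC A φ J (fun j => (cs j)⁻¹) := by
    intro j hj
    show (cs (A.rho.getD j 0))⁻¹ = φ ((cs j)⁻¹)
    rw [map_inv₀, htw j hj]
  have e := nWordU_conj_xP M h hsgn (fun j => (cs j)⁻¹)
  rw [nPf_eq M h, ← e]
  exact mul_mem (mul_mem (mul_mem (hx cs htw) (mul_mem (mul_mem hs (hx _ tinv)) (inv_mem hs)))
    (hx cs htw)) (inv_mem hs)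

theorem tw_torus_fix {D : ChevalleyDatum} (W : WOK D) {A B : GAut} (hOK : gaOK D A B = true)
    (h1 : gaInvOK D A B = true) (h2 : gaInvOK D B A = true) (φ : F →+* F)
    (hrho : ∀ i < D.rank, A.rho.getD i 0 < D.rank) {z : ℕ → Fˣ}
    (hg : sigU D A B h1 h2 φ (DgU D (chi D z)) = DgU D (chi D z)) {i : ℕ} (hi : i < D.rank) :
    ((chi D z (D.simple (A.rho.getD i 0)) : Fˣ) : F) = φ ((chi D z (D.simple i) : Fˣ) : F) := by
  have htab := hOK
  unfold gaOK at htab
  simp only [Bool.and_eq_true] at htab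
  obtain ⟨hT1, hT2⟩ := gaTabOK_spec htab.2
  obtain ⟨hp, _⟩ := simple_lt W.fd W.n hi
  obtain ⟨hp', _⟩ := simple_lt W.fd W.n (hrho i hi)
  exact sig_diag hOK h1 h2 φ hg ⟨D.simple i, hp⟩ ⟨D.simple (A.rho.getD i 0), hp'⟩
    (hT2 i hi).1.symm

end sem

end Cfsg.Agent.Helper7
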