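import Mathlib
import Cfsg.Prelude.Def_LieExceptional

set_option autoImplicit false
set_option maxHeartbeats 4000000
set_option linter.unusedSectionVars false
set_option linter.unusedVariables false
open Cfsg

namespace Cfsg.Agent.Helper7

structure TwData {G : Type*} [Group G] (B N G1 : Subgroup G) (ι : Type*) (sf : ι → G)
    (X : ι → Set G) : Prop where
  hNB : ∀ n ∈ N, ∀ t ∈ B ⊓ N, n * t * n⁻¹ ∈ B
  hs : ∀ i, sf i ∈ N ∧ sf i ∈ G1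
  hsq : ∀ i, sf i * sf i ∈ B
  hX : ∀ i, ∀ x ∈ X i, x ∈ G1 ∧ x ∈ B ∧ x⁻¹ ∈ X i
  hdec : ∀ i, ∀ b ∈ B ⊓ G1, ∃ x ∈ X i, ∃ c ∈ B, b = x * c ∧ sf i * c * (sf i)⁻¹ ∈ B
  hrk : ∀ i, ∀ x ∈ X i, x = 1 ∨ ∃ b₁ ∈ B ⊓ G1, ∃ b₂ ∈ B ⊓ G1,
    sf i * x * (sf i)⁻¹ = b₁ * sf i * b₂
  hsign : ∀ i, ∀ n ∈ N ⊓ G1, (∀ x ∈ X i, n⁻¹ * x * n ∈ B) ∨
    (∀ x ∈ X i, (sf i * n)⁻¹ * x * (sf i * n) ∈ B)
  hne : ∀ i, ∃ x ∈ X i, x ≠ 1
  hnb : ∀ i, sf i ∉ B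
  hinj : ∀ i j, (sf i)⁻¹ * sf j ∈ B → sf i = sf j
  hgen : G1 ≤ Subgroup.closure (((B ⊓ G1 : Subgroup G) : Set G) ∪ Set.range sf)
  huniq : ∀ n ∈ N, ∀ n' ∈ N, ∀ b₁ ∈ B, ∀ b₂ ∈ B, n' = b₁ * n * b₂ → n⁻¹ * n' ∈ B

section abs

variable {G : Type*} [Group G] {B N G1 : Subgroup G} {ι : Type*} {sf : ι → G} {X : ι → Set G}

theorem mi1 {A C : Subgroup G} {x : G} (h : x ∈ A ⊓ C) : x ∈ A := (Subgroup.mem_inf.mp h).1

theorem mi2 {A C : Subgroup G} {x : G} (h : x ∈ A ⊓ C) : x ∈ C := (Subgroup.mem_inf.mp h).2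

theorem mi {A C : Subgroup G} {x : G} (h1 : x ∈ A) (h2 : x ∈ C) : x ∈ A ⊓ C :=
  Subgroup.mem_inf.mpr ⟨h1, h2⟩

theorem TwData.caseA (T : TwData B N G1 ι sf X) (i : ι) {n : G} (hn : n ∈ N ⊓ G1)
    (hA : ∀ x ∈ X i, n⁻¹ * x * n ∈ B) {b : G} (hb : b ∈ B ⊓ G1) :
    ∃ b₁ ∈ B ⊓ G1, ∃ b₂ ∈ B ⊓ G1, sf i * b * n = b₁ * (sf i * n) * b₂ := by
  obtain ⟨x, hx, c, hc, e, hsc⟩ := T.hdec i b⁻¹ (inv_mem hb)
  obtain ⟨hxG, hxB, hxi⟩ := T.hX i x hx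
  obtain ⟨hxiG, _, _⟩ := T.hX i x⁻¹ hxi
  have hcG : c ∈ G1 := by
    have : c = x⁻¹ * b⁻¹ := by rw [e]; group
    rw [this]
    exact mul_mem (inv_mem hxG) (inv_mem (mi2 hb))
  have hsG := (T.hs i).2
  refine ⟨sf i * c⁻¹ * (sf i)⁻¹, mi ?_ (mul_mem (mul_mem hsG (inv_mem hcG)) (inv_mem hsG)),
    n⁻¹ * x⁻¹ * n, mi (hA _ hxi) (mul_mem (mul_mem (inv_mem (mi2 hn)) hxiG) (mi2 hn)), ?_⟩
  · have : sf i * c⁻¹ * (sf i)⁻¹ = (sf i * c * (sf i)⁻¹)⁻¹ := by group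
    rw [this]
    exact inv_mem hsc
  · have eb : b = c⁻¹ * x⁻¹ := by
      have : b = (b⁻¹)⁻¹ := (inv_inv b).symm
      rw [this, e]
      group
    rw [eb]
    group

theorem TwData.dc (T : TwData B N G1 ι sf X) (i : ι) {n : G} (hn : n ∈ N ⊓ G1) {b : G}
    (hb : b ∈ B ⊓ G1) :
    (∃ b₁ ∈ B ⊓ G1, ∃ b₂ ∈ B ⊓ G1, sf i * b * n = b₁ * (sf i * n) * b₂) ∨
    (∃ b₁ ∈ B ⊓ G1, ∃ b₂ ∈ B ⊓ G1, sf i * b * n = b₁ * n * b₂) := by
  have hsG := (T.hs i).2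
  have hsN := (T.hs i).1
  rcases T.hsign i n hn with hA | hB
  · exact Or.inl (T.caseA i hn hA hb)
  · obtain ⟨x, hx, c, hc, e, hsc⟩ := T.hdec i b hb
    obtain ⟨hxG, hxB, hxi⟩ := T.hX i x hx
    have hcG : c ∈ G1 := by
      have : c = x⁻¹ * b := by rw [e]; group
      rw [this]
      exact mul_mem (inv_mem hxG) (mi2 hb)
    have hscG : sf i * c * (sf i)⁻¹ ∈ B ⊓ G1 :=
      mi hsc (mul_mem (mul_mem hsG hcG) (inv_mem hsG))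
    rcases T.hrk i x hx with h1 | ⟨b₁, hb₁, b₂, hb₂, e2⟩
    · left
      refine ⟨sf i * c * (sf i)⁻¹, hscG, 1, one_mem _, ?_⟩
      rw [e, h1]
      group
    · right
      have hn' : sf i * n ∈ N ⊓ G1 := mi (mul_mem hsN (mi1 hn)) (mul_mem hsG (mi2 hn))
      obtain ⟨d₁, hd₁, d₂, hd₂, e3⟩ := T.caseA i hn' hB (mul_mem hb₂ hscG)
      refine ⟨b₁ * d₁ * (sf i * sf i),
        mul_mem (mul_mem hb₁ hd₁) (mi (T.hsq i) (mul_mem hsG hsG)), d₂, hd₂, ?_⟩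
      have e5 : sf i * x = b₁ * sf i * b₂ * sf i := by
        rw [← e2]
        group
      have e4 : sf i * b * n =
          b₁ * (sf i * (b₂ * (sf i * c * (sf i)⁻¹)) * (sf i * n)) := by
        rw [e]
        calc sf i * (x * c) * n = (sf i * x) * c * n := by group
          _ = b₁ * sf i * b₂ * sf i * c * n := by rw [e5]
          _ = b₁ * (sf i * (b₂ * (sf i * c * (sf i)⁻¹)) * (sf i * n)) := by group
      rw [e4, e3]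
      group

def TwN0 (B N G1 : Subgroup G) (sf : ι → G) : Subgroup G :=
  Subgroup.closure (Set.range sf) ⊔ (B ⊓ N ⊓ G1)

theorem TwData.N0_le (T : TwData B N G1 ι sf X) : TwN0 B N G1 sf ≤ N ⊓ G1 := by
  apply sup_le
  · rw [Subgroup.closure_le]
    rintro _ ⟨i, rfl⟩
    exact mi (T.hs i).1 (T.hs i).2
  · intro x hx
    exact mi (mi2 (mi1 hx)) (mi2 hx)

theorem TwData.bruhat (T : TwData B N G1 ι sf X) {g : G} (hg : g ∈ G1) :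
    ∃ b₁ ∈ B ⊓ G1, ∃ n ∈ TwN0 B N G1 sf, ∃ b₂ ∈ B ⊓ G1, g = b₁ * n * b₂ := by
  let Ω : Set G := {g | ∃ b₁ ∈ B ⊓ G1, ∃ n ∈ TwN0 B N G1 sf, ∃ b₂ ∈ B ⊓ G1, g = b₁ * n * b₂}
  have hBΩ : ∀ b ∈ B ⊓ G1, ∀ x ∈ Ω, b * x ∈ Ω := by
    rintro b hb x ⟨b₁, hb₁, n, hn, b₂, hb₂, rfl⟩
    exact ⟨b * b₁, mul_mem hb hb₁, n, hn, b₂, hb₂, by group⟩
  have hsΩ : ∀ i, ∀ x ∈ Ω, sf i * x ∈ Ω := by
    rintro i x ⟨b₁, hb₁, n, hn, b₂, hb₂, rfl⟩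
    have hsN0 : sf i ∈ TwN0 B N G1 sf :=
      (le_sup_left : Subgroup.closure (Set.range sf) ≤ TwN0 B N G1 sf)
        (Subgroup.subset_closure ⟨i, rfl⟩)
    have e0 : sf i * (b₁ * n * b₂) = sf i * b₁ * n * b₂ := by group
    rcases T.dc i (T.N0_le hn) hb₁ with ⟨c₁, hc₁, c₂, hc₂, e⟩ | ⟨c₁, hc₁, c₂, hc₂, e⟩
    · refine ⟨c₁, hc₁, sf i * n, mul_mem hsN0 hn, c₂ * b₂, mul_mem hc₂ hb₂, ?_⟩
      rw [e0, e]
      group
    · refine ⟨c₁, hc₁, n, hn, c₂ * b₂, mul_mem hc₂ hb₂, ?_⟩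
      rw [e0, e]
      group
  let K : Subgroup G :=
    { carrier := {g | (∀ x ∈ Ω, g * x ∈ Ω) ∧ (∀ x ∈ Ω, g⁻¹ * x ∈ Ω)}
      mul_mem' := by
        rintro a b ⟨a1, a2⟩ ⟨b1, b2⟩
        refine ⟨fun x hx => ?_, fun x hx => ?_⟩
        · rw [mul_assoc]
          exact a1 _ (b1 x hx)
        · rw [mul_inv_rev, mul_assoc]
          exact b2 _ (a2 x hx)
      one_mem' := ⟨fun x hx => by rwa [one_mul], fun x hx => by rwa [inv_one, one_mul]⟩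
      inv_mem' := by
        rintro a ⟨a1, a2⟩
        exact ⟨a2, fun x hx => by rw [inv_inv]; exact a1 x hx⟩ }
  have hK : Subgroup.closure (((B ⊓ G1 : Subgroup G) : Set G) ∪ Set.range sf) ≤ K := by
    rw [Subgroup.closure_le]
    rintro y (hy | ⟨i, rfl⟩)
    · exact ⟨hBΩ y hy, hBΩ y⁻¹ (inv_mem hy)⟩
    · refine ⟨hsΩ i, fun x hx => ?_⟩
      have hsq : (sf i * sf i)⁻¹ ∈ B ⊓ G1 :=
        inv_mem (mi (T.hsq i) (mul_mem (T.hs i).2 (T.hs i).2))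
      have e0 : (sf i)⁻¹ * x = (sf i * sf i)⁻¹ * (sf i * x) := by group
      rw [e0]
      exact hBΩ _ hsq _ (hsΩ i x hx)
  have h1 : (1 : G) ∈ Ω := ⟨1, one_mem _, 1, one_mem _, 1, one_mem _, by group⟩
  have h2 := (hK (T.hgen hg)).1 1 h1
  rw [mul_one] at h2
  exact h2

theorem TwData.N_le (T : TwData B N G1 ι sf X) : N ⊓ G1 ≤ TwN0 B N G1 sf := by
  intro n' hn'
  have hn'N := mi1 hn'
  have hn'G := mi2 hn'
  obtain ⟨b₁, hb₁, n, hn, b₂, hb₂, e⟩ := T.bruhat hn'G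
  have hnN := T.N0_le hn
  have h1 := T.huniq n (mi1 hnN) n' hn'N b₁ (mi1 hb₁) b₂ (mi1 hb₂) e
  have h2 : n⁻¹ * n' ∈ TwN0 B N G1 sf :=
    (le_sup_right : B ⊓ N ⊓ G1 ≤ TwN0 B N G1 sf)
      (mi (mi h1 (mul_mem (inv_mem (mi1 hnN)) hn'N)) (mul_mem (inv_mem (mi2 hnN)) hn'G))
  have e0 : n' = n * (n⁻¹ * n') := by group
  rw [e0]
  exact mul_mem hn h2

theorem tw_bn_abs (T : TwData B N G1 ι sf X) :
    ∃ P : Cfsg.BNPair ↥G1, P.B = (B ⊓ G1).subgroupOf G1 ∧ P.N = (N ⊓ G1).subgroupOf G1 ∧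
      P.S = {s : ↥G1 | ∃ i, (s : G) = sf i} := by
  refine ⟨{ B := (B ⊓ G1).subgroupOf G1
            N := (N ⊓ G1).subgroupOf G1
            S := {s : ↥G1 | ∃ i, (s : G) = sf i}
            sup_eq_top := ?_
            conj_mem := ?_
            subset := ?_
            sq_mem := ?_
            inj := ?_
            closure_sup := ?_
            mul_mem_union := ?_
            conj_ne := ?_ }, rfl, rfl, rfl⟩
  · rw [eq_top_iff]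
    rintro ⟨g, hg⟩ -
    obtain ⟨b₁, hb₁, n, hn, b₂, hb₂, e⟩ := T.bruhat hg
    have hnN := T.N0_le hn
    have e' : (⟨g, hg⟩ : ↥G1) = ⟨b₁, (mi2 hb₁)⟩ * ⟨n, (mi2 hnN)⟩ * ⟨b₂, (mi2 hb₂)⟩ := Subtype.ext e
    rw [e']
    exact mul_mem (mul_mem
      ((le_sup_left : (B ⊓ G1).subgroupOf G1 ≤ (B ⊓ G1).subgroupOf G1 ⊔ (N ⊓ G1).subgroupOf G1)
        (Subgroup.mem_subgroupOf.mpr hb₁))
      ((le_sup_right : (N ⊓ G1).subgroupOf G1 ≤ (B ⊓ G1).subgroupOf G1 ⊔ (N ⊓ G1).subgroupOf G1)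
        (Subgroup.mem_subgroupOf.mpr hnN)))
      ((le_sup_left : (B ⊓ G1).subgroupOf G1 ≤ (B ⊓ G1).subgroupOf G1 ⊔ (N ⊓ G1).subgroupOf G1)
        (Subgroup.mem_subgroupOf.mpr hb₂))
  · intro n hn t ht
    have htB := mi1 ht
    have htN := mi2 ht
    rw [Subgroup.mem_subgroupOf] at hn htB htN ⊢
    exact mi (T.hNB _ (mi1 hn) _ (mi (mi1 htB) (mi1 htN))) (n * t * n⁻¹).2
  · rintro s ⟨i, hi⟩
    show (s : G) ∈ N ⊓ G1
    refine mi ?_ s.2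
    rw [hi]
    exact (T.hs i).1
  · rintro s ⟨i, hi⟩
    show ((s * s : ↥G1) : G) ∈ B ⊓ G1
    refine mi ?_ (s * s).2
    rw [Subgroup.coe_mul, hi]
    exact T.hsq i
  · rintro s ⟨i, hi⟩ s' ⟨j, hj⟩ hmem
    have h1 : ((s⁻¹ * s' : ↥G1) : G) ∈ B ⊓ G1 := hmem
    rw [Subgroup.coe_mul, Subgroup.coe_inv, hi, hj] at h1
    apply Subtype.ext
    rw [hi, hj]
    exact T.hinj i j (mi1 h1)
  · apply le_antisymm
    · apply sup_le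
      · rw [Subgroup.closure_le]
        rintro s ⟨i, hi⟩
        show (s : G) ∈ N ⊓ G1
        refine mi ?_ s.2
        rw [hi]
        exact (T.hs i).1
      · exact inf_le_right
    · intro x hx
      rw [Subgroup.mem_subgroupOf] at hx
      have hK : TwN0 B N G1 sf ≤ (Subgroup.closure {s : ↥G1 | ∃ i, (s : G) = sf i} ⊔
            ((B ⊓ G1).subgroupOf G1 ⊓ (N ⊓ G1).subgroupOf G1)).map G1.subtype := by
        apply sup_le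
        · rw [Subgroup.closure_le]
          rintro _ ⟨i, rfl⟩
          refine ⟨⟨sf i, (T.hs i).2⟩, ?_, rfl⟩
          apply (le_sup_left : Subgroup.closure _ ≤ Subgroup.closure _ ⊔ _)
          exact Subgroup.subset_closure ⟨i, rfl⟩
        · intro h hh
          have hG := mi2 hh
          have hB := mi1 (mi1 hh)
          have hN := mi2 (mi1 hh)
          refine ⟨⟨h, hG⟩, ?_, rfl⟩
          apply (le_sup_right : _ ≤ Subgroup.closure _ ⊔ _)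
          exact mi (Subgroup.mem_subgroupOf.mpr (mi hB hG)) (Subgroup.mem_subgroupOf.mpr (mi hN hG))
      obtain ⟨y, hy, hyx⟩ := hK (T.N_le hx)
      have : y = x := Subtype.ext hyx
      rw [← this]
      exact hy
  · rintro s ⟨i, hi⟩ n hn b hb
    rw [Subgroup.mem_subgroupOf] at hn hb
    rcases T.dc i hn hb with ⟨b₁, hb₁, b₂, hb₂, e⟩ | ⟨b₁, hb₁, b₂, hb₂, e⟩
    · left
      rw [DoubleCoset.mem_doubleCoset]
      refine ⟨⟨b₁, (mi2 hb₁)⟩, Subgroup.mem_subgroupOf.mpr hb₁, ⟨b₂, (mi2 hb₂)⟩,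
        Subgroup.mem_subgroupOf.mpr hb₂, Subtype.ext ?_⟩
      simp only [Subgroup.coe_mul]
      rw [hi]
      exact e
    · right
      rw [DoubleCoset.mem_doubleCoset]
      refine ⟨⟨b₁, (mi2 hb₁)⟩, Subgroup.mem_subgroupOf.mpr hb₁, ⟨b₂, (mi2 hb₂)⟩,
        Subgroup.mem_subgroupOf.mpr hb₂, Subtype.ext ?_⟩
      simp only [Subgroup.coe_mul]
      rw [hi]
      exact e
  · rintro s ⟨i, hi⟩ heq
    obtain ⟨x, hx, hx1⟩ := T.hne i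
    obtain ⟨hxG, hxB, _⟩ := T.hX i x hx
    have h1 : s * ⟨x, hxG⟩ * s ∈ (((B ⊓ G1).subgroupOf G1 : Subgroup ↥G1) : Set ↥G1) := by
      rw [← heq]
      exact ⟨⟨x, hxG⟩, Subgroup.mem_subgroupOf.mpr (mi hxB hxG), rfl⟩
    have h2 : (s : G) * x * (s : G) ∈ B := mi1 (Subgroup.mem_subgroupOf.mp h1)
    rw [hi] at h2
    have h3 : sf i * x * (sf i)⁻¹ ∈ B := by
      have e0 : sf i * x * (sf i)⁻¹ = sf i * x * sf i * (sf i * sf i)⁻¹ := by group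
      rw [e0]
      exact mul_mem h2 (inv_mem (T.hsq i))
    rcases T.hrk i x hx with h | ⟨b₁, hb₁, b₂, hb₂, e⟩
    · exact hx1 h
    · apply T.hnb i
      have e0 : sf i = b₁⁻¹ * (sf i * x * (sf i)⁻¹) * b₂⁻¹ := by
        rw [e]
        group
      rw [e0]
      exact mul_mem (mul_mem (inv_mem (mi1 hb₁)) h3) (inv_mem (mi1 hb₂))

end abs

end Cfsg.Agent.Helper7
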