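import Cfsg.Agent.Helper7.ChevTwPerf
import Cfsg.Agent.Helper7.ChevSig
import Cfsg.Agent.Helper7.TwBNAbs

set_option autoImplicit false
set_option maxHeartbeats 4000000
set_option linter.unusedSectionVars false
set_option linter.unusedVariables false
open Cfsg

namespace Cfsg.Agent.Helper7

open Cfsg.Lie

def pL {G : Type*} [Group G] (js : List ℕ) (f : ℕ → G) : G := (js.map f).prod

theorem pL_nil {G : Type*} [Group G] (f : ℕ → G) : pL [] f = 1 := by
  simp [pL]

theorem pL_cons {G : Type*} [Group G] (a : ℕ) (js : List ℕ) (f : ℕ → G) :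
    pL (a :: js) f = f a * pL js f := by
  simp [pL]

theorem pL_commute {G : Type*} [Group G] (js : List ℕ) (f : ℕ → G) (y : G)
    (h : ∀ j ∈ js, Commute (f j) y) : Commute (pL js f) y := by
  apply Commute.list_prod_left
  intro x hx
  rw [List.mem_map] at hx
  obtain ⟨j, hj, rfl⟩ := hx
  exact h j hj

theorem pL_mul {G : Type*} [Group G] : ∀ (js : List ℕ) (f g : ℕ → G), js.Nodup →
    (∀ i ∈ js, ∀ j ∈ js, i ≠ j → Commute (f i) (g j)) →
    pL js (fun j => f j * g j) = pL js f * pL js g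
  | [], f, g, _, _ => by simp [pL]
  | a :: js, f, g, hnd, hc => by
    have hnd' := List.nodup_cons.mp hnd
    have ih := pL_mul js f g hnd'.2 (fun i hi j hj hij =>
      hc i (List.mem_cons_of_mem _ hi) j (List.mem_cons_of_mem _ hj) hij)
    have hcomm : Commute (pL js f) (g a) := pL_commute js f (g a) (fun j hj =>
      hc j (List.mem_cons_of_mem _ hj) a List.mem_cons_self
        (fun e => hnd'.1 (by rw [← e]; exact hj)))
    rw [pL_cons, pL_cons, pL_cons, ih]
    calc f a * g a * (pL js f * pL js g) = f a * (g a * pL js f) * pL js g := by group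
      _ = f a * (pL js f * g a) * pL js g := by rw [hcomm.eq]
      _ = f a * pL js f * (g a * pL js g) := by group

theorem pL_one {G : Type*} [Group G] (js : List ℕ) : pL js (fun _ => (1 : G)) = 1 := by
  induction js with
  | nil => exact pL_nil _
  | cons a js ih => rw [pL_cons, ih, one_mul]

theorem pL_congr {G : Type*} [Group G] {js : List ℕ} {f g : ℕ → G} (h : ∀ j ∈ js, f j = g j) :
    pL js f = pL js g := by
  unfold pL
  rw [List.map_congr_left h]

theorem pL_inv {G : Type*} [Group G] (js : List ℕ) (f : ℕ → G) (hnd : js.Nodup)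
    (hc : ∀ i ∈ js, ∀ j ∈ js, i ≠ j → Commute (f i) (f j)) :
    (pL js f)⁻¹ = pL js (fun j => (f j)⁻¹) := by
  apply inv_eq_of_mul_eq_one_right
  rw [← pL_mul js f (fun j => (f j)⁻¹) hnd (fun i hi j hj hij => (hc i hi j hj hij).inv_right)]
  have e : pL js (fun j => f j * (f j)⁻¹) = pL js (fun _ => (1 : G)) :=
    pL_congr (fun j _ => mul_inv_cancel (f j))
  rw [e, pL_one]

theorem pL_mem {G : Type*} [Group G] (K : Subgroup G) {js : List ℕ} {f : ℕ → G}
    (h : ∀ j ∈ js, f j ∈ K) : pL js f ∈ K := by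
  apply Subgroup.list_prod_mem
  intro x hx
  rw [List.mem_map] at hx
  obtain ⟨j, hj, rfl⟩ := hx
  exact h j hj

theorem pL_conj {G : Type*} [Group G] (g : G) (js : List ℕ) (f : ℕ → G) :
    g * pL js f * g⁻¹ = pL js (fun j => g * f j * g⁻¹) := by
  unfold pL
  rw [conj_list_prod, List.map_map]
  rfl

theorem pL_erase {G : Type*} [Group G] : ∀ (js : List ℕ) (f : ℕ → G) (j : ℕ), js.Nodup →
    j ∈ js → (∀ i ∈ js, i ≠ j → Commute (f i) (f j)) → pL js f = pL (js.erase j) f * f j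
  | [], f, j, _, hj, _ => by simp at hj
  | a :: js, f, j, hnd, hj, hc => by
    have hnd' := List.nodup_cons.mp hnd
    by_cases haj : a = j
    · subst haj
      rw [List.erase_cons_head, pL_cons]
      exact ((pL_commute js f (f a) (fun i hi =>
        hc i (List.mem_cons_of_mem _ hi) (fun e => hnd'.1 (by rw [← e]; exact hi)))).eq).symm
    · have hj' : j ∈ js := by
        rcases List.mem_cons.mp hj with h | h
        · exact absurd h.symm haj
        · exact h
      have e : (a :: js).erase j = a :: js.erase j := by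
        rw [List.erase_cons_tail]
        simpa using haj
      rw [e, pL_cons, pL_cons, pL_erase js f j hnd'.2 hj'
        (fun i hi hij => hc i (List.mem_cons_of_mem _ hi) hij), mul_assoc]

section sem

variable {F : Type*} [Field F]

def Rk (D : ChevalleyDatum) (ha : addCheck2 D = true) (i : ℕ) : Subgroup (GL D.Idx F) :=
  Subgroup.closure (rk1 (F := F) D ha i)

theorem Rk_comm {D : ChevalleyDatum} {ha : addCheck2 D = true} {i j : ℕ}
    (h : ∀ a ∈ rk1 (F := F) D ha i, ∀ b ∈ rk1 (F := F) D ha j, Commute a b) :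
    ∀ a ∈ Rk (F := F) D ha i, ∀ b ∈ Rk (F := F) D ha j, Commute a b := by
  intro a ha' b hb'
  have h1 : Rk (F := F) D ha j ≤ Subgroup.centralizer (rk1 (F := F) D ha i) := by
    unfold Rk
    rw [Subgroup.closure_le]
    intro y hy
    rw [SetLike.mem_coe, Subgroup.mem_centralizer_iff]
    intro x hx
    exact (h x hx y hy).eq
  have h2 : Rk (F := F) D ha i ≤ Subgroup.centralizer ({b} : Set (GL D.Idx F)) := by
    unfold Rk
    rw [Subgroup.closure_le]
    intro x hx
    rw [SetLike.mem_coe, Subgroup.mem_centralizer_iff]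
    intro y hy
    rw [Set.mem_singleton_iff] at hy
    rw [hy]
    exact ((Subgroup.mem_centralizer_iff.mp (h1 hb')) x hx).symm
  have h3 := Subgroup.mem_centralizer_iff.mp (h2 ha') b (Set.mem_singleton b)
  exact h3.symm

def OrthR (D : ChevalleyDatum) (ha : addCheck2 D = true) (F : Type*) [Field F]
    (js : List ℕ) : Prop :=
  js.Nodup ∧ (∀ j ∈ js, j < D.rank) ∧ ∀ i ∈ js, ∀ j ∈ js, i ≠ j →
    ∀ a ∈ Rk (F := F) D ha i, ∀ b ∈ Rk (F := F) D ha j, Commute a b

theorem OrthR.comm {D : ChevalleyDatum} {ha : addCheck2 D = true} {js : List ℕ}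
    (h : OrthR D ha F js) {f g : ℕ → GL D.Idx F} (hf : ∀ j ∈ js, f j ∈ Rk D ha j)
    (hg : ∀ j ∈ js, g j ∈ Rk D ha j) : ∀ i ∈ js, ∀ j ∈ js, i ≠ j → Commute (f i) (g j) :=
  fun i hi j hj hij => h.2.2 i hi j hj hij _ (hf i hi) _ (hg j hj)

def xPf (D : ChevalleyDatum) (ha : addCheck2 D = true) (ts : ℕ → F) (j : ℕ) : GL D.Idx F :=
  xV D ha (D.simple j) (ts j)

def xMf (D : ChevalleyDatum) (ha : addCheck2 D = true) (ts : ℕ → F) (j : ℕ) : GL D.Idx F :=
  xV D ha (D.neg (D.simple j)) (ts j)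

def nPf (D : ChevalleyDatum) (ha : addCheck2 D = true) (cs : ℕ → F) (j : ℕ) : GL D.Idx F :=
  nV D ha (D.simple j) (cs j)

theorem xPf_mem (D : ChevalleyDatum) (ha : addCheck2 D = true) (ts : ℕ → F) (j : ℕ) :
    xPf D ha ts j ∈ Rk D ha j :=
  Subgroup.subset_closure ⟨ts j, Or.inl rfl⟩

theorem xMf_mem (D : ChevalleyDatum) (ha : addCheck2 D = true) (ts : ℕ → F) (j : ℕ) :
    xMf D ha ts j ∈ Rk D ha j :=
  Subgroup.subset_closure ⟨ts j, Or.inr rfl⟩

theorem nPf_mem {D : ChevalleyDatum} (M : MOK D) (cs : ℕ → F) {j : ℕ} (hj : j < D.rank) :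
    nPf D M.w.add cs j ∈ Rk D M.w.add j := by
  obtain ⟨hp, hnp⟩ := simple_lt M.w.fd M.w.n hj
  unfold nPf
  rw [nV_eq_xxx D M.w.add hp hnp]
  exact mul_mem (Subgroup.subset_closure ⟨_, Or.inl rfl⟩)
    (mul_mem (Subgroup.subset_closure ⟨_, Or.inr rfl⟩) (Subgroup.subset_closure ⟨_, Or.inl rfl⟩))

theorem nWordU_pL (D : ChevalleyDatum) (ha : addCheck2 D = true) (js : List ℕ) :
    nWordU (F := F) D ha js = pL js (nPf D ha (fun _ => (1 : F))) := rfl

theorem xPf_add {D : ChevalleyDatum} (M : MOK D) {js : List ℕ} (h : OrthR D M.w.add F js)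
    (ts ts' : ℕ → F) :
    pL js (xPf D M.w.add ts) * pL js (xPf D M.w.add ts') =
      pL js (xPf D M.w.add (fun j => ts j + ts' j)) := by
  rw [← pL_mul js _ _ h.1 (h.comm (fun j _ => xPf_mem D M.w.add ts j)
    (fun j _ => xPf_mem D M.w.add ts' j))]
  apply pL_congr
  intro j hj
  exact xV_add D M.w.add (simple_lt M.w.fd M.w.n (h.2.1 j hj)).1 _ _

theorem xPf_zero (D : ChevalleyDatum) (ha : addCheck2 D = true) (js : List ℕ) :
    pL js (xPf D ha (fun _ => (0 : F))) = 1 := by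
  have e : pL js (xPf D ha (fun _ => (0 : F))) = pL js (fun _ => (1 : GL D.Idx F)) :=
    pL_congr (fun j _ => xV_zero D ha _)
  rw [e, pL_one]

theorem xPf_inv {D : ChevalleyDatum} (M : MOK D) {js : List ℕ} (h : OrthR D M.w.add F js)
    (ts : ℕ → F) :
    (pL js (xPf D M.w.add ts))⁻¹ = pL js (xPf D M.w.add (fun j => -ts j)) := by
  apply inv_eq_of_mul_eq_one_right
  rw [xPf_add M h]
  have e : pL js (xPf D M.w.add (fun j => ts j + -ts j)) =
      pL js (xPf D M.w.add (fun _ => (0 : F))) :=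
    pL_congr (fun j _ => by simp only [xPf, add_neg_cancel])
  rw [e, xPf_zero]

theorem xPf_posU {D : ChevalleyDatum} (M : MOK D) {js : List ℕ} (hlt : ∀ j ∈ js, j < D.rank)
    (ts : ℕ → F) : pL js (xPf D M.w.add ts) ∈ D.posUnipotent F :=
  pL_mem _ (fun j hj => xV_mem_posU M.w.add (simplePos_spec M.spos (hlt j hj)) _)

theorem nPf_eq {D : ChevalleyDatum} (M : MOK D) {js : List ℕ} (h : OrthR D M.w.add F js)
    (cs : ℕ → F) :
    pL js (nPf D M.w.add cs) = pL js (xPf D M.w.add cs) *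
      pL js (xMf D M.w.add (fun j => -(cs j)⁻¹)) * pL js (xPf D M.w.add cs) := by
  have e : pL js (nPf D M.w.add cs) = pL js (fun j => xPf D M.w.add cs j *
      xMf D M.w.add (fun j => -(cs j)⁻¹) j * xPf D M.w.add cs j) := by
    apply pL_congr
    intro j hj
    obtain ⟨hp, hnp⟩ := simple_lt M.w.fd M.w.n (h.2.1 j hj)
    unfold nPf xPf xMf
    rw [nV_eq_xxx D M.w.add hp hnp, mul_assoc]
  rw [e, pL_mul js _ _ h.1 (h.comm (fun j _ => mul_mem (xPf_mem D M.w.add cs j)
      (xMf_mem D M.w.add _ j)) (fun j _ => xPf_mem D M.w.add cs j)),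
    pL_mul js _ _ h.1 (h.comm (fun j _ => xPf_mem D M.w.add cs j)
      (fun j _ => xMf_mem D M.w.add _ j))]

theorem nPf_torus {D : ChevalleyDatum} (M : MOK D) {js : List ℕ} (h : OrthR D M.w.add F js)
    (cs : ℕ → F) (hcs : ∀ j ∈ js, cs j ≠ 0) :
    pL js (nPf D M.w.add cs) * (nWordU D M.w.add js)⁻¹ ∈ D.diagonalSubgroup F := by
  have hm : ∀ cs' : ℕ → F, ∀ j ∈ js, nPf D M.w.add cs' j ∈ Rk D M.w.add j :=
    fun cs' j hj => nPf_mem M cs' (h.2.1 j hj)
  rw [nWordU_pL, pL_inv js _ h.1 (h.comm (hm _) (hm _)),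
    ← pL_mul js _ _ h.1 (h.comm (hm _) (fun j hj => inv_mem (hm _ j hj)))]
  apply pL_mem
  intro j hj
  exact hV_mem M (simple_lt M.w.fd M.w.n (h.2.1 j hj)).1 (hcs j hj)

theorem nWordU_sq {D : ChevalleyDatum} (M : MOK D) {js : List ℕ} (h : OrthR D M.w.add F js) :
    nWordU (F := F) D M.w.add js * nWordU D M.w.add js ∈ D.diagonalSubgroup F := by
  have hm : ∀ cs' : ℕ → F, ∀ j ∈ js, nPf D M.w.add cs' j ∈ Rk D M.w.add j :=
    fun cs' j hj => nPf_mem M cs' (h.2.1 j hj)
  have h1 := nPf_torus M h (fun _ => (-1 : F)) (fun _ _ => neg_ne_zero.mpr one_ne_zero)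
  have e : pL js (nPf D M.w.add (fun _ => (-1 : F))) = (nWordU (F := F) D M.w.add js)⁻¹ := by
    rw [nWordU_pL, pL_inv js _ h.1 (h.comm (hm _) (hm _))]
    apply pL_congr
    intro j _
    unfold nPf
    rw [nV_neg]
  rw [e, ← mul_inv_rev] at h1
  exact inv_mem_iff.mp h1

theorem nWordU_conj_single {D : ChevalleyDatum} (M : MOK D) {js : List ℕ}
    (h : OrthR D M.w.add F js) {j : ℕ} (hj : j ∈ js) {y : GL D.Idx F}
    (hy : y ∈ Rk D M.w.add j) :
    nWordU D M.w.add js * y * (nWordU D M.w.add js)⁻¹ =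
      nV D M.w.add (D.simple j) (1 : F) * y * (nV D M.w.add (D.simple j) (1 : F))⁻¹ := by
  have hm : ∀ i ∈ js, nPf D M.w.add (fun _ => (1 : F)) i ∈ Rk D M.w.add i :=
    fun i hi => nPf_mem M _ (h.2.1 i hi)
  have hnj : nV D M.w.add (D.simple j) (1 : F) ∈ Rk (F := F) D M.w.add j := hm j hj
  have e : nWordU (F := F) D M.w.add js =
      pL (js.erase j) (nPf D M.w.add (fun _ => (1 : F))) * nV D M.w.add (D.simple j) (1 : F) := by
    rw [nWordU_pL, pL_erase js _ j h.1 hj (fun i hi hij => h.2.2 i hi j hj hij _ (hm i hi) _ hnj)]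
    rfl
  have hc : Commute (pL (js.erase j) (nPf D M.w.add (fun _ => (1 : F))))
      (nV D M.w.add (D.simple j) (1 : F) * y * (nV D M.w.add (D.simple j) (1 : F))⁻¹) := by
    apply pL_commute
    intro i hi
    have hi' := (List.Nodup.mem_erase_iff h.1).mp hi
    exact h.2.2 i hi'.2 j hj hi'.1 _ (hm i hi'.2) _ (mul_mem (mul_mem hnj hy) (inv_mem hnj))
  rw [e]
  calc pL (js.erase j) (nPf D M.w.add (fun _ => (1 : F))) * nV D M.w.add (D.simple j) (1 : F) * y *
        (pL (js.erase j) (nPf D M.w.add (fun _ => (1 : F))) *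
          nV D M.w.add (D.simple j) (1 : F))⁻¹
      = pL (js.erase j) (nPf D M.w.add (fun _ => (1 : F))) *
          (nV D M.w.add (D.simple j) (1 : F) * y * (nV D M.w.add (D.simple j) (1 : F))⁻¹) *
          (pL (js.erase j) (nPf D M.w.add (fun _ => (1 : F))))⁻¹ := by group
    _ = nV D M.w.add (D.simple j) (1 : F) * y * (nV D M.w.add (D.simple j) (1 : F))⁻¹ := by
        rw [hc.eq]
        group

theorem nWordU_conj_xP {D : ChevalleyDatum} (M : MOK D) {js : List ℕ}
    (h : OrthR D M.w.add F js) (hsgn : ∀ j ∈ js, nsgn D j (D.simple j) = -1) (ts : ℕ → F) :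
    nWordU D M.w.add js * pL js (xPf D M.w.add ts) * (nWordU D M.w.add js)⁻¹ =
      pL js (xMf D M.w.add (fun j => -ts j)) := by
  rw [pL_conj]
  apply pL_congr
  intro j hj
  have hjr := h.2.1 j hj
  obtain ⟨hp, hnp⟩ := simple_lt M.w.fd M.w.n hjr
  rw [nWordU_conj_single M h hj (xPf_mem D M.w.add ts j)]
  unfold xPf xMf
  rw [xV_conj M hjr hp, fw_simple M hjr, hsgn j hj]
  congr 1
  push_cast
  ring

theorem nWordU_conj_xM {D : ChevalleyDatum} (U : UOK D) {js : List ℕ}
    (h : OrthR D U.m.w.add F js) {j : ℕ} (hj : j ∈ js) (t : F) :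
    ∃ ε : F, ε * ε = 1 ∧ (nWordU D U.m.w.add js)⁻¹ * xV D U.m.w.add (D.simple j) t *
      nWordU D U.m.w.add js = xV D U.m.w.add (D.neg (D.simple j)) (ε * t) := by
  have M := U.m
  have hjr := h.2.1 j hj
  obtain ⟨hp, hnp⟩ := simple_lt M.w.fd M.w.n hjr
  refine ⟨((nsgn D j (D.neg (D.simple j)) : ℤ) : F), ?_, ?_⟩
  · have := sgn_sq (F := F) D j (D.neg (D.simple j)) 1
    rw [mul_one] at this
    exact this
  · have h1 := nWordU_conj_single (F := F) M h hj (xMf_mem D M.w.add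
      (fun _ => ((nsgn D j (D.neg (D.simple j)) : ℤ) : F) * t) j)
    unfold xMf at h1
    rw [xV_conj M hjr hnp, sgn_sq] at h1
    have h2 := (w_facts M.w.n hjr hp).2.2.2.1
    rw [fneg_eq M.w.fd, fneg_eq M.w.fd, fw_simple M hjr, neg_neg_root M.w.fd U.ninv hp] at h2
    rw [h2] at h1
    rw [← h1]
    group

end sem

end Cfsg.Agent.Helper7
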