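import Cfsg.Agent.Helper7.TwOrdAbs
import Cfsg.Agent.Helper7.ChevTwH

set_option autoImplicit false
set_option maxHeartbeats 4000000
set_option linter.unusedSectionVars false
set_option linter.unusedVariables false
open Cfsg

namespace Cfsg.Agent.Helper7

open Cfsg.Lie

def redB (D : ChevalleyDatum) : List (List ℕ) → Bool
  | [] => true
  | J :: w =>
    (J.all fun j => Nat.ble (D.nroots / 2) (wApply D w.flatten.reverse (D.simple j))) &&
      redB D w

section sem

variable {F : Type*} [Field F]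

theorem nWordU_flat_mem (D : ChevalleyDatum) (ha : addCheck2 D = true)
    (G1 : Subgroup (GL D.Idx F)) (bl : List (List ℕ))
    (hs : ∀ J ∈ bl, nWordU D ha J ∈ G1) :
    ∀ w : List (List ℕ), (∀ J ∈ w, J ∈ bl) → nWordU D ha w.flatten ∈ G1
  | [], _ => by
    have e : nWordU (F := F) D ha ([] : List (List ℕ)).flatten = 1 := by simp [nWordU]
    rw [e]
    exact one_mem _
  | J :: w, hw => by
    rw [List.flatten_cons, nWordU_append]
    exact mul_mem (hs J (hw J List.mem_cons_self))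
      (nWordU_flat_mem D ha G1 bl hs w (fun K hK => hw K (List.mem_cons_of_mem _ hK)))

theorem XJ_mul {D : ChevalleyDatum} (M : MOK D) {A : GAut} {φ : F →+* F} {J : List ℕ}
    (h : OrthR D M.w.add F J) :
    ∀ x ∈ XJ D M.w.add A φ J, ∀ y ∈ XJ D M.w.add A φ J, x * y ∈ XJ D M.w.add A φ J := by
  rintro x ⟨ts, ht, rfl⟩ y ⟨ts', ht', rfl⟩
  refine ⟨fun j => ts j + ts' j, ?_, xPf_add M h ts ts'⟩
  intro j hj
  show ts (A.rho.getD j 0) + ts' (A.rho.getD j 0) = φ (ts j + ts' j)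
  rw [map_add, ht j hj, ht' j hj]

theorem tw_card_dc [Fintype F] {D : ChevalleyDatum} {adj : List (List ℤ)} (L : LOK D adj)
    (hcf : CF D F) {G1 : Subgroup (GL D.Idx F)} {A : GAut} {φ : F →+* F} {bl : List (List ℕ)}
    (T : TwData (D.borelSubgroup F) (D.monomialSubgroup F) G1 {J : List ℕ // J ∈ bl}
      (fun J => nWordU D L.u.m.w.add J.val) (fun J => XJ D L.u.m.w.add A φ J.val))
    (horth : ∀ J ∈ bl, OrthR D L.u.m.w.add F J) :
    ∀ w : List (List ℕ), (∀ J ∈ w, J ∈ bl) → redB D w = true →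
      Nat.card (DC1 (D.borelSubgroup F) G1 (nWordU D L.u.m.w.add w.flatten)) =
        (w.map fun J => Nat.card ↥(XJ D L.u.m.w.add A φ J)).prod *
          Nat.card (D.borelSubgroup F ⊓ G1 : Subgroup (GL D.Idx F))
  | [], _, _ => by
    have e : nWordU (F := F) D L.u.m.w.add ([] : List (List ℕ)).flatten = 1 := by
      simp [nWordU]
    rw [e, DC1_one, List.map_nil, List.prod_nil, one_mul]
    rfl
  | J :: w, hw, hr => by
    have M := L.u.m
    have hJ := hw J List.mem_cons_self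
    have hw' : ∀ K ∈ w, K ∈ bl := fun K hK => hw K (List.mem_cons_of_mem _ hK)
    rw [redB, Bool.and_eq_true, List.all_eq_true] at hr
    have ih := tw_card_dc L hcf T horth w hw' hr.2
    have hlt : ∀ i ∈ w.flatten, i < D.rank := by
      intro i hi
      obtain ⟨K, hK, hiK⟩ := List.mem_flatten.mp hi
      exact (horth K (hw' K hK)).2.1 i hiK
    have hs : ∀ K ∈ bl, nWordU D L.u.m.w.add K ∈ G1 := fun K hK => (T.hs ⟨K, hK⟩).2
    have hn : nWordU D L.u.m.w.add w.flatten ∈ D.monomialSubgroup F ⊓ G1 :=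
      mi (nWordU_mem_mon M _ hlt) (nWordU_flat_mem D _ G1 bl hs w hw')
    have hA : ∀ x ∈ XJ D L.u.m.w.add A φ J, (nWordU D L.u.m.w.add w.flatten)⁻¹ * x *
        nWordU D L.u.m.w.add w.flatten ∈ D.borelSubgroup F := by
      rintro x ⟨ts, _, rfl⟩
      exact (le_sup_left : D.posUnipotent F ≤ D.borelSubgroup F)
        (conj_pL_pos M w.flatten hlt (horth J hJ).2.1
          (fun j hj => Nat.le_of_ble_eq_true (hr.1 j hj)) ts)
    have key := T.dc_card_mul (fun K => XJ_mul M (horth K.1 K.2)) ⟨J, hJ⟩ hn hA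
    rw [List.flatten_cons, nWordU_append]
    refine key.trans ?_
    rw [ih, List.map_cons, List.prod_cons]
    exact (mul_assoc _ _ _).symm

theorem tw_card_group [Fintype F] {D : ChevalleyDatum} {adj : List (List ℤ)} (L : LOK D adj)
    (hcf : CF D F) (hu : unitAllOK D = true) {G1 : Subgroup (GL D.Idx F)} {A : GAut}
    {φ : F →+* F} {bl : List (List ℕ)}
    (T : TwData (D.borelSubgroup F) (D.monomialSubgroup F) G1 {J : List ℕ // J ∈ bl}
      (fun J => nWordU D L.u.m.w.add J.val) (fun J => XJ D L.u.m.w.add A φ J.val))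
    (horth : ∀ J ∈ bl, OrthR D L.u.m.w.add F J)
    (ws : List (List (List ℕ))) (hnd : ws.Nodup) (hbl : ∀ w ∈ ws, ∀ J ∈ w, J ∈ bl)
    (hred : ∀ w ∈ ws, redB D w = true)
    (hclosed : ∀ w ∈ ws, ∀ J ∈ bl, ∃ w' ∈ ws, ∀ r < D.nroots,
      wApply D (J ++ w.flatten) r = wApply D w'.flatten r)
    (hinj : ∀ w ∈ ws, ∀ w' ∈ ws,
      (∀ r < D.nroots, wApply D w.flatten r = wApply D w'.flatten r) → w = w')
    (hne : [] ∈ ws) (q : ℕ)
    (hcard : ∀ J ∈ bl, Nat.card ↥(XJ D L.u.m.w.add A φ J) = q ^ J.length) :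
    Nat.card G1 = Nat.card (D.borelSubgroup F ⊓ G1 : Subgroup (GL D.Idx F)) *
      (ws.map fun w => q ^ w.flatten.length).sum := by
  have M := L.u.m
  have hs : ∀ J ∈ bl, nWordU D L.u.m.w.add J ∈ G1 := fun J hJ => (T.hs ⟨J, hJ⟩).2
  have hlt : ∀ w ∈ ws, ∀ i ∈ w.flatten, i < D.rank := by
    intro w hw i hi
    obtain ⟨K, hK, hiK⟩ := List.mem_flatten.mp hi
    exact (horth K (hbl w hw K hK)).2.1 i hiK
  have hN : ∀ w ∈ ws, nWordU D L.u.m.w.add w.flatten ∈ D.monomialSubgroup F ⊓ G1 :=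
    fun w hw => mi (nWordU_mem_mon M _ (hlt w hw))
      (nWordU_flat_mem D _ G1 bl hs w (hbl w hw))
  apply T.card_words (fun w : List (List ℕ) => nWordU D L.u.m.w.add w.flatten) ws hnd hN
  · exact ⟨[], hne, by simp [nWordU]⟩
  · rintro w hw ⟨J, hJ⟩
    obtain ⟨w', hw', hact⟩ := hclosed w hw J hJ
    refine ⟨w', hw', ?_⟩
    have hJw : ∀ i ∈ J ++ w.flatten, i < D.rank := by
      intro i hi
      rcases List.mem_append.mp hi with h | h
      · exact (horth J hJ).2.1 i h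
      · exact hlt w hw i h
    have hH := same_act_mem L.u hcf (J ++ w.flatten) w'.flatten hJw (hlt w' hw') hact
    rw [nWordU_append] at hH
    exact (le_sup_right : D.diagonalSubgroup F ≤ D.borelSubgroup F) hH
  · intro w hw w' hw' hB
    exact hinj w hw w' hw'
      (act_eq_of_mem L.u hu w.flatten w'.flatten (hlt w hw) (hlt w' hw') hB)
  · intro w hw
    rw [tw_card_dc L hcf T horth w (hbl w hw) (hred w hw), ← prod_pow_len]
    congr 1
    congr 1
    apply List.map_congr_left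
    intro J hJ
    exact hcard J (hbl w hw J hJ)

theorem Bset_cover {D : ChevalleyDatum} {adj : List (List ℤ)} (L : LOK D adj) (hcf : CF D F)
    (G1 : Subgroup (GL D.Idx F)) (A : GAut) (φ : F →+* F) (bl : List (List ℕ))
    (horth : ∀ J ∈ bl, OrthR D L.u.m.w.add F J)
    (hXG : ∀ J ∈ bl, ∀ x ∈ XJ D L.u.m.w.add A φ J, x ∈ G1)
    (hs : ∀ J ∈ bl, nWordU D L.u.m.w.add J ∈ G1)
    (hdec : ∀ J ∈ bl, ∀ b ∈ D.borelSubgroup F ⊓ G1, ∃ x ∈ XJ D L.u.m.w.add A φ J,
      ∃ c ∈ D.borelSubgroup F, b = x * c ∧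
        nWordU D L.u.m.w.add J * c * (nWordU D L.u.m.w.add J)⁻¹ ∈ D.borelSubgroup F) :
    ∀ (bs : List (List ℕ)) (pre : List ℕ), (∀ J ∈ bs, J ∈ bl) → (∀ i ∈ pre, i < D.rank) →
      goodB D pre bs = true → longOK D (finW pre bs) = true →
      ∀ b ∈ D.borelSubgroup F ⊓ G1,
        (nWordU D L.u.m.w.add pre)⁻¹ * b * nWordU D L.u.m.w.add pre ∈ D.borelSubgroup F →
        ∃ a ∈ Aset D L.u.m.w.add (XJ D L.u.m.w.add A φ) bs,
          ∃ h ∈ D.diagonalSubgroup F, b = a * h
  | [], pre, _, hpre, _, hlong, b, hb, hconj => by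
    have M := L.u.m
    have hlong' : longOK D pre = true := hlong
    obtain ⟨u, hu, h, hh, e⟩ := borel_dec M.w hconj
    have h1 := long_conj_neg M pre hlong' hu
    have hnN := nWordU_mem_mon (F := F) M pre hpre
    have hT := (Subgroup.mem_normalizer_iff.mp (mon_normalizes_torus M hnN) h).mp hh
    have ev : nWordU D M.w.add pre * u * (nWordU D M.w.add pre)⁻¹ =
        b * (nWordU D M.w.add pre * h * (nWordU D M.w.add pre)⁻¹)⁻¹ := by
      have e3 : b = nWordU D M.w.add pre * ((nWordU D L.u.m.w.add pre)⁻¹ * b *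
          nWordU D L.u.m.w.add pre) * (nWordU D M.w.add pre)⁻¹ := by group
      rw [e3, e]
      group
    have h2 : nWordU D M.w.add pre * u * (nWordU D M.w.add pre)⁻¹ ∈
        D.borelSubgroup F ⊓ D.negUnipotent F := by
      refine mi ?_ h1
      rw [ev]
      exact mul_mem (mi1 hb) (inv_mem (torus_le_borel M.w hT))
    rw [borel_inf_negU M, Subgroup.mem_bot] at h2
    rw [h2] at ev
    have eb : b = nWordU D M.w.add pre * h * (nWordU D M.w.add pre)⁻¹ :=
      mul_inv_eq_one.mp ev.symm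
    refine ⟨1, Set.mem_singleton _, nWordU D M.w.add pre * h * (nWordU D M.w.add pre)⁻¹, ?_, ?_⟩
    · rw [diag_eq_torus M.w]
      exact hT
    · rw [one_mul]
      exact eb
  | J :: bs, pre, hbs, hpre, hg, hlong, b, hb, hconj => by
    have M := L.u.m
    obtain ⟨hgJ, hg'⟩ := goodB_cons hg
    have hJ := hbs J List.mem_cons_self
    have h := horth J hJ
    have hUB : D.posUnipotent F ≤ D.borelSubgroup F := le_sup_left
    obtain ⟨x, hx, c, hc, hac, hsc⟩ := hdec J hJ b hb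
    have hxG := hXG J hJ x hx
    obtain ⟨ts, htw, hxe⟩ := hx
    have hsG := hs J hJ
    have hcG : c ∈ G1 := by
      have e0 : c = x⁻¹ * b := by
        rw [hac]
        group
      rw [e0]
      exact mul_mem (inv_mem hxG) (mi2 hb)
    have hpre' : ∀ i ∈ J ++ pre, i < D.rank := by
      intro i hi
      rcases List.mem_append.mp hi with h' | h'
      · exact h.2.1 i h'
      · exact hpre i h'
    have hxc := conj_pL_pos M pre hpre h.2.1 hgJ ts
    have hconj' : (nWordU D L.u.m.w.add (J ++ pre))⁻¹ *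
        (nWordU D L.u.m.w.add J * c * (nWordU D L.u.m.w.add J)⁻¹) *
        nWordU D L.u.m.w.add (J ++ pre) ∈ D.borelSubgroup F := by
      rw [nWordU_append]
      have e0 : (nWordU D L.u.m.w.add J * nWordU D L.u.m.w.add pre)⁻¹ *
          (nWordU D L.u.m.w.add J * c * (nWordU D L.u.m.w.add J)⁻¹) *
          (nWordU D L.u.m.w.add J * nWordU D L.u.m.w.add pre) =
          ((nWordU D L.u.m.w.add pre)⁻¹ * x * nWordU D L.u.m.w.add pre)⁻¹ *
          ((nWordU D L.u.m.w.add pre)⁻¹ * b * nWordU D L.u.m.w.add pre) := by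
        rw [hac]
        group
      rw [e0, hxe]
      exact mul_mem (inv_mem (hUB hxc)) hconj
    obtain ⟨a', ha', h', hh', e'⟩ := Bset_cover L hcf G1 A φ bl horth hXG hs hdec bs (J ++ pre)
      (fun K hK => hbs K (List.mem_cons_of_mem _ hK)) hpre' hg' hlong
      (nWordU D L.u.m.w.add J * c * (nWordU D L.u.m.w.add J)⁻¹)
      (mi hsc (mul_mem (mul_mem hsG hcG) (inv_mem hsG))) hconj'
    have hnN := nWordU_mem_mon (F := F) M J h.2.1
    have hh'' : h' ∈ torus D F := by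
      rw [← diag_eq_torus M.w]
      exact hh'
    have hT' := (Subgroup.mem_normalizer_iff.mp (inv_mem (mon_normalizes_torus M hnN)) h').mp hh''
    refine ⟨x * ((nWordU D L.u.m.w.add J)⁻¹ * a' * nWordU D L.u.m.w.add J),
      ⟨x, ⟨ts, htw, hxe⟩, a', ha', rfl⟩,
      (nWordU D M.w.add J)⁻¹ * h' * (nWordU D M.w.add J)⁻¹⁻¹, ?_, ?_⟩
    · rw [diag_eq_torus M.w]
      exact hT'
    · have ec : c = (nWordU D L.u.m.w.add J)⁻¹ * (a' * h') * nWordU D L.u.m.w.add J := by
        rw [← e']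
        group
      rw [hac, ec]
      group

theorem tw_card_B [Fintype F] {D : ChevalleyDatum} {adj : List (List ℤ)} (L : LOK D adj)
    (hcf : CF D F) {G1 : Subgroup (GL D.Idx F)} {A : GAut} {φ : F →+* F} {bl : List (List ℕ)}
    (T : TwData (D.borelSubgroup F) (D.monomialSubgroup F) G1 {J : List ℕ // J ∈ bl}
      (fun J => nWordU D L.u.m.w.add J.val) (fun J => XJ D L.u.m.w.add A φ J.val))
    (horth : ∀ J ∈ bl, OrthR D L.u.m.w.add F J)
    (bs : List (List ℕ)) (hbs : ∀ J ∈ bs, J ∈ bl) (hg : goodB D [] bs = true)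
    (hlong : longOK D (finW [] bs) = true) :
    Nat.card (D.borelSubgroup F ⊓ G1 : Subgroup (GL D.Idx F)) =
      Nat.card (D.posUnipotent F ⊓ G1 : Subgroup (GL D.Idx F)) *
        Nat.card (D.diagonalSubgroup F ⊓ G1 : Subgroup (GL D.Idx F)) := by
  have M := L.u.m
  have hUB : D.posUnipotent F ≤ D.borelSubgroup F := le_sup_left
  have hHB : D.diagonalSubgroup F ≤ D.borelSubgroup F := le_sup_right
  have hX : ∀ J ∈ bl, ∀ x ∈ XJ D L.u.m.w.add A φ J,
      x ∈ G1 ∧ ∃ ts : ℕ → F, x = pL J (xPf D L.u.m.w.add ts) := by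
    intro J hJ x hx
    refine ⟨(T.hX ⟨J, hJ⟩ x hx).1, ?_⟩
    obtain ⟨ts, _, e⟩ := hx
    exact ⟨ts, e⟩
  have hs : ∀ J ∈ bl, nWordU D L.u.m.w.add J ∈ G1 := fun J hJ => (T.hs ⟨J, hJ⟩).2
  have hlt : ∀ J ∈ bl, ∀ j ∈ J, j < D.rank := fun J hJ => (horth J hJ).2.1
  have enil : nWordU (F := F) D L.u.m.w.add [] = 1 := by simp [nWordU]
  let ψ : ↥(D.posUnipotent F ⊓ G1) × ↥(D.diagonalSubgroup F ⊓ G1) →
      ↥(D.borelSubgroup F ⊓ G1) := fun p =>
    ⟨p.1.1 * p.2.1, mi (mul_mem (hUB (mi1 p.1.2)) (hHB (mi1 p.2.2)))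
      (mul_mem (mi2 p.1.2) (mi2 p.2.2))⟩
  have hbij : Function.Bijective ψ := by
    constructor
    · rintro ⟨⟨u, hu⟩, ⟨h, hh⟩⟩ ⟨⟨u', hu'⟩, ⟨h', hh'⟩⟩ e
      have e1 : u * h = u' * h' := congrArg Subtype.val e
      have e2 : u'⁻¹ * u = h' * h⁻¹ := by
        have e3 : u = u' * h' * h⁻¹ := by
          rw [← e1]
          group
        rw [e3]
        group
      have h3 : u'⁻¹ * u ∈ D.posUnipotent F ⊓ torus D F :=
        mi (mul_mem (inv_mem (mi1 hu')) (mi1 hu)) (by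
          rw [e2, ← diag_eq_torus M.w]
          exact mul_mem (mi1 hh') (inv_mem (mi1 hh)))
      rw [posU_inf_torus M.ptri, Subgroup.mem_bot] at h3
      have h4 : u = u' := by
        rw [inv_mul_eq_one] at h3
        exact h3.symm
      subst h4
      have h5 : h = h' := mul_left_cancel e1
      subst h5
      rfl
    · rintro ⟨b, hb⟩
      obtain ⟨a, ha, h, hh, e⟩ := Bset_cover L hcf G1 A φ bl horth
        (fun J hJ x hx => (hX J hJ x hx).1) hs (fun J hJ b hb => T.hdec ⟨J, hJ⟩ b hb) bs []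
        hbs (by simp) hg hlong b hb (by
          rw [enil, inv_one, one_mul, mul_one]
          exact mi1 hb)
      obtain ⟨haG, haU⟩ := Aset_mem M G1 _ bl hX hs hlt bs [] hbs (by simp) hg a ha
      rw [enil, inv_one, one_mul, mul_one] at haU
      have hhG : h ∈ G1 := by
        have e0 : h = a⁻¹ * b := by
          rw [e]
          group
        rw [e0]
        exact mul_mem (inv_mem haG) (mi2 hb)
      exact ⟨(⟨a, mi haU haG⟩, ⟨h, mi hh hhG⟩), Subtype.ext e.symm⟩
  rw [← Nat.card_congr (Equiv.ofBijective ψ hbij), Nat.card_prod]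

end sem

end Cfsg.Agent.Helper7
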