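import Cfsg.Agent.Helper7.ChevTw
import Cfsg.Agent.Helper7.ChevPerf

set_option autoImplicit false
set_option maxHeartbeats 4000000
open Cfsg

namespace Cfsg.Agent.Helper7

open Cfsg.Lie

theorem zip_prod {G : Type*} [Group G] : ∀ (as bs : List G), as.length = bs.length →
    (∀ a ∈ as, ∀ b ∈ bs, Commute a b) →
    as.prod * bs.prod = (List.zipWith (fun a b => a * b) as bs).prod
  | [], [], _, _ => by simp
  | [], _ :: _, h, _ => by simp at h
  | _ :: _, [], h, _ => by simp at h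
  | a :: as, b :: bs, h, hc => by
    have hlen : as.length = bs.length := by simpa using h
    have ih := zip_prod as bs hlen (fun x hx y hy =>
      hc x (List.mem_cons_of_mem _ hx) y (List.mem_cons_of_mem _ hy))
    have h1 : Commute as.prod b := Commute.list_prod_left _ _ (fun x hx =>
      hc x (List.mem_cons_of_mem _ hx) b List.mem_cons_self)
    rw [List.prod_cons, List.prod_cons, List.zipWith_cons_cons, List.prod_cons, ← ih]
    calc a * as.prod * (b * bs.prod) = a * (as.prod * b) * bs.prod := by group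
      _ = a * (b * as.prod) * bs.prod := by rw [h1.eq]
      _ = a * b * (as.prod * bs.prod) := by group

theorem perf_family {G : Type*} [Group G] {F : Type*} [Field F] (G1 : Subgroup G)
    (x : F → G) (hx : ∀ u v, x u * x v = x (u + v)) (hm : ∀ u, x u ∈ G1) (h : G)
    (hh : h ∈ G1) (μ : F) (hμ : μ - 1 ≠ 0) (hc : ∀ t, h * x t * h⁻¹ = x (μ * t)) (s : F) :
    x s ∈ (commutator ↥G1).map G1.subtype := by
  have h0 : x 0 = 1 := by
    have := hx 0 0
    rw [add_zero] at this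
    exact mul_eq_left.mp this
  have hinv : ∀ u, (x u)⁻¹ = x (-u) := by
    intro u
    rw [inv_eq_iff_mul_eq_one, hx, add_neg_cancel, h0]
  have e : x s = h * x (s / (μ - 1)) * h⁻¹ * (x (s / (μ - 1)))⁻¹ := by
    rw [hc, hinv, hx]
    congr 1
    field_simp
    ring
  rw [e]
  exact comm_mem_map _ hh (hm _)

section sem

variable {F : Type*} [Field F]

theorem perf_comm1 {D : ChevalleyDatum} (M : MOK D) (hcf : CF D F) (G1 : Subgroup (GL D.Idx F))
    {r s p : ℕ} {c : ℤ} (hr : r < D.nroots) (hs : s < D.nroots) (h1 : s ≠ r)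
    (h2 : s ≠ D.neg r) (hct : D.commTerms r s = [(p, c, 1, 1)]) (hc : (c : F) ≠ 0) (t : F)
    (hrm : xV D M.w.add r (-(t / (c : F))) ∈ G1) (hsm : xV D M.w.add s (1 : F) ∈ G1) :
    xV D M.w.add p t ∈ (commutator ↥G1).map G1.subtype := by
  have e := comm_xV M.w.add hcf hr hs h1 h2 (-(t / (c : F))) (1 : F)
  have ew : wordU D M.w.add (D.commWord F r s (-(t / (c : F))) 1) = xV D M.w.add p t := by
    unfold ChevalleyDatum.commWord
    rw [hct]
    simp only [List.map_cons, List.map_nil, wordU, List.prod_cons, List.prod_nil, mul_one]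
    congr 1
    field_simp
  rw [ew] at e
  have e2 : xV D M.w.add p t = (xV D M.w.add s (1 : F))⁻¹ *
      (xV D M.w.add r (-(t / (c : F))))⁻¹ * (xV D M.w.add s (1 : F))⁻¹⁻¹ *
      (xV D M.w.add r (-(t / (c : F))))⁻¹⁻¹ := by
    have e3 : xV D M.w.add p t = (xV D M.w.add r (-(t / (c : F))) * xV D M.w.add s (1 : F))⁻¹ *
        (xV D M.w.add s (1 : F) * xV D M.w.add r (-(t / (c : F)))) := by
      rw [e]
      group
    rw [e3]
    group
  rw [e2]
  exact comm_mem_map _ (inv_mem hsm) (inv_mem hrm)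

def hU (D : ChevalleyDatum) (i : ℕ) (c : Fˣ) : GL D.Idx F :=
  DgU D (chi D (fun k => if k = i then c else 1))

theorem hU_eq {D : ChevalleyDatum} (M : MOK D) {i : ℕ} (hi : i < D.rank) (c : Fˣ) :
    hU D i c = [xV D M.w.add (D.simple i) (c : F), xV D M.w.add (D.neg (D.simple i)) (-(c : F)⁻¹),
      xV D M.w.add (D.simple i) (c : F), xV D M.w.add (D.simple i) (-1),
      xV D M.w.add (D.neg (D.simple i)) 1, xV D M.w.add (D.simple i) (-1)].prod := by
  apply Units.ext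
  have h1 : ((hU D i c : GL D.Idx F) : Matrix D.Idx D.Idx F) = D.hMat F (D.simple i) (c : F) := by
    rw [hMat_simple_U M.w.fd M.w.hc hi c]
    unfold hU
    exact congrArg Units.val (DgU_congr D (fun s _ => chi_single D hi c s))
  rw [h1]
  unfold ChevalleyDatum.hMat ChevalleyDatum.hWord
  rw [wordMat_append]
  have e1 : D.wordMat F (D.nWord (D.simple i) (c : F)) = D.nMat F (D.simple i) (c : F) := rfl
  have e2 : D.wordMat F (D.nWord (D.simple i) (-1 : F)) = D.nMat F (D.simple i) (-1 : F) := rfl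
  rw [e1, e2, nMat_eq, nMat_eq]
  simp only [List.prod_cons, List.prod_nil, Units.val_mul, xV_val, mul_one]
  have e3 : -(-1 : F)⁻¹ = 1 := by norm_num
  rw [e3]
  simp only [mul_assoc]

theorem hU_conj {D : ChevalleyDatum} (M : MOK D) {i : ℕ} (hi : i < D.rank) (c : Fˣ) {s : ℕ}
    (hs : s < D.nroots) (t : F) :
    hU D i c * xV D M.w.add s t * (hU D i c)⁻¹ =
      xV D M.w.add s (((c ^ D.cartan i s : Fˣ) : F) * t) := by
  unfold hU
  rw [DgU_xV M.w _ hs, mul_assoc, mul_inv_cancel, mul_one, chi_single D hi]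

def orth2OK (D : ChevalleyDatum) (i j : ℕ) : Bool :=
  orthOK D i j &&
  decide (D.neg (D.simple j) ≠ D.neg (D.neg (D.simple i))) &&
  (D.commTerms (D.neg (D.simple i)) (D.neg (D.simple j))).isEmpty &&
  decide (D.cartan i (D.simple i) = 2) && decide (D.cartan i (D.simple j) = 0) &&
  decide (D.cartan j (D.simple i) = 0) && decide (D.cartan j (D.simple j) = 2)

def rk1 (D : ChevalleyDatum) (ha : addCheck2 D = true) (i : ℕ) : Set (GL D.Idx F) :=
  {g | ∃ t : F, g = xV D ha (D.simple i) t ∨ g = xV D ha (D.neg (D.simple i)) t}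

theorem orth2_spec {D : ChevalleyDatum} (M : MOK D) (hcf : CF D F) {i j : ℕ}
    (h : orth2OK D i j = true) :
    orthOK D i j = true ∧ (∀ a ∈ rk1 (F := F) D M.w.add i, ∀ b ∈ rk1 (F := F) D M.w.add j,
      Commute a b) ∧
    D.cartan i (D.simple i) = 2 ∧ D.cartan i (D.simple j) = 0 ∧
    D.cartan j (D.simple i) = 0 ∧ D.cartan j (D.simple j) = 2 := by
  unfold orth2OK at h
  simp only [Bool.and_eq_true, decide_eq_true_eq, List.isEmpty_iff] at h
  obtain ⟨⟨⟨⟨⟨⟨h0, c6⟩, T4⟩, k1⟩, k2⟩, k3⟩, k4⟩ := h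
  refine ⟨h0, ?_, k1, k2, k3, k4⟩
  obtain ⟨hi, hj⟩ := orth_lt h0
  obtain ⟨hp, hnp, _, _⟩ := simple_facts M hi
  obtain ⟨hq, hnq, _, _⟩ := simple_facts M hj
  have c5 : D.neg (D.simple j) ≠ D.neg (D.simple i) := by
    have h' := h0
    unfold orthOK at h'
    simp only [Bool.and_eq_true, decide_eq_true_eq, List.isEmpty_iff] at h'
    exact h'.1.2
  rintro a ⟨t, rfl | rfl⟩ b ⟨u, rfl | rfl⟩
  · exact ((orth_spec M hcf h0 u t).1).symm
  · exact ((orth_spec M hcf h0 u t).2.2).symm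
  · exact ((orth_spec M hcf h0 u t).2.1).symm
  · exact (xV_commute M.w.add hcf hnp hnq c5 c6 T4 t u).symm

def xP2 (D : ChevalleyDatum) (ha : addCheck2 D = true) (i j e : ℕ) (t : F) : GL D.Idx F :=
  xV D ha (D.simple i) t * xV D ha (D.simple j) (t ^ e)

def xM2 (D : ChevalleyDatum) (ha : addCheck2 D = true) (i j e : ℕ) (t : F) : GL D.Idx F :=
  xV D ha (D.neg (D.simple i)) t * xV D ha (D.neg (D.simple j)) (t ^ e)

theorem pair_add {D : ChevalleyDatum} (ha : addCheck2 D = true) {a b : ℕ} (hla : a < D.nroots)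
    (hlb : b < D.nroots) (u u' v v' : F)
    (hc : Commute (xV D ha b u') (xV D ha a v)) :
    (xV D ha a u * xV D ha b u') * (xV D ha a v * xV D ha b v') =
      xV D ha a (u + v) * xV D ha b (u' + v') := by
  rw [← xV_add D ha hla, ← xV_add D ha hlb]
  calc xV D ha a u * xV D ha b u' * (xV D ha a v * xV D ha b v')
      = xV D ha a u * (xV D ha b u' * xV D ha a v) * xV D ha b v' := by group
    _ = xV D ha a u * (xV D ha a v * xV D ha b u') * xV D ha b v' := by rw [hc.eq]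
    _ = xV D ha a u * xV D ha a v * (xV D ha b u' * xV D ha b v') := by group

theorem xP2_add {D : ChevalleyDatum} (M : MOK D) (hcf : CF D F) {i j : ℕ}
    (h : orth2OK D i j = true) (e : ℕ) (hadd : ∀ u v : F, (u + v) ^ e = u ^ e + v ^ e)
    (u v : F) :
    xP2 D M.w.add i j e u * xP2 D M.w.add i j e v = xP2 D M.w.add i j e (u + v) := by
  obtain ⟨h0, hc, -⟩ := orth2_spec M hcf h
  obtain ⟨hi, hj⟩ := orth_lt h0
  obtain ⟨hp, hnp, _, _⟩ := simple_facts M hi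
  obtain ⟨hq, hnq, _, _⟩ := simple_facts M hj
  unfold xP2
  rw [pair_add M.w.add hp hq u (u ^ e) v (v ^ e)
    (hc _ ⟨v, Or.inl rfl⟩ _ ⟨u ^ e, Or.inl rfl⟩).symm, hadd]

theorem xM2_add {D : ChevalleyDatum} (M : MOK D) (hcf : CF D F) {i j : ℕ}
    (h : orth2OK D i j = true) (e : ℕ) (hadd : ∀ u v : F, (u + v) ^ e = u ^ e + v ^ e)
    (u v : F) :
    xM2 D M.w.add i j e u * xM2 D M.w.add i j e v = xM2 D M.w.add i j e (u + v) := by
  obtain ⟨h0, hc, -⟩ := orth2_spec M hcf h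
  obtain ⟨hi, hj⟩ := orth_lt h0
  obtain ⟨hp, hnp, _, _⟩ := simple_facts M hi
  obtain ⟨hq, hnq, _, _⟩ := simple_facts M hj
  unfold xM2
  rw [pair_add M.w.add hnp hnq u (u ^ e) v (v ^ e)
    (hc _ ⟨v, Or.inr rfl⟩ _ ⟨u ^ e, Or.inr rfl⟩).symm, hadd]

def hJ2 (D : ChevalleyDatum) (i j e : ℕ) (c : Fˣ) : GL D.Idx F := hU D i c * hU D j (c ^ e)

def six (D : ChevalleyDatum) (ha : addCheck2 D = true) (i : ℕ) (c : F) : List (GL D.Idx F) :=
  [xV D ha (D.simple i) c, xV D ha (D.neg (D.simple i)) (-c⁻¹),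
    xV D ha (D.simple i) c, xV D ha (D.simple i) (-1),
    xV D ha (D.neg (D.simple i)) 1, xV D ha (D.simple i) (-1)]

theorem rk1_six {D : ChevalleyDatum} (ha : addCheck2 D = true) (i : ℕ) (c : F) :
    ∀ a ∈ six D ha i c, a ∈ rk1 (F := F) D ha i := by
  intro a ha'
  unfold six at ha'
  simp only [List.mem_cons, List.not_mem_nil, or_false] at ha'
  rcases ha' with rfl | rfl | rfl | rfl | rfl | rfl
  · exact ⟨_, Or.inl rfl⟩
  · exact ⟨_, Or.inr rfl⟩
  · exact ⟨_, Or.inl rfl⟩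
  · exact ⟨_, Or.inl rfl⟩
  · exact ⟨_, Or.inr rfl⟩
  · exact ⟨_, Or.inl rfl⟩

theorem hU_six {D : ChevalleyDatum} (M : MOK D) {i : ℕ} (hi : i < D.rank) (c : Fˣ) :
    hU D i c = (six D M.w.add i (c : F)).prod := hU_eq M hi c

theorem hJ2_mem {D : ChevalleyDatum} (M : MOK D) (hcf : CF D F) {i j : ℕ}
    (h : orth2OK D i j = true) (e : ℕ) (hneg : (-1 : F) ^ e = -1)
    (G1 : Subgroup (GL D.Idx F)) (hP : ∀ t, xP2 D M.w.add i j e t ∈ G1)
    (hMm : ∀ t, xM2 D M.w.add i j e t ∈ G1) (c : Fˣ) : hJ2 D i j e c ∈ G1 := by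
  obtain ⟨h0, hc, -⟩ := orth2_spec M hcf h
  obtain ⟨hi, hj⟩ := orth_lt h0
  unfold hJ2
  rw [hU_six M hi, hU_six M hj, zip_prod (six D M.w.add i (c : F))
    (six D M.w.add j ((c ^ e : Fˣ) : F)) rfl (fun a ha b hb =>
    hc a (rk1_six M.w.add i _ a ha) b (rk1_six M.w.add j _ b hb))]
  unfold six
  simp only [List.zipWith_cons_cons, List.zipWith_nil_right, List.prod_cons, List.prod_nil,
    mul_one]
  have f1 : xV D M.w.add (D.simple i) (c : F) * xV D M.w.add (D.simple j) ((c ^ e : Fˣ) : F) =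
      xP2 D M.w.add i j e (c : F) := by
    unfold xP2
    rw [Units.val_pow_eq_pow_val]
  have f2 : xV D M.w.add (D.neg (D.simple i)) (-(c : F)⁻¹) *
      xV D M.w.add (D.neg (D.simple j)) (-((c ^ e : Fˣ) : F)⁻¹) =
      xM2 D M.w.add i j e (-(c : F)⁻¹) := by
    unfold xM2
    rw [Units.val_pow_eq_pow_val, neg_pow, hneg, inv_pow, neg_one_mul]
  have f3 : xV D M.w.add (D.simple i) (-1 : F) * xV D M.w.add (D.simple j) (-1 : F) =
      xP2 D M.w.add i j e (-1 : F) := by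
    unfold xP2
    rw [hneg]
  have f4 : xV D M.w.add (D.neg (D.simple i)) (1 : F) *
      xV D M.w.add (D.neg (D.simple j)) (1 : F) = xM2 D M.w.add i j e (1 : F) := by
    unfold xM2
    rw [one_pow]
  rw [f1, f2, f3, f4]
  exact mul_mem (hP _) (mul_mem (hMm _) (mul_mem (hP _) (mul_mem (hP _)
    (mul_mem (hMm _) (hP _)))))

theorem hJ2_conjP {D : ChevalleyDatum} (M : MOK D) (hcf : CF D F) {i j : ℕ}
    (h : orth2OK D i j = true) (e : ℕ) (c : Fˣ) (t : F) :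
    hJ2 D i j e c * xP2 D M.w.add i j e t * (hJ2 D i j e c)⁻¹ =
      xP2 D M.w.add i j e ((c : F) ^ 2 * t) := by
  obtain ⟨h0, hc, k1, k2, k3, k4⟩ := orth2_spec M hcf h
  obtain ⟨hi, hj⟩ := orth_lt h0
  obtain ⟨hp, hnp, _, _⟩ := simple_facts M hi
  obtain ⟨hq, hnq, _, _⟩ := simple_facts M hj
  unfold hJ2 xP2
  have e1 : hU D i c * hU D j (c ^ e) *
      (xV D M.w.add (D.simple i) t * xV D M.w.add (D.simple j) (t ^ e)) *
      (hU D i c * hU D j (c ^ e))⁻¹ =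
      (hU D i c * (hU D j (c ^ e) * xV D M.w.add (D.simple i) t * (hU D j (c ^ e))⁻¹) *
        (hU D i c)⁻¹) *
      (hU D i c * (hU D j (c ^ e) * xV D M.w.add (D.simple j) (t ^ e) * (hU D j (c ^ e))⁻¹) *
        (hU D i c)⁻¹) := by group
  rw [e1, hU_conj M hj _ hp, hU_conj M hj _ hq, hU_conj M hi _ hp, hU_conj M hi _ hq,
    k1, k2, k3, k4]
  simp only [zpow_ofNat, pow_zero, Units.val_one, one_mul, Units.val_pow_eq_pow_val]
  have e2 : ((c : F) ^ e) ^ 2 * t ^ e = ((c : F) ^ 2 * t) ^ e := by ring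
  rw [e2]

theorem hJ2_conjM {D : ChevalleyDatum} (M : MOK D) (hcf : CF D F) {i j : ℕ}
    (h : orth2OK D i j = true) (e : ℕ) (c : Fˣ) (t : F) :
    hJ2 D i j e c * xM2 D M.w.add i j e t * (hJ2 D i j e c)⁻¹ =
      xM2 D M.w.add i j e (((c : F) ^ 2)⁻¹ * t) := by
  obtain ⟨h0, hc, k1, k2, k3, k4⟩ := orth2_spec M hcf h
  obtain ⟨hi, hj⟩ := orth_lt h0
  obtain ⟨hp, hnp, _, _⟩ := simple_facts M hi
  obtain ⟨hq, hnq, _, _⟩ := simple_facts M hj
  unfold hJ2 xM2
  have e1 : hU D i c * hU D j (c ^ e) *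
      (xV D M.w.add (D.neg (D.simple i)) t * xV D M.w.add (D.neg (D.simple j)) (t ^ e)) *
      (hU D i c * hU D j (c ^ e))⁻¹ =
      (hU D i c * (hU D j (c ^ e) * xV D M.w.add (D.neg (D.simple i)) t *
        (hU D j (c ^ e))⁻¹) * (hU D i c)⁻¹) *
      (hU D i c * (hU D j (c ^ e) * xV D M.w.add (D.neg (D.simple j)) (t ^ e) *
        (hU D j (c ^ e))⁻¹) * (hU D i c)⁻¹) := by group
  rw [e1, hU_conj M hj _ hnp, hU_conj M hj _ hnq, hU_conj M hi _ hnp, hU_conj M hi _ hnq,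
    cartan_neg M.w.fd M.w.ta hi hp, cartan_neg M.w.fd M.w.ta hi hq,
    cartan_neg M.w.fd M.w.ta hj hp, cartan_neg M.w.fd M.w.ta hj hq, k1, k2, k3, k4]
  simp only [neg_zero, zpow_neg, zpow_ofNat, pow_zero, Units.val_one, one_mul,
    Units.val_pow_eq_pow_val, Units.val_inv_eq_inv_val]
  have e2 : (((c : F) ^ e) ^ 2)⁻¹ * t ^ e = (((c : F) ^ 2)⁻¹ * t) ^ e := by
    rw [mul_pow, inv_pow, ← pow_mul, ← pow_mul, mul_comm e 2]
  rw [e2]

theorem perf_pair {D : ChevalleyDatum} (M : MOK D) (hcf : CF D F) {i j : ℕ}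
    (h : orth2OK D i j = true) (e : ℕ) (hadd : ∀ u v : F, (u + v) ^ e = u ^ e + v ^ e)
    (hneg : (-1 : F) ^ e = -1) (G1 : Subgroup (GL D.Idx F))
    (hP : ∀ t, xP2 D M.w.add i j e t ∈ G1) (hMm : ∀ t, xM2 D M.w.add i j e t ∈ G1)
    (c : Fˣ) (hc2 : (c : F) ^ 2 ≠ 1) (s : F) :
    xP2 D M.w.add i j e s ∈ (commutator ↥G1).map G1.subtype ∧
      xM2 D M.w.add i j e s ∈ (commutator ↥G1).map G1.subtype := by
  constructor
  · exact perf_family G1 _ (xP2_add M hcf h e hadd) hP _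
      (hJ2_mem M hcf h e hneg G1 hP hMm c) ((c : F) ^ 2) (sub_ne_zero.mpr hc2)
      (hJ2_conjP M hcf h e c) s
  · exact perf_family G1 _ (xM2_add M hcf h e hadd) hMm _
      (hJ2_mem M hcf h e hneg G1 hP hMm c) (((c : F) ^ 2)⁻¹)
      (sub_ne_zero.mpr (fun h' => hc2 (inv_eq_one.mp h')))
      (hJ2_conjM M hcf h e c) s

def commCert (D : ChevalleyDatum) (r s p : ℕ) : Bool :=
  decide (r < D.nroots) && decide (s < D.nroots) && decide (s ≠ r) && decide (s ≠ D.neg r) &&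
  (decide (D.commTerms r s = [(p, 1, 1, 1)]) || decide (D.commTerms r s = [(p, -1, 1, 1)]))

theorem perf_fix {D : ChevalleyDatum} (M : MOK D) (hcf : CF D F) (G1 : Subgroup (GL D.Idx F))
    {r s p : ℕ} (h : commCert D r s p = true) (P : F → Prop) (hP : ∀ t, P t → P (-t))
    (hr : ∀ t, P t → xV D M.w.add r t ∈ G1) (hs : xV D M.w.add s (1 : F) ∈ G1) :
    ∀ t, P t → xV D M.w.add p t ∈ (commutator ↥G1).map G1.subtype := by
  intro t ht
  unfold commCert at h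
  simp only [Bool.and_eq_true, Bool.or_eq_true, decide_eq_true_eq] at h
  obtain ⟨⟨⟨⟨h1, h2⟩, h3⟩, h4⟩, h5⟩ := h
  rcases h5 with h5 | h5
  · refine perf_comm1 M hcf G1 h1 h2 h3 h4 h5 (by simp) t ?_ hs
    have e : -(t / ((1 : ℤ) : F)) = -t := by simp
    rw [e]
    exact hr _ (hP t ht)
  · refine perf_comm1 M hcf G1 h1 h2 h3 h4 h5 (by simp) t ?_ hs
    have e : -(t / ((-1 : ℤ) : F)) = t := by
      push_cast
      rw [div_neg, div_one, neg_neg]
    rw [e]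
    exact hr _ ht

theorem mem_zip_mul {G : Type*} [Group G] : ∀ (as bs : List G) (x : G),
    x ∈ List.zipWith (fun a b => a * b) as bs → ∃ a ∈ as, ∃ b ∈ bs, x = a * b
  | [], _, x, h => by simp at h
  | _ :: _, [], x, h => by simp at h
  | a :: as, b :: bs, x, h => by
    rw [List.zipWith_cons_cons, List.mem_cons] at h
    rcases h with rfl | h
    · exact ⟨a, List.mem_cons_self, b, List.mem_cons_self, rfl⟩
    · obtain ⟨a', ha', b', hb', e⟩ := mem_zip_mul as bs x h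
      exact ⟨a', List.mem_cons_of_mem _ ha', b', List.mem_cons_of_mem _ hb', e⟩

theorem zip_prod3 {G : Type*} [Group G] (as bs cs : List G) (h1 : as.length = bs.length)
    (h2 : bs.length = cs.length)
    (hab : ∀ a ∈ as, ∀ b ∈ bs, Commute a b) (hac : ∀ a ∈ as, ∀ c ∈ cs, Commute a c)
    (hbc : ∀ b ∈ bs, ∀ c ∈ cs, Commute b c) :
    as.prod * bs.prod * cs.prod =
      (List.zipWith (fun a b => a * b) (List.zipWith (fun a b => a * b) as bs) cs).prod := by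
  have hl : (List.zipWith (fun a b => a * b) as bs).length = cs.length := by
    rw [List.length_zipWith, h1, Nat.min_self, h2]
  have hc : ∀ x ∈ List.zipWith (fun a b => a * b) as bs, ∀ c ∈ cs, Commute x c := by
    intro x hx c hc
    obtain ⟨a, ha, b, hb, rfl⟩ := mem_zip_mul as bs x hx
    exact (hac a ha c hc).mul_left (hbc b hb c hc)
  rw [zip_prod as bs h1 hab, zip_prod _ cs hl hc]

def xP3 (D : ChevalleyDatum) (ha : addCheck2 D = true) (i j k e f : ℕ) (t : F) : GL D.Idx F :=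
  xV D ha (D.simple i) t * xV D ha (D.simple j) (t ^ e) * xV D ha (D.simple k) (t ^ f)

def xM3 (D : ChevalleyDatum) (ha : addCheck2 D = true) (i j k e f : ℕ) (t : F) : GL D.Idx F :=
  xV D ha (D.neg (D.simple i)) t * xV D ha (D.neg (D.simple j)) (t ^ e) *
    xV D ha (D.neg (D.simple k)) (t ^ f)

theorem triple_add {D : ChevalleyDatum} (ha : addCheck2 D = true) {a b c : ℕ}
    (hla : a < D.nroots) (hlb : b < D.nroots) (hlc : c < D.nroots) (u u' u'' v v' v'' : F)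
    (hba : Commute (xV D ha b u') (xV D ha a v))
    (hca : Commute (xV D ha c u'') (xV D ha a v))
    (hcb : Commute (xV D ha c u'') (xV D ha b v')) :
    (xV D ha a u * xV D ha b u' * xV D ha c u'') * (xV D ha a v * xV D ha b v' * xV D ha c v'') =
      xV D ha a (u + v) * xV D ha b (u' + v') * xV D ha c (u'' + v'') := by
  rw [← xV_add D ha hla, ← xV_add D ha hlb, ← xV_add D ha hlc]
  calc xV D ha a u * xV D ha b u' * xV D ha c u'' * (xV D ha a v * xV D ha b v' * xV D ha c v'')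
      = xV D ha a u * xV D ha b u' * (xV D ha c u'' * xV D ha a v) * xV D ha b v' *
          xV D ha c v'' := by group
    _ = xV D ha a u * xV D ha b u' * (xV D ha a v * xV D ha c u'') * xV D ha b v' *
          xV D ha c v'' := by rw [hca.eq]
    _ = xV D ha a u * (xV D ha b u' * xV D ha a v) * (xV D ha c u'' * xV D ha b v') *
          xV D ha c v'' := by group
    _ = xV D ha a u * (xV D ha a v * xV D ha b u') * (xV D ha b v' * xV D ha c u'') *
          xV D ha c v'' := by rw [hba.eq, hcb.eq]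
    _ = xV D ha a u * xV D ha a v * (xV D ha b u' * xV D ha b v') *
          (xV D ha c u'' * xV D ha c v'') := by group

theorem xP3_add {D : ChevalleyDatum} (M : MOK D) (hcf : CF D F) {i j k : ℕ}
    (hij : orth2OK D i j = true) (hik : orth2OK D i k = true) (hjk : orth2OK D j k = true)
    (e f : ℕ) (hadd : ∀ u v : F, (u + v) ^ e = u ^ e + v ^ e)
    (hadd' : ∀ u v : F, (u + v) ^ f = u ^ f + v ^ f) (u v : F) :
    xP3 D M.w.add i j k e f u * xP3 D M.w.add i j k e f v = xP3 D M.w.add i j k e f (u + v) := by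
  obtain ⟨h0, hc, -⟩ := orth2_spec M hcf hij
  obtain ⟨h0', hc', -⟩ := orth2_spec M hcf hik
  obtain ⟨h0'', hc'', -⟩ := orth2_spec M hcf hjk
  obtain ⟨hi, hj⟩ := orth_lt h0
  obtain ⟨_, hk⟩ := orth_lt h0'
  obtain ⟨hp, hnp, _, _⟩ := simple_facts M hi
  obtain ⟨hq, hnq, _, _⟩ := simple_facts M hj
  obtain ⟨hr, hnr, _, _⟩ := simple_facts M hk
  unfold xP3
  rw [triple_add M.w.add hp hq hr u (u ^ e) (u ^ f) v (v ^ e) (v ^ f)
    (hc _ ⟨v, Or.inl rfl⟩ _ ⟨u ^ e, Or.inl rfl⟩).symm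
    (hc' _ ⟨v, Or.inl rfl⟩ _ ⟨u ^ f, Or.inl rfl⟩).symm
    (hc'' _ ⟨v ^ e, Or.inl rfl⟩ _ ⟨u ^ f, Or.inl rfl⟩).symm, hadd, hadd']

theorem xM3_add {D : ChevalleyDatum} (M : MOK D) (hcf : CF D F) {i j k : ℕ}
    (hij : orth2OK D i j = true) (hik : orth2OK D i k = true) (hjk : orth2OK D j k = true)
    (e f : ℕ) (hadd : ∀ u v : F, (u + v) ^ e = u ^ e + v ^ e)
    (hadd' : ∀ u v : F, (u + v) ^ f = u ^ f + v ^ f) (u v : F) :
    xM3 D M.w.add i j k e f u * xM3 D M.w.add i j k e f v = xM3 D M.w.add i j k e f (u + v) := by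
  obtain ⟨h0, hc, -⟩ := orth2_spec M hcf hij
  obtain ⟨h0', hc', -⟩ := orth2_spec M hcf hik
  obtain ⟨h0'', hc'', -⟩ := orth2_spec M hcf hjk
  obtain ⟨hi, hj⟩ := orth_lt h0
  obtain ⟨_, hk⟩ := orth_lt h0'
  obtain ⟨hp, hnp, _, _⟩ := simple_facts M hi
  obtain ⟨hq, hnq, _, _⟩ := simple_facts M hj
  obtain ⟨hr, hnr, _, _⟩ := simple_facts M hk
  unfold xM3
  rw [triple_add M.w.add hnp hnq hnr u (u ^ e) (u ^ f) v (v ^ e) (v ^ f)
    (hc _ ⟨v, Or.inr rfl⟩ _ ⟨u ^ e, Or.inr rfl⟩).symm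
    (hc' _ ⟨v, Or.inr rfl⟩ _ ⟨u ^ f, Or.inr rfl⟩).symm
    (hc'' _ ⟨v ^ e, Or.inr rfl⟩ _ ⟨u ^ f, Or.inr rfl⟩).symm, hadd, hadd']

def hJ3 (D : ChevalleyDatum) (i j k e f : ℕ) (c : Fˣ) : GL D.Idx F :=
  hU D i c * hU D j (c ^ e) * hU D k (c ^ f)

theorem hJ3_mem {D : ChevalleyDatum} (M : MOK D) (hcf : CF D F) {i j k : ℕ}
    (hij : orth2OK D i j = true) (hik : orth2OK D i k = true) (hjk : orth2OK D j k = true)
    (e f : ℕ) (hneg : (-1 : F) ^ e = -1) (hneg' : (-1 : F) ^ f = -1)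
    (G1 : Subgroup (GL D.Idx F)) (hP : ∀ t, xP3 D M.w.add i j k e f t ∈ G1)
    (hMm : ∀ t, xM3 D M.w.add i j k e f t ∈ G1) (c : Fˣ) : hJ3 D i j k e f c ∈ G1 := by
  obtain ⟨h0, hc, -⟩ := orth2_spec M hcf hij
  obtain ⟨h0', hc', -⟩ := orth2_spec M hcf hik
  obtain ⟨h0'', hc'', -⟩ := orth2_spec M hcf hjk
  obtain ⟨hi, hj⟩ := orth_lt h0
  obtain ⟨_, hk⟩ := orth_lt h0'
  unfold hJ3
  rw [hU_six M hi, hU_six M hj, hU_six M hk, zip_prod3 (six D M.w.add i (c : F))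
    (six D M.w.add j ((c ^ e : Fˣ) : F)) (six D M.w.add k ((c ^ f : Fˣ) : F)) rfl rfl
    (fun a ha b hb => hc a (rk1_six M.w.add i _ a ha) b (rk1_six M.w.add j _ b hb))
    (fun a ha b hb => hc' a (rk1_six M.w.add i _ a ha) b (rk1_six M.w.add k _ b hb))
    (fun a ha b hb => hc'' a (rk1_six M.w.add j _ a ha) b (rk1_six M.w.add k _ b hb))]
  unfold six
  simp only [List.zipWith_cons_cons, List.zipWith_nil_right, List.prod_cons, List.prod_nil,
    mul_one]
  have f1 : xV D M.w.add (D.simple i) (c : F) * xV D M.w.add (D.simple j) ((c ^ e : Fˣ) : F) *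
      xV D M.w.add (D.simple k) ((c ^ f : Fˣ) : F) = xP3 D M.w.add i j k e f (c : F) := by
    unfold xP3
    rw [Units.val_pow_eq_pow_val, Units.val_pow_eq_pow_val]
  have f2 : xV D M.w.add (D.neg (D.simple i)) (-(c : F)⁻¹) *
      xV D M.w.add (D.neg (D.simple j)) (-((c ^ e : Fˣ) : F)⁻¹) *
      xV D M.w.add (D.neg (D.simple k)) (-((c ^ f : Fˣ) : F)⁻¹) =
      xM3 D M.w.add i j k e f (-(c : F)⁻¹) := by
    unfold xM3
    have g : ∀ n : ℕ, (-1 : F) ^ n = -1 → (-(c : F)⁻¹) ^ n = -((c : F) ^ n)⁻¹ := by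
      intro n hn
      rw [neg_pow, hn, inv_pow, neg_one_mul]
    rw [Units.val_pow_eq_pow_val, Units.val_pow_eq_pow_val, g e hneg, g f hneg']
  have f3 : xV D M.w.add (D.simple i) (-1 : F) * xV D M.w.add (D.simple j) (-1 : F) *
      xV D M.w.add (D.simple k) (-1 : F) = xP3 D M.w.add i j k e f (-1 : F) := by
    unfold xP3
    rw [hneg, hneg']
  have f4 : xV D M.w.add (D.neg (D.simple i)) (1 : F) *
      xV D M.w.add (D.neg (D.simple j)) (1 : F) * xV D M.w.add (D.neg (D.simple k)) (1 : F) =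
      xM3 D M.w.add i j k e f (1 : F) := by
    unfold xM3
    rw [one_pow, one_pow]
  rw [f1, f2, f3, f4]
  exact mul_mem (hP _) (mul_mem (hMm _) (mul_mem (hP _) (mul_mem (hP _)
    (mul_mem (hMm _) (hP _)))))

theorem conj3 {G : Type*} [Group G] (h1 h2 h3 a b c : G) :
    h1 * h2 * h3 * (a * b * c) * (h1 * h2 * h3)⁻¹ =
      (h1 * (h2 * (h3 * a * h3⁻¹) * h2⁻¹) * h1⁻¹) * (h1 * (h2 * (h3 * b * h3⁻¹) * h2⁻¹) * h1⁻¹) *
        (h1 * (h2 * (h3 * c * h3⁻¹) * h2⁻¹) * h1⁻¹) := by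
  group

theorem hJ3_conjP {D : ChevalleyDatum} (M : MOK D) (hcf : CF D F) {i j k : ℕ}
    (hij : orth2OK D i j = true) (hik : orth2OK D i k = true) (hjk : orth2OK D j k = true)
    (e f : ℕ) (c : Fˣ) (t : F) :
    hJ3 D i j k e f c * xP3 D M.w.add i j k e f t * (hJ3 D i j k e f c)⁻¹ =
      xP3 D M.w.add i j k e f ((c : F) ^ 2 * t) := by
  obtain ⟨h0, hc, k1, k2, k3, k4⟩ := orth2_spec M hcf hij
  obtain ⟨h0', hc', _, k5, k6, k7⟩ := orth2_spec M hcf hik
  obtain ⟨h0'', hc'', _, k8, k9, _⟩ := orth2_spec M hcf hjk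
  obtain ⟨hi, hj⟩ := orth_lt h0
  obtain ⟨_, hk⟩ := orth_lt h0'
  obtain ⟨hp, hnp, _, _⟩ := simple_facts M hi
  obtain ⟨hq, hnq, _, _⟩ := simple_facts M hj
  obtain ⟨hr, hnr, _, _⟩ := simple_facts M hk
  unfold hJ3 xP3
  rw [conj3, hU_conj M hk _ hp, hU_conj M hk _ hq, hU_conj M hk _ hr,
    hU_conj M hj _ hp, hU_conj M hj _ hq, hU_conj M hj _ hr,
    hU_conj M hi _ hp, hU_conj M hi _ hq, hU_conj M hi _ hr,
    k1, k2, k3, k4, k5, k6, k7, k8, k9]
  simp only [zpow_ofNat, pow_zero, Units.val_one, one_mul, Units.val_pow_eq_pow_val]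
  have e2 : ((c : F) ^ e) ^ 2 * t ^ e = ((c : F) ^ 2 * t) ^ e := by ring
  have e3 : ((c : F) ^ f) ^ 2 * t ^ f = ((c : F) ^ 2 * t) ^ f := by ring
  rw [e2, e3]

theorem hJ3_conjM {D : ChevalleyDatum} (M : MOK D) (hcf : CF D F) {i j k : ℕ}
    (hij : orth2OK D i j = true) (hik : orth2OK D i k = true) (hjk : orth2OK D j k = true)
    (e f : ℕ) (c : Fˣ) (t : F) :
    hJ3 D i j k e f c * xM3 D M.w.add i j k e f t * (hJ3 D i j k e f c)⁻¹ =
      xM3 D M.w.add i j k e f (((c : F) ^ 2)⁻¹ * t) := by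
  obtain ⟨h0, hc, k1, k2, k3, k4⟩ := orth2_spec M hcf hij
  obtain ⟨h0', hc', _, k5, k6, k7⟩ := orth2_spec M hcf hik
  obtain ⟨h0'', hc'', _, k8, k9, _⟩ := orth2_spec M hcf hjk
  obtain ⟨hi, hj⟩ := orth_lt h0
  obtain ⟨_, hk⟩ := orth_lt h0'
  obtain ⟨hp, hnp, _, _⟩ := simple_facts M hi
  obtain ⟨hq, hnq, _, _⟩ := simple_facts M hj
  obtain ⟨hr, hnr, _, _⟩ := simple_facts M hk
  unfold hJ3 xM3
  rw [conj3, hU_conj M hk _ hnp, hU_conj M hk _ hnq, hU_conj M hk _ hnr,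
    hU_conj M hj _ hnp, hU_conj M hj _ hnq, hU_conj M hj _ hnr,
    hU_conj M hi _ hnp, hU_conj M hi _ hnq, hU_conj M hi _ hnr,
    cartan_neg M.w.fd M.w.ta hi hp, cartan_neg M.w.fd M.w.ta hi hq,
    cartan_neg M.w.fd M.w.ta hi hr, cartan_neg M.w.fd M.w.ta hj hp,
    cartan_neg M.w.fd M.w.ta hj hq, cartan_neg M.w.fd M.w.ta hj hr,
    cartan_neg M.w.fd M.w.ta hk hp, cartan_neg M.w.fd M.w.ta hk hq,
    cartan_neg M.w.fd M.w.ta hk hr, k1, k2, k3, k4, k5, k6, k7, k8, k9]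
  simp only [neg_zero, zpow_neg, zpow_ofNat, pow_zero, Units.val_one, one_mul,
    Units.val_pow_eq_pow_val, Units.val_inv_eq_inv_val]
  have e2 : (((c : F) ^ e) ^ 2)⁻¹ * t ^ e = (((c : F) ^ 2)⁻¹ * t) ^ e := by
    rw [mul_pow, inv_pow, ← pow_mul, ← pow_mul, mul_comm e 2]
  have e3 : (((c : F) ^ f) ^ 2)⁻¹ * t ^ f = (((c : F) ^ 2)⁻¹ * t) ^ f := by
    rw [mul_pow, inv_pow, ← pow_mul, ← pow_mul, mul_comm f 2]
  rw [e2, e3]

theorem perf_triple {D : ChevalleyDatum} (M : MOK D) (hcf : CF D F) {i j k : ℕ}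
    (hij : orth2OK D i j = true) (hik : orth2OK D i k = true) (hjk : orth2OK D j k = true)
    (e f : ℕ) (hadd : ∀ u v : F, (u + v) ^ e = u ^ e + v ^ e)
    (hadd' : ∀ u v : F, (u + v) ^ f = u ^ f + v ^ f)
    (hneg : (-1 : F) ^ e = -1) (hneg' : (-1 : F) ^ f = -1) (G1 : Subgroup (GL D.Idx F))
    (hP : ∀ t, xP3 D M.w.add i j k e f t ∈ G1) (hMm : ∀ t, xM3 D M.w.add i j k e f t ∈ G1)
    (c : Fˣ) (hc2 : (c : F) ^ 2 ≠ 1) (s : F) :
    xP3 D M.w.add i j k e f s ∈ (commutator ↥G1).map G1.subtype ∧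
      xM3 D M.w.add i j k e f s ∈ (commutator ↥G1).map G1.subtype := by
  constructor
  · exact perf_family G1 _ (xP3_add M hcf hij hik hjk e f hadd hadd') hP _
      (hJ3_mem M hcf hij hik hjk e f hneg hneg' G1 hP hMm c) ((c : F) ^ 2)
      (sub_ne_zero.mpr hc2) (hJ3_conjP M hcf hij hik hjk e f c) s
  · exact perf_family G1 _ (xM3_add M hcf hij hik hjk e f hadd hadd') hMm _
      (hJ3_mem M hcf hij hik hjk e f hneg hneg' G1 hP hMm c) (((c : F) ^ 2)⁻¹)
      (sub_ne_zero.mpr (fun h' => hc2 (inv_eq_one.mp h')))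
      (hJ3_conjM M hcf hij hik hjk e f c) s

theorem frob_add [Fintype F] {q k : ℕ} (hq : IsPrimePow q) (hk : k ≠ 0)
    (hF : Fintype.card F = q ^ k) (u v : F) : (u + v) ^ q = u ^ q + v ^ q := by
  obtain ⟨p, n, hp, hn, rfl⟩ := (isPrimePow_nat_iff q).mp hq
  obtain ⟨m, hp', hm⟩ := FiniteField.card F (ringChar F)
  have hdvd : p ∣ ringChar F ^ (m : ℕ) := by
    rw [← hm, hF, ← pow_mul]
    exact dvd_pow_self p (Nat.mul_ne_zero hn.ne' hk)
  have e : p = ringChar F := (Nat.prime_dvd_prime_iff_eq hp hp').mp (hp.dvd_of_dvd_pow hdvd)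
  have : Fact p.Prime := ⟨hp⟩
  have : CharP F p := by
    rw [e]
    exact ringChar.charP F
  exact add_pow_char_pow u v p n

theorem exists_sq_ne_one [Fintype F] (h4 : 4 ≤ Fintype.card F) : ∃ c : Fˣ, (c : F) ^ 2 ≠ 1 := by
  classical
  by_contra hcon
  push Not at hcon
  have hsub : (Finset.univ : Finset F) ⊆ {0, 1, -1} := by
    intro x _
    by_cases hx : x = 0
    · simp [hx]
    · have h1 := hcon (Units.mk0 x hx)
      rw [Units.val_mk0, sq_eq_one_iff] at h1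
      rcases h1 with h1 | h1 <;> simp [h1]
  have hle := Finset.card_le_card hsub
  rw [Finset.card_univ] at hle
  have h3 : ({0, 1, -1} : Finset F).card ≤ 3 := Finset.card_le_three
  omega

theorem gen_le (D : ChevalleyDatum) (ha : addCheck2 D = true) (S : Set (List (ℕ × F)))
    (C : Subgroup (GL D.Idx F)) (h : ∀ w ∈ S, wordU D ha w ∈ C) : D.genSubgroup F S ≤ C := by
  unfold ChevalleyDatum.genSubgroup
  rw [Subgroup.closure_le]
  rintro g ⟨w, hw, hg⟩
  have eg : g = wordU D ha w := Units.ext (by rw [hg, wordU_val])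
  rw [eg]
  exact h w hw

theorem conj_fix {D : ChevalleyDatum} (M : MOK D) (G1 : Subgroup (GL D.Idx F)) (w : List ℕ)
    (hw : ∀ i ∈ w, i < D.rank) (hn : nWordU (F := F) D M.w.add w ∈ G1) (P : F → Prop)
    (hP : ∀ t, P t → P (-t)) {r r' : ℕ} (hr : r < D.nroots) (hrr : wApply D w r = r')
    (hg : ∀ t, P t → xV D M.w.add r t ∈ G1) : ∀ t, P t → xV D M.w.add r' t ∈ G1 := by
  intro t ht
  obtain ⟨ε, hε, hconj⟩ := long_conj (F := F) M w hw hr
  rw [hrr] at hconj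
  have hεt : P (ε * t) := by
    rcases hε with rfl | rfl
    · rw [one_mul]
      exact ht
    · rw [neg_one_mul]
      exact hP t ht
  have e : xV D M.w.add r' t = nWordU D M.w.add w * xV D M.w.add r (ε * t) *
      (nWordU D M.w.add w)⁻¹ := by
    have h2 : ε * ε = 1 := by
      rcases hε with rfl | rfl <;> norm_num
    rw [hconj, ← mul_assoc, h2, one_mul]
  rw [e]
  exact mul_mem (mul_mem hn (hg _ hεt)) (inv_mem hn)

end sem

end Cfsg.Agent.Helper7
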