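import Cfsg.Agent.Helper7.TwRefAbs
import Cfsg.Agent.Helper7.ChevTwOrd

set_option autoImplicit false
set_option maxHeartbeats 4000000
set_option linter.unusedSectionVars false
set_option linter.unusedVariables false
open Cfsg

namespace Cfsg.Agent.Helper7

open Cfsg.Lie

section sem

variable {F : Type*} [Field F]

theorem xV_t_inj {D : ChevalleyDatum} (M : MOK D) (hu : unitAllOK D = true) {a : ℕ}
    (ha : a < D.nroots) {u u' : F} (e : xV D M.w.add a u = xV D M.w.add a u') : u = u' := by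
  have e1 := congrArg Units.val e
  rw [xV_val, xV_val, x_of_lt D F ha, x_of_lt D F ha] at e1
  obtain ⟨i, hi, hc⟩ := unitAllOK_spec M.w.fd hu ha
  obtain ⟨hn1, hn2⟩ := negOK_spec M.neg ha
  rcases hc with hc | hc
  · have e2 := congrFun (congrFun e1 (Sum.inr ⟨a, ha⟩)) (Sum.inl ⟨i, hi⟩)
    rw [xMat_entry_car, xMat_entry_car] at e2
    dsimp only at e2
    rcases hc with hc | hc
    · rw [hc] at e2
      push_cast at e2
      linear_combination -e2
    · rw [hc] at e2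
      push_cast at e2
      linear_combination e2
  · have hne2 : (⟨D.negIdx.getD a 0, hn2⟩ : Fin D.nroots) ≠ ⟨a, ha⟩ := fun hh =>
      hn1 (congrArg Fin.val hh)
    have e2 := congrFun (congrFun e1 (Sum.inl ⟨i, hi⟩)) (Sum.inr ⟨D.negIdx.getD a 0, hn2⟩)
    rw [xMat_entry_cor D ⟨a, ha⟩ ⟨D.negIdx.getD a 0, hn2⟩ ⟨i, hi⟩ u hne2 rfl,
      xMat_entry_cor D ⟨a, ha⟩ ⟨D.negIdx.getD a 0, hn2⟩ ⟨i, hi⟩ u' hne2 rfl] at e2
    dsimp only at e2
    rcases hc with hc | hc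
    · rw [hc] at e2
      push_cast at e2
      linear_combination e2
    · rw [hc] at e2
      push_cast at e2
      linear_combination -e2

theorem tw_split2 {D : ChevalleyDatum} {adj : List (List ℤ)} (L : LOK D adj) (hcf : CF D F)
    {A B : GAut} (hOK : gaOK D A B = true) (hOK' : gaOK D B A = true)
    (h1 : gaInvOK D A B = true) (h2 : gaInvOK D B A = true) (φ : F →+* F)
    (hrho : ∀ i < D.rank, A.rho.getD i 0 < D.rank)
    {js : List ℕ} (h : OrthR D L.u.m.w.add F js) (hjs : ∀ j ∈ js, A.rho.getD j 0 ∈ js)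
    (hk : ∀ j ∈ js, ∃ k < D.rank, D.cartan k (D.simple j) = -1 ∧
      D.cartan (A.rho.getD k 0) (D.simple (A.rho.getD j 0)) = -1)
    (hroot : ∀ r, D.IsPosRoot r → D.InRootSub {j | j ∈ js} r → ∃ j ∈ js, r = D.simple j)
    {b : GL D.Idx F} (hb : b ∈ D.borelSubgroup F) (hfix : sigU D A B h1 h2 φ b = b) :
    ∃ ts : ℕ → F, TwC A φ js ts ∧ ∃ v ∈ D.unipotentRadical F {j | j ∈ js},
      ∃ h₀ ∈ torus D F, b = pL js (xPf D L.u.m.w.add ts) * (v * h₀) := by
  have M := L.u.m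
  obtain ⟨u, hu, h₀, hh, rfl⟩ := borel_dec M.w hb
  obtain ⟨v, hv, ts, rfl⟩ := posU_dec L hcf h hroot hu
  have htw := tw_coords L hOK hOK' h1 h2 φ hrho h hjs hk hv hh ts hfix
  have hxn : pL js (xPf D L.u.m.w.add ts) ∈
      Subgroup.normalizer (D.unipotentRadical F {j | j ∈ js} : Set (GL D.Idx F)) :=
    pL_mem _ (fun j hj => xV_mem_normalizer_UJ L hcf _
      (Or.inl (simplePos_spec M.spos (h.2.1 j hj))) _)
  have hv' : (pL js (xPf D L.u.m.w.add ts))⁻¹ * v * (pL js (xPf D L.u.m.w.add ts))⁻¹⁻¹ ∈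
      D.unipotentRadical F {j | j ∈ js} :=
    (Subgroup.mem_normalizer_iff.mp (inv_mem hxn) v).mp hv
  exact ⟨ts, htw, _, hv', h₀, hh, by group⟩

theorem UJ_le_posU (D : ChevalleyDatum) (js : List ℕ) :
    D.unipotentRadical F {j | j ∈ js} ≤ D.posUnipotent F := by
  unfold ChevalleyDatum.unipotentRadical ChevalleyDatum.posUnipotent
  apply Subgroup.closure_mono
  rintro g ⟨r, t, hr, _, hg⟩
  exact ⟨r, t, hr, hg⟩

theorem nWordU_norm_UJ {D : ChevalleyDatum} {adj : List (List ℤ)} (L : LOK D adj) (hcf : CF D F)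
    {js : List ℕ} (h : OrthR D L.u.m.w.add F js) :
    nWordU (F := F) D L.u.m.w.add js ∈
      Subgroup.normalizer (D.unipotentRadical F {j | j ∈ js} : Set (GL D.Idx F)) := by
  have M := L.u.m
  have hsP : nWordU (F := F) D L.u.m.w.add js ∈ D.parabolicSubgroup F {j | j ∈ js} := by
    apply Subgroup.list_prod_mem
    intro x hx
    rw [List.mem_map] at hx
    obtain ⟨j, hj, rfl⟩ := hx
    obtain ⟨hp, hnp⟩ := simple_lt M.w.fd M.w.n (h.2.1 j hj)
    apply (le_sup_right : _ ≤ D.parabolicSubgroup F {j | j ∈ js})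
    apply Subgroup.subset_closure
    exact ⟨j, hj, h.2.1 j hj, nV_val D M.w.add hp hnp 1⟩
  exact parabolic_le_normalizer L hcf {j | j ∈ js} hsP

theorem UH_unique {D : ChevalleyDatum} (M : MOK D) {u u' h h' : GL D.Idx F}
    (hu : u ∈ D.posUnipotent F) (hu' : u' ∈ D.posUnipotent F) (hh : h ∈ torus D F)
    (hh' : h' ∈ torus D F) (e1 : u * h = u' * h') : u = u' ∧ h = h' := by
  have e2 : u'⁻¹ * u = h' * h⁻¹ := by
    have e3 : u = u' * h' * h⁻¹ := by
      rw [← e1]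
      group
    rw [e3]
    group
  have h3 : u'⁻¹ * u ∈ D.posUnipotent F ⊓ torus D F :=
    mi (mul_mem (inv_mem hu') hu) (by
      rw [e2]
      exact mul_mem hh' (inv_mem hh))
  rw [posU_inf_torus M.ptri, Subgroup.mem_bot] at h3
  have h4 : u = u' := by
    rw [inv_mul_eq_one] at h3
    exact h3.symm
  subst h4
  exact ⟨rfl, mul_left_cancel e1⟩

def H0gen (D : ChevalleyDatum) (ha : addCheck2 D = true) (A : GAut) (φ : F →+* F)
    (bl : List (List ℕ)) : Set (GL D.Idx F) :=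
  {g | ∃ J ∈ bl, ∃ cs : ℕ → F, TwC A φ J cs ∧ (∀ j ∈ J, cs j ≠ 0) ∧
    g = pL J (nPf D ha cs) * (nWordU D ha J)⁻¹}

def H0 (D : ChevalleyDatum) (ha : addCheck2 D = true) (A : GAut) (φ : F →+* F)
    (bl : List (List ℕ)) : Subgroup (GL D.Idx F) :=
  Subgroup.closure (H0gen D ha A φ bl)

def B0 (D : ChevalleyDatum) (ha : addCheck2 D = true) (A : GAut) (φ : F →+* F)
    (bl : List (List ℕ)) (G1 : Subgroup (GL D.Idx F)) : Subgroup (GL D.Idx F) :=
  (D.posUnipotent F ⊓ G1) ⊔ H0 D ha A φ bl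

theorem H0_le {D : ChevalleyDatum} (M : MOK D) {A : GAut} {φ : F →+* F} {bl : List (List ℕ)}
    (G1 : Subgroup (GL D.Idx F)) (horth : ∀ J ∈ bl, OrthR D M.w.add F J)
    (hsgn : ∀ j < D.rank, nsgn D j (D.simple j) = -1)
    (hx : ∀ J ∈ bl, ∀ ts, TwC A φ J ts → pL J (xPf D M.w.add ts) ∈ G1)
    (hs : ∀ J ∈ bl, nWordU D M.w.add J ∈ G1) :
    H0 D M.w.add A φ bl ≤ torus D F ⊓ G1 := by
  unfold H0
  rw [Subgroup.closure_le]
  rintro g ⟨J, hJ, cs, htw, hnz, rfl⟩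
  have h := horth J hJ
  refine mi ?_ ?_
  · rw [← diag_eq_torus M.w]
    exact nPf_torus M h cs hnz
  · exact tw_h_mem M G1 h (fun j hj => hsgn j (h.2.1 j hj)) (hx J hJ) (hs J hJ) cs htw

theorem torus_conj_nWord {D : ChevalleyDatum} (M : MOK D) {J : List ℕ}
    (hlt : ∀ j ∈ J, j < D.rank) (z : ℕ → Fˣ) :
    DgU D (chi D z) * nWordU D M.w.add J * (DgU D (chi D z))⁻¹ =
      pL J (nPf D M.w.add (fun j => ((chi D z (D.simple j) : Fˣ) : F))) := by
  rw [nWordU_pL, pL_conj]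
  apply pL_congr
  intro j hj
  obtain ⟨hp, hnp⟩ := simple_lt M.w.fd M.w.n (hlt j hj)
  unfold nPf
  rw [nV_eq_xxx D M.w.add hp hnp, nV_eq_xxx D M.w.add hp hnp]
  have c1 : ∀ t : F, DgU D (chi D z) * xV D M.w.add (D.simple j) t * (DgU D (chi D z))⁻¹ =
      xV D M.w.add (D.simple j) ((chi D z (D.simple j) : F) * t) := by
    intro t
    rw [DgU_xV M.w z hp t]
    group
  have c2 : ∀ t : F, DgU D (chi D z) * xV D M.w.add (D.neg (D.simple j)) t *
      (DgU D (chi D z))⁻¹ =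
      xV D M.w.add (D.neg (D.simple j)) ((chi D z (D.neg (D.simple j)) : F) * t) := by
    intro t
    rw [DgU_xV M.w z hnp t]
    group
  have e : DgU D (chi D z) * (xV D M.w.add (D.simple j) (1 : F) *
      (xV D M.w.add (D.neg (D.simple j)) (-(1 : F)⁻¹) * xV D M.w.add (D.simple j) (1 : F))) *
      (DgU D (chi D z))⁻¹ =
      (DgU D (chi D z) * xV D M.w.add (D.simple j) (1 : F) * (DgU D (chi D z))⁻¹) *
      ((DgU D (chi D z) * xV D M.w.add (D.neg (D.simple j)) (-(1 : F)⁻¹) *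
        (DgU D (chi D z))⁻¹) *
      (DgU D (chi D z) * xV D M.w.add (D.simple j) (1 : F) * (DgU D (chi D z))⁻¹)) := by
    group
  have hχ : ((chi D z (D.neg (D.simple j)) : Fˣ) : F) =
      ((chi D z (D.simple j) : Fˣ) : F)⁻¹ := by
    have h0 := chi_neg_mul M.w z hp
    rw [← Units.val_inv_eq_inv_val]
    exact congrArg Units.val (eq_inv_of_mul_eq_one_left h0)
  rw [e, c1, c2, hχ, mul_one]
  have e3 : ((chi D z (D.simple j) : Fˣ) : F)⁻¹ * -(1 : F)⁻¹ =
      -((chi D z (D.simple j) : Fˣ) : F)⁻¹ := by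
    rw [inv_one, mul_neg, mul_one]
  rw [e3]

theorem H0_comm {D : ChevalleyDatum} (M : MOK D) {A B : GAut} (hOK : gaOK D A B = true)
    (h1 : gaInvOK D A B = true) (h2 : gaInvOK D B A = true) (φ : F →+* F)
    (hrho : ∀ i < D.rank, A.rho.getD i 0 < D.rank) {bl : List (List ℕ)} {J : List ℕ}
    (hJ : J ∈ bl) (h : OrthR D M.w.add F J) {g : GL D.Idx F} (hg : g ∈ torus D F)
    (hfix : sigU D A B h1 h2 φ g = g) :
    ∃ g₀ ∈ H0 D M.w.add A φ bl,
      nWordU D M.w.add J * g * (nWordU D M.w.add J)⁻¹ = g₀⁻¹ * g := by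
  obtain ⟨z, rfl⟩ := hg
  refine ⟨pL J (nPf D M.w.add (fun j => ((chi D z (D.simple j) : Fˣ) : F))) *
    (nWordU D M.w.add J)⁻¹, Subgroup.subset_closure ⟨J, hJ, _, ?_, ?_, rfl⟩, ?_⟩
  · intro j hj
    exact tw_torus_fix M.w hOK h1 h2 φ hrho hfix (h.2.1 j hj)
  · intro j hj
    exact Units.ne_zero _
  · rw [← torus_conj_nWord M h.2.1 z]
    group

theorem H0_normalizer {D : ChevalleyDatum} (W : WOK D) {ha : addCheck2 D = true} {A : GAut}
    {φ : F →+* F} {bl : List (List ℕ)} {G1 : Subgroup (GL D.Idx F)}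
    (hH : H0 D ha A φ bl ≤ torus D F ⊓ G1) :
    H0 D ha A φ bl ≤ Subgroup.normalizer
      ((D.posUnipotent F ⊓ G1 : Subgroup (GL D.Idx F)) : Set (GL D.Idx F)) := by
  intro h hh
  have hT := torus_le_normalizer_gen W D.IsPosRoot (fun r hr => hr.1) (mi1 (hH hh))
  have hG := mi2 (hH hh)
  rw [Subgroup.mem_normalizer_iff] at hT ⊢
  intro u
  constructor
  · intro hu
    exact mi ((hT u).mp (mi1 hu)) (mul_mem (mul_mem hG (mi2 hu)) (inv_mem hG))
  · intro hu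
    refine mi ((hT u).mpr (mi1 hu)) ?_
    have e : u = h⁻¹ * (h * u * h⁻¹) * h := by group
    rw [e]
    exact mul_mem (mul_mem (inv_mem hG) (mi2 hu)) hG

theorem mem_B0 {D : ChevalleyDatum} (W : WOK D) {ha : addCheck2 D = true} {A : GAut}
    {φ : F →+* F} {bl : List (List ℕ)} {G1 : Subgroup (GL D.Idx F)}
    (hH : H0 D ha A φ bl ≤ torus D F ⊓ G1) {b : GL D.Idx F}
    (hb : b ∈ B0 D ha A φ bl G1) :
    ∃ u ∈ D.posUnipotent F ⊓ G1, ∃ h ∈ H0 D ha A φ bl, b = u * h := by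
  have hb' : b ∈ (((D.posUnipotent F ⊓ G1) ⊔ H0 D ha A φ bl : Subgroup (GL D.Idx F)) :
      Set (GL D.Idx F)) := hb
  rw [Subgroup.coe_mul_of_right_le_normalizer_left _ _ (H0_normalizer W hH), Set.mem_mul] at hb'
  obtain ⟨u, hu, h, hh, e⟩ := hb'
  exact ⟨u, hu, h, hh, e.symm⟩

end sem

end Cfsg.Agent.Helper7
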