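import Cfsg.Agent.Helper7.ChevTwRef

set_option autoImplicit false
set_option maxHeartbeats 4000000
set_option linter.unusedSectionVars false
set_option linter.unusedVariables false
open Cfsg

namespace Cfsg.Agent.Helper7

open Cfsg.Lie

section sem

variable {F : Type*} [Field F]

theorem tw_ref {D : ChevalleyDatum} {adj : List (List ℤ)} (L : LOK D adj) (hcf : CF D F)
    (hu : unitAllOK D = true) {A B : GAut} (hOK : gaOK D A B = true) (hOK' : gaOK D B A = true)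
    (h1 : gaInvOK D A B = true) (h2 : gaInvOK D B A = true) (φ : F →+* F)
    (G1 : Subgroup (GL D.Idx F)) (bl : List (List ℕ))
    (hrho : ∀ i < D.rank, A.rho.getD i 0 < D.rank)
    (hsg : ∀ r < D.nroots, (D.nroots / 2 ≤ A.rt.getD r 0 ↔ D.nroots / 2 ≤ r))
    (hsgn : ∀ j < D.rank, nsgn D j (D.simple j) = -1)
    (horth : ∀ J ∈ bl, OrthR D L.u.m.w.add F J)
    (hperm : ∀ J ∈ bl, (J.map (fun j => A.rho.getD j 0)).Perm J)
    (hk : ∀ J ∈ bl, ∀ j ∈ J, ∃ k < D.rank, D.cartan k (D.simple j) = -1 ∧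
      D.cartan (A.rho.getD k 0) (D.simple (A.rho.getD j 0)) = -1)
    (hroot : ∀ J ∈ bl, ∀ r < D.nroots, D.nroots / 2 ≤ r →
      (∀ i < D.rank, i ∉ J → fcor D r i = 0) → ∃ j ∈ J, r = D.simple j)
    (horb : ∀ J ∈ bl, ∀ j ∈ J, ∀ j' ∈ J, ∃ m : ℕ, (fun i => A.rho.getD i 0)^[m] j = j')
    (hG : ∀ J ∈ bl, ∀ ts, TwC A φ J ts →
      pL J (xPf D L.u.m.w.add ts) ∈ G1 ∧ pL J (xMf D L.u.m.w.add ts) ∈ G1)
    (hsG : ∀ J ∈ bl, nWordU D L.u.m.w.add J ∈ G1)
    (hfix : G1 ≤ sigFix D A B h1 h2 φ) :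
    TwE (B0 D L.u.m.w.add A φ bl G1) (D.monomialSubgroup F ⊓ G1) {J : List ℕ // J ∈ bl}
      (fun J => nWordU D L.u.m.w.add J.val)
      (fun J => {x | ∃ ts, TwC A φ J.val ts ∧ x = pL J.val (xPf D L.u.m.w.add ts)}) := by
  have M := L.u.m
  have hUB : D.posUnipotent F ≤ D.borelSubgroup F := le_sup_left
  have hH := H0_le M G1 horth hsgn (fun J hJ ts ht => (hG J hJ ts ht).1) hsG
  have hU0 : D.posUnipotent F ⊓ G1 ≤ B0 D L.u.m.w.add A φ bl G1 := le_sup_left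
  have hH0 : H0 D L.u.m.w.add A φ bl ≤ B0 D L.u.m.w.add A φ bl G1 := le_sup_right
  have hB0G : B0 D L.u.m.w.add A φ bl G1 ≤ G1 := sup_le inf_le_right (fun x hx => mi2 (hH hx))
  have hB0B : B0 D L.u.m.w.add A φ bl G1 ≤ D.borelSubgroup F :=
    sup_le (fun x hx => hUB (mi1 hx)) (fun x hx => torus_le_borel M.w (mi1 (hH hx)))
  have htab := hOK
  unfold gaOK at htab
  simp only [Bool.and_eq_true] at htab
  have hjs : ∀ J ∈ bl, ∀ j ∈ J, A.rho.getD j 0 ∈ J := by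
    intro J hJ j hj
    exact (hperm J hJ).mem_iff.mp (List.mem_map_of_mem hj)
  have twc_neg : ∀ J, ∀ ts : ℕ → F, TwC A φ J ts → TwC A φ J (fun j => -ts j) := by
    intro J ts ht j hj
    show -ts (A.rho.getD j 0) = φ (-ts j)
    rw [map_neg, ht j hj]
  have twc_inv : ∀ J, ∀ ts : ℕ → F, TwC A φ J ts → TwC A φ J (fun j => (ts j)⁻¹) := by
    intro J ts ht j hj
    show (ts (A.rho.getD j 0))⁻¹ = φ ((ts j)⁻¹)
    rw [map_inv₀, ht j hj]
  have hrootP : ∀ J ∈ bl, ∀ r, D.IsPosRoot r → D.InRootSub {j | j ∈ J} r →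
      ∃ j ∈ J, r = D.simple j := by
    intro J hJ r hr hin
    refine hroot J hJ r hin.1 ((isPos_iff M hin.1).mp hr) ?_
    intro i hi hiJ
    rw [fcor_eq M.w.fd]
    exact hin.2 i hi hiJ
  refine { hs := ?_, hsq := ?_, hX := ?_, hdec := ?_, hrk := ?_, hsign := ?_ }
  · rintro ⟨J, hJ⟩
    exact mi (nWordU_mem_mon M J (horth J hJ).2.1) (hsG J hJ)
  · rintro ⟨J, hJ⟩
    have h := horth J hJ
    have hm : ∀ cs' : ℕ → F, ∀ j ∈ J, nPf D M.w.add cs' j ∈ Rk D M.w.add j :=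
      fun cs' j hj => nPf_mem M cs' (h.2.1 j hj)
    have e : pL J (nPf D M.w.add (fun _ => (-1 : F))) = (nWordU (F := F) D M.w.add J)⁻¹ := by
      rw [nWordU_pL, pL_inv J _ h.1 (h.comm (hm _) (hm _))]
      apply pL_congr
      intro j _
      unfold nPf
      rw [nV_neg]
    have hg : pL J (nPf D M.w.add (fun _ => (-1 : F))) * (nWordU D M.w.add J)⁻¹ ∈
        H0 D M.w.add A φ bl :=
      Subgroup.subset_closure ⟨J, hJ, _, fun j _ => by
        show (-1 : F) = φ (-1)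
        rw [map_neg, map_one], fun _ _ => neg_ne_zero.mpr one_ne_zero, rfl⟩
    rw [e, ← mul_inv_rev] at hg
    exact hH0 (inv_mem_iff.mp hg)
  · rintro ⟨J, hJ⟩ x ⟨ts, htw, rfl⟩
    have h := horth J hJ
    exact ⟨hU0 (mi (xPf_posU M h.2.1 ts) (hG J hJ ts htw).1),
      ⟨fun j => -ts j, twc_neg J ts htw, xPf_inv M h ts⟩⟩
  · rintro ⟨J, hJ⟩ b hb
    have h := horth J hJ
    obtain ⟨ts, htw, v, hv, h₀, hh₀, e⟩ := tw_split2 L hcf hOK hOK' h1 h2 φ hrho h (hjs J hJ)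
      (hk J hJ) (hrootP J hJ) (hB0B hb) (mem_sigFix.mp (hfix (hB0G hb)))
    obtain ⟨u₁, hu₁, g₁, hg₁, e'⟩ := mem_B0 M.w hH hb
    have hxU := xPf_posU M h.2.1 ts
    have hxG := (hG J hJ ts htw).1
    have hvU := UJ_le_posU (F := F) D J hv
    have e2 : pL J (xPf D L.u.m.w.add ts) * v * h₀ = u₁ * g₁ := by
      rw [← e', e]
      group
    obtain ⟨e3, e4⟩ := UH_unique M (mul_mem hxU hvU) (mi1 hu₁) hh₀ (mi1 (hH hg₁)) e2
    have hvG : v ∈ G1 := by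
      have e0 : v = (pL J (xPf D L.u.m.w.add ts))⁻¹ * u₁ := by
        rw [← e3]
        group
      rw [e0]
      exact mul_mem (inv_mem hxG) (mi2 hu₁)
    rw [← e4] at hg₁
    have hn := nWordU_norm_UJ L hcf h
    have hsGJ := hsG J hJ
    obtain ⟨g₀, hg₀, e5⟩ := H0_comm M hOK h1 h2 φ hrho hJ h hh₀
      (mem_sigFix.mp (hfix (mi2 (hH hg₁))))
    refine ⟨_, ⟨ts, htw, rfl⟩, v * h₀, mul_mem (hU0 (mi hvU hvG)) (hH0 hg₁), e, ?_⟩
    have e6 : nWordU D L.u.m.w.add J * (v * h₀) * (nWordU D L.u.m.w.add J)⁻¹ =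
        (nWordU D L.u.m.w.add J * v * (nWordU D L.u.m.w.add J)⁻¹) *
          (nWordU D L.u.m.w.add J * h₀ * (nWordU D L.u.m.w.add J)⁻¹) := by group
    show nWordU D L.u.m.w.add J * (v * h₀) * (nWordU D L.u.m.w.add J)⁻¹ ∈ _
    rw [e6, e5]
    exact mul_mem (hU0 (mi (UJ_le_posU D J ((Subgroup.mem_normalizer_iff.mp hn v).mp hv))
      (mul_mem (mul_mem hsGJ hvG) (inv_mem hsGJ)))) (hH0 (mul_mem (inv_mem hg₀) hg₁))
  · rintro ⟨J, hJ⟩ x ⟨ts, htw, rfl⟩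
    have h := horth J hJ
    by_cases hz : ∀ j ∈ J, ts j ≠ 0
    · right
      have hsgnJ : ∀ j ∈ J, nsgn D j (D.simple j) = -1 := fun j hj => hsgn j (h.2.1 j hj)
      have hcs := twc_inv J ts htw
      have hncs := twc_neg J _ hcs
      have eN := nPf_eq M h (fun j => (ts j)⁻¹)
      have ef : (fun j => -((ts j)⁻¹)⁻¹) = (fun j => -ts j) := by
        funext j
        rw [inv_inv]
      rw [ef] at eN
      have hx := xPf_inv M h (fun j => (ts j)⁻¹)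
      refine ⟨pL J (xPf D L.u.m.w.add (fun j => -(ts j)⁻¹)) *
          (pL J (nPf D L.u.m.w.add (fun j => (ts j)⁻¹)) * (nWordU D L.u.m.w.add J)⁻¹),
        mul_mem (hU0 (mi (xPf_posU M h.2.1 _) (hG J hJ _ hncs).1))
          (hH0 (Subgroup.subset_closure ⟨J, hJ, _, hcs, fun j hj => inv_ne_zero (hz j hj), rfl⟩)),
        pL J (xPf D L.u.m.w.add (fun j => -(ts j)⁻¹)),
        hU0 (mi (xPf_posU M h.2.1 _) (hG J hJ _ hncs).1), ?_⟩
      show nWordU D L.u.m.w.add J * pL J (xPf D L.u.m.w.add ts) * (nWordU D L.u.m.w.add J)⁻¹ =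
        pL J (xPf D L.u.m.w.add (fun j => -(ts j)⁻¹)) *
          (pL J (nPf D L.u.m.w.add (fun j => (ts j)⁻¹)) * (nWordU D L.u.m.w.add J)⁻¹) *
          nWordU D L.u.m.w.add J * pL J (xPf D L.u.m.w.add (fun j => -(ts j)⁻¹))
      rw [nWordU_conj_xP M h hsgnJ, ← hx, eN]
      group
    · left
      push Not at hz
      obtain ⟨j₀, hj₀, hz₀⟩ := hz
      have hit : ∀ m : ℕ, (fun i => A.rho.getD i 0)^[m] j₀ ∈ J ∧
          ts ((fun i => A.rho.getD i 0)^[m] j₀) = 0 := by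
        intro m
        induction m with
        | zero => exact ⟨hj₀, hz₀⟩
        | succ m ih =>
          rw [Function.iterate_succ_apply']
          exact ⟨hjs J hJ _ ih.1, by rw [htw _ ih.1, ih.2, map_zero]⟩
      have hall : ∀ j ∈ J, ts j = 0 := by
        intro j hj
        obtain ⟨m, hm⟩ := horb J hJ j₀ hj₀ j hj
        rw [← hm]
        exact (hit m).2
      have e : pL J (xPf D L.u.m.w.add ts) = pL J (xPf D L.u.m.w.add (fun _ => (0 : F))) :=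
        pL_congr (fun j hj => by unfold xPf; rw [hall j hj])
      show pL J (xPf D L.u.m.w.add ts) = 1
      rw [e, xPf_zero]
  · rintro ⟨J, hJ⟩ n hn
    have h := horth J hJ
    have hsGJ := hsG J hJ
    have horb' : ∀ j ∈ J, ∀ j' ∈ J, ∃ m : ℕ,
        (fun r => A.rt.getD r 0)^[m] (D.simple j) = D.simple j' := by
      intro j hj j' hj'
      obtain ⟨m, hm⟩ := horb J hJ j hj j' hj'
      refine ⟨m, ?_⟩
      rw [(rt_iter htab.2 hrho (h.2.1 j hj) m).2, hm]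
    rcases tw_signs L.u hOK h1 h2 φ hu hsg h horb' (mi1 hn)
      (mem_sigFix.mp (hfix (mi2 hn))) with hA | hB
    · left
      rintro x ⟨ts, htw, rfl⟩
      exact hU0 (mi (hA ts) (mul_mem (mul_mem (inv_mem (mi2 hn)) (hG J hJ ts htw).1) (mi2 hn)))
    · right
      rintro x ⟨ts, htw, rfl⟩
      exact hU0 (mi (hB ts) (mul_mem (mul_mem (inv_mem (mul_mem hsGJ (mi2 hn)))
        (hG J hJ ts htw).1) (mul_mem hsGJ (mi2 hn))))

theorem tw_H_le {D : ChevalleyDatum} {adj : List (List ℤ)} (L : LOK D adj) (hcf : CF D F)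
    (hu : unitAllOK D = true) {A B : GAut} (hOK : gaOK D A B = true) (hOK' : gaOK D B A = true)
    (h1 : gaInvOK D A B = true) (h2 : gaInvOK D B A = true) (φ : F →+* F)
    (G1 : Subgroup (GL D.Idx F)) (bl : List (List ℕ))
    (hrho : ∀ i < D.rank, A.rho.getD i 0 < D.rank)
    (hsg : ∀ r < D.nroots, (D.nroots / 2 ≤ A.rt.getD r 0 ↔ D.nroots / 2 ≤ r))
    (hsgn : ∀ j < D.rank, nsgn D j (D.simple j) = -1)
    (horth : ∀ J ∈ bl, OrthR D L.u.m.w.add F J)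
    (hperm : ∀ J ∈ bl, (J.map (fun j => A.rho.getD j 0)).Perm J)
    (hk : ∀ J ∈ bl, ∀ j ∈ J, ∃ k < D.rank, D.cartan k (D.simple j) = -1 ∧
      D.cartan (A.rho.getD k 0) (D.simple (A.rho.getD j 0)) = -1)
    (hroot : ∀ J ∈ bl, ∀ r < D.nroots, D.nroots / 2 ≤ r →
      (∀ i < D.rank, i ∉ J → fcor D r i = 0) → ∃ j ∈ J, r = D.simple j)
    (horb : ∀ J ∈ bl, ∀ j ∈ J, ∀ j' ∈ J, ∃ m : ℕ, (fun i => A.rho.getD i 0)^[m] j = j')
    (hG : ∀ J ∈ bl, ∀ ts, TwC A φ J ts →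
      pL J (xPf D L.u.m.w.add ts) ∈ G1 ∧ pL J (xMf D L.u.m.w.add ts) ∈ G1)
    (hsG : ∀ J ∈ bl, nWordU D L.u.m.w.add J ∈ G1)
    (hfix : G1 ≤ sigFix D A B h1 h2 φ)
    (hgen : G1 ≤ Subgroup.closure {g | ∃ J ∈ bl, ∃ ts, TwC A φ J ts ∧
      (g = pL J (xPf D L.u.m.w.add ts) ∨ g = pL J (xMf D L.u.m.w.add ts))})
    (hsH : ∀ z : ℕ → Fˣ, (∀ r < D.nroots, ((chi D z r : Fˣ) : F) = 1 ∨
      ((chi D z r : Fˣ) : F) = -1) → DgU D (chi D z) ∈ G1 →
      DgU D (chi D z) ∈ H0 D L.u.m.w.add A φ bl) :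
    D.diagonalSubgroup F ⊓ G1 ≤ H0 D L.u.m.w.add A φ bl := by
  have M := L.u.m
  have T := tw_ref L hcf hu hOK hOK' h1 h2 φ G1 bl hrho hsg hsgn horth hperm hk hroot horb hG
    hsG hfix
  have hUB : D.posUnipotent F ≤ D.borelSubgroup F := le_sup_left
  have hHB : D.diagonalSubgroup F ≤ D.borelSubgroup F := le_sup_right
  have hH := H0_le M G1 horth hsgn (fun J hJ ts ht => (hG J hJ ts ht).1) hsG
  have hU0 : D.posUnipotent F ⊓ G1 ≤ B0 D L.u.m.w.add A φ bl G1 := le_sup_left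
  have hH0 : H0 D L.u.m.w.add A φ bl ≤ B0 D L.u.m.w.add A φ bl G1 := le_sup_right
  have hB0B : B0 D L.u.m.w.add A φ bl G1 ≤ D.borelSubgroup F :=
    sup_le (fun x hx => hUB (mi1 hx)) (fun x hx => torus_le_borel M.w (mi1 (hH hx)))
  have twc_neg : ∀ J, ∀ ts : ℕ → F, TwC A φ J ts → TwC A φ J (fun j => -ts j) := by
    intro J ts ht j hj
    show -ts (A.rho.getD j 0) = φ (-ts j)
    rw [map_neg, ht j hj]
  intro g hg
  let S : Set (GL D.Idx F) := {n | ∃ w : List (List ℕ), (∀ J ∈ w, J ∈ bl) ∧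
    n = nWordU D L.u.m.w.add w.flatten}
  have hlt : ∀ w : List (List ℕ), (∀ J ∈ w, J ∈ bl) → ∀ i ∈ w.flatten, i < D.rank := by
    intro w hw i hi
    obtain ⟨K, hK, hiK⟩ := List.mem_flatten.mp hi
    exact (horth K (hw K hK)).2.1 i hiK
  have hS1 : (1 : GL D.Idx F) ∈ S := ⟨[], by simp, by simp [nWordU]⟩
  have hSN : ∀ n ∈ S, n ∈ D.monomialSubgroup F ⊓ G1 := by
    rintro n ⟨w, hw, rfl⟩
    exact mi (nWordU_mem_mon M _ (hlt w hw)) (nWordU_flat_mem D _ G1 bl hsG w hw)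
  have hSs : ∀ i : {J : List ℕ // J ∈ bl}, ∀ n ∈ S, nWordU D L.u.m.w.add i.val * n ∈ S := by
    rintro ⟨J, hJ⟩ n ⟨w, hw, rfl⟩
    refine ⟨J :: w, ?_, ?_⟩
    · intro K hK
      rcases List.mem_cons.mp hK with rfl | h
      · exact hJ
      · exact hw K h
    · rw [List.flatten_cons, nWordU_append]
  have hgc : g ∈ Subgroup.closure ((B0 D L.u.m.w.add A φ bl G1 : Set (GL D.Idx F)) ∪
      Set.range (fun J : {J : List ℕ // J ∈ bl} => nWordU D L.u.m.w.add J.val)) := by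
    refine (le_trans hgen ?_) (mi2 hg)
    rw [Subgroup.closure_le]
    rintro x ⟨J, hJ, ts, htw, hx | hx⟩
    · apply Subgroup.subset_closure
      left
      rw [hx]
      exact hU0 (mi (xPf_posU M (horth J hJ).2.1 ts) (hG J hJ ts htw).1)
    · have h := horth J hJ
      have e := nWordU_conj_xP M h (fun j hj => hsgn j (h.2.1 j hj)) (fun j => -ts j)
      have e3 : pL J (xMf D L.u.m.w.add ts) = nWordU D L.u.m.w.add J *
          pL J (xPf D L.u.m.w.add (fun j => -ts j)) * (nWordU D L.u.m.w.add J)⁻¹ := by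
        rw [e]
        exact pL_congr (fun j _ => by simp only [xMf, neg_neg])
      have hsC : nWordU D L.u.m.w.add J ∈ Subgroup.closure
          ((B0 D L.u.m.w.add A φ bl G1 : Set (GL D.Idx F)) ∪
            Set.range (fun J : {J : List ℕ // J ∈ bl} => nWordU D L.u.m.w.add J.val)) :=
        Subgroup.subset_closure (Or.inr ⟨⟨J, hJ⟩, rfl⟩)
      have hxC : pL J (xPf D L.u.m.w.add (fun j => -ts j)) ∈ Subgroup.closure
          ((B0 D L.u.m.w.add A φ bl G1 : Set (GL D.Idx F)) ∪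
            Set.range (fun J : {J : List ℕ // J ∈ bl} => nWordU D L.u.m.w.add J.val)) :=
        Subgroup.subset_closure (Or.inl (hU0 (mi (xPf_posU M h.2.1 _)
          (hG J hJ _ (twc_neg J ts htw)).1)))
      rw [SetLike.mem_coe, hx, e3]
      exact mul_mem (mul_mem hsC hxC) (inv_mem hsC)
  obtain ⟨b₁, hb₁, n, hn, b₂, hb₂, e⟩ := T.bruhat S hS1 hSN hSs hgc
  obtain ⟨w, hw, rfl⟩ := hn
  obtain ⟨u₁, hu₁, g₁, hg₁, rfl⟩ := mem_B0 M.w hH hb₁
  obtain ⟨u₂, hu₂, g₂, hg₂, rfl⟩ := mem_B0 M.w hH hb₂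
  have hnB : nWordU D L.u.m.w.add w.flatten ∈ D.borelSubgroup F ⊓ D.monomialSubgroup F := by
    refine mi ?_ (nWordU_mem_mon M _ (hlt w hw))
    have e0 : nWordU D L.u.m.w.add w.flatten = (u₁ * g₁)⁻¹ * g * (u₂ * g₂)⁻¹ := by
      rw [e]
      group
    rw [e0]
    exact mul_mem (mul_mem (inv_mem (hB0B hb₁)) (hHB (mi1 hg))) (inv_mem (hB0B hb₂))
  rw [borel_inf_mon M, diag_eq_torus M.w] at hnB
  obtain ⟨z, hz⟩ := hnB
  have hnH : nWordU D L.u.m.w.add w.flatten ∈ H0 D L.u.m.w.add A φ bl := by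
    rw [hz]
    apply hsH z
    · intro r hr
      obtain ⟨ε, hε, hconj⟩ := long_conj (F := F) M w.flatten (hlt w hw) hr
      have h3 := hconj 1
      rw [hz] at h3
      have h4 : DgU D (chi D z) * xV D M.w.add r (1 : F) * (DgU D (chi D z))⁻¹ =
          xV D M.w.add r ((chi D z r : F) * 1) := by
        rw [DgU_xV M.w z hr]
        group
      rw [h4] at h3
      have hne : ((chi D z r : Fˣ) : F) * 1 ≠ 0 := by
        rw [mul_one]
        exact Units.ne_zero _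
      have hrr := xV_root_inj M hu L.u.ninv hr (wApply_lt M.w.n w.flatten (hlt w hw) hr) hne h3
      rw [← hrr] at h3
      have h5 := xV_t_inj M hu hr h3
      rw [mul_one, mul_one] at h5
      rw [h5]
      exact hε
    · rw [← hz]
      exact nWordU_flat_mem D _ G1 bl hsG w hw
  have hT1 := mi1 (hH hg₁)
  have hT2 := mi1 (hH hg₂)
  have hTn := mi1 (hH hnH)
  have ht : g₁ * nWordU D L.u.m.w.add w.flatten ∈ torus D F := mul_mem hT1 hTn
  have hnorm := torus_le_normalizer_gen M.w D.IsPosRoot (fun r hr => hr.1) ht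
  have hu2' : (g₁ * nWordU D L.u.m.w.add w.flatten) * u₂ *
      (g₁ * nWordU D L.u.m.w.add w.flatten)⁻¹ ∈ D.posUnipotent F :=
    (Subgroup.mem_normalizer_iff.mp hnorm u₂).mp (mi1 hu₂)
  have e7 : 1 * g = (u₁ * ((g₁ * nWordU D L.u.m.w.add w.flatten) * u₂ *
      (g₁ * nWordU D L.u.m.w.add w.flatten)⁻¹)) *
      (g₁ * nWordU D L.u.m.w.add w.flatten * g₂) := by
    rw [one_mul, e]
    group
  obtain ⟨_, e8⟩ := UH_unique M (one_mem _) (mul_mem (mi1 hu₁) hu2')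
    (by rw [← diag_eq_torus M.w]; exact mi1 hg) (mul_mem ht hT2) e7
  rw [e8]
  exact mul_mem (mul_mem hg₁ hnH) hg₂

end sem

end Cfsg.Agent.Helper7
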