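import Cfsg.Agent.Helper7.TwBNAbs
import Cfsg.Agent.S0319

set_option autoImplicit false
set_option maxHeartbeats 4000000
set_option linter.unusedSectionVars false
set_option linter.unusedVariables false
open Cfsg

namespace Cfsg.Agent.Helper7

theorem chain_split {α : Type*} (p : α → Prop) : ∀ (l : List α), (∃ a ∈ l, p a) →
    (∃ b ∈ l, ¬ p b) → ∃ a b, (a, b) ∈ l.zip l.tail ∧ ((p a ∧ ¬ p b) ∨ (¬ p a ∧ p b))
  | [], ha, _ => by
    obtain ⟨a, ha, _⟩ := ha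
    simp at ha
  | [x], ha, hb => by
    obtain ⟨a, ha, hpa⟩ := ha
    obtain ⟨b, hb, hpb⟩ := hb
    rw [List.mem_singleton] at ha hb
    subst ha
    subst hb
    exact absurd hpa hpb
  | x :: y :: l, ha, hb => by
    by_cases hx : p x <;> by_cases hy : p y
    · have ha' : ∃ a ∈ y :: l, p a := ⟨y, List.mem_cons_self, hy⟩
      have hb' : ∃ b ∈ y :: l, ¬ p b := by
        obtain ⟨b, hb, hpb⟩ := hb
        rcases List.mem_cons.mp hb with rfl | hb
        · exact absurd hx hpb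
        · exact ⟨b, hb, hpb⟩
      obtain ⟨a, b, hab, h⟩ := chain_split p (y :: l) ha' hb'
      refine ⟨a, b, ?_, h⟩
      show (a, b) ∈ (x, y) :: (y :: l).zip (y :: l).tail
      exact List.mem_cons_of_mem _ hab
    · refine ⟨x, y, ?_, Or.inl ⟨hx, hy⟩⟩
      show (x, y) ∈ (x, y) :: (y :: l).zip (y :: l).tail
      exact List.mem_cons_self
    · refine ⟨x, y, ?_, Or.inr ⟨hx, hy⟩⟩
      show (x, y) ∈ (x, y) :: (y :: l).zip (y :: l).tail
      exact List.mem_cons_self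
    · have hb' : ∃ b ∈ y :: l, ¬ p b := ⟨y, List.mem_cons_self, hy⟩
      have ha' : ∃ a ∈ y :: l, p a := by
        obtain ⟨a, ha, hpa⟩ := ha
        rcases List.mem_cons.mp ha with rfl | ha
        · exact absurd hpa hx
        · exact ⟨a, ha, hpa⟩
      obtain ⟨a, b, hab, h⟩ := chain_split p (y :: l) ha' hb'
      refine ⟨a, b, ?_, h⟩
      show (a, b) ∈ (x, y) :: (y :: l).zip (y :: l).tail
      exact List.mem_cons_of_mem _ hab

theorem tw_simple_abs {G : Type*} [Group G] {B N G1 : Subgroup G} {ι : Type*} {sf : ι → G}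
    {X : ι → Set G} (T : TwData B N G1 ι sf X) [Nonempty ι]
    (hirr : ∀ S : Set ι, S.Nonempty → Sᶜ.Nonempty →
      ∃ i ∈ S, ∃ j ∉ S, sf i * sf j * (sf i)⁻¹ * (sf j)⁻¹ ∉ B)
    (hsolv : Group.IsSolvable ↥B) (hperf : commutator ↥G1 = ⊤)
    (hcore : ((B ⊓ G1).subgroupOf G1).normalCore = ⊥) :
    IsSimpleGroup ↥G1 ∧ ¬ IsMulCommutative ↥G1 := by
  obtain ⟨i₀⟩ := ‹Nonempty ι›
  obtain ⟨x, hx, hx1⟩ := T.hne i₀
  obtain ⟨hxG, _, _⟩ := T.hX i₀ x hx
  have hne1 : (⟨x, hxG⟩ : ↥G1) ≠ 1 := fun h => hx1 (congrArg Subtype.val h)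
  have hnt : Nontrivial ↥G1 := ⟨⟨_, 1, hne1⟩⟩
  obtain ⟨P, hPB, hPN, hPS⟩ := tw_bn_abs T
  constructor
  · apply Cfsg.Agent.S0319.result P
    · intro J hJ hJne hJc
      obtain ⟨s₀, hs₀⟩ := hJne
      obtain ⟨s₁, hs₁, hs₁'⟩ := hJc
      have hSrep : ∀ s ∈ P.S, ∃ i, s = (⟨sf i, (T.hs i).2⟩ : ↥G1) := by
        intro s hs
        rw [hPS] at hs
        obtain ⟨i, hi⟩ := hs
        exact ⟨i, Subtype.ext hi⟩
      have hSmem : ∀ i, (⟨sf i, (T.hs i).2⟩ : ↥G1) ∈ P.S := by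
        intro i
        rw [hPS]
        exact ⟨i, rfl⟩
      obtain ⟨i₁, e₀⟩ := hSrep s₀ (hJ hs₀)
      obtain ⟨j₁, e₁⟩ := hSrep s₁ hs₁
      obtain ⟨i, hi, j, hj, hcomm⟩ := hirr {i | (⟨sf i, (T.hs i).2⟩ : ↥G1) ∈ J}
        ⟨i₁, by show (⟨sf i₁, (T.hs i₁).2⟩ : ↥G1) ∈ J; rw [← e₀]; exact hs₀⟩
        ⟨j₁, by show ¬ (⟨sf j₁, (T.hs j₁).2⟩ : ↥G1) ∈ J; rw [← e₁]; exact hs₁'⟩
      refine ⟨⟨sf i, (T.hs i).2⟩, hi, ⟨sf j, (T.hs j).2⟩, ⟨hSmem j, hj⟩, ?_⟩
      rw [hPB]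
      intro hmem
      exact hcomm (mi1 (Subgroup.mem_subgroupOf.mp hmem))
    · rw [hPB]
      have hsolv' := hsolv
      have hinj : Function.Injective ((Subgroup.inclusion (inf_le_left : B ⊓ G1 ≤ B)).comp
          (Subgroup.subgroupOfEquivOfLe (inf_le_right : B ⊓ G1 ≤ G1)).toMonoidHom) := by
        rw [MonoidHom.coe_comp]
        exact (Subgroup.inclusion_injective (inf_le_left : B ⊓ G1 ≤ B)).comp
          (MulEquiv.injective (Subgroup.subgroupOfEquivOfLe (inf_le_right : B ⊓ G1 ≤ G1)))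
      exact Group.isSolvable_of_isSolvable_injective hinj
    · exact hperf
    · rw [hPB]
      exact hcore
  · intro hc
    have hbot : commutator ↥G1 ≤ ⊥ := by
      rw [commutator_def, Subgroup.commutator_le]
      intro g₁ _ g₂ _
      rw [Subgroup.mem_bot, commutatorElement_def, (isMulCommutative_iff.mp hc) g₁ g₂]
      group
    rw [hperf] at hbot
    exact hne1 (Subgroup.mem_bot.mp (hbot (Subgroup.mem_top _)))

end Cfsg.Agent.Helper7
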