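import Cfsg.Agent.Helper7.ChevTwBN
import Cfsg.Agent.Helper7.TwSimpleAbs

set_option autoImplicit false
set_option maxHeartbeats 4000000
set_option linter.unusedSectionVars false
set_option linter.unusedVariables false
open Cfsg

namespace Cfsg.Agent.Helper7

open Cfsg.Lie

section sem

variable {F : Type*} [Field F]

theorem nWordU_append (D : ChevalleyDatum) (ha : addCheck2 D = true) (w w' : List ℕ) :
    nWordU (F := F) D ha (w ++ w') = nWordU D ha w * nWordU D ha w' := by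
  unfold nWordU
  rw [List.map_append, List.prod_append]

theorem tw_comm_not_mem {D : ChevalleyDatum} (M : MOK D) {J J' : List ℕ}
    (h : OrthR D M.w.add F J) (h' : OrthR D M.w.add F J') {r : ℕ} (hr : D.IsPosRoot r)
    (hneg : wApply D (J ++ J' ++ J ++ J') r < D.nroots / 2) :
    nWordU D M.w.add J * nWordU D M.w.add J' * (nWordU D M.w.add J)⁻¹ *
      (nWordU D M.w.add J')⁻¹ ∉ D.borelSubgroup F := by
  intro hB
  have hHB : D.diagonalSubgroup F ≤ D.borelSubgroup F := le_sup_right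
  have hw : ∀ k ∈ J ++ J' ++ J ++ J', k < D.rank := by
    intro k hk
    simp only [List.mem_append] at hk
    rcases hk with ((hk | hk) | hk) | hk
    · exact h.2.1 k hk
    · exact h'.2.1 k hk
    · exact h.2.1 k hk
    · exact h'.2.1 k hk
  have e : nWordU (F := F) D M.w.add (J ++ J' ++ J ++ J') =
      (nWordU D M.w.add J * nWordU D M.w.add J' * (nWordU D M.w.add J)⁻¹ *
        (nWordU D M.w.add J')⁻¹) *
      ((nWordU D M.w.add J' * (nWordU D M.w.add J * nWordU D M.w.add J) *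
          (nWordU D M.w.add J')⁻¹) *
        (nWordU D M.w.add J' * nWordU D M.w.add J')) := by
    rw [nWordU_append, nWordU_append, nWordU_append]
    group
  have hT1 : nWordU D M.w.add J' * (nWordU D M.w.add J * nWordU D M.w.add J) *
      (nWordU D M.w.add J')⁻¹ ∈ D.borelSubgroup F := by
    have h1 : nWordU D M.w.add J * nWordU D M.w.add J ∈ torus D F := by
      rw [← diag_eq_torus M.w]
      exact nWordU_sq M h
    have h2 := (Subgroup.mem_normalizer_iff.mp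
      (mon_normalizes_torus M (nWordU_mem_mon M J' h'.2.1)) _).mp h1
    exact torus_le_borel M.w h2
  have hwB : nWordU (F := F) D M.w.add (J ++ J' ++ J ++ J') ∈ D.borelSubgroup F := by
    rw [e]
    exact mul_mem hB (mul_mem hT1 (hHB (nWordU_sq M h')))
  exact word_not_mem_borel M _ hw hr hneg hwB

theorem tw_irr {D : ChevalleyDatum} (M : MOK D) (bl : List (List ℕ))
    (horth : ∀ J ∈ bl, OrthR D M.w.add F J)
    (hch : ∀ p ∈ bl.zip bl.tail,
      (∃ j < D.rank, wApply D (p.1 ++ p.2 ++ p.1 ++ p.2) (D.simple j) < D.nroots / 2) ∧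
      (∃ j < D.rank, wApply D (p.2 ++ p.1 ++ p.2 ++ p.1) (D.simple j) < D.nroots / 2))
    (S : Set {J : List ℕ // J ∈ bl}) (h1 : S.Nonempty) (h2 : Sᶜ.Nonempty) :
    ∃ i ∈ S, ∃ j ∉ S, nWordU D M.w.add i.val * nWordU D M.w.add j.val *
      (nWordU D M.w.add i.val)⁻¹ * (nWordU D M.w.add j.val)⁻¹ ∉ D.borelSubgroup F := by
  obtain ⟨⟨a₀, ha₀⟩, hs₀⟩ := h1
  obtain ⟨⟨b₀, hb₀⟩, hs₁⟩ := h2
  obtain ⟨a, b, hab, hcase⟩ := chain_split
    (fun J => ∃ h : J ∈ bl, (⟨J, h⟩ : {J : List ℕ // J ∈ bl}) ∈ S) bl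
    ⟨a₀, ha₀, ha₀, hs₀⟩ ⟨b₀, hb₀, fun ⟨h, hh⟩ => hs₁ hh⟩
  have hmem := List.of_mem_zip hab
  have ha : a ∈ bl := hmem.1
  have hb : b ∈ bl := List.mem_of_mem_tail hmem.2
  obtain ⟨⟨j1, hj1, hw1⟩, ⟨j2, hj2, hw2⟩⟩ := hch (a, b) hab
  rcases hcase with ⟨⟨_, hpa⟩, hpb⟩ | ⟨hpa, ⟨_, hpb⟩⟩
  · exact ⟨⟨a, ha⟩, hpa, ⟨b, hb⟩, fun hh => hpb ⟨hb, hh⟩,
      tw_comm_not_mem M (horth a ha) (horth b hb) (simplePos_spec M.spos hj1) hw1⟩
  · exact ⟨⟨b, hb⟩, hpb, ⟨a, ha⟩, fun hh => hpa ⟨ha, hh⟩,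
      tw_comm_not_mem M (horth b hb) (horth a ha) (simplePos_spec M.spos hj2) hw2⟩

end sem

end Cfsg.Agent.Helper7
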