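import Mathlib

set_option autoImplicit false
set_option linter.unusedSectionVars false
set_option linter.unusedVariables false

namespace Cfsg.Agent.Helper7

theorem card_pow_eq_one_of_dvd {G : Type*} [Group G] [Fintype G] [DecidableEq G] [IsCyclic G]
    {n : ℕ} (hn : n ∣ Fintype.card G) :
    (Finset.univ.filter (fun a : G => a ^ n = 1)).card = n := by
  have hn0 : n ≠ 0 := by
    rintro rfl
    rw [zero_dvd_iff] at hn
    exact Fintype.card_ne_zero hn
  have h1 : (Finset.univ.filter (fun a : G => a ^ n = 1)) =
      n.divisors.biUnion (fun d => Finset.univ.filter (fun a : G => orderOf a = d)) := by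
    ext a
    simp only [Finset.mem_filter, Finset.mem_univ, true_and, Finset.mem_biUnion,
      Nat.mem_divisors]
    constructor
    · intro h
      exact ⟨orderOf a, ⟨orderOf_dvd_of_pow_eq_one h, hn0⟩, rfl⟩
    · rintro ⟨d, ⟨hd, _⟩, rfl⟩
      exact orderOf_dvd_iff_pow_eq_one.mp hd
  rw [h1, Finset.card_biUnion]
  · have h2 : ∀ d ∈ n.divisors,
        (Finset.univ.filter (fun a : G => orderOf a = d)).card = Nat.totient d := by
      intro d hd
      exact IsCyclic.card_orderOf_eq_totient (dvd_trans (Nat.dvd_of_mem_divisors hd) hn)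
    rw [Finset.sum_congr rfl h2, Nat.sum_totient]
  · intro d _ d' _ hdd'
    rw [Function.onFun, Finset.disjoint_left]
    intro a ha ha'
    simp only [Finset.mem_filter, Finset.mem_univ, true_and] at ha ha'
    exact hdd' (ha.symm.trans ha')

theorem card_fix {K : Type*} [Field K] [Fintype K] {q k : ℕ} (hq : 2 ≤ q) (hk : k ≠ 0)
    (hK : Fintype.card K = q ^ k) : Nat.card {t : K // t ^ q = t} = q := by
  classical
  have hdvd : q - 1 ∣ Fintype.card Kˣ := by
    rw [Fintype.card_units, hK]
    exact Nat.sub_one_dvd_pow_sub_one q k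
  have h1 := card_pow_eq_one_of_dvd (G := Kˣ) hdvd
  rw [Nat.card_eq_fintype_card, Fintype.card_subtype]
  have h2 : (Finset.univ.filter (fun t : K => t ^ q = t)) =
      insert 0 ((Finset.univ.filter (fun a : Kˣ => a ^ (q - 1) = 1)).map
        ⟨Units.val, Units.val_injective⟩) := by
    ext t
    simp only [Finset.mem_filter, Finset.mem_univ, true_and, Finset.mem_insert, Finset.mem_map,
      Function.Embedding.coeFn_mk]
    constructor
    · intro h
      by_cases ht : t = 0
      · exact Or.inl ht
      · right
        refine ⟨Units.mk0 t ht, ?_, rfl⟩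
        apply Units.ext
        rw [Units.val_pow_eq_pow_val, Units.val_mk0, Units.val_one]
        have h3 : t ^ (q - 1) * t = 1 * t := by
          rw [← pow_succ, Nat.sub_add_cancel (by omega), one_mul]
          exact h
        exact mul_right_cancel₀ ht h3
    · rintro (rfl | ⟨a, ha, rfl⟩)
      · exact zero_pow (by omega)
      · have h3 : (a : K) ^ (q - 1) = 1 := by
          rw [← Units.val_pow_eq_pow_val, ha, Units.val_one]
        calc (a : K) ^ q = (a : K) ^ (q - 1) * a := by
              rw [← pow_succ, Nat.sub_add_cancel (by omega)]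
          _ = a := by rw [h3, one_mul]
  rw [h2, Finset.card_insert_of_notMem, Finset.card_map, h1]
  · omega
  · simp

end Cfsg.Agent.Helper7
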