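import Cfsg.Agent.Helper7.ChevTwSimple
import Cfsg.Agent.Helper7.FixCard

set_option autoImplicit false
set_option maxHeartbeats 4000000
set_option linter.unusedSectionVars false
set_option linter.unusedVariables false
open Cfsg

namespace Cfsg.Agent.Helper7

open Cfsg.Lie

def goodB (D : ChevalleyDatum) : List ℕ → List (List ℕ) → Bool
  | _, [] => true
  | pre, J :: bs =>
    (J.all fun j => Nat.ble (D.nroots / 2) (wApply D pre.reverse (D.simple j))) &&
      goodB D (J ++ pre) bs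

def finW : List ℕ → List (List ℕ) → List ℕ
  | pre, [] => pre
  | pre, J :: bs => finW (J ++ pre) bs

theorem goodB_cons {D : ChevalleyDatum} {pre J : List ℕ} {bs : List (List ℕ)}
    (h : goodB D pre (J :: bs) = true) :
    (∀ j ∈ J, D.nroots / 2 ≤ wApply D pre.reverse (D.simple j)) ∧
      goodB D (J ++ pre) bs = true := by
  rw [goodB, Bool.and_eq_true, List.all_eq_true] at h
  exact ⟨fun j hj => Nat.le_of_ble_eq_true (h.1 j hj), h.2⟩

theorem prod_pow_len (q : ℕ) : ∀ bs : List (List ℕ),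
    (bs.map fun J => q ^ J.length).prod = q ^ bs.flatten.length
  | [] => by simp
  | J :: bs => by
    rw [List.map_cons, List.prod_cons, prod_pow_len q bs, List.flatten_cons, List.length_append,
      pow_add]

section sem

variable {F : Type*} [Field F]

def XJ (D : ChevalleyDatum) (ha : addCheck2 D = true) (A : GAut) (φ : F →+* F) (J : List ℕ) :
    Set (GL D.Idx F) :=
  {x | ∃ ts, TwC A φ J ts ∧ x = pL J (xPf D ha ts)}

def Aset (D : ChevalleyDatum) (ha : addCheck2 D = true) (X : List ℕ → Set (GL D.Idx F)) :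
    List (List ℕ) → Set (GL D.Idx F)
  | [] => {1}
  | J :: bs => {g | ∃ x ∈ X J, ∃ a ∈ Aset D ha X bs,
      g = x * ((nWordU D ha J)⁻¹ * a * nWordU D ha J)}

theorem long_conj_neg {D : ChevalleyDatum} (M : MOK D) (w : List ℕ) (hw : longOK D w = true)
    {u : GL D.Idx F} (hu : u ∈ D.posUnipotent F) :
    nWordU D M.w.add w * u * (nWordU D M.w.add w)⁻¹ ∈ D.negUnipotent F := by
  obtain ⟨hwr, hall⟩ := longOK_spec hw
  have hle : D.posUnipotent F ≤
      (D.negUnipotent F).comap (MulAut.conj (nWordU D M.w.add w)).toMonoidHom := by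
    unfold ChevalleyDatum.posUnipotent
    rw [Subgroup.closure_le]
    rintro x ⟨r, t, hr, hx⟩
    have ex : x = xV D M.w.add r t := Units.ext (by rw [hx, xV_val])
    obtain ⟨ε, _, h⟩ := long_conj (F := F) M w hwr hr.1
    show nWordU D M.w.add w * x * (nWordU D M.w.add w)⁻¹ ∈ D.negUnipotent F
    rw [ex, h t]
    have hwr' := wApply_lt M.w.n w hwr hr.1
    exact xV_mem_negU M.w.add
      ((isNeg_iff M hwr').mpr ((hall r hr.1).1.mp ((isPos_iff M hr.1).mp hr))) _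
  exact hle hu

theorem conj_pL_pos {D : ChevalleyDatum} (M : MOK D) (pre : List ℕ)
    (hpre : ∀ i ∈ pre, i < D.rank) {J : List ℕ} (hJ : ∀ j ∈ J, j < D.rank)
    (hg : ∀ j ∈ J, D.nroots / 2 ≤ wApply D pre.reverse (D.simple j)) (ts : ℕ → F) :
    (nWordU D M.w.add pre)⁻¹ * pL J (xPf D M.w.add ts) * nWordU D M.w.add pre ∈
      D.posUnipotent F := by
  have e : (nWordU D M.w.add pre)⁻¹ * pL J (xPf D M.w.add ts) * nWordU D M.w.add pre =
      (nWordU D M.w.add pre)⁻¹ * pL J (xPf D M.w.add ts) * (nWordU D M.w.add pre)⁻¹⁻¹ := by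
    rw [inv_inv]
  rw [e, pL_conj]
  apply pL_mem
  intro j hj
  have h1 := inv_conj_pos M pre hpre (simple_lt M.w.fd M.w.n (hJ j hj)).1 (hg j hj) (ts j)
  have e2 : (nWordU D M.w.add pre)⁻¹ * xPf D M.w.add ts j * (nWordU D M.w.add pre)⁻¹⁻¹ =
      (nWordU D M.w.add pre)⁻¹ * xV D M.w.add (D.simple j) (ts j) * nWordU D M.w.add pre := by
    rw [inv_inv]
    rfl
  show (nWordU D M.w.add pre)⁻¹ * xPf D M.w.add ts j * (nWordU D M.w.add pre)⁻¹⁻¹ ∈
    D.posUnipotent F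
  rw [e2]
  exact h1

theorem pL_neg_mem {D : ChevalleyDatum} (M : MOK D) {J : List ℕ} (hJ : ∀ j ∈ J, j < D.rank)
    (ts : ℕ → F) : pL J (xMf D M.w.add ts) ∈ D.negUnipotent F := by
  apply pL_mem
  intro j hj
  obtain ⟨hp, hnp, hpos, hnegp⟩ := simple_facts M (hJ j hj)
  exact xV_mem_negU M.w.add ((isNeg_iff M hnp).mpr hnegp) _

theorem Aset_mem {D : ChevalleyDatum} (M : MOK D) (G1 : Subgroup (GL D.Idx F))
    (X : List ℕ → Set (GL D.Idx F)) (bl : List (List ℕ))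
    (hX : ∀ J ∈ bl, ∀ x ∈ X J, x ∈ G1 ∧ ∃ ts : ℕ → F, x = pL J (xPf D M.w.add ts))
    (hs : ∀ J ∈ bl, nWordU D M.w.add J ∈ G1) (hlt : ∀ J ∈ bl, ∀ j ∈ J, j < D.rank) :
    ∀ (bs : List (List ℕ)) (pre : List ℕ), (∀ J ∈ bs, J ∈ bl) → (∀ i ∈ pre, i < D.rank) →
      goodB D pre bs = true → ∀ a ∈ Aset D M.w.add X bs,
        a ∈ G1 ∧ (nWordU D M.w.add pre)⁻¹ * a * nWordU D M.w.add pre ∈ D.posUnipotent F
  | [], pre, _, _, _, a, ha => by
    have e : a = 1 := ha
    rw [e]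
    refine ⟨one_mem _, ?_⟩
    rw [mul_one, inv_mul_cancel]
    exact one_mem _
  | J :: bs, pre, hbs, hpre, hg, a, ha => by
    obtain ⟨x, hx, a', ha', rfl⟩ := ha
    obtain ⟨hgJ, hg'⟩ := goodB_cons hg
    have hJ := hbs J List.mem_cons_self
    have hpre' : ∀ i ∈ J ++ pre, i < D.rank := by
      intro i hi
      rcases List.mem_append.mp hi with h | h
      · exact hlt J hJ i h
      · exact hpre i h
    obtain ⟨ih1, ih2⟩ := Aset_mem M G1 X bl hX hs hlt bs (J ++ pre)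
      (fun K hK => hbs K (List.mem_cons_of_mem _ hK)) hpre' hg' a' ha'
    obtain ⟨hxG, ts, rfl⟩ := hX J hJ x hx
    have hsG := hs J hJ
    refine ⟨mul_mem hxG (mul_mem (mul_mem (inv_mem hsG) ih1) hsG), ?_⟩
    rw [nWordU_append] at ih2
    have e : (nWordU D M.w.add pre)⁻¹ * (pL J (xPf D M.w.add ts) *
        ((nWordU D M.w.add J)⁻¹ * a' * nWordU D M.w.add J)) * nWordU D M.w.add pre =
        ((nWordU D M.w.add pre)⁻¹ * pL J (xPf D M.w.add ts) * nWordU D M.w.add pre) *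
        ((nWordU D M.w.add J * nWordU D M.w.add pre)⁻¹ * a' *
          (nWordU D M.w.add J * nWordU D M.w.add pre)) := by group
    rw [e]
    exact mul_mem (conj_pL_pos M pre hpre (hlt J hJ) hgJ ts) ih2

theorem split_U {D : ChevalleyDatum} {adj : List (List ℤ)} (L : LOK D adj) (hcf : CF D F)
    {J : List ℕ} (h : OrthR D L.u.m.w.add F J)
    (hsgn : ∀ j ∈ J, nsgn D j (D.simple j) = -1)
    (hroot : ∀ r, D.IsPosRoot r → D.InRootSub {j | j ∈ J} r → ∃ j ∈ J, r = D.simple j)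
    {x c a : GL D.Idx F} {ts : ℕ → F} (hx : x = pL J (xPf D L.u.m.w.add ts))
    (hc : c ∈ D.borelSubgroup F) (hac : a = x * c)
    (hsc : nWordU D L.u.m.w.add J * c * (nWordU D L.u.m.w.add J)⁻¹ ∈ D.borelSubgroup F)
    (ha : a ∈ D.posUnipotent F) :
    c ∈ D.posUnipotent F ∧
      nWordU D L.u.m.w.add J * c * (nWordU D L.u.m.w.add J)⁻¹ ∈ D.posUnipotent F := by
  have M := L.u.m
  obtain ⟨v, hv, ts', e⟩ := posU_dec L hcf h hroot ha
  have hxn : pL J (xPf D L.u.m.w.add ts') ∈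
      Subgroup.normalizer (D.unipotentRadical F {j | j ∈ J} : Set (GL D.Idx F)) :=
    pL_mem _ (fun j hj => xV_mem_normalizer_UJ L hcf _
      (Or.inl (simplePos_spec M.spos (h.2.1 j hj))) _)
  have hc' : (pL J (xPf D L.u.m.w.add ts'))⁻¹ * v * (pL J (xPf D L.u.m.w.add ts'))⁻¹⁻¹ ∈
      D.unipotentRadical F {j | j ∈ J} :=
    (Subgroup.mem_normalizer_iff.mp (inv_mem hxn) v).mp hv
  have hUJ : D.unipotentRadical F {j | j ∈ J} ≤ D.posUnipotent F := by
    unfold ChevalleyDatum.unipotentRadical ChevalleyDatum.posUnipotent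
    apply Subgroup.closure_mono
    rintro g ⟨r, t, hr, _, hg⟩
    exact ⟨r, t, hr, hg⟩
  have hUB : D.posUnipotent F ≤ D.borelSubgroup F := le_sup_left
  have hsP : nWordU (F := F) D L.u.m.w.add J ∈ D.parabolicSubgroup F {j | j ∈ J} := by
    apply Subgroup.list_prod_mem
    intro y hy
    rw [List.mem_map] at hy
    obtain ⟨j, hj, rfl⟩ := hy
    obtain ⟨hp, hnp⟩ := simple_lt M.w.fd M.w.n (h.2.1 j hj)
    apply (le_sup_right : _ ≤ D.parabolicSubgroup F {j | j ∈ J})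
    apply Subgroup.subset_closure
    exact ⟨j, hj, h.2.1 j hj, nV_val D M.w.add hp hnp 1⟩
  have hsn := parabolic_le_normalizer L hcf {j | j ∈ J} hsP
  have hsc' := (Subgroup.mem_normalizer_iff.mp hsn _).mp hc'
  obtain ⟨x', hx'⟩ : ∃ x' : GL D.Idx F, x' = pL J (xPf D L.u.m.w.add ts') := ⟨_, rfl⟩
  obtain ⟨c', hcd⟩ : ∃ c' : GL D.Idx F, c' = x'⁻¹ * v * x'⁻¹⁻¹ := ⟨_, rfl⟩
  obtain ⟨s, hsd⟩ : ∃ s : GL D.Idx F, s = nWordU D L.u.m.w.add J := ⟨_, rfl⟩
  rw [← hx'] at hc' hsc' e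
  rw [← hcd] at hc' hsc'
  rw [← hsd] at hsc hsc' ⊢
  have e0 : x * c = x' * c' := by
    rw [← hac, e, hcd]
    group
  have e1 : x'⁻¹ * x = c' * c⁻¹ := by
    calc x'⁻¹ * x = x'⁻¹ * (x * c) * c⁻¹ := by group
      _ = x'⁻¹ * (x' * c') * c⁻¹ := by rw [e0]
      _ = c' * c⁻¹ := by group
  have h2 : s * (x'⁻¹ * x) * s⁻¹ ∈ D.borelSubgroup F := by
    rw [e1]
    have e2 : s * (c' * c⁻¹) * s⁻¹ = (s * c' * s⁻¹) * (s * c * s⁻¹)⁻¹ := by group
    rw [e2]
    exact mul_mem (hUB (hUJ hsc')) (inv_mem hsc)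
  have h3 : x'⁻¹ * x = pL J (xPf D L.u.m.w.add (fun j => -ts' j + ts j)) := by
    rw [hx', hx, xPf_inv M h, xPf_add M h]
  have h4 : s * (x'⁻¹ * x) * s⁻¹ ∈ D.negUnipotent F := by
    rw [h3, hsd, nWordU_conj_xP M h hsgn]
    exact pL_neg_mem M h.2.1 _
  have h5 : s * (x'⁻¹ * x) * s⁻¹ ∈ D.borelSubgroup F ⊓ D.negUnipotent F := mi h2 h4
  rw [borel_inf_negU M, Subgroup.mem_bot] at h5
  have h6 : x'⁻¹ * x = 1 := by
    have e2 : x'⁻¹ * x = s⁻¹ * (s * (x'⁻¹ * x) * s⁻¹) * s := by group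
    rw [e2, h5]
    group
  have h7 : c' * c⁻¹ = 1 := by rw [← e1, h6]
  have h8 : c = c' := (mul_inv_eq_one.mp h7).symm
  rw [h8]
  exact ⟨hUJ hc', hUJ hsc'⟩

theorem Aset_cover {D : ChevalleyDatum} {adj : List (List ℤ)} (L : LOK D adj) (hcf : CF D F)
    (G1 : Subgroup (GL D.Idx F)) (A : GAut) (φ : F →+* F) (bl : List (List ℕ))
    (horth : ∀ J ∈ bl, OrthR D L.u.m.w.add F J)
    (hsgn : ∀ j < D.rank, nsgn D j (D.simple j) = -1)
    (hroot : ∀ J ∈ bl, ∀ r, D.IsPosRoot r → D.InRootSub {j | j ∈ J} r →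
      ∃ j ∈ J, r = D.simple j)
    (hXG : ∀ J ∈ bl, ∀ x ∈ XJ D L.u.m.w.add A φ J, x ∈ G1)
    (hs : ∀ J ∈ bl, nWordU D L.u.m.w.add J ∈ G1)
    (hdec : ∀ J ∈ bl, ∀ b ∈ D.borelSubgroup F ⊓ G1, ∃ x ∈ XJ D L.u.m.w.add A φ J,
      ∃ c ∈ D.borelSubgroup F, b = x * c ∧
        nWordU D L.u.m.w.add J * c * (nWordU D L.u.m.w.add J)⁻¹ ∈ D.borelSubgroup F) :
    ∀ (bs : List (List ℕ)) (pre : List ℕ), (∀ J ∈ bs, J ∈ bl) → (∀ i ∈ pre, i < D.rank) →
      goodB D pre bs = true → longOK D (finW pre bs) = true →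
      ∀ a ∈ D.posUnipotent F ⊓ G1,
        (nWordU D L.u.m.w.add pre)⁻¹ * a * nWordU D L.u.m.w.add pre ∈ D.posUnipotent F →
        a ∈ Aset D L.u.m.w.add (XJ D L.u.m.w.add A φ) bs
  | [], pre, _, _, _, hlong, a, ha, hconj => by
    have M := L.u.m
    have hlong' : longOK D pre = true := hlong
    have h1 := long_conj_neg M pre hlong' hconj
    have e : nWordU D M.w.add pre * ((nWordU D L.u.m.w.add pre)⁻¹ * a *
        nWordU D L.u.m.w.add pre) * (nWordU D M.w.add pre)⁻¹ = a := by group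
    rw [e] at h1
    have h2 : a ∈ D.borelSubgroup F ⊓ D.negUnipotent F :=
      mi ((le_sup_left : D.posUnipotent F ≤ D.borelSubgroup F) (mi1 ha)) h1
    rw [borel_inf_negU M, Subgroup.mem_bot] at h2
    exact h2
  | J :: bs, pre, hbs, hpre, hg, hlong, a, ha, hconj => by
    have M := L.u.m
    obtain ⟨hgJ, hg'⟩ := goodB_cons hg
    have hJ := hbs J List.mem_cons_self
    have h := horth J hJ
    have hUB : D.posUnipotent F ≤ D.borelSubgroup F := le_sup_left
    obtain ⟨x, hx, c, hc, hac, hsc⟩ := hdec J hJ a (mi (hUB (mi1 ha)) (mi2 ha))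
    have hxG := hXG J hJ x hx
    obtain ⟨ts, htw, hxe⟩ := hx
    obtain ⟨hcU, hscU⟩ := split_U L hcf h (fun j hj => hsgn j (h.2.1 j hj)) (hroot J hJ) hxe hc
      hac hsc (mi1 ha)
    have hsG := hs J hJ
    have hcG : c ∈ G1 := by
      have e0 : c = x⁻¹ * a := by
        rw [hac]
        group
      rw [e0]
      exact mul_mem (inv_mem hxG) (mi2 ha)
    have hpre' : ∀ i ∈ J ++ pre, i < D.rank := by
      intro i hi
      rcases List.mem_append.mp hi with h' | h'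
      · exact h.2.1 i h'
      · exact hpre i h'
    have hxc := conj_pL_pos M pre hpre h.2.1 hgJ ts
    have hconj' : (nWordU D L.u.m.w.add (J ++ pre))⁻¹ *
        (nWordU D L.u.m.w.add J * c * (nWordU D L.u.m.w.add J)⁻¹) *
        nWordU D L.u.m.w.add (J ++ pre) ∈ D.posUnipotent F := by
      rw [nWordU_append]
      have e0 : (nWordU D L.u.m.w.add J * nWordU D L.u.m.w.add pre)⁻¹ *
          (nWordU D L.u.m.w.add J * c * (nWordU D L.u.m.w.add J)⁻¹) *
          (nWordU D L.u.m.w.add J * nWordU D L.u.m.w.add pre) =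
          ((nWordU D L.u.m.w.add pre)⁻¹ * x * nWordU D L.u.m.w.add pre)⁻¹ *
          ((nWordU D L.u.m.w.add pre)⁻¹ * a * nWordU D L.u.m.w.add pre) := by
        rw [hac]
        group
      rw [e0, hxe]
      exact mul_mem (inv_mem hxc) hconj
    have ih := Aset_cover L hcf G1 A φ bl horth hsgn hroot hXG hs hdec bs (J ++ pre)
      (fun K hK => hbs K (List.mem_cons_of_mem _ hK)) hpre' hg' hlong
      (nWordU D L.u.m.w.add J * c * (nWordU D L.u.m.w.add J)⁻¹)
      (mi hscU (mul_mem (mul_mem hsG hcG) (inv_mem hsG))) hconj'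
    refine ⟨x, ⟨ts, htw, hxe⟩, _, ih, ?_⟩
    rw [hac]
    group

theorem Aset_card {D : ChevalleyDatum} (M : MOK D) (G1 : Subgroup (GL D.Idx F))
    (X : List ℕ → Set (GL D.Idx F)) (bl : List (List ℕ))
    (hX : ∀ J ∈ bl, ∀ x ∈ X J, x ∈ G1 ∧ ∃ ts : ℕ → F, x = pL J (xPf D M.w.add ts))
    (hs : ∀ J ∈ bl, nWordU D M.w.add J ∈ G1) (hlt : ∀ J ∈ bl, ∀ j ∈ J, j < D.rank)
    (horth : ∀ J ∈ bl, OrthR D M.w.add F J)
    (hsgn : ∀ j < D.rank, nsgn D j (D.simple j) = -1) :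
    ∀ (bs : List (List ℕ)), (∀ J ∈ bs, J ∈ bl) → (∀ k, goodB D [] (bs.drop k) = true) →
      Nat.card ↥(Aset D M.w.add X bs) = (bs.map fun J => Nat.card ↥(X J)).prod
  | [], _, _ => by
    show Nat.card ↥({1} : Set (GL D.Idx F)) = 1
    simp
  | J :: bs, hbs, hgood => by
    have hJ := hbs J List.mem_cons_self
    have h := horth J hJ
    have hUB : D.posUnipotent F ≤ D.borelSubgroup F := le_sup_left
    have ih := Aset_card M G1 X bl hX hs hlt horth hsgn bs
      (fun K hK => hbs K (List.mem_cons_of_mem _ hK)) (fun k => hgood (k + 1))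
    have hU : ∀ a ∈ Aset D M.w.add X bs, a ∈ D.posUnipotent F := by
      intro a ha
      have h1 := (Aset_mem M G1 X bl hX hs hlt bs []
        (fun K hK => hbs K (List.mem_cons_of_mem _ hK)) (by simp) (hgood 1) a ha).2
      have e : nWordU (F := F) D M.w.add [] = 1 := by simp [nWordU]
      rw [e, inv_one, one_mul, mul_one] at h1
      exact h1
    let f : ↥(X J) × ↥(Aset D M.w.add X bs) → ↥(Aset D M.w.add X (J :: bs)) := fun p =>
      ⟨p.1.1 * ((nWordU D M.w.add J)⁻¹ * p.2.1 * nWordU D M.w.add J),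
        ⟨p.1.1, p.1.2, p.2.1, p.2.2, rfl⟩⟩
    have hbij : Function.Bijective f := by
      constructor
      · rintro ⟨⟨x, hx⟩, ⟨a, ha⟩⟩ ⟨⟨x', hx'⟩, ⟨a', ha'⟩⟩ e
        have e1 : x * ((nWordU D M.w.add J)⁻¹ * a * nWordU D M.w.add J) =
            x' * ((nWordU D M.w.add J)⁻¹ * a' * nWordU D M.w.add J) := congrArg Subtype.val e
        obtain ⟨_, ts, hxe⟩ := hX J hJ x hx
        obtain ⟨_, ts', hxe'⟩ := hX J hJ x' hx'
        have e2 : nWordU D M.w.add J * (x'⁻¹ * x) * (nWordU D M.w.add J)⁻¹ = a' * a⁻¹ := by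
          have e3 : x'⁻¹ * x = ((nWordU D M.w.add J)⁻¹ * a' * nWordU D M.w.add J) *
              ((nWordU D M.w.add J)⁻¹ * a * nWordU D M.w.add J)⁻¹ := by
            calc x'⁻¹ * x = x'⁻¹ * (x * ((nWordU D M.w.add J)⁻¹ * a * nWordU D M.w.add J)) *
                  ((nWordU D M.w.add J)⁻¹ * a * nWordU D M.w.add J)⁻¹ := by group
              _ = x'⁻¹ * (x' * ((nWordU D M.w.add J)⁻¹ * a' * nWordU D M.w.add J)) *
                  ((nWordU D M.w.add J)⁻¹ * a * nWordU D M.w.add J)⁻¹ := by rw [e1]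
              _ = ((nWordU D M.w.add J)⁻¹ * a' * nWordU D M.w.add J) *
                  ((nWordU D M.w.add J)⁻¹ * a * nWordU D M.w.add J)⁻¹ := by group
          rw [e3]
          group
        have h3 : x'⁻¹ * x = pL J (xPf D M.w.add (fun j => -ts' j + ts j)) := by
          rw [hxe', hxe, xPf_inv M h, xPf_add M h]
        have h4 : nWordU D M.w.add J * (x'⁻¹ * x) * (nWordU D M.w.add J)⁻¹ ∈
            D.negUnipotent F := by
          rw [h3, nWordU_conj_xP M h (fun j hj => hsgn j (h.2.1 j hj))]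
          exact pL_neg_mem M h.2.1 _
        rw [e2] at h4
        have h5 : a' * a⁻¹ ∈ D.borelSubgroup F ⊓ D.negUnipotent F :=
          mi (hUB (mul_mem (hU a' ha') (inv_mem (hU a ha)))) h4
        rw [borel_inf_negU M, Subgroup.mem_bot] at h5
        have ha_eq : a' = a := mul_inv_eq_one.mp h5
        subst ha_eq
        have hx_eq : x = x' := mul_right_cancel e1
        subst hx_eq
        rfl
      · rintro ⟨g, x, hx, a, ha, rfl⟩
        exact ⟨⟨⟨x, hx⟩, ⟨a, ha⟩⟩, rfl⟩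
    rw [← Nat.card_congr (Equiv.ofBijective f hbij), Nat.card_prod, ih, List.map_cons,
      List.prod_cons]

theorem pL_xPf_inj {D : ChevalleyDatum} {adj : List (List ℤ)} (L : LOK D adj) {J : List ℕ}
    (h : OrthR D L.u.m.w.add F J)
    (hk : ∀ j ∈ J, ∃ k < D.rank, D.cartan k (D.simple j) = -1) {ts ts' : ℕ → F}
    (e : pL J (xPf D L.u.m.w.add ts) = pL J (xPf D L.u.m.w.add ts')) :
    ∀ j ∈ J, ts j = ts' j := by
  intro j hj
  obtain ⟨k, hkr, hc⟩ := hk j hj
  obtain ⟨hp, _⟩ := simple_lt L.u.m.w.fd L.u.m.w.n (h.2.1 j hj)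
  have h1 := entry_simple L h (one_mem _) (one_mem (torus D F)) ts hj ⟨k, hkr⟩ hp
  have h2 := entry_simple L h (one_mem _) (one_mem (torus D F)) ts' hj ⟨k, hkr⟩ hp
  rw [one_mul, mul_one] at h1 h2
  rw [e, h2] at h1
  dsimp only at h1
  rw [hc] at h1
  push_cast at h1
  linear_combination -h1

theorem card_XJ {D : ChevalleyDatum} {adj : List (List ℤ)} (L : LOK D adj) {A : GAut}
    {φ : F →+* F} {J : List ℕ} (h : OrthR D L.u.m.w.add F J)
    (hk : ∀ j ∈ J, ∃ k < D.rank, D.cartan k (D.simple j) = -1)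
    (P : Set F) (param : F → ℕ → F) {j₀ : ℕ} (hj₀ : j₀ ∈ J) (h0 : ∀ t, param t j₀ = t)
    (h1 : ∀ t ∈ P, TwC A φ J (param t))
    (h2 : ∀ ts, TwC A φ J ts → ts j₀ ∈ P ∧ ∀ j ∈ J, ts j = param (ts j₀) j) :
    Nat.card ↥(XJ D L.u.m.w.add A φ J) = Nat.card ↥P := by
  let f : ↥P → ↥(XJ D L.u.m.w.add A φ J) := fun t =>
    ⟨pL J (xPf D L.u.m.w.add (param t.1)), ⟨param t.1, h1 t.1 t.2, rfl⟩⟩
  have hbij : Function.Bijective f := by
    constructor
    · rintro ⟨t, ht⟩ ⟨t', ht'⟩ e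
      have e1 : pL J (xPf D L.u.m.w.add (param t)) = pL J (xPf D L.u.m.w.add (param t')) :=
        congrArg Subtype.val e
      have e2 := pL_xPf_inj L h hk e1 j₀ hj₀
      rw [h0, h0] at e2
      exact Subtype.ext e2
    · rintro ⟨x, ts, htw, rfl⟩
      obtain ⟨hP, hall⟩ := h2 ts htw
      refine ⟨⟨ts j₀, hP⟩, Subtype.ext ?_⟩
      show pL J (xPf D L.u.m.w.add (param (ts j₀))) = pL J (xPf D L.u.m.w.add ts)
      exact pL_congr (fun j hj => by unfold xPf; rw [← hall j hj])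
  rw [← Nat.card_congr (Equiv.ofBijective f hbij)]

theorem card_XJ_single {D : ChevalleyDatum} {adj : List (List ℤ)} (L : LOK D adj) {A : GAut}
    {φ : F →+* F} {j : ℕ} (hj : j < D.rank) (hrho : A.rho.getD j 0 = j)
    (hk : ∃ k < D.rank, D.cartan k (D.simple j) = -1) :
    Nat.card ↥(XJ D L.u.m.w.add A φ [j]) = Nat.card ↥({t | φ t = t} : Set F) := by
  have h := orthR_single (F := F) D L.u.m.w.add hj
  exact card_XJ L h (fun i hi => by rw [List.mem_singleton.mp hi]; exact hk) {t | φ t = t}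
    (fun t _ => t) (List.mem_singleton_self j) (fun t => rfl)
    (fun t ht => twc_single ht)
    (fun ts htw => by
      have h3 := htw j (List.mem_singleton_self j)
      rw [hrho] at h3
      exact ⟨h3.symm, fun i hi => by rw [List.mem_singleton.mp hi]⟩)

theorem card_XJ_pair {D : ChevalleyDatum} {adj : List (List ℤ)} (L : LOK D adj) (hcf : CF D F)
    {A : GAut} {φ : F →+* F} {i j : ℕ} (ho : orth2OK D i j = true) (hij : i ≠ j)
    (hi : A.rho.getD i 0 = j) (hj : A.rho.getD j 0 = i) (hφ : ∀ t, φ (φ t) = t)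
    (hk : ∀ m ∈ [i, j], ∃ k < D.rank, D.cartan k (D.simple m) = -1) :
    Nat.card ↥(XJ D L.u.m.w.add A φ [i, j]) = Nat.card F := by
  have h := orthR_pair (F := F) L.u.m hcf ho hij
  rw [card_XJ L h hk Set.univ (fun t m => if m = i then t else φ t) (j₀ := i) (by simp)
    (fun t => by simp) (fun t _ => twc_pair hij hi hj (hφ t))
    (fun ts htw => by
      have h3 := htw i (by simp)
      rw [hi] at h3
      refine ⟨Set.mem_univ _, ?_⟩
      intro m hm
      simp only [List.mem_cons, List.not_mem_nil, or_false] at hm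
      rcases hm with hm | hm
      · rw [hm]
        simp
      · rw [hm]
        simp [hij.symm, h3])]
  exact Nat.card_congr (Equiv.Set.univ F)

theorem card_XJ_triple {D : ChevalleyDatum} {adj : List (List ℤ)} (L : LOK D adj)
    (hcf : CF D F) {A : GAut} {φ : F →+* F} {i j k : ℕ} (h1 : orth2OK D i j = true)
    (h2 : orth2OK D i k = true) (h3 : orth2OK D j k = true) (hij : i ≠ j) (hik : i ≠ k)
    (hjk : j ≠ k) (hi : A.rho.getD i 0 = j) (hj : A.rho.getD j 0 = k)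
    (hk' : A.rho.getD k 0 = i) (hφ : ∀ t, φ (φ (φ t)) = t)
    (hk : ∀ m ∈ [i, j, k], ∃ l < D.rank, D.cartan l (D.simple m) = -1) :
    Nat.card ↥(XJ D L.u.m.w.add A φ [i, j, k]) = Nat.card F := by
  have h := orthR_triple (F := F) L.u.m hcf h1 h2 h3 hij hik hjk
  rw [card_XJ L h hk Set.univ
    (fun t m => if m = i then t else if m = j then φ t else φ (φ t)) (j₀ := i) (by simp)
    (fun t => by simp) (fun t _ => twc_triple hij hik hjk hi hj hk' (hφ t))
    (fun ts htw => by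
      have e1 := htw i (by simp)
      have e2 := htw j (by simp)
      rw [hi] at e1
      rw [hj, e1] at e2
      refine ⟨Set.mem_univ _, ?_⟩
      intro m hm
      simp only [List.mem_cons, List.not_mem_nil, or_false] at hm
      rcases hm with hm | hm | hm
      · rw [hm]
        simp
      · rw [hm]
        simp [hij.symm, e1]
      · rw [hm]
        simp [hik.symm, hjk.symm, e2])]
  exact Nat.card_congr (Equiv.Set.univ F)

theorem rootP_of {D : ChevalleyDatum} (M : MOK D) {J : List ℕ}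
    (hroot : ∀ r < D.nroots, D.nroots / 2 ≤ r →
      (∀ i < D.rank, i ∉ J → fcor D r i = 0) → ∃ j ∈ J, r = D.simple j) :
    ∀ r, D.IsPosRoot r → D.InRootSub {j | j ∈ J} r → ∃ j ∈ J, r = D.simple j := by
  intro r hr hin
  refine hroot r hin.1 ((isPos_iff M hin.1).mp hr) ?_
  intro i hi hiJ
  rw [fcor_eq M.w.fd]
  exact hin.2 i hi hiJ

theorem tw_card_U {D : ChevalleyDatum} {adj : List (List ℤ)} (L : LOK D adj) (hcf : CF D F)
    {G1 : Subgroup (GL D.Idx F)} {A : GAut} {φ : F →+* F} {bl : List (List ℕ)}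
    (T : TwData (D.borelSubgroup F) (D.monomialSubgroup F) G1 {J : List ℕ // J ∈ bl}
      (fun J => nWordU D L.u.m.w.add J.val) (fun J => XJ D L.u.m.w.add A φ J.val))
    (horth : ∀ J ∈ bl, OrthR D L.u.m.w.add F J)
    (hsgn : ∀ j < D.rank, nsgn D j (D.simple j) = -1)
    (hroot : ∀ J ∈ bl, ∀ r, D.IsPosRoot r → D.InRootSub {j | j ∈ J} r →
      ∃ j ∈ J, r = D.simple j)
    (bs : List (List ℕ)) (hbs : ∀ J ∈ bs, J ∈ bl) (hg : goodB D [] bs = true)
    (hlong : longOK D (finW [] bs) = true) (htails : ∀ k, goodB D [] (bs.drop k) = true)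
    (q : ℕ) (hcard : ∀ J ∈ bl, Nat.card ↥(XJ D L.u.m.w.add A φ J) = q ^ J.length) :
    Nat.card ↥(D.posUnipotent F ⊓ G1) = q ^ bs.flatten.length := by
  have M := L.u.m
  have hX : ∀ J ∈ bl, ∀ x ∈ XJ D L.u.m.w.add A φ J,
      x ∈ G1 ∧ ∃ ts : ℕ → F, x = pL J (xPf D L.u.m.w.add ts) := by
    intro J hJ x hx
    refine ⟨(T.hX ⟨J, hJ⟩ x hx).1, ?_⟩
    obtain ⟨ts, _, e⟩ := hx
    exact ⟨ts, e⟩
  have hs : ∀ J ∈ bl, nWordU D L.u.m.w.add J ∈ G1 := fun J hJ => (T.hs ⟨J, hJ⟩).2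
  have hlt : ∀ J ∈ bl, ∀ j ∈ J, j < D.rank := fun J hJ => (horth J hJ).2.1
  have e : nWordU (F := F) D L.u.m.w.add [] = 1 := by simp [nWordU]
  have hset : ((D.posUnipotent F ⊓ G1 : Subgroup (GL D.Idx F)) : Set (GL D.Idx F)) =
      Aset D L.u.m.w.add (XJ D L.u.m.w.add A φ) bs := by
    ext a
    constructor
    · intro ha
      exact Aset_cover L hcf G1 A φ bl horth hsgn hroot (fun J hJ x hx => (hX J hJ x hx).1) hs
        (fun J hJ b hb => T.hdec ⟨J, hJ⟩ b hb) bs [] hbs (by simp) hg hlong a ha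
        (by rw [e, inv_one, one_mul, mul_one]; exact mi1 ha)
    · intro ha
      obtain ⟨h1, h2⟩ := Aset_mem M G1 _ bl hX hs hlt bs [] hbs (by simp) hg a ha
      rw [e, inv_one, one_mul, mul_one] at h2
      exact mi h2 h1
  have hc := Aset_card M G1 _ bl hX hs hlt horth hsgn bs hbs htails
  have e1 : Nat.card ↥(D.posUnipotent F ⊓ G1) =
      Nat.card ↥(Aset D L.u.m.w.add (XJ D L.u.m.w.add A φ) bs) :=
    Nat.card_congr (Equiv.setCongr hset)
  rw [e1, hc, ← prod_pow_len]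
  congr 1
  apply List.map_congr_left
  intro J hJ
  exact hcard J (hbs J hJ)

end sem

end Cfsg.Agent.Helper7
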