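import Cfsg.Agent.Helper7.ChevTwOrd
import Cfsg.Agent.Helper7.ChevOrder

set_option autoImplicit false
set_option maxHeartbeats 4000000
set_option linter.unusedSectionVars false
set_option linter.unusedVariables false
open Cfsg

namespace Cfsg.Agent.Helper7

open Cfsg.Lie

theorem closed_of_cert (D : ChevalleyDatum) (bl : List (List ℕ)) (ws : List (List (List ℕ)))
    (cert : List (List ℕ))
    (h : ∀ i < ws.length, ∀ k < bl.length, (cert.getD i []).getD k 0 < ws.length ∧
      ∀ r < D.nroots, wApply D (bl.getD k [] ++ (ws.getD i []).flatten) r =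
        wApply D (ws.getD ((cert.getD i []).getD k 0) []).flatten r) :
    ∀ w ∈ ws, ∀ J ∈ bl, ∃ w' ∈ ws, ∀ r < D.nroots,
      wApply D (J ++ w.flatten) r = wApply D w'.flatten r := by
  intro w hw J hJ
  obtain ⟨i, hi, rfl⟩ := List.getElem_of_mem hw
  obtain ⟨k, hk, rfl⟩ := List.getElem_of_mem hJ
  obtain ⟨hc, hact⟩ := h i hi k hk
  refine ⟨ws.getD ((cert.getD i []).getD k 0) [], ?_, ?_⟩
  · rw [List.getD_eq_getElem _ _ hc]
    exact List.getElem_mem hc
  · have h2 := hact
    rw [List.getD_eq_getElem _ _ hi, List.getD_eq_getElem _ _ hk] at h2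
    exact h2

theorem inj_of_keys (D : ChevalleyDatum) (hs : ∀ i < D.rank, D.simple i < D.nroots)
    (ws : List (List (List ℕ)))
    (hk : (ws.map (fun w => (List.range D.rank).map
      (fun i => wApply D w.flatten (D.simple i)))).Nodup) :
    ∀ w ∈ ws, ∀ w' ∈ ws,
      (∀ r < D.nroots, wApply D w.flatten r = wApply D w'.flatten r) → w = w' := by
  intro w hw w' hw' h
  exact List.inj_on_of_nodup_map hk hw hw'
    (List.map_congr_left (fun i hi => h _ (hs i (List.mem_range.mp hi))))

theorem sum_pow_flat (ws : List (List (List ℕ))) (q : ℕ) :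
    (ws.map fun w => q ^ w.flatten.length).sum = cev (cpolyT (ws.map List.flatten)) q := by
  rw [cev_cpolyT, List.map_map]
  rfl

def incB : List ℕ → Bool
  | [] => true
  | [_] => true
  | a :: b :: l => Nat.blt a b && incB (b :: l)

theorem incB_pairwise : ∀ l : List ℕ, incB l = true → l.Pairwise (· < ·)
  | [], _ => List.Pairwise.nil
  | [a], _ => List.pairwise_singleton _ _
  | a :: b :: l, h => by
    rw [incB, Bool.and_eq_true] at h
    have hab : a < b := Nat.blt_eq.mp h.1
    have ih := incB_pairwise (b :: l) h.2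
    refine List.Pairwise.cons ?_ ih
    intro x hx
    rcases List.mem_cons.mp hx with rfl | hx'
    · exact hab
    · exact lt_trans hab ((List.pairwise_cons.mp ih).1 x hx')

theorem incB_nodup (l : List ℕ) (h : incB l = true) : l.Nodup :=
  (incB_pairwise l h).imp (fun hab => ne_of_lt hab)

def packN (a : List ℕ) : ℕ := a.foldr (fun x acc => x + 128 * acc) 0

theorem closed_of_acts (D : ChevalleyDatum) (bl : List (List ℕ)) (ws : List (List (List ℕ)))
    (cert : List (List ℕ)) (acts : List (List ℕ))
    (ha : ws.map (fun w => (List.range D.nroots).map (wApply D w.flatten)) = acts)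
    (h : ∀ i < ws.length, ∀ k < bl.length, (cert.getD i []).getD k 0 < ws.length ∧
      (acts.getD i []).map (wApply D (bl.getD k [])) =
        acts.getD ((cert.getD i []).getD k 0) []) :
    ∀ w ∈ ws, ∀ J ∈ bl, ∃ w' ∈ ws, ∀ r < D.nroots,
      wApply D (J ++ w.flatten) r = wApply D w'.flatten r := by
  subst ha
  intro w hw J hJ
  obtain ⟨i, hi, rfl⟩ := List.getElem_of_mem hw
  obtain ⟨k, hk, rfl⟩ := List.getElem_of_mem hJ
  obtain ⟨hc, hact⟩ := h i hi k hk
  refine ⟨ws[(cert.getD i []).getD k 0], List.getElem_mem hc, ?_⟩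
  have hi' : i < (ws.map (fun w => (List.range D.nroots).map (wApply D w.flatten))).length := by
    rw [List.length_map]
    exact hi
  have hc' : (cert.getD i []).getD k 0 <
      (ws.map (fun w => (List.range D.nroots).map (wApply D w.flatten))).length := by
    rw [List.length_map]
    exact hc
  rw [List.getD_eq_getElem _ _ hi', List.getD_eq_getElem _ _ hc', List.getElem_map,
    List.getElem_map, List.getD_eq_getElem _ _ hk, List.map_map] at hact
  intro r hr
  have h3 := (List.map_inj_left.mp hact) r (List.mem_range.mpr hr)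
  rw [wApply_append]
  exact h3

theorem inj_of_acts (D : ChevalleyDatum) (ws : List (List (List ℕ))) (acts : List (List ℕ))
    (ha : ws.map (fun w => (List.range D.nroots).map (wApply D w.flatten)) = acts)
    (hnd : acts.Nodup) :
    ws.Nodup ∧ ∀ w ∈ ws, ∀ w' ∈ ws,
      (∀ r < D.nroots, wApply D w.flatten r = wApply D w'.flatten r) → w = w' := by
  subst ha
  refine ⟨List.Nodup.of_map _ hnd, ?_⟩
  intro w hw w' hw' h
  exact List.inj_on_of_nodup_map hnd hw hw'
    (List.map_congr_left (fun r hr => h r (List.mem_range.mp hr)))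

end Cfsg.Agent.Helper7
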