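import Cfsg.Agent.Helper7.ChevCore

set_option autoImplicit false
set_option linter.unusedSectionVars false
set_option linter.unusedVariables false
open Cfsg

namespace Cfsg.Agent.Helper7

open Cfsg.Lie

def upOK (D : ChevalleyDatum) : Bool :=
  (List.range D.rank).all fun i =>
    (List.range (D.nroots - D.nroots / 2)).all fun k =>
      Nat.beq (D.nroots / 2 + k) (fsimple D i) ||
        ((D.commTerms (fsimple D i) (D.nroots / 2 + k)).all fun c =>
          Nat.ble (D.nroots / 2) c.1 && Nat.blt c.1 D.nroots && !(Nat.beq c.1 (fsimple D i))) &&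
        ((D.commTerms (fneg D (fsimple D i)) (D.nroots / 2 + k)).all fun c =>
          Nat.ble (D.nroots / 2) c.1 && Nat.blt c.1 D.nroots && !(Nat.beq c.1 (fsimple D i)))

def wposOK (D : ChevalleyDatum) : Bool :=
  (List.range D.rank).all fun i =>
    (List.range (D.nroots - D.nroots / 2)).all fun k =>
      Nat.beq (D.nroots / 2 + k) (fsimple D i) || Nat.ble (D.nroots / 2) (fw D i (D.nroots / 2 + k))

def negInvOK (D : ChevalleyDatum) : Bool :=
  (List.range D.nroots).all fun r => Nat.beq (fneg D (fneg D r)) r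

structure UOK (D : ChevalleyDatum) : Prop where
  m : MOK D
  up : upOK D = true
  wpos : wposOK D = true
  ninv : negInvOK D = true

theorem beq_false_ne {a b : ℕ} (h : Nat.beq a b = false) : a ≠ b := by
  intro e
  rw [e, Nat.beq_refl] at h
  exact Bool.noConfusion h

theorem upOK_spec {D : ChevalleyDatum} (h : fdOK D = true) (hu : upOK D = true) {i : ℕ}
    (hi : i < D.rank) {s : ℕ} (hs1 : D.nroots / 2 ≤ s) (hs2 : s < D.nroots)
    (hne : s ≠ D.simple i) :
    (∀ c ∈ D.commTerms (D.simple i) s,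
      D.nroots / 2 ≤ c.1 ∧ c.1 < D.nroots ∧ c.1 ≠ D.simple i) ∧
    (∀ c ∈ D.commTerms (D.neg (D.simple i)) s,
      D.nroots / 2 ≤ c.1 ∧ c.1 < D.nroots ∧ c.1 ≠ D.simple i) := by
  unfold upOK at hu
  rw [List.all_eq_true] at hu
  have h1 := hu i (List.mem_range.mpr hi)
  rw [List.all_eq_true] at h1
  have h2 := h1 (s - D.nroots / 2) (List.mem_range.mpr (by omega))
  rw [show D.nroots / 2 + (s - D.nroots / 2) = s by omega, fsimple_eq, fneg_eq h] at h2
  simp only [Bool.or_eq_true, Bool.and_eq_true, Nat.beq_eq, List.all_eq_true, Nat.ble_eq,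
    Nat.blt_eq, Bool.not_eq_true'] at h2
  rcases h2 with h2 | h2
  · exact absurd h2 hne
  · exact ⟨fun c hc => ⟨(h2.1 c hc).1.1, (h2.1 c hc).1.2, beq_false_ne (h2.1 c hc).2⟩,
      fun c hc => ⟨(h2.2 c hc).1.1, (h2.2 c hc).1.2, beq_false_ne (h2.2 c hc).2⟩⟩

theorem wposOK_spec {D : ChevalleyDatum} (hw : wposOK D = true) {i : ℕ}
    (hi : i < D.rank) {s : ℕ} (hs1 : D.nroots / 2 ≤ s) (hs2 : s < D.nroots)
    (hne : s ≠ D.simple i) : D.nroots / 2 ≤ fw D i s := by
  unfold wposOK at hw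
  rw [List.all_eq_true] at hw
  have h1 := hw i (List.mem_range.mpr hi)
  rw [List.all_eq_true] at h1
  have h2 := h1 (s - D.nroots / 2) (List.mem_range.mpr (by omega))
  rw [show D.nroots / 2 + (s - D.nroots / 2) = s by omega, fsimple_eq] at h2
  simp only [Bool.or_eq_true, Nat.beq_eq, Nat.ble_eq] at h2
  rcases h2 with h2 | h2
  · exact absurd h2 hne
  · exact h2

theorem neg_neg_root {D : ChevalleyDatum} (h : fdOK D = true) (hn : negInvOK D = true) {r : ℕ}
    (hr : r < D.nroots) : D.neg (D.neg r) = r := by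
  unfold negInvOK at hn
  rw [List.all_eq_true] at hn
  have h1 := hn r (List.mem_range.mpr hr)
  rw [Nat.beq_eq, fneg_eq h, fneg_eq h] at h1
  exact h1

section sem

variable {F : Type*} [Field F]

def CF (D : ChevalleyDatum) (F : Type*) [Field F] : Prop :=
  ∀ r < D.nroots, ∀ s < D.nroots, s ≠ r → s ≠ D.neg r → ∀ t u : F,
    D.x F s u * D.x F r t = D.x F r t * D.x F s u * D.wordMat F (D.commWord F r s t u)

theorem comm_xV {D : ChevalleyDatum} (ha : addCheck2 D = true) (hcf : CF D F) {r s : ℕ}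
    (hr : r < D.nroots) (hs : s < D.nroots) (h1 : s ≠ r) (h2 : s ≠ D.neg r) (t u : F) :
    xV D ha s u * xV D ha r t =
      xV D ha r t * xV D ha s u * wordU D ha (D.commWord F r s t u) := by
  apply Units.ext
  simp only [Units.val_mul, xV_val, wordU_val]
  exact hcf r hr s hs h1 h2 t u

theorem wordU_mem (D : ChevalleyDatum) (ha : addCheck2 D = true) (K : Subgroup (GL D.Idx F))
    (w : List (ℕ × F)) (h : ∀ p ∈ w, xV D ha p.1 p.2 ∈ K) : wordU D ha w ∈ K := by
  apply Subgroup.list_prod_mem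
  intro x hx
  rw [List.mem_map] at hx
  obtain ⟨p, hp, rfl⟩ := hx
  exact h p hp

def UpSet (D : ChevalleyDatum) (F : Type*) [Field F] (i : ℕ) : Set (GL D.Idx F) :=
  {g : GL D.Idx F | ∃ (s : ℕ) (t : F), D.IsPosRoot s ∧ s ≠ D.simple i ∧
    (g : Matrix D.Idx D.Idx F) = D.x F s t}

def Up (D : ChevalleyDatum) (F : Type*) [Field F] (i : ℕ) : Subgroup (GL D.Idx F) :=
  Subgroup.closure (UpSet D F i)

theorem xV_mem_Up {D : ChevalleyDatum} (ha : addCheck2 D = true) {i s : ℕ} (hs : D.IsPosRoot s)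
    (hne : s ≠ D.simple i) (t : F) : xV D ha s t ∈ Up D F i :=
  Subgroup.subset_closure ⟨s, t, hs, hne, xV_val D ha s t⟩

theorem simple_facts {D : ChevalleyDatum} (M : MOK D) {i : ℕ} (hi : i < D.rank) :
    D.simple i < D.nroots ∧ D.neg (D.simple i) < D.nroots ∧ D.nroots / 2 ≤ D.simple i ∧
      D.neg (D.simple i) < D.nroots / 2 := by
  obtain ⟨hp, hnp⟩ := simple_lt M.w.fd M.w.n hi
  exact ⟨hp, hnp, (isPos_iff M hp).mp (simplePos_spec M.spos hi),
    (posTriOK_spec M.ptri (simplePos_spec M.spos hi)).2.1⟩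

theorem conj_Up_gen {D : ChevalleyDatum} (U : UOK D) (hcf : CF D F) {i : ℕ} (hi : i < D.rank)
    {r : ℕ} (hr : r = D.simple i ∨ r = D.neg (D.simple i)) (t : F) :
    ∀ x ∈ UpSet D F i, xV D U.m.w.add r t * x * (xV D U.m.w.add r t)⁻¹ ∈ Up D F i := by
  rintro x ⟨s, u, hs, hne, hx⟩
  have ex : x = xV D U.m.w.add s u := Units.ext (by rw [hx, xV_val])
  obtain ⟨hp, hnp, hpos, hnegp⟩ := simple_facts U.m hi
  have hs1 : D.nroots / 2 ≤ s := (isPos_iff U.m hs.1).mp hs
  have hrlt : r < D.nroots := by rcases hr with rfl | rfl <;> assumption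
  have hsr : s ≠ r := by
    rcases hr with rfl | rfl
    · exact hne
    · omega
  have hsnr : s ≠ D.neg r := by
    rcases hr with rfl | rfl
    · omega
    · rw [neg_neg_root U.m.w.fd U.ninv hp]
      exact hne
  have hterms : ∀ c ∈ D.commTerms r s,
      D.nroots / 2 ≤ c.1 ∧ c.1 < D.nroots ∧ c.1 ≠ D.simple i := by
    obtain ⟨h1, h2⟩ := upOK_spec U.m.w.fd U.up hi hs1 hs.1 hne
    rcases hr with rfl | rfl
    · exact h1
    · exact h2
  have e := comm_xV U.m.w.add hcf hrlt hs.1 hsr hsnr (-t) u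
  have e2 : xV D U.m.w.add r t * xV D U.m.w.add s u * (xV D U.m.w.add r t)⁻¹ =
      xV D U.m.w.add s u * wordU D U.m.w.add (D.commWord F r s (-t) u) := by
    rw [xV_inv D U.m.w.add hrlt, mul_assoc, e, ← mul_assoc, ← mul_assoc,
      xV_add D U.m.w.add hrlt, add_neg_cancel, xV_zero, one_mul]
  rw [ex, e2]
  apply mul_mem (xV_mem_Up U.m.w.add hs hne u)
  apply wordU_mem
  intro p hp
  unfold ChevalleyDatum.commWord at hp
  rw [List.mem_map] at hp
  obtain ⟨c, hc, rfl⟩ := hp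
  obtain ⟨h1, h2, h3⟩ := hterms c hc
  exact xV_mem_Up U.m.w.add ((isPos_iff U.m h2).mpr h1) h3 _

theorem xV_mem_normalizer_Up {D : ChevalleyDatum} (U : UOK D) (hcf : CF D F) {i : ℕ}
    (hi : i < D.rank) {r : ℕ} (hr : r = D.simple i ∨ r = D.neg (D.simple i)) (t : F) :
    xV D U.m.w.add r t ∈ Subgroup.normalizer (Up D F i : Set (GL D.Idx F)) := by
  obtain ⟨hp, hnp, hpos, hnegp⟩ := simple_facts U.m hi
  have hrlt : r < D.nroots := by rcases hr with rfl | rfl <;> assumption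
  rw [Subgroup.mem_normalizer_iff]
  intro h
  constructor
  · intro hh
    exact conj_closure _ _ _ (conj_Up_gen U hcf hi hr t) h hh
  · intro hh
    have h1 := conj_closure _ _ _ (conj_Up_gen U hcf hi hr (-t)) _ hh
    rw [← xV_inv D U.m.w.add hrlt] at h1
    have h2 : (xV D U.m.w.add r t)⁻¹ *
        (xV D U.m.w.add r t * h * (xV D U.m.w.add r t)⁻¹) * (xV D U.m.w.add r t)⁻¹⁻¹ = h := by
      group
    rw [h2] at h1
    exact h1

theorem root_le_normalizer_Up {D : ChevalleyDatum} (U : UOK D) (hcf : CF D F) {i : ℕ}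
    (hi : i < D.rank) {r : ℕ} (hr : r = D.simple i ∨ r = D.neg (D.simple i)) :
    D.rootSubgroup F r ≤ Subgroup.normalizer (Up D F i : Set (GL D.Idx F)) := by
  unfold ChevalleyDatum.rootSubgroup
  rw [Subgroup.closure_le]
  rintro g ⟨t, hg⟩
  have e : g = xV D U.m.w.add r t := Units.ext (by rw [hg, xV_val])
  rw [e]
  exact xV_mem_normalizer_Up U hcf hi hr t

theorem Up_sup_root {D : ChevalleyDatum} (U : UOK D) {i : ℕ} (hi : i < D.rank) :
    Up D F i ⊔ D.rootSubgroup F (D.simple i) = D.posUnipotent F := by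
  apply le_antisymm
  · apply sup_le
    · unfold Up
      rw [Subgroup.closure_le]
      rintro g ⟨s, t, hs, _, hg⟩
      exact Subgroup.subset_closure ⟨s, t, hs, hg⟩
    · unfold ChevalleyDatum.rootSubgroup
      rw [Subgroup.closure_le]
      rintro g ⟨t, hg⟩
      exact Subgroup.subset_closure ⟨D.simple i, t, simplePos_spec U.m.spos hi, hg⟩
  · unfold ChevalleyDatum.posUnipotent
    rw [Subgroup.closure_le]
    rintro g ⟨s, t, hs, hg⟩
    by_cases hne : s = D.simple i
    · apply (le_sup_right : D.rootSubgroup F (D.simple i) ≤ _)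
      apply Subgroup.subset_closure
      exact ⟨t, by rw [hg, hne]⟩
    · apply (le_sup_left : Up D F i ≤ _)
      exact Subgroup.subset_closure ⟨s, t, hs, hne, hg⟩

theorem mem_rootSubgroup (D : ChevalleyDatum) (ha : addCheck2 D = true) {r : ℕ}
    (hr : r < D.nroots) {g : GL D.Idx F} (hg : g ∈ D.rootSubgroup F r) :
    ∃ t : F, g = xV D ha r t := by
  unfold ChevalleyDatum.rootSubgroup at hg
  induction hg using Subgroup.closure_induction with
  | mem x hx =>
    obtain ⟨t, ht⟩ := hx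
    exact ⟨t, Units.ext (by rw [ht, xV_val])⟩
  | one => exact ⟨0, (xV_zero D ha r).symm⟩
  | mul a b _ _ ha' hb' =>
    obtain ⟨t, rfl⟩ := ha'
    obtain ⟨u, rfl⟩ := hb'
    exact ⟨t + u, xV_add D ha hr t u⟩
  | inv a _ ha' =>
    obtain ⟨t, rfl⟩ := ha'
    exact ⟨-t, xV_inv D ha hr t⟩

theorem U_dec {D : ChevalleyDatum} (U : UOK D) (hcf : CF D F) {i : ℕ} (hi : i < D.rank)
    {u : GL D.Idx F} (hu : u ∈ D.posUnipotent F) :
    ∃ u' ∈ Up D F i, ∃ t : F, u = u' * xV D U.m.w.add (D.simple i) t := by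
  obtain ⟨hp, hnp, hpos, hnegp⟩ := simple_facts U.m hi
  have hXN := root_le_normalizer_Up U hcf hi (Or.inl rfl : D.simple i = D.simple i ∨ _)
  have hu' : u ∈ ((Up D F i ⊔ D.rootSubgroup F (D.simple i) : Subgroup (GL D.Idx F)) :
      Set (GL D.Idx F)) := by
    rw [Up_sup_root U hi]
    exact hu
  rw [Subgroup.coe_mul_of_right_le_normalizer_left _ _ hXN, Set.mem_mul] at hu'
  obtain ⟨u', hu'', x, hx, e⟩ := hu'
  obtain ⟨t, rfl⟩ := mem_rootSubgroup D U.m.w.add hp hx
  exact ⟨u', hu'', t, e.symm⟩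

theorem nconj_Up {D : ChevalleyDatum} (U : UOK D) {i : ℕ} (hi : i < D.rank) :
    ∀ u ∈ Up D F i, nV D U.m.w.add (D.simple i) (1 : F) * u *
      (nV D U.m.w.add (D.simple i) (1 : F))⁻¹ ∈ D.posUnipotent F := by
  apply conj_closure
  rintro x ⟨s, t, hs, hne, hx⟩
  have ex : x = xV D U.m.w.add s t := Units.ext (by rw [hx, xV_val])
  rw [ex, xV_conj U.m hi hs.1]
  have hws := (w_facts U.m.w.n hi hs.1).1
  exact xV_mem_posU U.m.w.add ((isPos_iff U.m hws).mpr
    (wposOK_spec U.wpos hi ((isPos_iff U.m hs.1).mp hs) hs.1 hne)) _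

end sem

end Cfsg.Agent.Helper7
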