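import Cfsg.Agent.Helper7.ChevDiag
import Cfsg.Agent.Helper7.ChevRoot
import Cfsg.Agent.Helper7.ChevAdd
import Cfsg.Agent.Helper7.ChevTri

set_option autoImplicit false
set_option linter.unusedSectionVars false
set_option linter.unusedVariables false
open Cfsg

namespace Cfsg.Agent.Helper7

open Cfsg.Lie

structure WOK (D : ChevalleyDatum) : Prop where
  fd : fdOK D = true
  n : nOK D = true
  g : gOK D = true
  hc : hCheck D = true
  ta : taOK D = true
  add : addCheck2 D = true
  reach : reachOK D = true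

def Bm (D : ChevalleyDatum) (m : ℕ → ℤ) (s : ℕ) : ℤ :=
  ∑ j ∈ Finset.range D.rank, m j * D.cartan j s

theorem w_facts {D : ChevalleyDatum} (hn : nOK D = true) {i : ℕ} (hi : i < D.rank) {s : ℕ}
    (hs : s < D.nroots) :
    fw D i s < D.nroots ∧ fneg D s < D.nroots ∧ fw D i (fw D i s) = s ∧
      fw D i (fneg D s) = fneg D (fw D i s) ∧ nsgn D i (fneg D s) = nsgn D i s := by
  obtain ⟨_, hall⟩ := nOK_spec hn
  have hwc := (hall i hi).2.2.2.1
  obtain ⟨h1, h2, h3, h4, h5⟩ := wCheck1_spec hwc hs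
  refine ⟨?_, h2, h3, h4, ?_⟩
  · rw [fw_eq hn hi hs]
    exact h1
  · unfold nsgn
    rw [h5]

theorem simple_lt {D : ChevalleyDatum} (h : fdOK D = true) (hn : nOK D = true) {i : ℕ}
    (hi : i < D.rank) : D.simple i < D.nroots ∧ D.neg (D.simple i) < D.nroots := by
  obtain ⟨_, hall⟩ := nOK_spec hn
  obtain ⟨hp, hnp, _, _, _⟩ := hall i hi
  rw [fneg_eq h] at hnp
  exact ⟨hp, hnp⟩

theorem cartan_refl {D : ChevalleyDatum} (W : WOK D) {i : ℕ} (hi : i < D.rank) {u : ℕ}
    (hu : u < D.nroots) {j : ℕ} (hj : j < D.rank) :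
    D.cartan j (fw D i u) = D.cartan j u - D.cartan j (D.simple i) * D.cartan i u := by
  obtain ⟨hwu, _, hinv, _, _⟩ := w_facts W.n hi hu
  have hgi : gCheck1 D i = true := by
    have := W.g
    unfold gOK at this
    rw [List.all_eq_true] at this
    exact this i (List.mem_range.mpr hi)
  have := (gCheck1_spec hgi hwu).1 j hj
  rw [hinv, fcar_eq W.fd, fcar_eq W.fd, fcar_eq W.fd, fcar_eq W.fd, fsimple_eq] at this
  exact this

theorem Bm_single (D : ChevalleyDatum) {j : ℕ} (hj : j < D.rank) (u : ℕ) :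
    Bm D (fun k => if k = j then 1 else 0) u = D.cartan j u := by
  unfold Bm
  simp only [ite_mul, one_mul, zero_mul]
  rw [Finset.sum_ite_eq', if_pos (Finset.mem_range.mpr hj)]

theorem Bm_refl {D : ChevalleyDatum} (W : WOK D) {i : ℕ} (hi : i < D.rank) (m : ℕ → ℤ) {u : ℕ}
    (hu : u < D.nroots) :
    Bm D m (fw D i u) =
      Bm D (fun k => m k - if k = i then Bm D m (D.simple i) else 0) u := by
  unfold Bm
  have h1 : ∀ j ∈ Finset.range D.rank, m j * D.cartan j (fw D i u) =
      m j * D.cartan j u - (m j * D.cartan j (D.simple i)) * D.cartan i u := by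
    intro j hj
    rw [cartan_refl W hi hu (Finset.mem_range.mp hj)]
    ring
  have h2 : ∀ j ∈ Finset.range D.rank,
      (m j - if j = i then ∑ k ∈ Finset.range D.rank, m k * D.cartan k (D.simple i) else 0) *
        D.cartan j u = m j * D.cartan j u -
        (if j = i then (∑ k ∈ Finset.range D.rank, m k * D.cartan k (D.simple i)) * D.cartan j u
          else 0) := by
    intro j _
    split_ifs <;> ring
  rw [Finset.sum_congr rfl h1, Finset.sum_congr rfl h2, Finset.sum_sub_distrib,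
    Finset.sum_sub_distrib, ← Finset.sum_mul, Finset.sum_ite_eq',
    if_pos (Finset.mem_range.mpr hi)]

section sem

variable {F : Type*} [Field F]

theorem x_add {D : ChevalleyDatum} (ha : addCheck2 D = true) {r : ℕ} (hr : r < D.nroots)
    (a b : F) : D.x F r a * D.x F r b = D.x F r (a + b) := by
  rw [x_of_lt D F hr, x_of_lt D F hr, x_of_lt D F hr]
  exact xMat_add D ha ⟨r, hr⟩ a b

theorem x_zero (D : ChevalleyDatum) (r : ℕ) : D.x F r (0 : F) = 1 := by
  unfold ChevalleyDatum.x
  split_ifs with h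
  · exact xMat_zero D F ⟨r, h⟩
  · rfl

def xU (D : ChevalleyDatum) (ha : addCheck2 D = true) (r : ℕ) (hr : r < D.nroots) (t : F) :
    GL D.Idx F where
  val := D.x F r t
  inv := D.x F r (-t)
  val_inv := by rw [x_add ha hr, add_neg_cancel, x_zero]
  inv_val := by rw [x_add ha hr, neg_add_cancel, x_zero]

theorem xU_val (D : ChevalleyDatum) (ha : addCheck2 D = true) (r : ℕ) (hr : r < D.nroots)
    (t : F) : (xU D ha r hr t : Matrix D.Idx D.Idx F) = D.x F r t := rfl

theorem wordMat_nil (D : ChevalleyDatum) : D.wordMat F ([] : List (ℕ × F)) = 1 := by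
  simp [ChevalleyDatum.wordMat]

theorem wordMat_cons (D : ChevalleyDatum) (p : ℕ × F) (w : List (ℕ × F)) :
    D.wordMat F (p :: w) = D.x F p.1 p.2 * D.wordMat F w := by
  simp [ChevalleyDatum.wordMat]

theorem wordMat_append (D : ChevalleyDatum) (w w' : List (ℕ × F)) :
    D.wordMat F (w ++ w') = D.wordMat F w * D.wordMat F w' := by
  simp [ChevalleyDatum.wordMat]

theorem nMat_eq (D : ChevalleyDatum) (r : ℕ) (t : F) :
    D.nMat F r t = D.x F r t * (D.x F (D.neg r) (-t⁻¹) * D.x F r t) := by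
  unfold ChevalleyDatum.nMat ChevalleyDatum.nWord
  rw [wordMat_cons, wordMat_cons, wordMat_cons, wordMat_nil, mul_one]

theorem nMat_mul_neg {D : ChevalleyDatum} (ha : addCheck2 D = true) {r : ℕ} (hr : r < D.nroots)
    (hnr : D.neg r < D.nroots) (t : F) : D.nMat F r t * D.nMat F r (-t) = 1 := by
  rw [nMat_eq, nMat_eq]
  have e1 : -(-t)⁻¹ = -(-(t⁻¹)) := by rw [inv_neg]
  rw [e1]
  have hA : D.x F r t * D.x F r (-t) = 1 := by rw [x_add ha hr, add_neg_cancel, x_zero]
  have hB : D.x F (D.neg r) (-t⁻¹) * D.x F (D.neg r) (-(-t⁻¹)) = 1 := by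
    rw [x_add ha hnr, add_neg_cancel, x_zero]
  calc D.x F r t * (D.x F (D.neg r) (-t⁻¹) * D.x F r t) *
        (D.x F r (-t) * (D.x F (D.neg r) (-(-t⁻¹)) * D.x F r (-t)))
      = D.x F r t * (D.x F (D.neg r) (-t⁻¹) * ((D.x F r t * D.x F r (-t)) *
          (D.x F (D.neg r) (-(-t⁻¹)) * D.x F r (-t)))) := by simp only [mul_assoc]
    _ = D.x F r t * ((D.x F (D.neg r) (-t⁻¹) * D.x F (D.neg r) (-(-t⁻¹))) * D.x F r (-t)) := by
        rw [hA, one_mul, mul_assoc]
    _ = 1 := by rw [hB, one_mul, hA]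

theorem nMat_neg_mul {D : ChevalleyDatum} (ha : addCheck2 D = true) {r : ℕ} (hr : r < D.nroots)
    (hnr : D.neg r < D.nroots) (t : F) : D.nMat F r (-t) * D.nMat F r t = 1 := by
  have := nMat_mul_neg (F := F) ha hr hnr (-t)
  rwa [neg_neg] at this

def nU (D : ChevalleyDatum) (ha : addCheck2 D = true) (r : ℕ) (hr : r < D.nroots)
    (hnr : D.neg r < D.nroots) (t : F) : GL D.Idx F where
  val := D.nMat F r t
  inv := D.nMat F r (-t)
  val_inv := nMat_mul_neg ha hr hnr t
  inv_val := nMat_neg_mul ha hr hnr t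

theorem nconj_word {D : ChevalleyDatum} (h : fdOK D = true) (hn : nOK D = true)
    (hg : gOK D = true) {i : ℕ} (hi : i < D.rank) (w : List (ℕ × F))
    (hw : ∀ p ∈ w, p.1 < D.nroots) :
    D.nMat F (D.simple i) 1 * D.wordMat F w =
      D.wordMat F (w.map fun p => (fw D i p.1, ((nsgn D i p.1 : ℤ) : F) * p.2)) *
        D.nMat F (D.simple i) 1 := by
  induction w with
  | nil => rw [List.map_nil, wordMat_nil, mul_one, one_mul]
  | cons p w ih =>
    rw [wordMat_cons, List.map_cons, wordMat_cons, ← mul_assoc,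
      nconj h hn hg hi (hw p List.mem_cons_self), mul_assoc,
      ih (fun q hq => hw q (List.mem_cons_of_mem _ hq)), mul_assoc]

theorem nDg {D : ChevalleyDatum} (h : fdOK D = true) (hn : nOK D = true) {i : ℕ}
    (hi : i < D.rank) (d : ℕ → Fˣ) :
    D.nMat F (D.simple i) 1 * (DgU D d : Matrix D.Idx D.Idx F) =
      (DgU D (fun u => d (fw D i u)) : Matrix D.Idx D.Idx F) * D.nMat F (D.simple i) 1 := by
  ext a b
  rw [DgU_val, DgU_val, Matrix.mul_diagonal, Matrix.diagonal_mul,
    ncol_sound h hn hi (0 : F) 0 a b]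
  rcases b with j | s
  · have hb : code D (Sum.inl j) = j.val := rfl
    rw [hb, ncol_h i j.isLt]
    rcases a with k | u
    · simp [dgv]
    · have h1 : ¬ j.val = D.rank + u.val := by have := j.isLt; omega
      have h2 : ¬ i = D.rank + u.val := by omega
      simp [semAt_cons', semAt_nil, ind, code, h1, h2]
  · have hb : code D (Sum.inr s) = D.rank + s.val := rfl
    rw [hb, ncol_root i s.isLt, semAt_single]
    rcases a with k | u
    · have h1 : ¬ D.rank + fw D i s.val = k.val := by have := k.isLt; omega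
      simp [code, h1]
    · by_cases hu : fw D i s.val = u.val
      · simp only [dgv, Sum.elim_inr]
        rw [← hu, (w_facts hn hi s.isLt).2.2.1]
        ring
      · simp [code, hu]

theorem hMat_step {D : ChevalleyDatum} (W : WOK D) {i : ℕ} (hi : i < D.rank) {s : ℕ}
    (hs : s < D.nroots) (m : ℕ → ℤ)
    (hP : ∀ c : Fˣ, D.hMat F s (c : F) =
      (DgU D (fun u => c ^ Bm D m u) : Matrix D.Idx D.Idx F)) :
    ∀ c : Fˣ, D.hMat F (fw D i s) (c : F) =
      (DgU D (fun u => c ^ Bm D m (fw D i u)) : Matrix D.Idx D.Idx F) := by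
  obtain ⟨hws, hns, hinv, hwn, hsg⟩ := w_facts W.n hi hs
  have hnws : D.neg (fw D i s) < D.nroots := by
    rw [← fneg_eq W.fd]
    exact (w_facts W.n hi hws).2.1
  obtain ⟨hp, hnp⟩ := simple_lt W.fd W.n hi
  have hNN : D.nMat F (D.simple i) 1 * D.nMat F (D.simple i) (-1) = 1 :=
    nMat_mul_neg W.add hp hnp 1
  have hmap : ∀ c : F, (D.hWord s c).map
      (fun p => (fw D i p.1, ((nsgn D i p.1 : ℤ) : F) * p.2)) =
      [(fw D i s, ((nsgn D i s : ℤ) : F) * c),
       (D.neg (fw D i s), ((nsgn D i s : ℤ) : F) * (-c⁻¹)),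
       (fw D i s, ((nsgn D i s : ℤ) : F) * c),
       (fw D i s, ((nsgn D i s : ℤ) : F) * (-1)),
       (D.neg (fw D i s), ((nsgn D i s : ℤ) : F) * (-(-1 : F)⁻¹)),
       (fw D i s, ((nsgn D i s : ℤ) : F) * (-1))] := by
    intro c
    have h1 : fw D i (D.neg s) = D.neg (fw D i s) := by
      rw [← fneg_eq W.fd, ← fneg_eq W.fd]
      exact hwn
    have h2 : nsgn D i (D.neg s) = nsgn D i s := by
      rw [← fneg_eq W.fd]
      exact hsg
    simp only [ChevalleyDatum.hWord, ChevalleyDatum.nWord, List.cons_append, List.nil_append,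
      List.map_cons, List.map_nil, h1, h2]
  have key : ∀ c : Fˣ, D.wordMat F ((D.hWord s (c : F)).map
      fun p => (fw D i p.1, ((nsgn D i p.1 : ℤ) : F) * p.2)) =
      (DgU D (fun u => c ^ Bm D m (fw D i u)) : Matrix D.Idx D.Idx F) := by
    intro c
    have e1 := nconj_word W.fd W.n W.g hi (D.hWord s (c : F)) (by
      intro p hp'
      simp only [ChevalleyDatum.hWord, ChevalleyDatum.nWord, List.cons_append, List.nil_append,
        List.mem_cons, List.not_mem_nil, or_false] at hp'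
      have hns' : D.neg s < D.nroots := by
        rw [← fneg_eq W.fd]
        exact hns
      rcases hp' with rfl | rfl | rfl | rfl | rfl | rfl <;> assumption)
    have e2 : D.wordMat F (D.hWord s (c : F)) = D.hMat F s (c : F) := rfl
    rw [e2, hP c, nDg W.fd W.n hi] at e1
    have e3 := congrArg (fun M => M * D.nMat F (D.simple i) (-1)) e1
    simp only [mul_assoc, hNN, mul_one] at e3
    exact e3.symm
  intro c
  rcases sg_cases (nbit D i s) with h1 | h1
  · have hη : nsgn D i s = 1 := h1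
    have e := key c
    rw [hmap, hη] at e
    simp only [Int.cast_one, one_mul] at e
    exact e
  · have hη : nsgn D i s = -1 := h1
    have E : ∀ c : Fˣ, D.nMat F (fw D i s) (-(c : F)) * D.nMat F (fw D i s) 1 =
        (DgU D (fun u => c ^ Bm D m (fw D i u)) : Matrix D.Idx D.Idx F) := by
      intro c
      have e := key c
      rw [hmap, hη] at e
      rw [← e, nMat_eq, nMat_eq]
      simp only [wordMat_cons, wordMat_nil, mul_one, Int.cast_neg, Int.cast_one, neg_mul, one_mul,
        neg_neg, inv_neg, inv_one, mul_assoc]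
    have hY' : D.nMat F (fw D i s) (-1) * D.nMat F (fw D i s) 1 = 1 :=
      nMat_neg_mul W.add hws hnws 1
    have e1 := E (-c)
    rw [Units.val_neg, neg_neg] at e1
    have e2 := E (-1)
    rw [Units.val_neg, Units.val_one, neg_neg] at e2
    have e3 : D.hMat F (fw D i s) (c : F) =
        D.nMat F (fw D i s) (c : F) * D.nMat F (fw D i s) (-1) := by
      unfold ChevalleyDatum.hMat ChevalleyDatum.hWord
      rw [wordMat_append]
      rfl
    have e4 : D.hMat F (fw D i s) (c : F) *
        (DgU D (fun u => (-1 : Fˣ) ^ Bm D m (fw D i u)) : Matrix D.Idx D.Idx F) =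
        (DgU D (fun u => (-c) ^ Bm D m (fw D i u)) : Matrix D.Idx D.Idx F) := by
      rw [e3, ← e2, ← e1]
      calc D.nMat F (fw D i s) (c : F) * D.nMat F (fw D i s) (-1) *
            (D.nMat F (fw D i s) 1 * D.nMat F (fw D i s) 1)
          = D.nMat F (fw D i s) (c : F) * ((D.nMat F (fw D i s) (-1) * D.nMat F (fw D i s) 1) *
              D.nMat F (fw D i s) 1) := by simp only [mul_assoc]
        _ = D.nMat F (fw D i s) (c : F) * D.nMat F (fw D i s) 1 := by rw [hY', one_mul]
    have e5 : D.hMat F (fw D i s) (c : F) =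
        ((DgU D (fun u => (-c) ^ Bm D m (fw D i u)) *
          (DgU D (fun u => (-1 : Fˣ) ^ Bm D m (fw D i u)))⁻¹ : GL D.Idx F) :
            Matrix D.Idx D.Idx F) := by
      rw [Units.val_mul, ← e4, mul_assoc, ← Units.val_mul, mul_inv_cancel, Units.val_one, mul_one]
    rw [e5, DgU_inv, DgU_mul]
    refine congrArg Units.val (DgU_congr D (fun u _ => ?_))
    show (-c) ^ Bm D m (fw D i u) * ((-1 : Fˣ) ^ Bm D m (fw D i u))⁻¹ = c ^ Bm D m (fw D i u)
    rw [← inv_zpow, ← mul_zpow]
    congr 1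
    apply Units.ext
    simp

theorem hMat_all {D : ChevalleyDatum} (W : WOK D) {r : ℕ} (hr : r < D.nroots) :
    ∃ m : ℕ → ℤ, ∀ c : Fˣ, D.hMat F r (c : F) =
      (DgU D (fun u => c ^ Bm D m u) : Matrix D.Idx D.Idx F) := by
  apply root_induction W.reach (fun r => ∃ m : ℕ → ℤ, ∀ c : Fˣ, D.hMat F r (c : F) =
      (DgU D (fun u => c ^ Bm D m u) : Matrix D.Idx D.Idx F))
  · intro j hj
    refine ⟨fun k => if k = j then 1 else 0, fun c => ?_⟩
    rw [hMat_simple_U W.fd W.hc hj c]
    exact congrArg Units.val (DgU_congr D (fun u _ => by rw [Bm_single D hj]))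
  · rintro i hi s hs ⟨m, hm⟩
    refine ⟨fun k => m k - if k = i then Bm D m (D.simple i) else 0, fun c => ?_⟩
    rw [hMat_step W hi hs m hm c]
    exact congrArg Units.val (DgU_congr D (fun u hu => by rw [Bm_refl W hi m hu]))
  · exact hr

theorem zpow_finsum (c : Fˣ) (n : ℕ) (f : ℕ → ℤ) :
    c ^ (∑ j ∈ Finset.range n, f j) = ∏ j ∈ Finset.range n, c ^ f j := by
  induction n with
  | zero => simp
  | succ n ih => rw [Finset.sum_range_succ, Finset.prod_range_succ, zpow_add, ih]

theorem zpow_Bm (D : ChevalleyDatum) (c : Fˣ) (m : ℕ → ℤ) (s : ℕ) :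
    c ^ Bm D m s = chi D (fun j => c ^ m j) s := by
  unfold Bm chi
  rw [zpow_finsum]
  exact Finset.prod_congr rfl (fun j _ => zpow_mul _ _ _)

def chiN (D : ChevalleyDatum) (n : ℕ) (z : ℕ → Fˣ) (s : ℕ) : Fˣ :=
  ∏ j ∈ Finset.range n, z j ^ D.cartan j s

theorem chi_mul (D : ChevalleyDatum) (z z' : ℕ → Fˣ) (s : ℕ) :
    chi D (fun j => z j * z' j) s = chi D z s * chi D z' s := by
  unfold chi
  rw [← Finset.prod_mul_distrib]
  exact Finset.prod_congr rfl (fun j _ => mul_zpow _ _ _)

theorem chi_one (D : ChevalleyDatum) (s : ℕ) : chi D (fun _ => (1 : Fˣ)) s = 1 := by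
  unfold chi
  exact Finset.prod_eq_one (fun j _ => one_zpow _)

theorem chi_inv (D : ChevalleyDatum) (z : ℕ → Fˣ) (s : ℕ) :
    chi D (fun j => (z j)⁻¹) s = (chi D z s)⁻¹ := by
  unfold chi
  rw [← Finset.prod_inv_distrib]
  exact Finset.prod_congr rfl (fun j _ => inv_zpow _ _)

def torus (D : ChevalleyDatum) (F : Type*) [Field F] : Subgroup (GL D.Idx F) where
  carrier := {g | ∃ z : ℕ → Fˣ, g = DgU D (chi D z)}
  mul_mem' := by
    rintro a b ⟨z, rfl⟩ ⟨z', rfl⟩
    refine ⟨fun j => z j * z' j, ?_⟩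
    rw [DgU_mul]
    exact DgU_congr D (fun s _ => (chi_mul D z z' s).symm)
  one_mem' := ⟨fun _ => 1, by
    rw [← DgU_one]
    exact DgU_congr D (fun s _ => (chi_one D s).symm)⟩
  inv_mem' := by
    rintro a ⟨z, rfl⟩
    refine ⟨fun j => (z j)⁻¹, ?_⟩
    rw [DgU_inv]
    exact DgU_congr D (fun s _ => (chi_inv D z s).symm)

theorem mem_torus {D : ChevalleyDatum} {g : GL D.Idx F} :
    g ∈ torus D F ↔ ∃ z : ℕ → Fˣ, g = DgU D (chi D z) := Iff.rfl

theorem torus_comm {D : ChevalleyDatum} {a b : GL D.Idx F} (ha : a ∈ torus D F)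
    (hb : b ∈ torus D F) : a * b = b * a := by
  obtain ⟨z, rfl⟩ := ha
  obtain ⟨z', rfl⟩ := hb
  rw [DgU_mul, DgU_mul]
  exact DgU_congr D (fun s _ => mul_comm _ _)

theorem DgU_chiN_zero (D : ChevalleyDatum) (z : ℕ → Fˣ) : DgU D (chiN D 0 z) = 1 := by
  rw [← DgU_one]
  exact DgU_congr D (fun s _ => by unfold chiN; rw [Finset.prod_range_zero])

theorem DgU_chiN_succ (D : ChevalleyDatum) (z : ℕ → Fˣ) (n : ℕ) :
    DgU D (chiN D (n + 1) z) = DgU D (chiN D n z) * DgU D (fun s => z n ^ D.cartan n s) := by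
  rw [DgU_mul]
  exact DgU_congr D (fun s _ => by unfold chiN; rw [Finset.prod_range_succ])

theorem diag_eq_torus {D : ChevalleyDatum} (W : WOK D) : D.diagonalSubgroup F = torus D F := by
  apply le_antisymm
  · unfold ChevalleyDatum.diagonalSubgroup
    rw [Subgroup.closure_le]
    rintro g ⟨r, t, hr, ht, hg⟩
    obtain ⟨m, hm⟩ := hMat_all (F := F) W hr
    refine ⟨fun j => (Units.mk0 t ht) ^ m j, ?_⟩
    apply Units.ext
    rw [hg]
    have e := hm (Units.mk0 t ht)
    rw [Units.val_mk0] at e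
    rw [e]
    exact congrArg Units.val (DgU_congr D (fun s _ => zpow_Bm D _ m s))
  · rintro g ⟨z, rfl⟩
    have key : ∀ n ≤ D.rank, DgU D (chiN D n z) ∈ D.diagonalSubgroup F := by
      intro n
      induction n with
      | zero =>
        intro _
        rw [DgU_chiN_zero]
        exact one_mem _
      | succ n ih =>
        intro hn
        rw [DgU_chiN_succ]
        apply mul_mem (ih (by omega))
        apply Subgroup.subset_closure
        exact ⟨D.simple n, (z n : F), (simple_lt W.fd W.n (by omega)).1, (z n).ne_zero,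
          (hMat_simple_U W.fd W.hc (by omega) (z n)).symm⟩
    exact key D.rank le_rfl

theorem hMat_mul {D : ChevalleyDatum} (W : WOK D) {r : ℕ} (hr : r < D.nroots) (t₁ t₂ : F)
    (h₁ : t₁ ≠ 0) (h₂ : t₂ ≠ 0) : D.hMat F r t₁ * D.hMat F r t₂ = D.hMat F r (t₁ * t₂) := by
  obtain ⟨m, hm⟩ := hMat_all (F := F) W hr
  have e1 := hm (Units.mk0 t₁ h₁)
  have e2 := hm (Units.mk0 t₂ h₂)
  have e3 := hm (Units.mk0 t₁ h₁ * Units.mk0 t₂ h₂)
  rw [Units.val_mk0] at e1 e2
  rw [Units.val_mul, Units.val_mk0, Units.val_mk0] at e3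
  rw [e1, e2, e3, ← Units.val_mul, DgU_mul]
  exact congrArg Units.val (DgU_congr D (fun s _ => (mul_zpow _ _ _).symm))

theorem wordMat_flatMap_h {D : ChevalleyDatum} (W : WOK D) (z : ℕ → Fˣ) : ∀ n ≤ D.rank,
    D.wordMat F ((List.range n).flatMap fun i => D.hWord (D.simple i) (z i : F)) =
      (DgU D (chiN D n z) : Matrix D.Idx D.Idx F) := by
  intro n
  induction n with
  | zero =>
    intro _
    rw [List.range_zero, List.flatMap_nil, wordMat_nil, DgU_chiN_zero, Units.val_one]
  | succ n ih =>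
    intro hn
    rw [List.range_succ, List.flatMap_append, wordMat_append, ih (by omega)]
    have e1 : D.wordMat F ([n].flatMap fun i => D.hWord (D.simple i) (z i : F)) =
        D.hMat F (D.simple n) (z n : F) := by
      simp [ChevalleyDatum.hMat]
    rw [e1, hMat_simple_U W.fd W.hc (by omega) (z n), ← Units.val_mul, ← DgU_chiN_succ]

theorem conj_closure {G : Type*} [Group G] (S : Set G) (K : Subgroup G) (g : G)
    (h : ∀ x ∈ S, g * x * g⁻¹ ∈ K) : ∀ u ∈ Subgroup.closure S, g * u * g⁻¹ ∈ K := by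
  intro u hu
  induction hu using Subgroup.closure_induction with
  | mem x hx => exact h x hx
  | one => simp [one_mem]
  | mul a b _ _ ha hb =>
    rw [← conj_mul]
    exact mul_mem ha hb
  | inv a _ ha =>
    rw [← conj_inv]
    exact inv_mem ha

def rootGen (D : ChevalleyDatum) (F : Type*) [Field F] (Q : ℕ → Prop) : Subgroup (GL D.Idx F) :=
  Subgroup.closure {g : GL D.Idx F | ∃ (r : ℕ) (t : F), Q r ∧
    (g : Matrix D.Idx D.Idx F) = D.x F r t}

theorem torus_conj_gen {D : ChevalleyDatum} (W : WOK D) (z : ℕ → Fˣ) (Q : ℕ → Prop)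
    (hQ : ∀ r, Q r → r < D.nroots) :
    ∀ u ∈ rootGen D F Q, DgU D (chi D z) * u * (DgU D (chi D z))⁻¹ ∈ rootGen D F Q := by
  apply conj_closure
  rintro x ⟨r, t, hr, hx⟩
  have e : DgU D (chi D z) * x * (DgU D (chi D z))⁻¹ =
      xU D W.add r (hQ r hr) ((chi D z r : F) * t) := by
    rw [mul_inv_eq_iff_eq_mul]
    apply Units.ext
    rw [Units.val_mul, Units.val_mul, hx, xU_val]
    exact chi_conj W.fd W.ta z (hQ r hr) t
  rw [e]
  exact Subgroup.subset_closure ⟨r, _, hr, rfl⟩

theorem torus_le_normalizer_gen {D : ChevalleyDatum} (W : WOK D) (Q : ℕ → Prop)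
    (hQ : ∀ r, Q r → r < D.nroots) :
    torus D F ≤ Subgroup.normalizer (rootGen D F Q : Set (GL D.Idx F)) := by
  rintro g ⟨z, rfl⟩
  rw [Subgroup.mem_normalizer_iff]
  intro u
  constructor
  · exact torus_conj_gen W z Q hQ u
  · intro hu
    have h1 := torus_conj_gen W (fun j => (z j)⁻¹) Q hQ _ hu
    have e : DgU D (chi D fun j => (z j)⁻¹) = (DgU D (chi D z))⁻¹ := by
      rw [DgU_inv]
      exact DgU_congr D (fun s _ => chi_inv D z s)
    rw [e] at h1
    have e2 : (DgU D (chi D z))⁻¹ * (DgU D (chi D z) * u * (DgU D (chi D z))⁻¹) *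
        ((DgU D (chi D z))⁻¹)⁻¹ = u := by group
    rw [e2] at h1
    exact h1

theorem posU_eq (D : ChevalleyDatum) : D.posUnipotent F = rootGen D F D.IsPosRoot := rfl

theorem negU_eq (D : ChevalleyDatum) : D.negUnipotent F = rootGen D F D.IsNegRoot := rfl

theorem diag_eq_one_of_lvl {n : Type*} [Fintype n] [DecidableEq n] {R : Type*} [CommRing R]
    (key : n → ℕ) (v : n → R) (hL : Lvl key 1 (Matrix.diagonal v - 1)) :
    Matrix.diagonal v = 1 := by
  ext a b
  by_cases hab : a = b
  · subst hab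
    by_contra hne
    have := hL a a (by rw [Matrix.sub_apply]; exact sub_ne_zero.mpr hne)
    omega
  · rw [Matrix.diagonal_apply_ne _ hab, Matrix.one_apply_ne hab]

theorem posU_inf_torus {D : ChevalleyDatum} (hT : posTriOK D = true) :
    D.posUnipotent F ⊓ torus D F = ⊥ := by
  rw [eq_bot_iff]
  rintro g ⟨hgU, z, rfl⟩
  rw [Subgroup.mem_bot]
  have hL : Lvl (ckey D) 1 ((DgU D (chi D z) : Matrix D.Idx D.Idx F) - 1) :=
    posUnipotent_le_utSub D hT F hgU
  apply Units.ext
  rw [Units.val_one]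
  exact diag_eq_one_of_lvl _ _ hL

theorem borel_dec {D : ChevalleyDatum} (W : WOK D) {b : GL D.Idx F}
    (hb : b ∈ D.borelSubgroup F) :
    ∃ u ∈ D.posUnipotent F, ∃ h ∈ torus D F, b = u * h := by
  have hHU : D.diagonalSubgroup F ≤
      Subgroup.normalizer (D.posUnipotent F : Set (GL D.Idx F)) := by
    rw [diag_eq_torus W]
    exact torus_le_normalizer_gen W D.IsPosRoot (fun r hr => hr.1)
  have hb' : b ∈ ((D.posUnipotent F ⊔ D.diagonalSubgroup F : Subgroup (GL D.Idx F)) :
      Set (GL D.Idx F)) := hb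
  rw [Subgroup.coe_mul_of_right_le_normalizer_left _ _ hHU, Set.mem_mul] at hb'
  obtain ⟨u, hu, h, hh, e⟩ := hb'
  rw [SetLike.mem_coe, diag_eq_torus W] at hh
  exact ⟨u, hu, h, hh, e.symm⟩

theorem borel_solvable {D : ChevalleyDatum} (W : WOK D) (hT : posTriOK D = true) :
    Group.IsSolvable ↥(D.borelSubgroup F) := by
  have hHU : D.diagonalSubgroup F ≤
      Subgroup.normalizer (D.posUnipotent F : Set (GL D.Idx F)) := by
    rw [diag_eq_torus W]
    exact torus_le_normalizer_gen W D.IsPosRoot (fun r hr => hr.1)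
  have hBU : D.borelSubgroup F ≤
      Subgroup.normalizer (D.posUnipotent F : Set (GL D.Idx F)) :=
    sup_le Subgroup.le_normalizer hHU
  have hN : ((D.posUnipotent F).subgroupOf (D.borelSubgroup F)).Normal :=
    Subgroup.normal_subgroupOf_of_le_normalizer hBU
  have : Group.IsNilpotent ↥(D.posUnipotent F) :=
    isNilpotent_of_le_utSub (ckey D) _ (posUnipotent_le_utSub D hT F)
  have : Group.IsSolvable ↥((D.posUnipotent F).subgroupOf (D.borelSubgroup F)) :=
    Group.isSolvable_of_isSolvable_injective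
      (f := (Subgroup.subgroupOfEquivOfLe (le_sup_left : D.posUnipotent F ≤ D.borelSubgroup F)).toMonoidHom)
      (MulEquiv.injective _)
  have : Group.IsSolvable (↥(D.borelSubgroup F) ⧸ (D.posUnipotent F).subgroupOf (D.borelSubgroup F)) := by
    apply Group.isSolvable_of_comm
    have red : ∀ x : ↥(D.borelSubgroup F), ∃ h : ↥(D.borelSubgroup F),
        (h : GL D.Idx F) ∈ torus D F ∧
        (x : ↥(D.borelSubgroup F) ⧸ (D.posUnipotent F).subgroupOf (D.borelSubgroup F)) = h := by
      intro x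
      obtain ⟨u, hu, h, hh, e⟩ := borel_dec W x.2
      have hhB : h ∈ D.borelSubgroup F := by
        have : h ∈ D.diagonalSubgroup F := by rw [diag_eq_torus W]; exact hh
        exact (le_sup_right : D.diagonalSubgroup F ≤ D.borelSubgroup F) this
      have huB : u ∈ D.borelSubgroup F :=
        (le_sup_left : D.posUnipotent F ≤ D.borelSubgroup F) hu
      refine ⟨⟨h, hhB⟩, hh, ?_⟩
      have ex : x = ⟨u, huB⟩ * ⟨h, hhB⟩ := Subtype.ext e
      rw [ex, QuotientGroup.mk_mul]
      have : ((⟨u, huB⟩ : ↥(D.borelSubgroup F)) :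
          ↥(D.borelSubgroup F) ⧸ (D.posUnipotent F).subgroupOf (D.borelSubgroup F)) = 1 := by
        rw [QuotientGroup.eq_one_iff]
        exact hu
      rw [this, one_mul]
    intro a b
    induction a using QuotientGroup.induction_on with
    | H x =>
      induction b using QuotientGroup.induction_on with
      | H y =>
        obtain ⟨hx, hhx, ex⟩ := red x
        obtain ⟨hy, hhy, ey⟩ := red y
        rw [ex, ey, ← QuotientGroup.mk_mul, ← QuotientGroup.mk_mul]
        congr 1
        exact Subtype.ext (torus_comm hhx hhy)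
  exact Group.isSolvable_of_ker_le_range ((D.posUnipotent F).subgroupOf (D.borelSubgroup F)).subtype
    (QuotientGroup.mk' ((D.posUnipotent F).subgroupOf (D.borelSubgroup F)))
    (by rw [QuotientGroup.ker_mk', Subgroup.range_subtype])

end sem

end Cfsg.Agent.Helper7
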