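import Cfsg.Agent.Helper7.ChevEval

set_option autoImplicit false
set_option linter.unusedSectionVars false
set_option linter.unusedVariables false
open Cfsg

namespace Cfsg.Agent.Helper7

open Polynomial

theorem poly_eq_zero_of_eval (B : ℤ) (hB : 0 < B) :
    ∀ (d : ℕ) (P : ℤ[X]), P.natDegree ≤ d → (∀ k, |P.coeff k| < B) → P.eval B = 0 → P = 0 := by
  intro d
  induction d with
  | zero =>
    intro P hd hc he
    have hP : P = C (P.coeff 0) := Polynomial.eq_C_of_natDegree_le_zero hd
    rw [hP, eval_C] at he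
    rw [hP, he, C_0]
  | succ d ih =>
    intro P hd hc he
    have h1 := divX_mul_X_add P
    have h2 : (divX P).eval B * B + P.coeff 0 = 0 := by
      have := congrArg (Polynomial.eval B) h1
      rw [eval_add, eval_mul, eval_X, eval_C, he] at this
      exact this
    have h3 : B ∣ P.coeff 0 := by
      have : P.coeff 0 = -((divX P).eval B) * B := by linarith
      rw [this]
      exact Dvd.intro_left _ rfl
    have h4 : P.coeff 0 = 0 := Int.eq_zero_of_abs_lt_dvd h3 (hc 0)
    have h5 : (divX P).eval B = 0 := by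
      rw [h4, add_zero] at h2
      rcases mul_eq_zero.mp h2 with h | h
      · exact h
      · omega
    have h6 : divX P = 0 := by
      apply ih
      · rw [natDegree_divX_eq_natDegree_tsub_one]; omega
      · intro k; rw [coeff_divX]; exact hc (k + 1)
      · exact h5
    rw [← h1, h6, h4]
    simp

def keyOf (t : VT) : ℕ := (t.idx * 8 + t.e1) * 8 + t.e2

def okExp (t : VT) : Bool := Nat.blt t.e1 8 && Nat.blt t.e2 8

def encStep (acc : ℕ × ℕ × ℕ) (t : VT) : ℕ × ℕ × ℕ :=
  match t.c with
  | Int.ofNat m => (acc.1 + m * 2 ^ (16 * keyOf t), acc.2.1, acc.2.2 + m)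
  | Int.negSucc m => (acc.1, acc.2.1 + (m + 1) * 2 ^ (16 * keyOf t), acc.2.2 + (m + 1))

def encAll (v : List VT) : ℕ × ℕ × ℕ := v.foldl encStep (0, 0, 0)

def isZeroE (v : List VT) : Bool :=
  v.all okExp && (Nat.blt (encAll v).2.2 (2 ^ 15) && Nat.beq (encAll v).1 (encAll v).2.1)

noncomputable def vpoly (v : List VT) : ℤ[X] := (v.map fun t => monomial (keyOf t) t.c).sum

theorem vpoly_cons (t : VT) (v : List VT) : vpoly (t :: v) = monomial (keyOf t) t.c + vpoly v := by
  simp [vpoly]

theorem encStep_spec (acc : ℕ × ℕ × ℕ) (t : VT) :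
    (((encStep acc t).1 : ℤ) - (encStep acc t).2.1 =
      ((acc.1 : ℤ) - acc.2.1) + t.c * (2 : ℤ) ^ (16 * keyOf t)) ∧
    (encStep acc t).2.2 = acc.2.2 + t.c.natAbs := by
  unfold encStep
  rcases ht : t.c with m | m
  · simp only [Int.ofNat_eq_natCast, Int.natAbs_natCast]
    constructor
    · push_cast; ring
    · trivial
  · simp only [Int.natAbs_negSucc]
    constructor
    · rw [Int.negSucc_eq]; push_cast; ring
    · trivial

theorem encFold_spec (v : List VT) (acc : ℕ × ℕ × ℕ) :
    (((v.foldl encStep acc).1 : ℤ) - (v.foldl encStep acc).2.1 =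
      ((acc.1 : ℤ) - acc.2.1) + (vpoly v).eval ((2 : ℤ) ^ 16)) ∧
    (v.foldl encStep acc).2.2 = acc.2.2 + (v.map fun t => t.c.natAbs).sum := by
  induction v generalizing acc with
  | nil => simp [vpoly]
  | cons t v ih =>
    rw [List.foldl_cons]
    obtain ⟨h1, h2⟩ := ih (encStep acc t)
    obtain ⟨h3, h4⟩ := encStep_spec acc t
    constructor
    · rw [h1, h3, vpoly_cons, eval_add, eval_monomial, ← pow_mul]
      ring
    · rw [h2, h4, List.map_cons, List.sum_cons]
      ring

theorem vpoly_coeff_bound (v : List VT) (k : ℕ) :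
    |(vpoly v).coeff k| ≤ ((v.map fun t => t.c.natAbs).sum : ℕ) := by
  induction v with
  | nil => simp [vpoly]
  | cons t v ih =>
    rw [vpoly_cons, coeff_add, List.map_cons, List.sum_cons]
    have h1 : |(monomial (keyOf t) t.c).coeff k| ≤ (t.c.natAbs : ℤ) := by
      rw [coeff_monomial]
      split_ifs
      · rw [Int.natCast_natAbs]
      · simp
    have := abs_add_le ((monomial (keyOf t) t.c).coeff k) ((vpoly v).coeff k)
    rw [Nat.cast_add]
    linarith

theorem vpoly_eq_zero (v : List VT) (h1 : Nat.blt (encAll v).2.2 (2 ^ 15) = true)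
    (h2 : Nat.beq (encAll v).1 (encAll v).2.1 = true) : vpoly v = 0 := by
  obtain ⟨e1, e2⟩ := encFold_spec v (0, 0, 0)
  have hb : (encAll v).2.2 < 2 ^ 15 := by simpa [Nat.blt] using h1
  have he : (encAll v).1 = (encAll v).2.1 := Nat.eq_of_beq_eq_true h2
  apply poly_eq_zero_of_eval ((2 : ℤ) ^ 16) (by norm_num) (vpoly v).natDegree _ le_rfl
  · intro k
    have := vpoly_coeff_bound v k
    have h3 : ((v.map fun t => t.c.natAbs).sum : ℕ) < 2 ^ 15 := by
      have : (encAll v).2.2 = (v.map fun t => t.c.natAbs).sum := by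
        rw [encAll, e2]; simp
      rw [← this]; exact hb
    have h4 : (((v.map fun t => t.c.natAbs).sum : ℕ) : ℤ) < 2 ^ 15 := by exact_mod_cast h3
    calc |(vpoly v).coeff k| ≤ _ := this
      _ < 2 ^ 15 := h4
      _ < 2 ^ 16 := by norm_num
  · have : ((encAll v).1 : ℤ) - (encAll v).2.1 = (vpoly v).eval ((2 : ℤ) ^ 16) := by
      rw [encAll, e1]; simp
    rw [← this, he, sub_self]

section sem

variable {F : Type*} [Field F]

def phi (x y : F) (n k : ℕ) : F :=
  if k / 64 = n then x ^ ((k / 8) % 8) * y ^ (k % 8) else 0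

noncomputable def Lmap (x y : F) (n : ℕ) (Q : ℤ[X]) : F := Q.sum fun k a => (a : F) * phi x y n k

theorem Lmap_zero (x y : F) (n : ℕ) : Lmap x y n 0 = 0 := by simp [Lmap]

theorem Lmap_add (x y : F) (n : ℕ) (P Q : ℤ[X]) :
    Lmap x y n (P + Q) = Lmap x y n P + Lmap x y n Q := by
  unfold Lmap
  apply Polynomial.sum_add_index
  · intro i; simp
  · intro a b1 b2; push_cast; ring

theorem Lmap_monomial (x y : F) (n k : ℕ) (a : ℤ) :
    Lmap x y n (monomial k a) = (a : F) * phi x y n k := by
  unfold Lmap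
  apply Polynomial.sum_monomial_index
  simp

theorem Lmap_vpoly (x y : F) (n : ℕ) (v : List VT) (hv : v.all okExp = true) :
    Lmap x y n (vpoly v) = semAt x y v n := by
  induction v with
  | nil => simp [vpoly, Lmap_zero, semAt]
  | cons t v ih =>
    rw [List.all_cons, Bool.and_eq_true] at hv
    rw [vpoly_cons, Lmap_add, Lmap_monomial, ih hv.2, semAt_cons]
    congr 1
    have ht := hv.1
    unfold okExp at ht
    rw [Bool.and_eq_true] at ht
    have h1 : t.e1 < 8 := by simpa [Nat.blt] using ht.1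
    have h2 : t.e2 < 8 := by simpa [Nat.blt] using ht.2
    have k1 : keyOf t / 64 = t.idx := by unfold keyOf; omega
    have k2 : (keyOf t / 8) % 8 = t.e1 := by unfold keyOf; omega
    have k3 : keyOf t % 8 = t.e2 := by unfold keyOf; omega
    unfold phi
    rw [k1, k2, k3]
    by_cases h : t.idx = n
    · rw [if_pos h, if_pos h, vtVal]; ring
    · rw [if_neg h, if_neg h, mul_zero]

theorem isZeroE_sound (x y : F) (v : List VT) (h : isZeroE v = true) (n : ℕ) :
    semAt x y v n = 0 := by
  unfold isZeroE at h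
  rw [Bool.and_eq_true, Bool.and_eq_true] at h
  obtain ⟨h1, h2, h3⟩ := h
  rw [← Lmap_vpoly x y n v h1, vpoly_eq_zero v h2 h3, Lmap_zero]

end sem

end Cfsg.Agent.Helper7
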