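import Cfsg.Agent.Helper7.ChkOrder
import Cfsg.Agent.Helper7.ChevAut

set_option autoImplicit false
set_option maxHeartbeats 4000000
set_option maxRecDepth 100000
open Cfsg

namespace Cfsg.Agent.Helper7

open Cfsg.Lie
open scoped Matrix

section abs

variable {F : Type*} [Field F] {ι : Type*} [Fintype ι] [DecidableEq ι] {n : ℕ}

def permStab (v : Fin n → ι → F) : Subgroup (GL ι F) where
  carrier := {g | ∃ σ : Equiv.Perm (Fin n), ∀ k, v k ᵥ* (g : Matrix ι ι F) = v (σ k)}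
  mul_mem' := by
    rintro a b ⟨σ, hσ⟩ ⟨τ, hτ⟩
    refine ⟨τ * σ, fun k => ?_⟩
    rw [Units.val_mul, ← Matrix.vecMul_vecMul, hσ, hτ]
    rfl
  one_mem' := ⟨1, fun k => by simp⟩
  inv_mem' := by
    rintro a ⟨σ, hσ⟩
    refine ⟨σ⁻¹, fun k => ?_⟩
    have h := hσ (σ⁻¹ k)
    rw [show σ (σ⁻¹ k) = k from by simp] at h
    rw [← h, Matrix.vecMul_vecMul, ← Units.val_mul, mul_inv_cancel]
    simp

noncomputable def permRho (v : Fin n → ι → F) (g : ↥(permStab v)) : Equiv.Perm (Fin n) :=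
  Classical.choose g.2

theorem permRho_spec (v : Fin n → ι → F) (g : ↥(permStab v)) (k : Fin n) :
    v k ᵥ* ((g : GL ι F) : Matrix ι ι F) = v (permRho v g k) :=
  Classical.choose_spec g.2 k

theorem permRho_eq {v : Fin n → ι → F} (hv : Function.Injective v) (g : ↥(permStab v))
    (σ : Equiv.Perm (Fin n)) (h : ∀ k, v k ᵥ* ((g : GL ι F) : Matrix ι ι F) = v (σ k)) :
    permRho v g = σ := by
  ext k
  have h1 := permRho_spec v g k
  rw [h k] at h1
  rw [hv h1]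

noncomputable def permHom (v : Fin n → ι → F) (hv : Function.Injective v) :
    ↥(permStab v) →* Equiv.Perm (Fin n) :=
  MonoidHom.mk' (fun g => (permRho v g)⁻¹) (by
    intro a b
    have h : permRho v (a * b) = permRho v b * permRho v a := by
      apply permRho_eq hv
      intro k
      rw [Subgroup.coe_mul, Units.val_mul, ← Matrix.vecMul_vecMul, permRho_spec, permRho_spec]
      rfl
    rw [h, mul_inv_rev])

theorem permHom_apply {v : Fin n → ι → F} (hv : Function.Injective v) (g : ↥(permStab v))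
    (σ : Equiv.Perm (Fin n)) (h : ∀ k, v k ᵥ* ((g : GL ι F) : Matrix ι ι F) = v (σ k)) :
    permHom v hv g = σ⁻¹ := by
  show (permRho v g)⁻¹ = σ⁻¹
  rw [permRho_eq hv g σ h]

end abs

def tblB2 : List (List ℕ) := [[0, 1, 0, 0, 0, 1, 1, 0, 0, 0], [0, 1, 1, 0, 0, 1, 0, 0, 0, 1],
  [0, 1, 1, 0, 0, 0, 1, 0, 0, 1], [0, 1, 0, 0, 0, 1, 1, 0, 0, 1], [0, 1, 1, 0, 0, 0, 0, 0, 0, 1],
  [0, 1, 1, 0, 0, 1, 1, 0, 0, 0]]

def vB2 (k : Fin 6) : chevB2.Idx → ZMod 2 := fun i =>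
  (((tblB2.getD k.val []).getD (Sum.elim (fun a => a.val) (fun b => 2 + b.val) i) 0 : ℕ) : ZMod 2)

def sgB2 : List (Equiv.Perm (Fin 6)) := [
  Equiv.swap 0 3,
  Equiv.swap 0 3 * Equiv.swap 1 5 * Equiv.swap 2 4,
  Equiv.swap 0 3 * Equiv.swap 1 4 * Equiv.swap 2 5,
  Equiv.swap 2 4,
  Equiv.swap 1 4,
  Equiv.swap 0 5 * Equiv.swap 1 3 * Equiv.swap 2 4,
  Equiv.swap 0 5 * Equiv.swap 1 4 * Equiv.swap 2 3,
  Equiv.swap 0 5]

theorem vB2_act : ∀ (r : Fin chevB2.nroots) (k : Fin 6),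
    vB2 k ᵥ* chevB2.xMat (ZMod 2) r 1 = vB2 (sgB2.getD r.val 1 k) := by decide +kernel

theorem vB2_inj : Function.Injective vB2 := by decide +kernel

theorem sgB2_cyc : (sgB2.getD 0 1)⁻¹ * (sgB2.getD 1 1)⁻¹ * (sgB2.getD 6 1)⁻¹ = finRotate (4 + 2) := by
  apply Equiv.Perm.ext
  decide +kernel

theorem sgB2_swap : (sgB2.getD 7 1)⁻¹ = Equiv.swap (5 : Fin 6) (finRotate (4 + 2) 5) := by
  apply Equiv.Perm.ext
  decide +kernel

section sem

variable {F : Type*} [Field F]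

def vF (e : ZMod 2 →+* F) (k : Fin 6) : chevB2.Idx → F := fun i => e (vB2 k i)

theorem vF_inj (e : ZMod 2 →+* F) : Function.Injective (vF e) := by
  intro a b h
  apply vB2_inj
  funext i
  exact e.injective (congrFun h i)

theorem vF_act (e : ZMod 2 →+* F) (r : Fin chevB2.nroots) (k : Fin 6) :
    vF e k ᵥ* chevB2.xMat F r 1 = vF e (sgB2.getD r.val 1 k) := by
  have h1 := xMat_map chevB2 e r 1
  rw [map_one] at h1
  rw [← h1]
  funext i
  have h2 := RingHom.map_vecMul e (chevB2.xMat (ZMod 2) r 1) (vB2 k) i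
  rw [vB2_act] at h2
  exact h2.symm

theorem B2_le_stab (e : ZMod 2 ≃+* F) :
    chevB2.group F ≤ permStab (vF e.toRingHom) := by
  unfold ChevalleyDatum.group
  rw [Subgroup.closure_le]
  rintro g ⟨r, t, hg⟩
  have ht : t = 0 ∨ t = 1 := by
    have h := e.apply_symm_apply t
    have h01 : ∀ s : ZMod 2, s = 0 ∨ s = 1 := by decide
    rcases h01 (e.symm t) with h0 | h0
    · left
      rw [← h, h0, map_zero]
    · right
      rw [← h, h0, map_one]
  rcases ht with rfl | rfl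
  · refine ⟨1, fun k => ?_⟩
    rw [hg, xMat_zero]
    simp
  · exact ⟨sgB2.getD r.val 1, fun k => by rw [hg]; exact vF_act _ r k⟩

noncomputable def B2hom (e : ZMod 2 ≃+* F) : ↥(chevB2.group F) →* Equiv.Perm (Fin 6) :=
  (permHom (vF e.toRingHom) (vF_inj _)).comp (Subgroup.inclusion (B2_le_stab e))

theorem B2hom_x (e : ZMod 2 ≃+* F) (r : ℕ) (hr : r < chevB2.nroots) :
    B2hom e ⟨xV chevB2 addCheck_B2 r 1, xV_mem_group chevB2 addCheck_B2 r 1⟩ =
      (sgB2.getD r 1)⁻¹ := by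
  refine permHom_apply (vF_inj _) _ _ (fun k => ?_)
  show vF _ k ᵥ* (xV chevB2 addCheck_B2 r (1 : F) : Matrix chevB2.Idx chevB2.Idx F) = _
  rw [xV_val, x_of_lt chevB2 F hr]
  exact vF_act _ ⟨r, hr⟩ k

theorem B2hom_surj (e : ZMod 2 ≃+* F) : Function.Surjective (B2hom e) := by
  rw [← MonoidHom.range_eq_top]
  have hc := Equiv.Perm.closure_cycle_adjacent_swap (isCycle_finRotate (n := 4))
    (support_finRotate (n := 4)) (5 : Fin 6)
  rw [eq_top_iff, ← hc, Subgroup.closure_le]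
  intro σ hσ
  rcases hσ with rfl | hσ
  · refine ⟨⟨xV chevB2 addCheck_B2 0 1, xV_mem_group chevB2 addCheck_B2 0 1⟩ *
      ⟨xV chevB2 addCheck_B2 1 1, xV_mem_group chevB2 addCheck_B2 1 1⟩ *
      ⟨xV chevB2 addCheck_B2 6 1, xV_mem_group chevB2 addCheck_B2 6 1⟩, ?_⟩
    rw [map_mul, map_mul, B2hom_x e 0 (by decide), B2hom_x e 1 (by decide),
      B2hom_x e 6 (by decide)]
    exact sgB2_cyc
  · rw [Set.mem_singleton_iff] at hσ
    subst hσ
    refine ⟨⟨xV chevB2 addCheck_B2 7 1, xV_mem_group chevB2 addCheck_B2 7 1⟩, ?_⟩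
    rw [B2hom_x e 7 (by decide)]
    exact sgB2_swap

theorem B2_card [Fintype F] (hF : Fintype.card F = 2) : Nat.card ↥(chevB2.group F) = 720 := by
  have h := order_B2 (F := F)
  rw [hF] at h
  have h2 : chevB2.nroots / 2 = 4 := by decide
  rw [h2] at h
  simpa using h

theorem B2_iso [Fintype F] (hF : Fintype.card F = 2) :
    Nonempty (↥(chevB2.group F) ≃* Equiv.Perm (Fin 6)) := by
  have e : ZMod 2 ≃+* F := ZMod.ringEquivOfPrime F Nat.prime_two hF
  have hs := B2hom_surj e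
  have hcard : Nat.card ↥(chevB2.group F) = Nat.card (Equiv.Perm (Fin 6)) := by
    rw [B2_card hF, Nat.card_eq_fintype_card, Fintype.card_perm, Fintype.card_fin]
    rfl
  have hb : Function.Bijective (B2hom e) :=
    (Nat.bijective_iff_surjective_and_card _).mpr ⟨hs, hcard⟩
  exact ⟨MulEquiv.ofBijective (B2hom e) hb⟩

end sem

end Cfsg.Agent.Helper7
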