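import Cfsg.Agent.Helper7.ChevPar
import Cfsg.Agent.Helper7.ChkUp

set_option autoImplicit false
set_option maxHeartbeats 4000000
set_option maxRecDepth 100000
open Cfsg

namespace Cfsg.Agent.Helper7

open Cfsg.Lie

theorem parOK_G2 : parOK chevG2 = true := by decide +kernel
theorem parOK_B2 : parOK chevB2 = true := by decide +kernel
theorem parOK_D4 : parOK chevD4 = true := by decide +kernel
theorem parOK_F4 : parOK chevF4 = true := by decide +kernel
theorem parOK_E6 : parOK chevE6 = true := by decide +kernel
theorem parOK_E7 : parOK chevE7 = true := by decide +kernel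
theorem parOK_E8 : parOK chevE8 = true := by decide +kernel

theorem parOK_of_mem {D : ChevalleyDatum}
    (hD : D ∈ [chevG2, chevB2, chevD4, chevF4, chevE6, chevE7, chevE8]) : parOK D = true :=
  forall_seven (P := fun D => parOK D = true) parOK_G2 parOK_B2 parOK_D4 parOK_F4 parOK_E6
    parOK_E7 parOK_E8 hD

end Cfsg.Agent.Helper7
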