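import Cfsg.Agent.Helper7.ChevLevi
import Cfsg.Agent.Helper7.ChkPar

set_option autoImplicit false
set_option maxHeartbeats 4000000
set_option maxRecDepth 100000
open Cfsg

namespace Cfsg.Agent.Helper7

open Cfsg.Lie

def adjG2 : List (List ℤ) :=
  [[2, 3], [1, 2]]

def adjB2 : List (List ℤ) :=
  [[2, 2], [1, 2]]

def adjD4 : List (List ℤ) :=
  [[4, 4, 2, 2], [4, 8, 4, 4], [2, 4, 4, 2], [2, 4, 2, 4]]

def adjF4 : List (List ℤ) :=
  [[2, 3, 4, 2], [3, 6, 8, 4], [2, 4, 6, 3], [1, 2, 3, 2]]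

def adjE6 : List (List ℤ) :=
  [[4, 3, 5, 6, 4, 2], [3, 6, 6, 9, 6, 3], [5, 6, 10, 12, 8, 4], [6, 9, 12, 18, 12, 6], [4, 6, 8, 12, 10, 5], [2, 3, 4, 6, 5, 4]]

def adjE7 : List (List ℤ) :=
  [[4, 4, 6, 8, 6, 4, 2], [4, 7, 8, 12, 9, 6, 3], [6, 8, 12, 16, 12, 8, 4], [8, 12, 16, 24, 18, 12, 6], [6, 9, 12, 18, 15, 10, 5], [4, 6, 8, 12, 10, 8, 4], [2, 3, 4, 6, 5, 4, 3]]

def adjE8 : List (List ℤ) :=
  [[4, 5, 7, 10, 8, 6, 4, 2], [5, 8, 10, 15, 12, 9, 6, 3], [7, 10, 14, 20, 16, 12, 8, 4], [10, 15, 20, 30, 24, 18, 12, 6], [8, 12, 16, 24, 20, 15, 10, 5], [6, 9, 12, 18, 15, 12, 8, 4], [4, 6, 8, 12, 10, 8, 6, 3], [2, 3, 4, 6, 5, 4, 3, 2]]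

theorem gradeOK_G2 : gradeOK chevG2 adjG2 = true := by decide +kernel
theorem gradeOK_B2 : gradeOK chevB2 adjB2 = true := by decide +kernel
theorem gradeOK_D4 : gradeOK chevD4 adjD4 = true := by decide +kernel
theorem gradeOK_F4 : gradeOK chevF4 adjF4 = true := by decide +kernel
theorem gradeOK_E6 : gradeOK chevE6 adjE6 = true := by decide +kernel
theorem gradeOK_E7 : gradeOK chevE7 adjE7 = true := by decide +kernel
theorem gradeOK_E8 : gradeOK chevE8 adjE8 = true := by decide +kernel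

theorem leviOK_G2 : leviOK chevG2 = true := by decide +kernel
theorem leviOK_B2 : leviOK chevB2 = true := by decide +kernel
theorem leviOK_D4 : leviOK chevD4 = true := by decide +kernel
theorem leviOK_F4 : leviOK chevF4 = true := by decide +kernel
theorem leviOK_E6 : leviOK chevE6 = true := by decide +kernel
theorem leviOK_E7 : leviOK chevE7 = true := by decide +kernel
def leviChunk (D : ChevalleyDatum) (lo len : ℕ) : Bool :=
  (List.range len).all fun k => leviRow D (lo + k)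

theorem leviOK_of8 {D : ChevalleyDatum} (hn : D.nroots ≤ 240)
    (h : ∀ q < 8, leviChunk D (30 * q) 30 = true) : leviOK D = true := by
  unfold leviOK
  rw [List.all_eq_true]
  intro r hr
  have hr' := List.mem_range.mp hr
  have h1 := h (r / 30) (by omega)
  unfold leviChunk at h1
  rw [List.all_eq_true] at h1
  have h2 := h1 (r % 30) (List.mem_range.mpr (Nat.mod_lt _ (by norm_num)))
  have h3 : 30 * (r / 30) + r % 30 = r := Nat.div_add_mod r 30
  rw [h3] at h2
  exact h2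

theorem lvE8_0 : leviChunk chevE8 0 30 = true := by decide +kernel
theorem lvE8_1 : leviChunk chevE8 30 30 = true := by decide +kernel
theorem lvE8_2 : leviChunk chevE8 60 30 = true := by decide +kernel
theorem lvE8_3 : leviChunk chevE8 90 30 = true := by decide +kernel
theorem lvE8_4 : leviChunk chevE8 120 30 = true := by decide +kernel
theorem lvE8_5 : leviChunk chevE8 150 30 = true := by decide +kernel
theorem lvE8_6 : leviChunk chevE8 180 30 = true := by decide +kernel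
theorem lvE8_7 : leviChunk chevE8 210 30 = true := by decide +kernel

theorem leviOK_E8 : leviOK chevE8 = true := by
  refine leviOK_of8 (by decide) ?_
  intro q hq
  interval_cases q
  · exact lvE8_0
  · exact lvE8_1
  · exact lvE8_2
  · exact lvE8_3
  · exact lvE8_4
  · exact lvE8_5
  · exact lvE8_6
  · exact lvE8_7

theorem lok_of_mem {D : ChevalleyDatum}
    (hD : D ∈ [chevG2, chevB2, chevD4, chevF4, chevE6, chevE7, chevE8]) :
    ∃ adj : List (List ℤ), LOK D adj :=
  forall_seven (P := fun D => ∃ adj : List (List ℤ), LOK D adj)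
    ⟨adjG2, uok_of_mem (by simp), parOK_G2, leviOK_G2, gradeOK_G2⟩
    ⟨adjB2, uok_of_mem (by simp), parOK_B2, leviOK_B2, gradeOK_B2⟩
    ⟨adjD4, uok_of_mem (by simp), parOK_D4, leviOK_D4, gradeOK_D4⟩
    ⟨adjF4, uok_of_mem (by simp), parOK_F4, leviOK_F4, gradeOK_F4⟩
    ⟨adjE6, uok_of_mem (by simp), parOK_E6, leviOK_E6, gradeOK_E6⟩
    ⟨adjE7, uok_of_mem (by simp), parOK_E7, leviOK_E7, gradeOK_E7⟩
    ⟨adjE8, uok_of_mem (by simp), parOK_E8, leviOK_E8, gradeOK_E8⟩ hD

end Cfsg.Agent.Helper7
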