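import Cfsg.Agent.Helper7.ChevOrder
import Cfsg.Agent.Helper7.ChkLevi

set_option autoImplicit false
set_option maxHeartbeats 4000000
set_option maxRecDepth 100000
open Cfsg

namespace Cfsg.Agent.Helper7

open Cfsg.Lie

def levsB2 : List Lev := [
  ⟨[1], 7, [4],
    [([], [1, 5]),
      ([0], [0, 2]),
      ([1, 0], [3, 1]),
      ([0, 1, 0], [2, 5])]⟩,
  ⟨[], 4, [],
    [([], [0, 1]),
      ([1], [0, 0])]⟩]

theorem levsOK_B2 : levsOK chevB2 (List.range chevB2.rank) levsB2 = true := by
  decide +kernel

theorem poly_B2 : cprod (levsB2.map fun lv => cpolyT lv.T) = cprod ([2, 4].map cgeom) := by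
  decide +kernel

theorem reflOK_B2 : reflOK chevB2 adjB2 = true := by decide +kernel
theorem carLinOK_B2 : carLinOK chevB2 adjB2 2 = true := by decide +kernel
theorem basisOK_B2 : basisOK chevB2 adjB2 2 = true := by decide +kernel
theorem lexAllOK_B2 : lexAllOK chevB2 adjB2 10 = true := by decide +kernel
theorem unitAllOK_B2 : unitAllOK chevB2 = true := by decide +kernel

end Cfsg.Agent.Helper7
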