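import Cfsg.Agent.Helper7.ChevOrder
import Cfsg.Agent.Helper7.ChkLevi

set_option autoImplicit false
set_option maxHeartbeats 4000000
set_option maxRecDepth 100000
open Cfsg

namespace Cfsg.Agent.Helper7

open Cfsg.Lie

def levsD4 : List Lev := [
  ⟨[0, 2, 3], 23, [12, 13, 18],
    [([], [24, 1, 26, 27]),
      ([1], [2, 0, 3, 4]),
      ([0, 1], [1, 24, 5, 6]),
      ([2, 1], [5, 26, 1, 7]),
      ([3, 1], [6, 27, 7, 1]),
      ([2, 0, 1], [3, 8, 2, 9]),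
      ([3, 0, 1], [4, 10, 9, 2]),
      ([3, 2, 1], [9, 11, 4, 3]),
      ([1, 2, 0, 1], [26, 5, 24, 12]),
      ([3, 2, 0, 1], [7, 13, 6, 5]),
      ([1, 3, 0, 1], [27, 6, 14, 24]),
      ([1, 3, 2, 1], [15, 7, 27, 26]),
      ([3, 1, 2, 0, 1], [26, 16, 24, 8]),
      ([1, 3, 2, 0, 1], [17, 9, 18, 16]),
      ([2, 1, 3, 0, 1], [27, 18, 10, 24]),
      ([0, 1, 3, 2, 1], [11, 17, 27, 26]),
      ([1, 3, 1, 2, 0, 1], [19, 12, 20, 13]),
      ([0, 1, 3, 2, 0, 1], [13, 15, 21, 19]),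
      ([2, 1, 3, 2, 0, 1], [21, 14, 13, 20]),
      ([0, 1, 3, 1, 2, 0, 1], [16, 26, 22, 17]),
      ([2, 1, 3, 1, 2, 0, 1], [22, 24, 16, 18]),
      ([2, 0, 1, 3, 2, 0, 1], [18, 27, 17, 22]),
      ([2, 0, 1, 3, 1, 2, 0, 1], [20, 23, 19, 21]),
      ([1, 2, 0, 1, 3, 1, 2, 0, 1], [24, 22, 26, 27])]⟩,
  ⟨[2, 3], 18, [12, 13],
    [([], [1, 0, 4, 5]),
      ([0], [0, 0, 4, 5])]⟩,
  ⟨[3], 13, [12],
    [([], [0, 0, 1, 5]),
      ([2], [0, 0, 0, 5])]⟩,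
  ⟨[], 12, [],
    [([], [0, 0, 0, 1]),
      ([3], [0, 0, 0, 0])]⟩]

theorem levsOK_D4 : levsOK chevD4 (List.range chevD4.rank) levsD4 = true := by
  decide +kernel

theorem poly_D4 : cprod (levsD4.map fun lv => cpolyT lv.T) = cprod ([2, 4, 4, 6].map cgeom) := by
  decide +kernel

theorem reflOK_D4 : reflOK chevD4 adjD4 = true := by decide +kernel
theorem carLinOK_D4 : carLinOK chevD4 adjD4 4 = true := by decide +kernel
theorem basisOK_D4 : basisOK chevD4 adjD4 4 = true := by decide +kernel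
theorem lexAllOK_D4 : lexAllOK chevD4 adjD4 10 = true := by decide +kernel
theorem unitAllOK_D4 : unitAllOK chevD4 = true := by decide +kernel

end Cfsg.Agent.Helper7
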