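import Cfsg.Agent.Helper7.ChevOrder
import Cfsg.Agent.Helper7.ChkLevi

set_option autoImplicit false
set_option maxHeartbeats 4000000
set_option maxRecDepth 100000
open Cfsg

namespace Cfsg.Agent.Helper7

open Cfsg.Lie

def levsF4 : List Lev := [
  ⟨[0, 1, 2], 47, [25, 27, 28, 30, 33, 34, 35, 37, 41],
    [([], [24, 25, 26, 1]),
      ([3], [24, 25, 2, 0]),
      ([2, 3], [24, 3, 1, 26]),
      ([1, 2, 3], [4, 2, 5, 26]),
      ([0, 1, 2, 3], [3, 24, 6, 26]),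
      ([2, 1, 2, 3], [6, 25, 3, 7]),
      ([2, 0, 1, 2, 3], [5, 8, 4, 9]),
      ([3, 2, 1, 2, 3], [9, 25, 26, 5]),
      ([1, 2, 0, 1, 2, 3], [25, 6, 10, 11]),
      ([3, 2, 0, 1, 2, 3], [7, 11, 26, 6]),
      ([2, 1, 2, 0, 1, 2, 3], [25, 24, 8, 12]),
      ([3, 1, 2, 0, 1, 2, 3], [25, 9, 13, 8]),
      ([3, 2, 1, 2, 0, 1, 2, 3], [25, 24, 14, 10]),
      ([2, 3, 1, 2, 0, 1, 2, 3], [25, 15, 11, 14]),
      ([2, 3, 2, 1, 2, 0, 1, 2, 3], [25, 16, 12, 13]),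
      ([1, 2, 3, 1, 2, 0, 1, 2, 3], [17, 13, 26, 16]),
      ([1, 2, 3, 2, 1, 2, 0, 1, 2, 3], [18, 14, 19, 15]),
      ([0, 1, 2, 3, 1, 2, 0, 1, 2, 3], [15, 25, 26, 18]),
      ([0, 1, 2, 3, 2, 1, 2, 0, 1, 2, 3], [16, 25, 20, 17]),
      ([2, 1, 2, 3, 2, 1, 2, 0, 1, 2, 3], [20, 24, 16, 26]),
      ([2, 0, 1, 2, 3, 2, 1, 2, 0, 1, 2, 3], [19, 21, 18, 26]),
      ([1, 2, 0, 1, 2, 3, 2, 1, 2, 0, 1, 2, 3], [24, 20, 22, 26]),
      ([2, 1, 2, 0, 1, 2, 3, 2, 1, 2, 0, 1, 2, 3], [24, 25, 21, 23]),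
      ([3, 2, 1, 2, 0, 1, 2, 3, 2, 1, 2, 0, 1, 2, 3], [24, 25, 26, 22])]⟩,
  ⟨[1, 2], 41, [25, 27, 28, 30],
    [([], [1, 7, 8, 0]),
      ([0], [0, 2, 8, 0]),
      ([1, 0], [7, 1, 3, 0]),
      ([2, 1, 0], [7, 4, 2, 0]),
      ([1, 2, 1, 0], [5, 3, 8, 0]),
      ([0, 1, 2, 1, 0], [4, 7, 8, 0])]⟩,
  ⟨[2], 30, [25],
    [([], [0, 1, 6, 0]),
      ([1], [0, 0, 2, 0]),
      ([2, 1], [0, 3, 1, 0]),
      ([1, 2, 1], [0, 2, 6, 0])]⟩,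
  ⟨[], 25, [],
    [([], [0, 0, 1, 0]),
      ([2], [0, 0, 0, 0])]⟩]

theorem levsOK_F4 : levsOK chevF4 (List.range chevF4.rank) levsF4 = true := by
  decide +kernel

theorem poly_F4 : cprod (levsF4.map fun lv => cpolyT lv.T) = cprod ([2, 6, 8, 12].map cgeom) := by
  decide +kernel

theorem reflOK_F4 : reflOK chevF4 adjF4 = true := by decide +kernel
theorem carLinOK_F4 : carLinOK chevF4 adjF4 1 = true := by decide +kernel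
theorem basisOK_F4 : basisOK chevF4 adjF4 1 = true := by decide +kernel
theorem lexAllOK_F4 : lexAllOK chevF4 adjF4 10 = true := by decide +kernel
theorem unitAllOK_F4 : unitAllOK chevF4 = true := by decide +kernel

end Cfsg.Agent.Helper7
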