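import Cfsg.Agent.Helper7.ChevOrder
import Cfsg.Agent.Helper7.ChkLevi

set_option autoImplicit false
set_option maxHeartbeats 4000000
set_option maxRecDepth 100000
open Cfsg

namespace Cfsg.Agent.Helper7

open Cfsg.Lie

def levsG2 : List Lev := [
  ⟨[0], 11, [7],
    [([], [6, 1]),
      ([1], [2, 0]),
      ([0, 1], [1, 3]),
      ([1, 0, 1], [4, 2]),
      ([0, 1, 0, 1], [3, 5]),
      ([1, 0, 1, 0, 1], [6, 4])]⟩,
  ⟨[], 7, [],
    [([], [1, 0]),
      ([0], [0, 0])]⟩]

theorem levsOK_G2 : levsOK chevG2 (List.range chevG2.rank) levsG2 = true := by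
  decide +kernel

theorem poly_G2 : cprod (levsG2.map fun lv => cpolyT lv.T) = cprod ([2, 6].map cgeom) := by
  decide +kernel

theorem reflOK_G2 : reflOK chevG2 adjG2 = true := by decide +kernel
theorem carLinOK_G2 : carLinOK chevG2 adjG2 1 = true := by decide +kernel
theorem basisOK_G2 : basisOK chevG2 adjG2 1 = true := by decide +kernel
theorem lexAllOK_G2 : lexAllOK chevG2 adjG2 10 = true := by decide +kernel
theorem unitAllOK_G2 : unitAllOK chevG2 = true := by decide +kernel

end Cfsg.Agent.Helper7
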