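import Cfsg.Agent.Helper7.ChevBruhat
import Cfsg.Agent.Helper7.ChkUp
import Cfsg.Agent.Helper7.ChkOrdG2
import Cfsg.Agent.Helper7.ChkOrdB2
import Cfsg.Agent.Helper7.ChkOrdD4
import Cfsg.Agent.Helper7.ChkOrdF4
import Cfsg.Agent.Helper7.ChkOrdE6
import Cfsg.Agent.Helper7.ChkOrdE7
import Cfsg.Agent.Helper7.ChkOrdE8

set_option autoImplicit false
set_option maxHeartbeats 4000000
open Cfsg

namespace Cfsg.Agent.Helper7

open Cfsg.Lie

section sem

variable {F : Type*} [Field F]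

theorem bruhat_all (D : Cfsg.Lie.ChevalleyDatum)
    (hD : D ∈ [chevG2, chevB2, chevD4, chevF4, chevE6, chevE7, chevE8]) :
    (∀ g ∈ D.group F, ∃ b ∈ D.borelSubgroup F, ∃ n ∈ D.monomialSubgroup F,
      ∃ u ∈ Subgroup.closure {x : GL D.Idx F | ∃ (r : ℕ) (t : F), D.IsPosRoot r ∧
            (D.rootSubgroup F r).map (MulAut.conj n).toMonoidHom ≤ D.negUnipotent F ∧
            (x : Matrix D.Idx D.Idx F) = D.x F r t},
        g = b * n * u) ∧
    (∀ (b b' n n' u u' : GL D.Idx F), b ∈ D.borelSubgroup F → b' ∈ D.borelSubgroup F →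
      n ∈ D.monomialSubgroup F → n' ∈ D.monomialSubgroup F →
      u ∈ Subgroup.closure {x : GL D.Idx F | ∃ (r : ℕ) (t : F), D.IsPosRoot r ∧
            (D.rootSubgroup F r).map (MulAut.conj n).toMonoidHom ≤ D.negUnipotent F ∧
            (x : Matrix D.Idx D.Idx F) = D.x F r t} →
      u' ∈ Subgroup.closure {x : GL D.Idx F | ∃ (r : ℕ) (t : F), D.IsPosRoot r ∧
            (D.rootSubgroup F r).map (MulAut.conj n').toMonoidHom ≤ D.negUnipotent F ∧
            (x : Matrix D.Idx D.Idx F) = D.x F r t} →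
      b * n * u = b' * n' * u' →
        n⁻¹ * n' ∈ D.diagonalSubgroup F ∧ (n = n' → b = b' ∧ u = u')) := by
  simp only [List.mem_cons, List.not_mem_nil, or_false] at hD
  rcases hD with rfl | rfl | rfl | rfl | rfl | rfl | rfl
  · exact bruhat_normal_form (uok_of_mem (by simp)) (cf_of_mem (by simp))
      ⟨wok_of_mem (by simp), reflOK_G2, carLinOK_G2, basisOK_G2, lexAllOK_G2⟩ levsG2 levsOK_G2
  · exact bruhat_normal_form (uok_of_mem (by simp)) (cf_of_mem (by simp))
      ⟨wok_of_mem (by simp), reflOK_B2, carLinOK_B2, basisOK_B2, lexAllOK_B2⟩ levsB2 levsOK_B2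
  · exact bruhat_normal_form (uok_of_mem (by simp)) (cf_of_mem (by simp))
      ⟨wok_of_mem (by simp), reflOK_D4, carLinOK_D4, basisOK_D4, lexAllOK_D4⟩ levsD4 levsOK_D4
  · exact bruhat_normal_form (uok_of_mem (by simp)) (cf_of_mem (by simp))
      ⟨wok_of_mem (by simp), reflOK_F4, carLinOK_F4, basisOK_F4, lexAllOK_F4⟩ levsF4 levsOK_F4
  · exact bruhat_normal_form (uok_of_mem (by simp)) (cf_of_mem (by simp))
      ⟨wok_of_mem (by simp), reflOK_E6, carLinOK_E6, basisOK_E6, lexAllOK_E6⟩ levsE6 levsOK_E6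
  · exact bruhat_normal_form (uok_of_mem (by simp)) (cf_of_mem (by simp))
      ⟨wok_of_mem (by simp), reflOK_E7, carLinOK_E7, basisOK_E7, lexAllOK_E7⟩ levsE7 levsOK_E7
  · exact bruhat_normal_form (uok_of_mem (by simp)) (cf_of_mem (by simp))
      ⟨wok_of_mem (by simp), reflOK_E8, carLinOK_E8, basisOK_E8, lexAllOK_E8⟩ levsE8 levsOK_E8

end sem

end Cfsg.Agent.Helper7
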