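import Cfsg.Agent.Helper7.ChevCox
import Cfsg.Agent.Helper7.ChkUp
import Cfsg.Agent.Helper7.ChkOrdG2
import Cfsg.Agent.Helper7.ChkOrdB2
import Cfsg.Agent.Helper7.ChkOrdD4
import Cfsg.Agent.Helper7.ChkOrdF4
import Cfsg.Agent.Helper7.ChkOrdE6
import Cfsg.Agent.Helper7.ChkOrdE7
import Cfsg.Agent.Helper7.ChkOrdE8

set_option autoImplicit false
set_option maxHeartbeats 4000000
set_option maxRecDepth 100000
open Cfsg

namespace Cfsg.Agent.Helper7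

open Cfsg.Lie

def mG2 : List (List ℕ) := [[1, 6], [6, 1]]
def mB2 : List (List ℕ) := [[1, 4], [4, 1]]
def mD4 : List (List ℕ) := [[1, 3, 2, 2], [3, 1, 3, 3], [2, 3, 1, 2], [2, 3, 2, 1]]
def mF4 : List (List ℕ) := [[1, 3, 2, 2], [3, 1, 4, 2], [2, 4, 1, 3], [2, 2, 3, 1]]
def mE6 : List (List ℕ) :=
  [[1, 2, 3, 2, 2, 2], [2, 1, 2, 3, 2, 2], [3, 2, 1, 3, 2, 2], [2, 3, 3, 1, 3, 2],
   [2, 2, 2, 3, 1, 3], [2, 2, 2, 2, 3, 1]]
def mE7 : List (List ℕ) :=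
  [[1, 2, 3, 2, 2, 2, 2], [2, 1, 2, 3, 2, 2, 2], [3, 2, 1, 3, 2, 2, 2], [2, 3, 3, 1, 3, 2, 2],
   [2, 2, 2, 3, 1, 3, 2], [2, 2, 2, 2, 3, 1, 3], [2, 2, 2, 2, 2, 3, 1]]
def mE8 : List (List ℕ) :=
  [[1, 2, 3, 2, 2, 2, 2, 2], [2, 1, 2, 3, 2, 2, 2, 2], [3, 2, 1, 3, 2, 2, 2, 2],
   [2, 3, 3, 1, 3, 2, 2, 2], [2, 2, 2, 3, 1, 3, 2, 2], [2, 2, 2, 2, 3, 1, 3, 2],
   [2, 2, 2, 2, 2, 3, 1, 3], [2, 2, 2, 2, 2, 2, 3, 1]]

theorem coxOK_G2 : coxOK chevG2 mG2 = true := by decide +kernel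
theorem coxOK_B2 : coxOK chevB2 mB2 = true := by decide +kernel
theorem coxOK_D4 : coxOK chevD4 mD4 = true := by decide +kernel
theorem coxOK_F4 : coxOK chevF4 mF4 = true := by decide +kernel
theorem coxOK_E6 : coxOK chevE6 mE6 = true := by decide +kernel
theorem coxOK_E7 : coxOK chevE7 mE7 = true := by decide +kernel
theorem coxOK_E8 : coxOK chevE8 mE8 = true := by decide +kernel

theorem mat_G2 : ∀ i j : Fin 2, CoxeterMatrix.G₂ i j = (mG2.getD i []).getD j 0 := by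
  intro i j
  fin_cases i <;> fin_cases j <;> rfl
theorem mat_B2 : ∀ i j : Fin 2, CoxeterMatrix.B 2 i j = (mB2.getD i []).getD j 0 := by
  intro i j
  fin_cases i <;> fin_cases j <;> rfl
theorem mat_D4 : ∀ i j : Fin 4, coxeterD4 i j = (mD4.getD i []).getD j 0 := by
  intro i j
  fin_cases i <;> fin_cases j <;> rfl
theorem mat_F4 : ∀ i j : Fin 4, CoxeterMatrix.F₄ i j = (mF4.getD i []).getD j 0 := by
  intro i j
  fin_cases i <;> fin_cases j <;> rfl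
theorem mat_E6 : ∀ i j : Fin 6, CoxeterMatrix.E₆ i j = (mE6.getD i []).getD j 0 := by
  intro i j
  fin_cases i <;> fin_cases j <;> rfl
theorem mat_E7 : ∀ i j : Fin 7, CoxeterMatrix.E₇ i j = (mE7.getD i []).getD j 0 := by
  intro i j
  fin_cases i <;> fin_cases j <;> rfl
theorem mat_E8 : ∀ i j : Fin 8, CoxeterMatrix.E₈ i j = (mE8.getD i []).getD j 0 := by
  intro i j
  fin_cases i <;> fin_cases j <;> rfl

section sem

variable {F : Type*} [Field F]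

theorem weyl_all
    (p : Cfsg.Lie.ChevalleyDatum × (Σ n : ℕ, CoxeterMatrix (Fin n)))
    (hp : p ∈ [(chevG2, ⟨2, CoxeterMatrix.G₂⟩), (chevB2, ⟨2, CoxeterMatrix.B 2⟩),
      (chevD4, ⟨4, coxeterD4⟩), (chevF4, ⟨4, CoxeterMatrix.F₄⟩),
      (chevE6, ⟨6, CoxeterMatrix.E₆⟩), (chevE7, ⟨7, CoxeterMatrix.E₇⟩),
      (chevE8, ⟨8, CoxeterMatrix.E₈⟩)]) :
    ∃ φ : ↥(p.1.monomialSubgroup F) →* p.2.2.Group, Function.Surjective φ ∧
      φ.ker = (p.1.diagonalSubgroup F).subgroupOf (p.1.monomialSubgroup F) ∧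
      ∀ (i : Fin p.2.1) (g : ↥(p.1.monomialSubgroup F)),
        ((g : GL p.1.Idx F) : Matrix p.1.Idx p.1.Idx F) = p.1.nMat F (p.1.simple i) 1 →
          φ g = p.2.2.simple i := by
  simp only [List.mem_cons, List.not_mem_nil, or_false] at hp
  rcases hp with rfl | rfl | rfl | rfl | rfl | rfl | rfl
  · exact weyl_iso (uok_of_mem (by simp)) (cf_of_mem (by simp)) unitAllOK_G2 (by decide)
      CoxeterMatrix.G₂ mG2 coxOK_G2 mat_G2
  · exact weyl_iso (uok_of_mem (by simp)) (cf_of_mem (by simp)) unitAllOK_B2 (by decide)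
      (CoxeterMatrix.B 2) mB2 coxOK_B2 mat_B2
  · exact weyl_iso (uok_of_mem (by simp)) (cf_of_mem (by simp)) unitAllOK_D4 (by decide)
      coxeterD4 mD4 coxOK_D4 mat_D4
  · exact weyl_iso (uok_of_mem (by simp)) (cf_of_mem (by simp)) unitAllOK_F4 (by decide)
      CoxeterMatrix.F₄ mF4 coxOK_F4 mat_F4
  · exact weyl_iso (uok_of_mem (by simp)) (cf_of_mem (by simp)) unitAllOK_E6 (by decide)
      CoxeterMatrix.E₆ mE6 coxOK_E6 mat_E6
  · exact weyl_iso (uok_of_mem (by simp)) (cf_of_mem (by simp)) unitAllOK_E7 (by decide)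
      CoxeterMatrix.E₇ mE7 coxOK_E7 mat_E7
  · exact weyl_iso (uok_of_mem (by simp)) (cf_of_mem (by simp)) unitAllOK_E8 (by decide)
      CoxeterMatrix.E₈ mE8 coxOK_E8 mat_E8

end sem

end Cfsg.Agent.Helper7

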