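import Cfsg.Agent.Helper7.ChevGen2

set_option autoImplicit false
set_option maxRecDepth 100000
set_option linter.unusedSectionVars false
set_option linter.unusedVariables false
open Cfsg

namespace Cfsg.Agent.Helper7

open Cfsg.Lie

def ltblB2 : List (ℕ × ℕ) := [(1, 2), (0, 0), (0, 0), (1, 5), (2, 6), (0, 0), (0, 0), (5, 6)]

def ltblG2 : List (ℕ × ℕ) := [(2, 3), (2, 4), (0, 0), (0, 0), (0, 0), (3, 7), (4, 8), (0, 0),
  (0, 0), (0, 0), (7, 9), (8, 9)]

def ltblF4 : List (ℕ × ℕ) := [(3, 18), (3, 19), (3, 20), (0, 0), (3, 27), (3, 28), (3, 29),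
  (0, 0), (0, 0), (0, 0), (0, 0), (0, 0), (0, 0), (0, 0), (0, 0), (7, 34), (7, 35), (7, 36),
  (0, 0), (0, 0), (0, 0), (8, 37), (8, 38), (9, 37), (10, 38), (9, 39), (10, 39), (0, 0), (0, 0),
  (0, 0), (11, 40), (12, 40), (13, 40), (0, 0), (0, 0), (0, 0), (0, 0), (0, 0), (0, 0), (0, 0),
  (0, 0), (18, 44), (19, 44), (20, 44), (0, 0), (27, 44), (28, 44), (29, 44)]

theorem genOK_G2 : ∀ i < chevG2.rank, chevG2.isLong (chevG2.simple i) = false →
    genOK chevG2 i 12 3 ltblG2 = true := by decide +kernel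

theorem genOK_B2 : ∀ i < chevB2.rank, chevB2.isLong (chevB2.simple i) = false →
    genOK chevB2 i 12 2 ltblB2 = true := by decide +kernel

theorem genOK_F4 : ∀ i < chevF4.rank, chevF4.isLong (chevF4.simple i) = false →
    genOK chevF4 i 12 2 ltblF4 = true := by decide +kernel

theorem genOK_D4 : ∀ i < chevD4.rank, genOK chevD4 i 12 1 [] = true := by decide +kernel

theorem genOK_E6 : ∀ i < chevE6.rank, genOK chevE6 i 12 1 [] = true := by decide +kernel

theorem genOK_E7 : ∀ i < chevE7.rank, genOK chevE7 i 12 1 [] = true := by decide +kernel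

theorem genOK_E8 : ∀ i < chevE8.rank, genOK chevE8 i 12 1 [] = true := by decide +kernel

set_option synthInstance.maxSize 4096 in
set_option synthInstance.maxHeartbeats 400000 in
theorem ij_B2 : ∀ i < chevB2.rank, ∀ j < chevB2.rank, chevB2.isLong (chevB2.simple i) = false →
    chevB2.isLong (chevB2.simple j) = true → chevB2.bonds i j ≠ 0 → i = 0 ∧ j = 1 := by
  decide +kernel

set_option synthInstance.maxSize 4096 in
set_option synthInstance.maxHeartbeats 400000 in
theorem ij_G2 : ∀ i < chevG2.rank, ∀ j < chevG2.rank, chevG2.isLong (chevG2.simple i) = false →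
    chevG2.isLong (chevG2.simple j) = true → chevG2.bonds i j ≠ 0 → i = 0 ∧ j = 1 := by
  decide +kernel

set_option synthInstance.maxSize 4096 in
set_option synthInstance.maxHeartbeats 400000 in
theorem ij_F4 : ∀ i < chevF4.rank, ∀ j < chevF4.rank, chevF4.isLong (chevF4.simple i) = false →
    chevF4.isLong (chevF4.simple j) = true → chevF4.bonds i j ≠ 0 → i = 1 ∧ j = 2 := by
  decide +kernel

theorem mask_B2 : rIter chevB2 (List.range chevB2.rank) 12
    (maskOf [chevB2.simple 0, chevB2.simple 1]) = 2 ^ chevB2.nroots - 1 := by decide +kernel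

theorem mask_G2 : rIter chevG2 (List.range chevG2.rank) 12
    (maskOf [chevG2.simple 0, chevG2.simple 1]) = 2 ^ chevG2.nroots - 1 := by decide +kernel

theorem mask_F4 : rIter chevF4 (List.range chevF4.rank) 12
    (maskOf [chevF4.simple 1, chevF4.simple 2]) = 2 ^ chevF4.nroots - 1 := by decide +kernel

section sem

variable {K : Type*} [Field K]

theorem gen_exc (e : ChevalleyDatum × ℕ)
    (he : e ∈ [(chevB2, 2), (chevF4, 2), (chevG2, 3)])
    (i j : ℕ) (hi : i < e.1.rank) (hj : j < e.1.rank) (hshort : e.1.isLong (e.1.simple i) = false)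
    (hlong : e.1.isLong (e.1.simple j) = true) (hbond : e.1.bonds i j ≠ 0) :
    e.1.group K ≤ e.1.monomialSubgroup K ⊔ e.1.rootSubgroup K (e.1.simple i) ⊔
      e.1.rootSubgroup K (e.1.simple j) := by
  simp only [List.mem_cons, List.not_mem_nil, or_false] at he
  rcases he with rfl | rfl | rfl
  · obtain ⟨rfl, rfl⟩ := ij_B2 i hi j hj hshort hlong hbond
    exact gen_two (mok_of_mem (by simp)) 0 1 12 (by decide) (by decide) mask_B2
  · obtain ⟨rfl, rfl⟩ := ij_F4 i hi j hj hshort hlong hbond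
    exact gen_two (mok_of_mem (by simp)) 1 2 12 (by decide) (by decide) mask_F4
  · obtain ⟨rfl, rfl⟩ := ij_G2 i hi j hj hshort hlong hbond
    exact gen_two (mok_of_mem (by simp)) 0 1 12 (by decide) (by decide) mask_G2

theorem gen_short {D : ChevalleyDatum}
    (hD : D ∈ [chevG2, chevB2, chevD4, chevF4, chevE6, chevE7, chevE8])
    (h2 : D ∈ [chevB2, chevF4] → ringChar K ≠ 2) (h3 : D = chevG2 → ringChar K ≠ 3)
    (i : ℕ) (hi : i < D.rank) (hshort : D.isLong (D.simple i) = false) :
    D.group K ≤ D.monomialSubgroup K ⊔ D.rootSubgroup K (D.simple i) := by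
  have hD' := hD
  simp only [List.mem_cons, List.not_mem_nil, or_false] at hD'
  have h1 : ((1 : ℤ) : K) ≠ 0 := by simp
  rcases hD' with rfl | rfl | rfl | rfl | rfl | rfl | rfl
  · exact gen_one hD i 12 hi 3 (by
      have := cast_ne_zero_of_ringChar (K := K) 3 Nat.prime_three (h3 rfl)
      exact_mod_cast this) ltblG2 (genOK_G2 i hi hshort)
  · exact gen_one hD i 12 hi 2 (by
      have := cast_ne_zero_of_ringChar (K := K) 2 Nat.prime_two (h2 (by simp))
      exact_mod_cast this) ltblB2 (genOK_B2 i hi hshort)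
  · exact gen_one hD i 12 hi 1 h1 [] (genOK_D4 i hi)
  · exact gen_one hD i 12 hi 2 (by
      have := cast_ne_zero_of_ringChar (K := K) 2 Nat.prime_two (h2 (by simp))
      exact_mod_cast this) ltblF4 (genOK_F4 i hi hshort)
  · exact gen_one hD i 12 hi 1 h1 [] (genOK_E6 i hi)
  · exact gen_one hD i 12 hi 1 h1 [] (genOK_E7 i hi)
  · exact gen_one hD i 12 hi 1 h1 [] (genOK_E8 i hi)

end sem

end Cfsg.Agent.Helper7
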