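import Cfsg.Agent.Helper7.ChevLong
import Cfsg.Agent.Helper7.ChkM

set_option autoImplicit false
set_option maxHeartbeats 4000000
open Cfsg

namespace Cfsg.Agent.Helper7

open Cfsg.Lie

def longWG2 : List ℕ :=
    [0, 1, 0, 1, 0, 1]

def longWB2 : List ℕ :=
    [0, 1, 0, 1]

def longWD4 : List ℕ :=
    [0, 1, 0, 2, 1, 0, 3, 1, 0, 2, 1, 3]

def longWF4 : List ℕ :=
    [0, 1, 0, 2, 1, 0, 2, 1, 2, 3, 2, 1, 0, 2, 1, 2, 3, 2, 1, 0, 2, 1, 2, 3]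

def longWE6 : List ℕ :=
    [0, 1, 2, 0, 3, 1, 2, 0, 3, 2, 4, 3, 1, 2, 0, 3, 2, 4, 3, 1, 5, 4, 3, 1, 2, 0, 3, 2, 4, 3,
    1, 5, 4, 3, 2, 0]

def longWE7 : List ℕ :=
    [0, 1, 2, 0, 3, 1, 2, 0, 3, 2, 4, 3, 1, 2, 0, 3, 2, 4, 3, 1, 5, 4, 3, 1, 2, 0, 3, 2, 4, 3,
    1, 5, 4, 3, 2, 0, 6, 5, 4, 3, 1, 2, 0, 3, 2, 4, 3, 1, 5, 4, 3, 2, 0, 6, 5, 4, 3, 1, 2, 3,
    4, 5, 6]

def longWE8 : List ℕ :=
    [0, 1, 2, 0, 3, 1, 2, 0, 3, 2, 4, 3, 1, 2, 0, 3, 2, 4, 3, 1, 5, 4, 3, 1, 2, 0, 3, 2, 4, 3,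
    1, 5, 4, 3, 2, 0, 6, 5, 4, 3, 1, 2, 0, 3, 2, 4, 3, 1, 5, 4, 3, 2, 0, 6, 5, 4, 3, 1, 2, 3,
    4, 5, 6, 7, 6, 5, 4, 3, 1, 2, 0, 3, 2, 4, 3, 1, 5, 4, 3, 2, 0, 6, 5, 4, 3, 1, 2, 3, 4, 5,
    6, 7, 6, 5, 4, 3, 1, 2, 0, 3, 2, 4, 3, 1, 5, 4, 3, 2, 0, 6, 5, 4, 3, 1, 2, 3, 4, 5, 6, 7]

theorem longOK_G2 : longOK chevG2 longWG2 = true := by decide +kernel
theorem longOK_B2 : longOK chevB2 longWB2 = true := by decide +kernel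
theorem longOK_D4 : longOK chevD4 longWD4 = true := by decide +kernel
theorem longOK_F4 : longOK chevF4 longWF4 = true := by decide +kernel
theorem longOK_E6 : longOK chevE6 longWE6 = true := by decide +kernel
theorem longOK_E7 : longOK chevE7 longWE7 = true := by decide +kernel
theorem longOK_E8 : longOK chevE8 longWE8 = true := by decide +kernel

theorem exists_longOK {D : ChevalleyDatum}
    (hD : D ∈ [chevG2, chevB2, chevD4, chevF4, chevE6, chevE7, chevE8]) :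
    ∃ w, longOK D w = true :=
  forall_seven (P := fun D => ∃ w, longOK D w = true) ⟨_, longOK_G2⟩ ⟨_, longOK_B2⟩
    ⟨_, longOK_D4⟩ ⟨_, longOK_F4⟩ ⟨_, longOK_E6⟩ ⟨_, longOK_E7⟩ ⟨_, longOK_E8⟩ hD

end Cfsg.Agent.Helper7
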