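import Cfsg.Agent.Helper7.ChevG

set_option autoImplicit false
set_option maxHeartbeats 4000000
open Cfsg

namespace Cfsg.Agent.Helper7

open Cfsg.Lie

theorem nOK_G2 : nOK chevG2 = true := by decide +kernel
theorem nOK_B2 : nOK chevB2 = true := by decide +kernel
theorem nOK_D4 : nOK chevD4 = true := by decide +kernel
theorem nOK_F4 : nOK chevF4 = true := by decide +kernel
theorem nOK_E6 : nOK chevE6 = true := by decide +kernel
theorem gOK_G2 : gOK chevG2 = true := by decide +kernel
theorem gOK_B2 : gOK chevB2 = true := by decide +kernel
theorem gOK_D4 : gOK chevD4 = true := by decide +kernel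
theorem gOK_F4 : gOK chevF4 = true := by decide +kernel
theorem gOK_E6 : gOK chevE6 = true := by decide +kernel

end Cfsg.Agent.Helper7
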