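import Cfsg.Agent.Helper7.ChevOrdU
import Cfsg.Agent.Helper7.ChkLevi

set_option autoImplicit false
set_option maxHeartbeats 4000000
set_option maxRecDepth 100000
open Cfsg

namespace Cfsg.Agent.Helper7

open Cfsg.Lie

theorem lexOK_G2 : lexOK chevG2 adjG2 10 = true := by decide +kernel
theorem unitOK_G2 : unitOK chevG2 = true := by decide +kernel
theorem ordOK_G2 : ordOK chevG2 = true := by decide +kernel
theorem lexOK_B2 : lexOK chevB2 adjB2 10 = true := by decide +kernel
theorem unitOK_B2 : unitOK chevB2 = true := by decide +kernel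
theorem ordOK_B2 : ordOK chevB2 = true := by decide +kernel
theorem lexOK_D4 : lexOK chevD4 adjD4 10 = true := by decide +kernel
theorem unitOK_D4 : unitOK chevD4 = true := by decide +kernel
theorem ordOK_D4 : ordOK chevD4 = true := by decide +kernel
theorem lexOK_F4 : lexOK chevF4 adjF4 10 = true := by decide +kernel
theorem unitOK_F4 : unitOK chevF4 = true := by decide +kernel
theorem ordOK_F4 : ordOK chevF4 = true := by decide +kernel
theorem lexOK_E6 : lexOK chevE6 adjE6 10 = true := by decide +kernel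
theorem unitOK_E6 : unitOK chevE6 = true := by decide +kernel
theorem ordOK_E6 : ordOK chevE6 = true := by decide +kernel
theorem lexOK_E7 : lexOK chevE7 adjE7 10 = true := by decide +kernel
theorem unitOK_E7 : unitOK chevE7 = true := by decide +kernel
theorem ordOK_E7 : ordOK chevE7 = true := by decide +kernel
theorem lexOK_E8 : lexOK chevE8 adjE8 10 = true := by decide +kernel
theorem unitOK_E8 : unitOK chevE8 = true := by decide +kernel
theorem ordOK_E8 : ordOK chevE8 = true := by decide +kernel

theorem vok_of_mem {D : ChevalleyDatum}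
    (hD : D ∈ [chevG2, chevB2, chevD4, chevF4, chevE6, chevE7, chevE8]) :
    ∃ (adj : List (List ℤ)) (L : ℤ), VOK D adj L :=
  forall_seven (P := fun D => ∃ (adj : List (List ℤ)) (L : ℤ), VOK D adj L)
    ⟨adjG2, 10, uok_of_mem (by simp), lexOK_G2, unitOK_G2, ordOK_G2, by decide⟩
    ⟨adjB2, 10, uok_of_mem (by simp), lexOK_B2, unitOK_B2, ordOK_B2, by decide⟩
    ⟨adjD4, 10, uok_of_mem (by simp), lexOK_D4, unitOK_D4, ordOK_D4, by decide⟩
    ⟨adjF4, 10, uok_of_mem (by simp), lexOK_F4, unitOK_F4, ordOK_F4, by decide⟩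
    ⟨adjE6, 10, uok_of_mem (by simp), lexOK_E6, unitOK_E6, ordOK_E6, by decide⟩
    ⟨adjE7, 10, uok_of_mem (by simp), lexOK_E7, unitOK_E7, ordOK_E7, by decide⟩
    ⟨adjE8, 10, uok_of_mem (by simp), lexOK_E8, unitOK_E8, ordOK_E8, by decide⟩ hD

end Cfsg.Agent.Helper7
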