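import Cfsg.Agent.Helper7.ChevTorus
import Cfsg.Agent.Helper7.ChkW

set_option autoImplicit false
set_option maxHeartbeats 4000000
set_option maxRecDepth 100000
open Cfsg

namespace Cfsg.Agent.Helper7

open Cfsg.Lie

def snPG2 : Matrix (Fin chevG2.rank) (Fin chevG2.rank) ℤ :=
  (!![-1, 0; 2, 1] : Matrix (Fin 2) (Fin 2) ℤ)

def snPinvG2 : Matrix (Fin chevG2.rank) (Fin chevG2.rank) ℤ :=
  (!![-1, 0; 2, 1] : Matrix (Fin 2) (Fin 2) ℤ)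

def snQG2 : Matrix (Fin chevG2.rank) (Fin chevG2.rank) ℤ :=
  (!![0, 1; 1, 2] : Matrix (Fin 2) (Fin 2) ℤ)

def snQinvG2 : Matrix (Fin chevG2.rank) (Fin chevG2.rank) ℤ :=
  (!![-2, 1; 1, 0] : Matrix (Fin 2) (Fin 2) ℤ)

def snDG2 : Fin chevG2.rank → ℕ := (![1, 1] : Fin 2 → ℕ)

theorem sn1G2 : snPG2 * Cm chevG2 * snQG2 = Matrix.diagonal (fun i => (snDG2 i : ℤ)) := by
  decide +kernel
theorem sn2G2 : snPinvG2 * snPG2 = 1 := by decide +kernel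
theorem sn3G2 : snQG2 * snQinvG2 = 1 := by decide +kernel
theorem sn4G2 : snQinvG2 * snQG2 = 1 := by decide +kernel

def snPB2 : Matrix (Fin chevB2.rank) (Fin chevB2.rank) ℤ :=
  (!![-1, 0; 2, 1] : Matrix (Fin 2) (Fin 2) ℤ)

def snPinvB2 : Matrix (Fin chevB2.rank) (Fin chevB2.rank) ℤ :=
  (!![-1, 0; 2, 1] : Matrix (Fin 2) (Fin 2) ℤ)

def snQB2 : Matrix (Fin chevB2.rank) (Fin chevB2.rank) ℤ :=
  (!![0, 1; 1, 2] : Matrix (Fin 2) (Fin 2) ℤ)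

def snQinvB2 : Matrix (Fin chevB2.rank) (Fin chevB2.rank) ℤ :=
  (!![-2, 1; 1, 0] : Matrix (Fin 2) (Fin 2) ℤ)

def snDB2 : Fin chevB2.rank → ℕ := (![1, 2] : Fin 2 → ℕ)

theorem sn1B2 : snPB2 * Cm chevB2 * snQB2 = Matrix.diagonal (fun i => (snDB2 i : ℤ)) := by
  decide +kernel
theorem sn2B2 : snPinvB2 * snPB2 = 1 := by decide +kernel
theorem sn3B2 : snQB2 * snQinvB2 = 1 := by decide +kernel
theorem sn4B2 : snQinvB2 * snQB2 = 1 := by decide +kernel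

def snPD4 : Matrix (Fin chevD4.rank) (Fin chevD4.rank) ℤ :=
  (!![-1, 0, 0, 0; -2, -1, 0, 0; -3, -2, -1, 0; 2, 2, 1, 1] : Matrix (Fin 4) (Fin 4) ℤ)

def snPinvD4 : Matrix (Fin chevD4.rank) (Fin chevD4.rank) ℤ :=
  (!![-1, 0, 0, 0; 2, -1, 0, 0; -1, 2, -1, 0; -1, 0, 1, 1] : Matrix (Fin 4) (Fin 4) ℤ)

def snQD4 : Matrix (Fin chevD4.rank) (Fin chevD4.rank) ℤ :=
  (!![0, 0, 0, 1; 1, 0, 0, 2; 0, 1, -1, 1; 0, 0, 1, 2] : Matrix (Fin 4) (Fin 4) ℤ)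

def snQinvD4 : Matrix (Fin chevD4.rank) (Fin chevD4.rank) ℤ :=
  (!![-2, 1, 0, 0; -3, 0, 1, 1; -2, 0, 0, 1; 1, 0, 0, 0] : Matrix (Fin 4) (Fin 4) ℤ)

def snDD4 : Fin chevD4.rank → ℕ := (![1, 1, 2, 2] : Fin 4 → ℕ)

theorem sn1D4 : snPD4 * Cm chevD4 * snQD4 = Matrix.diagonal (fun i => (snDD4 i : ℤ)) := by
  decide +kernel
theorem sn2D4 : snPinvD4 * snPD4 = 1 := by decide +kernel
theorem sn3D4 : snQD4 * snQinvD4 = 1 := by decide +kernel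
theorem sn4D4 : snQinvD4 * snQD4 = 1 := by decide +kernel

def snPF4 : Matrix (Fin chevF4.rank) (Fin chevF4.rank) ℤ :=
  (!![-1, 0, 0, 0; -2, -1, 0, 0; -2, -2, -1, 0; 2, 3, 2, 1] : Matrix (Fin 4) (Fin 4) ℤ)

def snPinvF4 : Matrix (Fin chevF4.rank) (Fin chevF4.rank) ℤ :=
  (!![-1, 0, 0, 0; 2, -1, 0, 0; -2, 2, -1, 0; 0, -1, 2, 1] : Matrix (Fin 4) (Fin 4) ℤ)

def snQF4 : Matrix (Fin chevF4.rank) (Fin chevF4.rank) ℤ :=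
  (!![0, 0, 0, 1; 1, 0, 0, 2; 0, 1, 0, 3; 0, 0, 1, 2] : Matrix (Fin 4) (Fin 4) ℤ)

def snQinvF4 : Matrix (Fin chevF4.rank) (Fin chevF4.rank) ℤ :=
  (!![-2, 1, 0, 0; -3, 0, 1, 0; -2, 0, 0, 1; 1, 0, 0, 0] : Matrix (Fin 4) (Fin 4) ℤ)

def snDF4 : Fin chevF4.rank → ℕ := (![1, 1, 1, 1] : Fin 4 → ℕ)

theorem sn1F4 : snPF4 * Cm chevF4 * snQF4 = Matrix.diagonal (fun i => (snDF4 i : ℤ)) := by
  decide +kernel
theorem sn2F4 : snPinvF4 * snPF4 = 1 := by decide +kernel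
theorem sn3F4 : snQF4 * snQinvF4 = 1 := by decide +kernel
theorem sn4F4 : snQinvF4 * snQF4 = 1 := by decide +kernel

def snPE6 : Matrix (Fin chevE6.rank) (Fin chevE6.rank) ℤ :=
  (!![-1, 0, 0, 0, 0, 0; 0, -1, 0, 0, 0, 0; 1, -2, 0, -1, 0, 0; 2, -3, 0, -2, -1, 0; -2, 1, -1, 0, 0, 0; -5, 0, -4, -3, -2, -1] : Matrix (Fin 6) (Fin 6) ℤ)

def snPinvE6 : Matrix (Fin chevE6.rank) (Fin chevE6.rank) ℤ :=
  (!![-1, 0, 0, 0, 0, 0; 0, -1, 0, 0, 0, 0; 2, -1, 0, 0, -1, 0; -1, 2, -1, 0, 0, 0; 0, -1, 2, -1, 0, 0; 0, 0, -1, 2, 4, -1] : Matrix (Fin 6) (Fin 6) ℤ)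

def snQE6 : Matrix (Fin chevE6.rank) (Fin chevE6.rank) ℤ :=
  (!![0, 0, 0, 0, 1, -2; 0, 0, 0, 0, 2, -3; 1, 0, 0, 0, 2, -4; 0, 1, 0, 0, 4, -6; 0, 0, 1, 0, 4, -5; 0, 0, 0, 1, 4, -4] : Matrix (Fin 6) (Fin 6) ℤ)

def snQinvE6 : Matrix (Fin chevE6.rank) (Fin chevE6.rank) ℤ :=
  (!![-2, 0, 1, 0, 0, 0; 0, -2, 0, 1, 0, 0; 2, -3, 0, 0, 1, 0; 4, -4, 0, 0, 0, 1; -3, 2, 0, 0, 0, 0; -2, 1, 0, 0, 0, 0] : Matrix (Fin 6) (Fin 6) ℤ)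

def snDE6 : Fin chevE6.rank → ℕ := (![1, 1, 1, 1, 1, 3] : Fin 6 → ℕ)

theorem sn1E6 : snPE6 * Cm chevE6 * snQE6 = Matrix.diagonal (fun i => (snDE6 i : ℤ)) := by
  decide +kernel
theorem sn2E6 : snPinvE6 * snPE6 = 1 := by decide +kernel
theorem sn3E6 : snQE6 * snQinvE6 = 1 := by decide +kernel
theorem sn4E6 : snQinvE6 * snQE6 = 1 := by decide +kernel

def snPE7 : Matrix (Fin chevE7.rank) (Fin chevE7.rank) ℤ :=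
  (!![-1, 0, 0, 0, 0, 0, 0; 0, -1, 0, 0, 0, 0, 0; 1, -2, 0, -1, 0, 0, 0; 2, -3, 0, -2, -1, 0, 0; 3, -4, 0, -3, -2, -1, 0; -2, 1, -1, 0, 0, 0, 0; -4, -1, -4, -4, -3, -2, -1] : Matrix (Fin 7) (Fin 7) ℤ)

def snPinvE7 : Matrix (Fin chevE7.rank) (Fin chevE7.rank) ℤ :=
  (!![-1, 0, 0, 0, 0, 0, 0; 0, -1, 0, 0, 0, 0, 0; 2, -1, 0, 0, 0, -1, 0; -1, 2, -1, 0, 0, 0, 0; 0, -1, 2, -1, 0, 0, 0; 0, 0, -1, 2, -1, 0, 0; 0, 0, 0, -1, 2, 4, -1] : Matrix (Fin 7) (Fin 7) ℤ)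

def snQE7 : Matrix (Fin chevE7.rank) (Fin chevE7.rank) ℤ :=
  (!![0, 0, 0, 0, 0, 1, -2; 0, 0, 0, 0, 0, 2, -3; 1, 0, 0, 0, 0, 2, -4; 0, 1, 0, 0, 0, 4, -6; 0, 0, 1, 0, 0, 4, -5; 0, 0, 0, 1, 0, 4, -4; 0, 0, 0, 0, 1, 4, -3] : Matrix (Fin 7) (Fin 7) ℤ)

def snQinvE7 : Matrix (Fin chevE7.rank) (Fin chevE7.rank) ℤ :=
  (!![-2, 0, 1, 0, 0, 0, 0; 0, -2, 0, 1, 0, 0, 0; 2, -3, 0, 0, 1, 0, 0; 4, -4, 0, 0, 0, 1, 0; 6, -5, 0, 0, 0, 0, 1; -3, 2, 0, 0, 0, 0, 0; -2, 1, 0, 0, 0, 0, 0] : Matrix (Fin 7) (Fin 7) ℤ)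

def snDE7 : Fin chevE7.rank → ℕ := (![1, 1, 1, 1, 1, 1, 2] : Fin 7 → ℕ)

theorem sn1E7 : snPE7 * Cm chevE7 * snQE7 = Matrix.diagonal (fun i => (snDE7 i : ℤ)) := by
  decide +kernel
theorem sn2E7 : snPinvE7 * snPE7 = 1 := by decide +kernel
theorem sn3E7 : snQE7 * snQinvE7 = 1 := by decide +kernel
theorem sn4E7 : snQinvE7 * snQE7 = 1 := by decide +kernel

def snPE8 : Matrix (Fin chevE8.rank) (Fin chevE8.rank) ℤ :=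
  (!![-1, 0, 0, 0, 0, 0, 0, 0; 0, -1, 0, 0, 0, 0, 0, 0; 1, -2, 0, -1, 0, 0, 0, 0; 2, -3, 0, -2, -1, 0, 0, 0; 3, -4, 0, -3, -2, -1, 0, 0; 4, -5, 0, -4, -3, -2, -1, 0; -2, 1, -1, 0, 0, 0, 0, 0; -3, -2, -4, -5, -4, -3, -2, -1] : Matrix (Fin 8) (Fin 8) ℤ)

def snPinvE8 : Matrix (Fin chevE8.rank) (Fin chevE8.rank) ℤ :=
  (!![-1, 0, 0, 0, 0, 0, 0, 0; 0, -1, 0, 0, 0, 0, 0, 0; 2, -1, 0, 0, 0, 0, -1, 0; -1, 2, -1, 0, 0, 0, 0, 0; 0, -1, 2, -1, 0, 0, 0, 0; 0, 0, -1, 2, -1, 0, 0, 0; 0, 0, 0, -1, 2, -1, 0, 0; 0, 0, 0, 0, -1, 2, 4, -1] : Matrix (Fin 8) (Fin 8) ℤ)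

def snQE8 : Matrix (Fin chevE8.rank) (Fin chevE8.rank) ℤ :=
  (!![0, 0, 0, 0, 0, 0, 1, -2; 0, 0, 0, 0, 0, 0, 2, -3; 1, 0, 0, 0, 0, 0, 2, -4; 0, 1, 0, 0, 0, 0, 4, -6; 0, 0, 1, 0, 0, 0, 4, -5; 0, 0, 0, 1, 0, 0, 4, -4; 0, 0, 0, 0, 1, 0, 4, -3; 0, 0, 0, 0, 0, 1, 4, -2] : Matrix (Fin 8) (Fin 8) ℤ)

def snQinvE8 : Matrix (Fin chevE8.rank) (Fin chevE8.rank) ℤ :=
  (!![-2, 0, 1, 0, 0, 0, 0, 0; 0, -2, 0, 1, 0, 0, 0, 0; 2, -3, 0, 0, 1, 0, 0, 0; 4, -4, 0, 0, 0, 1, 0, 0; 6, -5, 0, 0, 0, 0, 1, 0; 8, -6, 0, 0, 0, 0, 0, 1; -3, 2, 0, 0, 0, 0, 0, 0; -2, 1, 0, 0, 0, 0, 0, 0] : Matrix (Fin 8) (Fin 8) ℤ)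

def snDE8 : Fin chevE8.rank → ℕ := (![1, 1, 1, 1, 1, 1, 1, 1] : Fin 8 → ℕ)

theorem sn1E8 : snPE8 * Cm chevE8 * snQE8 = Matrix.diagonal (fun i => (snDE8 i : ℤ)) := by
  decide +kernel
theorem sn2E8 : snPinvE8 * snPE8 = 1 := by decide +kernel
theorem sn3E8 : snQE8 * snQinvE8 = 1 := by decide +kernel
theorem sn4E8 : snQinvE8 * snQE8 = 1 := by decide +kernel

section sem

variable {F : Type*} [Field F] [Fintype F]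

theorem torus_G2 : 1 * Nat.card (chevG2.diagonalSubgroup F) =
    (Fintype.card F - 1) ^ chevG2.rank := by
  have h := card_torus (F := F) (wok_of_mem (D := chevG2) (by simp)) snPG2 snPinvG2 snQG2 snQinvG2
    snDG2 sn1G2 sn2G2 sn3G2 sn4G2
  have e : (∏ i : Fin chevG2.rank, Nat.gcd (Fintype.card F - 1) (snDG2 i)) = 1 := by
    show (∏ i : Fin 2, Nat.gcd (Fintype.card F - 1) ((![1, 1] : Fin 2 → ℕ) i)) = _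
    simp [Fin.prod_univ_succ, Nat.gcd_comm, sq]
  rw [e] at h
  exact h

theorem torus_B2 : Nat.gcd 2 (Fintype.card F - 1) * Nat.card (chevB2.diagonalSubgroup F) =
    (Fintype.card F - 1) ^ chevB2.rank := by
  have h := card_torus (F := F) (wok_of_mem (D := chevB2) (by simp)) snPB2 snPinvB2 snQB2 snQinvB2
    snDB2 sn1B2 sn2B2 sn3B2 sn4B2
  have e : (∏ i : Fin chevB2.rank, Nat.gcd (Fintype.card F - 1) (snDB2 i)) = Nat.gcd 2 (Fintype.card F - 1) := by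
    show (∏ i : Fin 2, Nat.gcd (Fintype.card F - 1) ((![1, 2] : Fin 2 → ℕ) i)) = _
    simp [Fin.prod_univ_succ, Nat.gcd_comm, sq]
  rw [e] at h
  exact h

theorem torus_D4 : Nat.gcd 2 (Fintype.card F - 1) ^ 2 * Nat.card (chevD4.diagonalSubgroup F) =
    (Fintype.card F - 1) ^ chevD4.rank := by
  have h := card_torus (F := F) (wok_of_mem (D := chevD4) (by simp)) snPD4 snPinvD4 snQD4 snQinvD4
    snDD4 sn1D4 sn2D4 sn3D4 sn4D4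
  have e : (∏ i : Fin chevD4.rank, Nat.gcd (Fintype.card F - 1) (snDD4 i)) = Nat.gcd 2 (Fintype.card F - 1) ^ 2 := by
    show (∏ i : Fin 4, Nat.gcd (Fintype.card F - 1) ((![1, 1, 2, 2] : Fin 4 → ℕ) i)) = _
    simp [Fin.prod_univ_succ, Nat.gcd_comm, sq]
  rw [e] at h
  exact h

theorem torus_F4 : 1 * Nat.card (chevF4.diagonalSubgroup F) =
    (Fintype.card F - 1) ^ chevF4.rank := by
  have h := card_torus (F := F) (wok_of_mem (D := chevF4) (by simp)) snPF4 snPinvF4 snQF4 snQinvF4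
    snDF4 sn1F4 sn2F4 sn3F4 sn4F4
  have e : (∏ i : Fin chevF4.rank, Nat.gcd (Fintype.card F - 1) (snDF4 i)) = 1 := by
    show (∏ i : Fin 4, Nat.gcd (Fintype.card F - 1) ((![1, 1, 1, 1] : Fin 4 → ℕ) i)) = _
    simp [Fin.prod_univ_succ, Nat.gcd_comm, sq]
  rw [e] at h
  exact h

theorem torus_E6 : Nat.gcd 3 (Fintype.card F - 1) * Nat.card (chevE6.diagonalSubgroup F) =
    (Fintype.card F - 1) ^ chevE6.rank := by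
  have h := card_torus (F := F) (wok_of_mem (D := chevE6) (by simp)) snPE6 snPinvE6 snQE6 snQinvE6
    snDE6 sn1E6 sn2E6 sn3E6 sn4E6
  have e : (∏ i : Fin chevE6.rank, Nat.gcd (Fintype.card F - 1) (snDE6 i)) = Nat.gcd 3 (Fintype.card F - 1) := by
    show (∏ i : Fin 6, Nat.gcd (Fintype.card F - 1) ((![1, 1, 1, 1, 1, 3] : Fin 6 → ℕ) i)) = _
    simp [Fin.prod_univ_succ, Nat.gcd_comm, sq]
  rw [e] at h
  exact h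

theorem torus_E7 : Nat.gcd 2 (Fintype.card F - 1) * Nat.card (chevE7.diagonalSubgroup F) =
    (Fintype.card F - 1) ^ chevE7.rank := by
  have h := card_torus (F := F) (wok_of_mem (D := chevE7) (by simp)) snPE7 snPinvE7 snQE7 snQinvE7
    snDE7 sn1E7 sn2E7 sn3E7 sn4E7
  have e : (∏ i : Fin chevE7.rank, Nat.gcd (Fintype.card F - 1) (snDE7 i)) = Nat.gcd 2 (Fintype.card F - 1) := by
    show (∏ i : Fin 7, Nat.gcd (Fintype.card F - 1) ((![1, 1, 1, 1, 1, 1, 2] : Fin 7 → ℕ) i)) = _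
    simp [Fin.prod_univ_succ, Nat.gcd_comm, sq]
  rw [e] at h
  exact h

theorem torus_E8 : 1 * Nat.card (chevE8.diagonalSubgroup F) =
    (Fintype.card F - 1) ^ chevE8.rank := by
  have h := card_torus (F := F) (wok_of_mem (D := chevE8) (by simp)) snPE8 snPinvE8 snQE8 snQinvE8
    snDE8 sn1E8 sn2E8 sn3E8 sn4E8
  have e : (∏ i : Fin chevE8.rank, Nat.gcd (Fintype.card F - 1) (snDE8 i)) = 1 := by
    show (∏ i : Fin 8, Nat.gcd (Fintype.card F - 1) ((![1, 1, 1, 1, 1, 1, 1, 1] : Fin 8 → ℕ) i)) = _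
    simp [Fin.prod_univ_succ, Nat.gcd_comm, sq]
  rw [e] at h
  exact h

end sem

end Cfsg.Agent.Helper7
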