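import Cfsg.Agent.Helper7.ChkOrdG2
import Cfsg.Agent.Helper7.ChkOrdB2
import Cfsg.Agent.Helper7.ChkOrdD4
import Cfsg.Agent.Helper7.ChkOrdF4
import Cfsg.Agent.Helper7.ChkOrdE6
import Cfsg.Agent.Helper7.ChkOrdE7
import Cfsg.Agent.Helper7.ChkOrdE8
import Cfsg.Agent.Helper7.ChkOrdU
import Cfsg.Agent.Helper7.ChkTorus
import Cfsg.Agent.Helper7.ChkUp

set_option autoImplicit false
set_option maxHeartbeats 4000000
open Cfsg

namespace Cfsg.Agent.Helper7

open Cfsg.Lie

section sem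

variable {F : Type*} [Field F] [Fintype F]

theorem order_G2 : 1 * Nat.card (chevG2.group F) =
    Fintype.card F ^ (chevG2.nroots / 2) *
      ([2, 6].map fun e => Fintype.card F ^ e - 1).prod :=
  order_formula (uok_of_mem (by simp)) (cf_of_mem (by simp)) unitAllOK_G2
    ⟨wok_of_mem (by simp), reflOK_G2, carLinOK_G2, basisOK_G2, lexAllOK_G2⟩
    (⟨uok_of_mem (by simp), lexOK_G2, unitOK_G2, ordOK_G2, by decide⟩ :
      VOK chevG2 adjG2 10)
    levsG2 levsOK_G2 [2, 6] (by decide) poly_G2 _ torus_G2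

theorem order_B2 : Nat.gcd 2 (Fintype.card F - 1) * Nat.card (chevB2.group F) =
    Fintype.card F ^ (chevB2.nroots / 2) *
      ([2, 4].map fun e => Fintype.card F ^ e - 1).prod :=
  order_formula (uok_of_mem (by simp)) (cf_of_mem (by simp)) unitAllOK_B2
    ⟨wok_of_mem (by simp), reflOK_B2, carLinOK_B2, basisOK_B2, lexAllOK_B2⟩
    (⟨uok_of_mem (by simp), lexOK_B2, unitOK_B2, ordOK_B2, by decide⟩ :
      VOK chevB2 adjB2 10)
    levsB2 levsOK_B2 [2, 4] (by decide) poly_B2 _ torus_B2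

theorem order_D4 : Nat.gcd 2 (Fintype.card F - 1) ^ 2 * Nat.card (chevD4.group F) =
    Fintype.card F ^ (chevD4.nroots / 2) *
      ([2, 4, 4, 6].map fun e => Fintype.card F ^ e - 1).prod :=
  order_formula (uok_of_mem (by simp)) (cf_of_mem (by simp)) unitAllOK_D4
    ⟨wok_of_mem (by simp), reflOK_D4, carLinOK_D4, basisOK_D4, lexAllOK_D4⟩
    (⟨uok_of_mem (by simp), lexOK_D4, unitOK_D4, ordOK_D4, by decide⟩ :
      VOK chevD4 adjD4 10)
    levsD4 levsOK_D4 [2, 4, 4, 6] (by decide) poly_D4 _ torus_D4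

theorem order_F4 : 1 * Nat.card (chevF4.group F) =
    Fintype.card F ^ (chevF4.nroots / 2) *
      ([2, 6, 8, 12].map fun e => Fintype.card F ^ e - 1).prod :=
  order_formula (uok_of_mem (by simp)) (cf_of_mem (by simp)) unitAllOK_F4
    ⟨wok_of_mem (by simp), reflOK_F4, carLinOK_F4, basisOK_F4, lexAllOK_F4⟩
    (⟨uok_of_mem (by simp), lexOK_F4, unitOK_F4, ordOK_F4, by decide⟩ :
      VOK chevF4 adjF4 10)
    levsF4 levsOK_F4 [2, 6, 8, 12] (by decide) poly_F4 _ torus_F4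

theorem order_E6 : Nat.gcd 3 (Fintype.card F - 1) * Nat.card (chevE6.group F) =
    Fintype.card F ^ (chevE6.nroots / 2) *
      ([2, 5, 6, 8, 9, 12].map fun e => Fintype.card F ^ e - 1).prod :=
  order_formula (uok_of_mem (by simp)) (cf_of_mem (by simp)) unitAllOK_E6
    ⟨wok_of_mem (by simp), reflOK_E6, carLinOK_E6, basisOK_E6, lexAllOK_E6⟩
    (⟨uok_of_mem (by simp), lexOK_E6, unitOK_E6, ordOK_E6, by decide⟩ :
      VOK chevE6 adjE6 10)
    levsE6 levsOK_E6 [2, 5, 6, 8, 9, 12] (by decide) poly_E6 _ torus_E6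

theorem order_E7 : Nat.gcd 2 (Fintype.card F - 1) * Nat.card (chevE7.group F) =
    Fintype.card F ^ (chevE7.nroots / 2) *
      ([2, 6, 8, 10, 12, 14, 18].map fun e => Fintype.card F ^ e - 1).prod :=
  order_formula (uok_of_mem (by simp)) (cf_of_mem (by simp)) unitAllOK_E7
    ⟨wok_of_mem (by simp), reflOK_E7, carLinOK_E7, basisOK_E7, lexAllOK_E7⟩
    (⟨uok_of_mem (by simp), lexOK_E7, unitOK_E7, ordOK_E7, by decide⟩ :
      VOK chevE7 adjE7 10)
    levsE7 levsOK_E7 [2, 6, 8, 10, 12, 14, 18] (by decide) poly_E7 _ torus_E7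

theorem order_E8 : 1 * Nat.card (chevE8.group F) =
    Fintype.card F ^ (chevE8.nroots / 2) *
      ([2, 8, 12, 14, 18, 20, 24, 30].map fun e => Fintype.card F ^ e - 1).prod :=
  order_formula (uok_of_mem (by simp)) (cf_of_mem (by simp)) unitAllOK_E8
    ⟨wok_of_mem (by simp), reflOK_E8, carLinOK_E8, basisOK_E8, lexAllOK_E8⟩
    (⟨uok_of_mem (by simp), lexOK_E8, unitOK_E8, ordOK_E8, by decide⟩ :
      VOK chevE8 adjE8 10)
    levsE8 levsOK_E8 [2, 8, 12, 14, 18, 20, 24, 30] (by decide) poly_E8 _ torus_E8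

end sem

end Cfsg.Agent.Helper7
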