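import Cfsg.Agent.Helper7.ChevPerf
import Cfsg.Agent.Helper7.ChkUp

set_option autoImplicit false
set_option maxHeartbeats 4000000
set_option maxRecDepth 100000
open Cfsg

namespace Cfsg.Agent.Helper7

open Cfsg.Lie

theorem perfOK_D4 : perfOK chevD4 [(6, 22), (1, 23), (3, 22), (2, 22)] = true := by
  decide +kernel
theorem perfOK_F4 : perfOK chevF4 [(7, 44), (8, 40), (2, 46), (1, 47)] = true := by
  decide +kernel
theorem perfOK_E6 :
    perfOK chevE6 [(16, 66), (1, 71), (5, 69), (2, 70), (3, 69), (4, 68)] = true := by
  decide +kernel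
theorem perfOK_E7 :
    perfOK chevE7 [(1, 125), (7, 122), (2, 124), (3, 123), (4, 122), (5, 121), (6, 120)] =
      true := by
  decide +kernel
theorem perfOK_E8 :
    perfOK chevE8 [(14, 233), (7, 234), (6, 234), (5, 235), (4, 236), (3, 237), (2, 238),
      (1, 239)] = true := by
  decide +kernel

theorem perfect_G2 {F : Type*} [Field F] (a : F) (ha0 : a ≠ 0) (ha1 : a ≠ 1) :
    commutator ↥(chevG2.group F) = ⊤ := by
  have U : UOK chevG2 := uok_of_mem (by simp)
  have hcf : CF chevG2 F := cf_of_mem (by simp)
  apply perfect_of_base U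
  intro j hj t
  have hj' : j < 2 := hj
  interval_cases j
  · have e : chevG2.simple 0 = 7 := by decide +kernel
    rw [e]
    apply perf_torus U.m (i := 1) (by decide +kernel) (by decide +kernel) (Units.mk0 a ha0)
    have e2 : chevG2.cartan 1 7 = -1 := by decide +kernel
    rw [e2, zpow_neg_one]
    intro h
    apply ha1
    have := congrArg Units.val h
    simpa using this
  · have e : chevG2.simple 1 = 6 := by decide +kernel
    rw [e]
    exact perf_comm U.m hcf (r := 1) (s := 11) (c := -1) (by decide +kernel) (by decide +kernel)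
      (by decide +kernel) (by decide +kernel) (by decide +kernel) (by simp) t

theorem perfect_B2 {F : Type*} [Field F] (a : F) (ha0 : a ≠ 0) (ha1 : a ≠ 1) :
    commutator ↥(chevB2.group F) = ⊤ := by
  have U : UOK chevB2 := uok_of_mem (by simp)
  have hcf : CF chevB2 F := cf_of_mem (by simp)
  apply perfect_of_base U
  intro j hj t
  have hj' : j < 2 := hj
  interval_cases j
  · have e : chevB2.simple 0 = 5 := by decide +kernel
    rw [e]
    apply perf_torus U.m (i := 1) (by decide +kernel) (by decide +kernel) (Units.mk0 a ha0)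
    have e2 : chevB2.cartan 1 5 = -1 := by decide +kernel
    rw [e2, zpow_neg_one]
    intro h
    apply ha1
    have := congrArg Units.val h
    simpa using this
  · have e : chevB2.simple 1 = 4 := by decide +kernel
    rw [e]
    by_cases h2 : (2 : F) = 0
    · apply perf_torus U.m (i := 1) (by decide +kernel) (by decide +kernel) (Units.mk0 a ha0)
      have e2 : chevB2.cartan 1 4 = 2 := by decide +kernel
      rw [e2]
      intro h
      apply ha1
      have h3 := congrArg Units.val h
      have h4 : a ^ 2 = 1 := by simpa using h3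
      have h5 : (a - 1) ^ 2 = 0 := by
        have : (a - 1) ^ 2 = a ^ 2 - 2 * a + 1 := by ring
        rw [this, h4, h2]
        ring_nf
        exact h2
      exact sub_eq_zero.mp (pow_eq_zero_iff (by norm_num) |>.mp h5)
    · exact perf_comm U.m hcf (r := 2) (s := 6) (c := -2) (by decide +kernel)
        (by decide +kernel) (by decide +kernel) (by decide +kernel) (by decide +kernel)
        (by simpa using h2) t

theorem perfect_of_mem {F : Type*} [Field F] {D : ChevalleyDatum}
    (hD : D ∈ [chevG2, chevB2, chevD4, chevF4, chevE6, chevE7, chevE8])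
    (h2 : D = chevG2 ∨ D = chevB2 → ∃ a : F, a ≠ 0 ∧ a ≠ 1) :
    commutator ↥(D.group F) = ⊤ := by
  have key := forall_seven
    (P := fun D => (D = chevG2 ∨ D = chevB2 → ∃ a : F, a ≠ 0 ∧ a ≠ 1) →
      commutator ↥(D.group F) = ⊤)
    (fun h => by
      obtain ⟨a, h0, h1⟩ := h (Or.inl rfl)
      exact perfect_G2 a h0 h1)
    (fun h => by
      obtain ⟨a, h0, h1⟩ := h (Or.inr rfl)
      exact perfect_B2 a h0 h1)
    (fun _ => perfect_of_certs (uok_of_mem (by simp)) (cf_of_mem (by simp)) _ perfOK_D4)
    (fun _ => perfect_of_certs (uok_of_mem (by simp)) (cf_of_mem (by simp)) _ perfOK_F4)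
    (fun _ => perfect_of_certs (uok_of_mem (by simp)) (cf_of_mem (by simp)) _ perfOK_E6)
    (fun _ => perfect_of_certs (uok_of_mem (by simp)) (cf_of_mem (by simp)) _ perfOK_E7)
    (fun _ => perfect_of_certs (uok_of_mem (by simp)) (cf_of_mem (by simp)) _ perfOK_E8)
    hD
  exact key h2

end Cfsg.Agent.Helper7
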