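import Cfsg.Agent.Helper7.ChevRC

set_option autoImplicit false
set_option maxRecDepth 100000
open Cfsg

namespace Cfsg.Agent.Helper7

open Cfsg.Lie

theorem rcOK_G2 : rcOK chevG2 = true := by decide +kernel
theorem rcOK_B2 : rcOK chevB2 = true := by decide +kernel
theorem rcOK_D4 : rcOK chevD4 = true := by decide +kernel
theorem rcOK_F4 : rcOK chevF4 = true := by decide +kernel
theorem rcOK_E6 : rcOK chevE6 = true := by decide +kernel
theorem rcOK_E7 : rcOK chevE7 = true := by decide +kernel
theorem rcOK_E8 : rcOK chevE8 = true := by decide +kernel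

theorem rcOK_of_mem {D : ChevalleyDatum}
    (hD : D ∈ [chevG2, chevB2, chevD4, chevF4, chevE6, chevE7, chevE8]) : rcOK D = true :=
  forall_seven (P := fun D => rcOK D = true) rcOK_G2 rcOK_B2 rcOK_D4 rcOK_F4 rcOK_E6 rcOK_E7
    rcOK_E8 hD

end Cfsg.Agent.Helper7
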