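import Cfsg.Agent.Helper7.ChevSimple
import Cfsg.Agent.Helper7.ChkPerf
import Cfsg.Agent.Helper7.ChkLong

set_option autoImplicit false
set_option maxHeartbeats 4000000
set_option maxRecDepth 100000
open Cfsg

namespace Cfsg.Agent.Helper7

open Cfsg.Lie

theorem irrOK_G2 : irrOK chevG2 = true := by decide +kernel
theorem irrOK_B2 : irrOK chevB2 = true := by decide +kernel
theorem irrOK_D4 : irrOK chevD4 = true := by decide +kernel
theorem irrOK_F4 : irrOK chevF4 = true := by decide +kernel
theorem irrOK_E6 : irrOK chevE6 = true := by decide +kernel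
theorem irrOK_E7 : irrOK chevE7 = true := by decide +kernel
theorem irrOK_E8 : irrOK chevE8 = true := by decide +kernel

theorem simple_of_mem {F : Type*} [Field F] {D : ChevalleyDatum}
    (hD : D ∈ [chevG2, chevB2, chevD4, chevF4, chevE6, chevE7, chevE8])
    (h2 : D = chevG2 ∨ D = chevB2 → ∃ a : F, a ≠ 0 ∧ a ≠ 1) :
    IsSimpleGroup ↥(D.group F) ∧ ¬ IsMulCommutative ↥(D.group F) := by
  obtain ⟨w, hw⟩ := exists_longOK hD
  exact chev_simple (uok_of_mem hD) (cf_of_mem hD)
    (forall_seven (P := fun D => irrOK D = true) irrOK_G2 irrOK_B2 irrOK_D4 irrOK_F4 irrOK_E6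
      irrOK_E7 irrOK_E8 hD)
    (perfect_of_mem hD h2) (exists_long (mok_of_mem hD) w hw)
    (forall_seven (P := fun D => 0 < D.rank) (by decide +kernel) (by decide +kernel)
      (by decide +kernel) (by decide +kernel) (by decide +kernel) (by decide +kernel)
      (by decide +kernel) hD)

end Cfsg.Agent.Helper7
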