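import Cfsg.Agent.Helper7.ChkOrder

set_option autoImplicit false
set_option linter.unusedSectionVars false
set_option linter.unusedVariables false
open Cfsg

namespace Cfsg.Agent.Helper7

open Cfsg.Lie

theorem sylow_aux {G : Type*} [Group G] [Finite G] (p : ℕ) [Fact p.Prime] (U : Subgroup G)
    (q N d : ℕ) (ds : List ℕ) (hq : p ∣ q) (hqpow : ∃ k, q = p ^ k) (hU : Nat.card U = q ^ N)
    (hG : d * Nat.card G = q ^ N * (ds.map fun e => q ^ e - 1).prod) (hds : ∀ e ∈ ds, 0 < e) :
    ∃ P : Sylow p G, (P : Subgroup G) = U := by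
  have hp : p.Prime := Fact.out
  have hq0 : 0 < q := by
    obtain ⟨k, rfl⟩ := hqpow
    exact pow_pos hp.pos k
  have hPG : IsPGroup p U := by
    obtain ⟨k, rfl⟩ := hqpow
    exact IsPGroup.of_card (n := k * N) (by rw [hU, pow_mul])
  have hidx : ¬ p ∣ U.index := by
    intro hdiv
    have h1 : Nat.card U * U.index = Nat.card G := U.card_mul_index
    have h2 : d * U.index = (ds.map fun e => q ^ e - 1).prod := by
      have h3 : q ^ N * (d * U.index) = q ^ N * (ds.map fun e => q ^ e - 1).prod := by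
        rw [← hG, ← h1, hU]
        ring
      exact Nat.eq_of_mul_eq_mul_left (pow_pos hq0 N) h3
    have h3 : p ∣ (ds.map fun e => q ^ e - 1).prod := by
      rw [← h2]
      exact Dvd.dvd.mul_left hdiv d
    rw [hp.prime.dvd_prod_iff] at h3
    obtain ⟨a, ha, hpa⟩ := h3
    rw [List.mem_map] at ha
    obtain ⟨e, he, rfl⟩ := ha
    have he0 := hds e he
    have h4 : p ∣ q ^ e := dvd_pow hq (by omega)
    have h5 : 1 ≤ q ^ e := Nat.one_le_pow _ _ hq0
    have h6 : p ∣ 1 := by
      have h7 := Nat.dvd_sub h4 hpa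
      rwa [Nat.sub_sub_self h5] at h7
    exact hp.one_lt.ne' (Nat.dvd_one.mp h6)
  exact ⟨hPG.toSylow hidx, hPG.toSylow_coe hidx⟩

theorem posU_sylow {F : Type*} [Field F] [Fintype F] (p : ℕ) [Fact p.Prime] [CharP F p]
    {D : ChevalleyDatum} (hD : D ∈ [chevG2, chevB2, chevD4, chevF4, chevE6, chevE7, chevE8]) :
    ∃ P : Sylow p ↥(D.group F),
      (P : Subgroup ↥(D.group F)) = (D.posUnipotent F).subgroupOf (D.group F) := by
  obtain ⟨adj, L, V⟩ := vok_of_mem hD
  have hU := card_posU (F := F) V (cf_of_mem hD)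
  have hle : D.posUnipotent F ≤ D.group F :=
    le_trans le_sup_left (borel_mon_group (F := F) V.u.m).1
  have hU' : Nat.card ((D.posUnipotent F).subgroupOf (D.group F)) =
      Fintype.card F ^ (D.nroots / 2) := by
    rw [← hU]
    exact Nat.card_congr (Subgroup.subgroupOfEquivOfLe hle).toEquiv
  obtain ⟨n, _, hn⟩ := FiniteField.card F p
  have hq : p ∣ Fintype.card F := by
    rw [hn]
    exact dvd_pow_self p n.pos.ne'
  obtain ⟨d, ds, hG, hds⟩ : ∃ (d : ℕ) (ds : List ℕ),
      d * Nat.card ↥(D.group F) = Fintype.card F ^ (D.nroots / 2) *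
        (ds.map fun e => Fintype.card F ^ e - 1).prod ∧ ∀ e ∈ ds, 0 < e := by
    simp only [List.mem_cons, List.not_mem_nil, or_false] at hD
    rcases hD with rfl | rfl | rfl | rfl | rfl | rfl | rfl
    · exact ⟨_, _, order_G2, by decide⟩
    · exact ⟨_, _, order_B2, by decide⟩
    · exact ⟨_, _, order_D4, by decide⟩
    · exact ⟨_, _, order_F4, by decide⟩
    · exact ⟨_, _, order_E6, by decide⟩
    · exact ⟨_, _, order_E7, by decide⟩
    · exact ⟨_, _, order_E8, by decide⟩
  exact sylow_aux p _ _ _ d ds hq ⟨n, hn⟩ hU' hG hds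

end Cfsg.Agent.Helper7
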