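import Cfsg.Agent.Helper7.ChevTw
import Cfsg.Agent.Helper7.ChkUp
import Cfsg.Agent.Helper7.ChkLong
import Cfsg.Prelude.Def_LieTwisted

set_option autoImplicit false
set_option maxHeartbeats 4000000
set_option maxRecDepth 100000
open Cfsg

namespace Cfsg.Agent.Helper7

open Cfsg.Lie

def blkE6 : List (List ℕ) := longWF4.map fun i => ([[1], [3], [2, 4], [0, 5]] : List (List ℕ)).getD i []

def blkD4 : List (List ℕ) := [[1], [0, 2, 3], [1], [0, 2, 3], [1], [0, 2, 3]]

theorem longOK_twE6 : longOK chevE6 blkE6.flatten = true := by decide +kernel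
theorem longOK_twD4 : longOK chevD4 blkD4.flatten = true := by decide +kernel

theorem orthOK_E6_05 : orthOK chevE6 0 5 = true := by decide +kernel
theorem orthOK_E6_24 : orthOK chevE6 2 4 = true := by decide +kernel
theorem orthOK_D4_02 : orthOK chevD4 0 2 = true := by decide +kernel
theorem orthOK_D4_03 : orthOK chevD4 0 3 = true := by decide +kernel
theorem orthOK_D4_23 : orthOK chevD4 2 3 = true := by decide +kernel

theorem e6_simple : [chevE6.simple 0, chevE6.simple 1, chevE6.simple 2, chevE6.simple 3,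
    chevE6.simple 4, chevE6.simple 5] = [e6p1, e6p2, e6p3, e6p4, e6p5, e6p6] := by decide +kernel

theorem e6_neg : [chevE6.neg e6p1, chevE6.neg e6p2, chevE6.neg e6p3, chevE6.neg e6p4,
    chevE6.neg e6p5, chevE6.neg e6p6] = [e6m1, e6m2, e6m3, e6m4, e6m5, e6m6] := by decide +kernel

theorem d4_simple : [chevD4.simple 0, chevD4.simple 1, chevD4.simple 2, chevD4.simple 3] =
    [d4p1, d4p2, d4p3, d4p4] := by decide +kernel

theorem d4_neg : [chevD4.neg d4p1, chevD4.neg d4p2, chevD4.neg d4p3, chevD4.neg d4p4] =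
    [d4m1, d4m2, d4m3, d4m4] := by decide +kernel

end Cfsg.Agent.Helper7
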