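import Cfsg.Agent.Helper7.ChkTw

set_option autoImplicit false
set_option maxHeartbeats 4000000
set_option maxRecDepth 100000
open Cfsg

namespace Cfsg.Agent.Helper7

open Cfsg.Lie

section sem

variable {K : Type*} [Field K]

theorem e6_fix_mem (U : UOK chevE6) (q : ℕ) :
    ∀ r ∈ [e6p2, e6m2, e6p4, e6m4], ∀ t : K, t ^ q = t →
      xV chevE6 U.m.w.add r t ∈ twistedE6 K q := by
  intro r hr t ht
  have h := gen_mem chevE6 U.m.w.add (e6Words K q) [(r, t)] (Or.inl ⟨t, ht, r, hr, rfl⟩)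
  unfold twistedE6
  simpa [wordU] using h

theorem e6_pair_mem (U : UOK chevE6) (q : ℕ) :
    ∀ rs ∈ [(e6p1, e6p6), (e6m1, e6m6), (e6p3, e6p5), (e6m3, e6m5)], ∀ t : K,
      xV chevE6 U.m.w.add rs.1 t * xV chevE6 U.m.w.add rs.2 (t ^ q) ∈ twistedE6 K q := by
  intro rs hrs t
  have h := gen_mem chevE6 U.m.w.add (e6Words K q) [(rs.1, t), (rs.2, t ^ q)]
    (Or.inr ⟨t, rs, hrs, rfl⟩)
  unfold twistedE6
  simpa [wordU, mul_assoc] using h

theorem core_2E6 [Fintype K] {q : ℕ} (hK : Fintype.card K = q ^ 2) :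
    ((chevE6.borelSubgroup K ⊓ twistedE6 K q).subgroupOf (twistedE6 K q)).normalCore = ⊥ := by
  have U : UOK chevE6 := uok_of_mem (by simp)
  have hcf : CF chevE6 K := cf_of_mem (by simp)
  have hm1 : (-1 : K) ^ q = -1 := neg_one_pow_of_card (by norm_num) hK
  have hs := e6_simple
  have hn := e6_neg
  simp only [List.cons.injEq, and_true] at hs hn
  obtain ⟨s0, s1, s2, s3, s4, s5⟩ := hs
  obtain ⟨n0, n1, n2, n3, n4, n5⟩ := hn
  have hfix := e6_fix_mem (K := K) U q
  have hpair := e6_pair_mem (K := K) U q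
  have f1p : xV chevE6 U.m.w.add (chevE6.simple 1) (1 : K) ∈ twistedE6 K q := by
    rw [s1]
    exact hfix e6p2 (by simp) 1 (one_pow q)
  have f1m : xV chevE6 U.m.w.add (chevE6.neg (chevE6.simple 1)) (-1 : K) ∈ twistedE6 K q := by
    rw [s1, n1]
    exact hfix e6m2 (by simp) (-1) hm1
  have f1y : xV chevE6 U.m.w.add (chevE6.neg (chevE6.simple 1)) (1 : K) ∈ twistedE6 K q := by
    rw [s1, n1]
    exact hfix e6m2 (by simp) 1 (one_pow q)
  have f3p : xV chevE6 U.m.w.add (chevE6.simple 3) (1 : K) ∈ twistedE6 K q := by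
    rw [s3]
    exact hfix e6p4 (by simp) 1 (one_pow q)
  have f3m : xV chevE6 U.m.w.add (chevE6.neg (chevE6.simple 3)) (-1 : K) ∈ twistedE6 K q := by
    rw [s3, n3]
    exact hfix e6m4 (by simp) (-1) hm1
  have f3y : xV chevE6 U.m.w.add (chevE6.neg (chevE6.simple 3)) (1 : K) ∈ twistedE6 K q := by
    rw [s3, n3]
    exact hfix e6m4 (by simp) 1 (one_pow q)
  have p05p : xV chevE6 U.m.w.add (chevE6.simple 0) (1 : K) *
      xV chevE6 U.m.w.add (chevE6.simple 5) (1 : K) ∈ twistedE6 K q := by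
    have h := hpair (e6p1, e6p6) (by simp) 1
    rw [one_pow] at h
    rw [s0, s5]
    exact h
  have p05m : xV chevE6 U.m.w.add (chevE6.neg (chevE6.simple 0)) (-1 : K) *
      xV chevE6 U.m.w.add (chevE6.neg (chevE6.simple 5)) (-1 : K) ∈ twistedE6 K q := by
    have h := hpair (e6m1, e6m6) (by simp) (-1)
    rw [hm1] at h
    rw [s0, s5, n0, n5]
    exact h
  have p05y : xV chevE6 U.m.w.add (chevE6.neg (chevE6.simple 0)) (1 : K) *
      xV chevE6 U.m.w.add (chevE6.neg (chevE6.simple 5)) (1 : K) ∈ twistedE6 K q := by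
    have h := hpair (e6m1, e6m6) (by simp) 1
    rw [one_pow] at h
    rw [s0, s5, n0, n5]
    exact h
  have p24p : xV chevE6 U.m.w.add (chevE6.simple 2) (1 : K) *
      xV chevE6 U.m.w.add (chevE6.simple 4) (1 : K) ∈ twistedE6 K q := by
    have h := hpair (e6p3, e6p5) (by simp) 1
    rw [one_pow] at h
    rw [s2, s4]
    exact h
  have p24m : xV chevE6 U.m.w.add (chevE6.neg (chevE6.simple 2)) (-1 : K) *
      xV chevE6 U.m.w.add (chevE6.neg (chevE6.simple 4)) (-1 : K) ∈ twistedE6 K q := by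
    have h := hpair (e6m3, e6m5) (by simp) (-1)
    rw [hm1] at h
    rw [s2, s4, n2, n4]
    exact h
  have p24y : xV chevE6 U.m.w.add (chevE6.neg (chevE6.simple 2)) (1 : K) *
      xV chevE6 U.m.w.add (chevE6.neg (chevE6.simple 4)) (1 : K) ∈ twistedE6 K q := by
    have h := hpair (e6m3, e6m5) (by simp) 1
    rw [one_pow] at h
    rw [s2, s4, n2, n4]
    exact h
  have hr6 : chevE6.rank = 6 := by decide
  apply core_trivial_tw U (twistedE6 K q) blkE6.flatten longOK_twE6
  · apply nWordU_flatten_mem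
    intro b hb
    unfold blkE6 at hb
    rw [List.mem_map] at hb
    obtain ⟨i, -, rfl⟩ := hb
    rcases i with _ | _ | _ | _ | i
    · exact fix_block_mem U.m _ (by rw [hr6]; norm_num) f1p f1m
    · exact fix_block_mem U.m _ (by rw [hr6]; norm_num) f3p f3m
    · exact pair_block_mem U.m hcf _ orthOK_E6_24 p24p p24m
    · exact pair_block_mem U.m hcf _ orthOK_E6_05 p05p p05m
    · have e : (([[1], [3], [2, 4], [0, 5]] : List (List ℕ)).getD (i + 1 + 1 + 1 + 1) []) = [] := by
        simp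
      rw [e]
      simp [nWordU]
  · intro i hi
    rw [hr6] at hi
    have h05 : [chevE6.simple 0, chevE6.simple 5].Nodup := by decide +kernel
    have h24 : [chevE6.simple 2, chevE6.simple 4].Nodup := by decide +kernel
    interval_cases i
    · refine ⟨[(0, 1), (5, 1)], h05, ?_, ⟨1, one_ne_zero, by simp⟩, ?_⟩
      · intro p hp
        simp only [List.mem_cons, List.not_mem_nil, or_false] at hp
        rcases hp with rfl | rfl <;> rw [hr6] <;> norm_num
      · simpa using p05y
    · refine ⟨[(1, 1)], by simp, ?_, ⟨1, one_ne_zero, by simp⟩, ?_⟩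
      · intro p hp
        simp only [List.mem_cons, List.not_mem_nil, or_false] at hp
        rcases hp with rfl
        rw [hr6]
        norm_num
      · simpa using f1y
    · refine ⟨[(2, 1), (4, 1)], h24, ?_, ⟨1, one_ne_zero, by simp⟩, ?_⟩
      · intro p hp
        simp only [List.mem_cons, List.not_mem_nil, or_false] at hp
        rcases hp with rfl | rfl <;> rw [hr6] <;> norm_num
      · simpa using p24y
    · refine ⟨[(3, 1)], by simp, ?_, ⟨1, one_ne_zero, by simp⟩, ?_⟩
      · intro p hp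
        simp only [List.mem_cons, List.not_mem_nil, or_false] at hp
        rcases hp with rfl
        rw [hr6]
        norm_num
      · simpa using f3y
    · refine ⟨[(2, 1), (4, 1)], h24, ?_, ⟨1, one_ne_zero, by simp⟩, ?_⟩
      · intro p hp
        simp only [List.mem_cons, List.not_mem_nil, or_false] at hp
        rcases hp with rfl | rfl <;> rw [hr6] <;> norm_num
      · simpa using p24y
    · refine ⟨[(0, 1), (5, 1)], h05, ?_, ⟨1, one_ne_zero, by simp⟩, ?_⟩
      · intro p hp
        simp only [List.mem_cons, List.not_mem_nil, or_false] at hp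
        rcases hp with rfl | rfl <;> rw [hr6] <;> norm_num
      · simpa using p05y

theorem d4_fix_mem (U : UOK chevD4) (q : ℕ) :
    ∀ r ∈ [d4p2, d4m2], ∀ t : K, t ^ q = t →
      xV chevD4 U.m.w.add r t ∈ twistedD4 K q := by
  intro r hr t ht
  have h := gen_mem chevD4 U.m.w.add (d4Words K q) [(r, t)] (Or.inl ⟨t, ht, r, hr, rfl⟩)
  unfold twistedD4
  simpa [wordU] using h

theorem d4_triple_mem (U : UOK chevD4) (q : ℕ) :
    ∀ rs ∈ [(d4p1, d4p3, d4p4), (d4m1, d4m3, d4m4)], ∀ t : K,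
      xV chevD4 U.m.w.add rs.1 t * xV chevD4 U.m.w.add rs.2.1 (t ^ q) *
        xV chevD4 U.m.w.add rs.2.2 (t ^ (q ^ 2)) ∈ twistedD4 K q := by
  intro rs hrs t
  have h := gen_mem chevD4 U.m.w.add (d4Words K q)
    [(rs.1, t), (rs.2.1, t ^ q), (rs.2.2, t ^ (q ^ 2))] (Or.inr ⟨t, rs, hrs, rfl⟩)
  unfold twistedD4
  simpa [wordU, mul_assoc] using h

theorem core_3D4 [Fintype K] {q : ℕ} (hK : Fintype.card K = q ^ 3) :
    ((chevD4.borelSubgroup K ⊓ twistedD4 K q).subgroupOf (twistedD4 K q)).normalCore = ⊥ := by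
  have U : UOK chevD4 := uok_of_mem (by simp)
  have hcf : CF chevD4 K := cf_of_mem (by simp)
  have hm1 : (-1 : K) ^ q = -1 := neg_one_pow_of_card (by norm_num) hK
  have hm2 : (-1 : K) ^ (q ^ 2) = -1 := by rw [pow_two, pow_mul, hm1, hm1]
  have hs := d4_simple
  have hn := d4_neg
  simp only [List.cons.injEq, and_true] at hs hn
  obtain ⟨s0, s1, s2, s3⟩ := hs
  obtain ⟨n0, n1, n2, n3⟩ := hn
  have hfix := d4_fix_mem (K := K) U q
  have htri := d4_triple_mem (K := K) U q
  have f1p : xV chevD4 U.m.w.add (chevD4.simple 1) (1 : K) ∈ twistedD4 K q := by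
    rw [s1]
    exact hfix d4p2 (by simp) 1 (one_pow q)
  have f1m : xV chevD4 U.m.w.add (chevD4.neg (chevD4.simple 1)) (-1 : K) ∈ twistedD4 K q := by
    rw [s1, n1]
    exact hfix d4m2 (by simp) (-1) hm1
  have f1y : xV chevD4 U.m.w.add (chevD4.neg (chevD4.simple 1)) (1 : K) ∈ twistedD4 K q := by
    rw [s1, n1]
    exact hfix d4m2 (by simp) 1 (one_pow q)
  have tp : xV chevD4 U.m.w.add (chevD4.simple 0) (1 : K) *
      xV chevD4 U.m.w.add (chevD4.simple 2) (1 : K) *
      xV chevD4 U.m.w.add (chevD4.simple 3) (1 : K) ∈ twistedD4 K q := by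
    have h := htri (d4p1, d4p3, d4p4) (by simp) 1
    rw [one_pow, one_pow] at h
    rw [s0, s2, s3]
    exact h
  have tm : xV chevD4 U.m.w.add (chevD4.neg (chevD4.simple 0)) (-1 : K) *
      xV chevD4 U.m.w.add (chevD4.neg (chevD4.simple 2)) (-1 : K) *
      xV chevD4 U.m.w.add (chevD4.neg (chevD4.simple 3)) (-1 : K) ∈ twistedD4 K q := by
    have h := htri (d4m1, d4m3, d4m4) (by simp) (-1)
    rw [hm1, hm2] at h
    rw [s0, s2, s3, n0, n2, n3]
    exact h
  have ty : xV chevD4 U.m.w.add (chevD4.neg (chevD4.simple 0)) (1 : K) *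
      xV chevD4 U.m.w.add (chevD4.neg (chevD4.simple 2)) (1 : K) *
      xV chevD4 U.m.w.add (chevD4.neg (chevD4.simple 3)) (1 : K) ∈ twistedD4 K q := by
    have h := htri (d4m1, d4m3, d4m4) (by simp) 1
    rw [one_pow, one_pow] at h
    rw [s0, s2, s3, n0, n2, n3]
    exact h
  have hr4 : chevD4.rank = 4 := by decide
  apply core_trivial_tw U (twistedD4 K q) blkD4.flatten longOK_twD4
  · apply nWordU_flatten_mem
    intro b hb
    have hb' : b = [1] ∨ b = [0, 2, 3] := by
      simp only [blkD4, List.mem_cons, List.not_mem_nil, or_false] at hb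
      tauto
    rcases hb' with rfl | rfl
    · exact fix_block_mem U.m _ (by rw [hr4]; norm_num) f1p f1m
    · exact triple_block_mem U.m hcf _ orthOK_D4_02 orthOK_D4_03 orthOK_D4_23 tp tm
  · intro i hi
    rw [hr4] at hi
    have h023 : [chevD4.simple 0, chevD4.simple 2, chevD4.simple 3].Nodup := by decide +kernel
    have hL : ∀ p ∈ [((0 : ℕ), (1 : K)), (2, 1), (3, 1)], p.1 < chevD4.rank := by
      intro p hp
      simp only [List.mem_cons, List.not_mem_nil, or_false] at hp
      rcases hp with rfl | rfl | rfl <;> rw [hr4] <;> norm_num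
    have hy : ([((0 : ℕ), (1 : K)), (2, 1), (3, 1)].map fun p =>
        xV chevD4 U.m.w.add (chevD4.neg (chevD4.simple p.1)) p.2).prod ∈ twistedD4 K q := by
      simpa [mul_assoc] using ty
    interval_cases i
    · exact ⟨[(0, 1), (2, 1), (3, 1)], h023, hL, ⟨1, one_ne_zero, by simp⟩, hy⟩
    · refine ⟨[(1, 1)], by simp, ?_, ⟨1, one_ne_zero, by simp⟩, ?_⟩
      · intro p hp
        simp only [List.mem_cons, List.not_mem_nil, or_false] at hp
        rcases hp with rfl
        rw [hr4]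
        norm_num
      · simpa using f1y
    · exact ⟨[(0, 1), (2, 1), (3, 1)], h023, hL, ⟨1, one_ne_zero, by simp⟩, hy⟩
    · exact ⟨[(0, 1), (2, 1), (3, 1)], h023, hL, ⟨1, one_ne_zero, by simp⟩, hy⟩

end sem

end Cfsg.Agent.Helper7
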