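import Cfsg.Agent.Helper7.ChevTwPerf
import Cfsg.Agent.Helper7.ChkTwCore

set_option autoImplicit false
set_option maxHeartbeats 4000000
set_option maxRecDepth 100000
open Cfsg

namespace Cfsg.Agent.Helper7

open Cfsg.Lie

theorem orth2OK_E6_05 : orth2OK chevE6 0 5 = true := by decide +kernel
theorem orth2OK_E6_24 : orth2OK chevE6 2 4 = true := by decide +kernel
theorem orth2OK_D4_02 : orth2OK chevD4 0 2 = true := by decide +kernel
theorem orth2OK_D4_03 : orth2OK chevD4 0 3 = true := by decide +kernel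
theorem orth2OK_D4_23 : orth2OK chevD4 2 3 = true := by decide +kernel

theorem cc_E6_1 : commCert chevE6 46 39 47 = true := by decide +kernel
theorem cc_E6_2 : commCert chevE6 47 25 39 = true := by decide +kernel
theorem cc_E6_3 : commCert chevE6 47 32 46 = true := by decide +kernel
theorem cc_E6_4 : commCert chevE6 25 32 24 = true := by decide +kernel
theorem cc_E6_5 : commCert chevE6 24 46 32 = true := by decide +kernel
theorem cc_E6_6 : commCert chevE6 24 39 25 = true := by decide +kernel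
theorem cc_D4_1 : commCert chevD4 22 14 23 = true := by decide +kernel
theorem cc_D4_2 : commCert chevD4 1 9 0 = true := by decide +kernel
theorem cc_D4_3 : commCert chevD4 23 1 14 = true := by decide +kernel
theorem cc_D4_4 : commCert chevD4 0 22 9 = true := by decide +kernel

theorem wap_D4 : wApply chevD4 [0, 2, 3] 14 = 22 ∧ wApply chevD4 [0, 2, 3] 9 = 1 := by
  decide +kernel

section sem

variable {K : Type*} [Field K]

theorem perf_2E6 [Fintype K] {q : ℕ} (hq : IsPrimePow q) (hK : Fintype.card K = q ^ 2) :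
    commutator ↥(twistedE6 K q) = ⊤ := by
  have U : UOK chevE6 := uok_of_mem (by simp)
  have hcf : CF chevE6 K := cf_of_mem (by simp)
  have hm1 : (-1 : K) ^ q = -1 := neg_one_pow_of_card (by norm_num) hK
  have hadd : ∀ u v : K, (u + v) ^ q = u ^ q + v ^ q := frob_add hq (by norm_num) hK
  have h4 : 4 ≤ Fintype.card K := by
    rw [hK]
    have h2 := hq.two_le
    calc 4 = 2 ^ 2 := by norm_num
      _ ≤ q ^ 2 := Nat.pow_le_pow_left h2 2
  obtain ⟨c, hc2⟩ := exists_sq_ne_one h4
  have hs := e6_simple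
  have hn := e6_neg
  simp only [List.cons.injEq, and_true] at hs hn
  obtain ⟨s0, s1, s2, s3, s4, s5⟩ := hs
  obtain ⟨n0, n1, n2, n3, n4, n5⟩ := hn
  have hfix := e6_fix_mem (K := K) U q
  have hpair := e6_pair_mem (K := K) U q
  have hCle : (commutator ↥(twistedE6 K q)).map (twistedE6 K q).subtype ≤ twistedE6 K q :=
    Subgroup.map_subtype_le _
  have hP05 : ∀ t, xP2 chevE6 U.m.w.add 0 5 q t ∈ twistedE6 K q := by
    intro t
    have h := hpair (e6p1, e6p6) (by simp) t
    unfold xP2
    rw [s0, s5]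
    exact h
  have hM05 : ∀ t, xM2 chevE6 U.m.w.add 0 5 q t ∈ twistedE6 K q := by
    intro t
    have h := hpair (e6m1, e6m6) (by simp) t
    unfold xM2
    rw [s0, s5, n0, n5]
    exact h
  have hP24 : ∀ t, xP2 chevE6 U.m.w.add 2 4 q t ∈ twistedE6 K q := by
    intro t
    have h := hpair (e6p3, e6p5) (by simp) t
    unfold xP2
    rw [s2, s4]
    exact h
  have hM24 : ∀ t, xM2 chevE6 U.m.w.add 2 4 q t ∈ twistedE6 K q := by
    intro t
    have h := hpair (e6m3, e6m5) (by simp) t
    unfold xM2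
    rw [s2, s4, n2, n4]
    exact h
  have c05 := perf_pair U.m hcf orth2OK_E6_05 q hadd hm1 (twistedE6 K q) hP05 hM05 c hc2
  have c24 := perf_pair U.m hcf orth2OK_E6_24 q hadd hm1 (twistedE6 K q) hP24 hM24 c hc2
  have hPneg : ∀ t : K, t ^ q = t → (-t) ^ q = -t := by
    intro t ht
    rw [neg_pow, hm1, ht, neg_one_mul]
  have g46 : ∀ t : K, t ^ q = t → xV chevE6 U.m.w.add 46 t ∈ twistedE6 K q :=
    fun t ht => hfix e6p2 (by simp) t ht
  have g25 : ∀ t : K, t ^ q = t → xV chevE6 U.m.w.add 25 t ∈ twistedE6 K q :=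
    fun t ht => hfix e6m2 (by simp) t ht
  have g39 : ∀ t : K, t ^ q = t → xV chevE6 U.m.w.add 39 t ∈ twistedE6 K q :=
    fun t ht => hfix e6p4 (by simp) t ht
  have g32 : ∀ t : K, t ^ q = t → xV chevE6 U.m.w.add 32 t ∈ twistedE6 K q :=
    fun t ht => hfix e6m4 (by simp) t ht
  have one_P : (1 : K) ^ q = 1 := one_pow q
  have a47 := perf_fix U.m hcf (twistedE6 K q) cc_E6_1 (fun t : K => t ^ q = t) hPneg g46
    (g39 1 one_P)
  have a24 := perf_fix U.m hcf (twistedE6 K q) cc_E6_4 (fun t : K => t ^ q = t) hPneg g25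
    (g32 1 one_P)
  have b39 := perf_fix U.m hcf (twistedE6 K q) cc_E6_2 (fun t : K => t ^ q = t) hPneg
    (fun t ht => hCle (a47 t ht)) (g25 1 one_P)
  have b46 := perf_fix U.m hcf (twistedE6 K q) cc_E6_3 (fun t : K => t ^ q = t) hPneg
    (fun t ht => hCle (a47 t ht)) (g32 1 one_P)
  have b32 := perf_fix U.m hcf (twistedE6 K q) cc_E6_5 (fun t : K => t ^ q = t) hPneg
    (fun t ht => hCle (a24 t ht)) (g46 1 one_P)
  have b25 := perf_fix U.m hcf (twistedE6 K q) cc_E6_6 (fun t : K => t ^ q = t) hPneg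
    (fun t ht => hCle (a24 t ht)) (g39 1 one_P)
  apply perfect_of_le
  refine gen_le chevE6 U.m.w.add (e6Words K q) _ ?_
  intro w hw
  rcases hw with ⟨t, ht, r, hr, rfl⟩ | ⟨t, rs, hrs, rfl⟩
  · simp only [List.mem_cons, List.not_mem_nil, or_false] at hr
    rcases hr with rfl | rfl | rfl | rfl
    · simp only [wordU, List.map_cons, List.map_nil, List.prod_cons, List.prod_nil, mul_one]
      exact b46 t ht
    · simp only [wordU, List.map_cons, List.map_nil, List.prod_cons, List.prod_nil, mul_one]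
      exact b25 t ht
    · simp only [wordU, List.map_cons, List.map_nil, List.prod_cons, List.prod_nil, mul_one]
      exact b39 t ht
    · simp only [wordU, List.map_cons, List.map_nil, List.prod_cons, List.prod_nil, mul_one]
      exact b32 t ht
  · simp only [List.mem_cons, List.not_mem_nil, or_false] at hrs
    rcases hrs with rfl | rfl | rfl | rfl
    · have h := (c05 t).1
      unfold xP2 at h
      rw [s0, s5] at h
      simpa [wordU] using h
    · have h := (c05 t).2
      unfold xM2 at h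
      rw [s0, s5, n0, n5] at h
      simpa [wordU] using h
    · have h := (c24 t).1
      unfold xP2 at h
      rw [s2, s4] at h
      simpa [wordU] using h
    · have h := (c24 t).2
      unfold xM2 at h
      rw [s2, s4, n2, n4] at h
      simpa [wordU] using h

theorem perf_3D4 [Fintype K] {q : ℕ} (hq : IsPrimePow q) (hK : Fintype.card K = q ^ 3) :
    commutator ↥(twistedD4 K q) = ⊤ := by
  have U : UOK chevD4 := uok_of_mem (by simp)
  have hcf : CF chevD4 K := cf_of_mem (by simp)
  have hm1 : (-1 : K) ^ q = -1 := neg_one_pow_of_card (by norm_num) hK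
  have hm2 : (-1 : K) ^ (q ^ 2) = -1 := by rw [pow_two, pow_mul, hm1, hm1]
  have hadd : ∀ u v : K, (u + v) ^ q = u ^ q + v ^ q := frob_add hq (by norm_num) hK
  have hadd2 : ∀ u v : K, (u + v) ^ (q ^ 2) = u ^ (q ^ 2) + v ^ (q ^ 2) := by
    intro u v
    rw [pow_two, pow_mul, pow_mul, pow_mul, hadd, hadd]
  have h4 : 4 ≤ Fintype.card K := by
    rw [hK]
    have h2 := hq.two_le
    calc 4 ≤ 2 ^ 3 := by norm_num
      _ ≤ q ^ 3 := Nat.pow_le_pow_left h2 3
  obtain ⟨c, hc2⟩ := exists_sq_ne_one h4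
  have hs := d4_simple
  have hn := d4_neg
  simp only [List.cons.injEq, and_true] at hs hn
  obtain ⟨s0, s1, s2, s3⟩ := hs
  obtain ⟨n0, n1, n2, n3⟩ := hn
  have hfix := d4_fix_mem (K := K) U q
  have htri := d4_triple_mem (K := K) U q
  have hCle : (commutator ↥(twistedD4 K q)).map (twistedD4 K q).subtype ≤ twistedD4 K q :=
    Subgroup.map_subtype_le _
  have hP : ∀ t, xP3 chevD4 U.m.w.add 0 2 3 q (q ^ 2) t ∈ twistedD4 K q := by
    intro t
    have h := htri (d4p1, d4p3, d4p4) (by simp) t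
    unfold xP3
    rw [s0, s2, s3]
    exact h
  have hM : ∀ t, xM3 chevD4 U.m.w.add 0 2 3 q (q ^ 2) t ∈ twistedD4 K q := by
    intro t
    have h := htri (d4m1, d4m3, d4m4) (by simp) t
    unfold xM3
    rw [s0, s2, s3, n0, n2, n3]
    exact h
  have ctri := perf_triple U.m hcf orth2OK_D4_02 orth2OK_D4_03 orth2OK_D4_23 q (q ^ 2) hadd hadd2
    hm1 hm2 (twistedD4 K q) hP hM c hc2
  have tp : xV chevD4 U.m.w.add (chevD4.simple 0) (1 : K) *
      xV chevD4 U.m.w.add (chevD4.simple 2) (1 : K) *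
      xV chevD4 U.m.w.add (chevD4.simple 3) (1 : K) ∈ twistedD4 K q := by
    have h := hP 1
    unfold xP3 at h
    rw [one_pow, one_pow] at h
    exact h
  have tm : xV chevD4 U.m.w.add (chevD4.neg (chevD4.simple 0)) (-1 : K) *
      xV chevD4 U.m.w.add (chevD4.neg (chevD4.simple 2)) (-1 : K) *
      xV chevD4 U.m.w.add (chevD4.neg (chevD4.simple 3)) (-1 : K) ∈ twistedD4 K q := by
    have h := hM (-1)
    unfold xM3 at h
    rw [hm1, hm2] at h
    exact h
  have hnJ : nWordU (F := K) chevD4 U.m.w.add [0, 2, 3] ∈ twistedD4 K q :=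
    triple_block_mem U.m hcf _ orthOK_D4_02 orthOK_D4_03 orthOK_D4_23 tp tm
  have hr4 : chevD4.rank = 4 := by decide
  have hw : ∀ i ∈ [0, 2, 3], i < chevD4.rank := by
    intro i hi
    simp only [List.mem_cons, List.not_mem_nil, or_false] at hi
    rcases hi with rfl | rfl | rfl <;> rw [hr4] <;> norm_num
  obtain ⟨w1, w2⟩ := wap_D4
  have hPneg : ∀ t : K, t ^ q = t → (-t) ^ q = -t := by
    intro t ht
    rw [neg_pow, hm1, ht, neg_one_mul]
  have g14 : ∀ t : K, t ^ q = t → xV chevD4 U.m.w.add 14 t ∈ twistedD4 K q :=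
    fun t ht => hfix d4p2 (by simp) t ht
  have g9 : ∀ t : K, t ^ q = t → xV chevD4 U.m.w.add 9 t ∈ twistedD4 K q :=
    fun t ht => hfix d4m2 (by simp) t ht
  have g22 := conj_fix U.m (twistedD4 K q) [0, 2, 3] hw hnJ (fun t : K => t ^ q = t) hPneg
    (by decide) w1 g14
  have g1 := conj_fix U.m (twistedD4 K q) [0, 2, 3] hw hnJ (fun t : K => t ^ q = t) hPneg
    (by decide) w2 g9
  have one_P : (1 : K) ^ q = 1 := one_pow q
  have a23 := perf_fix U.m hcf (twistedD4 K q) cc_D4_1 (fun t : K => t ^ q = t) hPneg g22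
    (g14 1 one_P)
  have a0 := perf_fix U.m hcf (twistedD4 K q) cc_D4_2 (fun t : K => t ^ q = t) hPneg g1
    (g9 1 one_P)
  have b14 := perf_fix U.m hcf (twistedD4 K q) cc_D4_3 (fun t : K => t ^ q = t) hPneg
    (fun t ht => hCle (a23 t ht)) (g1 1 one_P)
  have b9 := perf_fix U.m hcf (twistedD4 K q) cc_D4_4 (fun t : K => t ^ q = t) hPneg
    (fun t ht => hCle (a0 t ht)) (g22 1 one_P)
  apply perfect_of_le
  refine gen_le chevD4 U.m.w.add (d4Words K q) _ ?_
  intro w hw'
  rcases hw' with ⟨t, ht, r, hr, rfl⟩ | ⟨t, rs, hrs, rfl⟩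
  · simp only [List.mem_cons, List.not_mem_nil, or_false] at hr
    rcases hr with rfl | rfl
    · simp only [wordU, List.map_cons, List.map_nil, List.prod_cons, List.prod_nil, mul_one]
      exact b14 t ht
    · simp only [wordU, List.map_cons, List.map_nil, List.prod_cons, List.prod_nil, mul_one]
      exact b9 t ht
  · simp only [List.mem_cons, List.not_mem_nil, or_false] at hrs
    rcases hrs with rfl | rfl
    · have h := (ctri t).1
      unfold xP3 at h
      rw [s0, s2, s3] at h
      simpa [wordU, mul_assoc] using h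
    · have h := (ctri t).2
      unfold xM3 at h
      rw [s0, s2, s3, n0, n2, n3] at h
      simpa [wordU, mul_assoc] using h

end sem

end Cfsg.Agent.Helper7
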