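import Cfsg.Agent.Helper7.ChevTwBN
import Cfsg.Agent.Helper7.ChkTwPerf
import Cfsg.Agent.Helper7.ChkLevi
import Cfsg.Agent.Helper7.ChkGraph

set_option autoImplicit false
set_option maxHeartbeats 4000000
set_option maxRecDepth 100000
open Cfsg

namespace Cfsg.Agent.Helper7

open Cfsg.Lie

def blE6 : List (List ℕ) := [[1], [3], [2, 4], [0, 5]]

def blD4 : List (List ℕ) := [[1], [0, 2, 3]]

theorem lokE6 : LOK chevE6 adjE6 := ⟨uok_of_mem (by simp), parOK_E6, leviOK_E6, gradeOK_E6⟩

theorem lokD4 : LOK chevD4 adjD4 := ⟨uok_of_mem (by simp), parOK_D4, leviOK_D4, gradeOK_D4⟩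

theorem unitAll_E6 : unitAllOK chevE6 = true := by decide +kernel
theorem unitAll_D4 : unitAllOK chevD4 = true := by decide +kernel

theorem twE6_rho : ∀ i < chevE6.rank, gaE6.rho.getD i 0 < chevE6.rank := by decide +kernel

theorem twE6_sg : ∀ r < chevE6.nroots,
    (chevE6.nroots / 2 ≤ gaE6.rt.getD r 0 ↔ chevE6.nroots / 2 ≤ r) := by decide +kernel

theorem twE6_sgn : ∀ j < chevE6.rank, nsgn chevE6 j (chevE6.simple j) = -1 := by decide +kernel

theorem twE6_perm : ∀ J ∈ blE6, (J.map (fun j => gaE6.rho.getD j 0)).Perm J := by decide +kernel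

theorem twE6_ne : ∀ J ∈ blE6, J ≠ [] := by decide +kernel

theorem twE6_k : ∀ J ∈ blE6, ∀ j ∈ J, ∃ k < chevE6.rank, chevE6.cartan k (chevE6.simple j) = -1 ∧
    chevE6.cartan (gaE6.rho.getD k 0) (chevE6.simple (gaE6.rho.getD j 0)) = -1 := by
  decide +kernel

theorem twE6_root : ∀ J ∈ blE6, ∀ r < chevE6.nroots, chevE6.nroots / 2 ≤ r →
    (∀ i < chevE6.rank, i ∉ J → fcor chevE6 r i = 0) → ∃ j ∈ J, r = chevE6.simple j := by
  decide +kernel

theorem twE6_orb : ∀ J ∈ blE6, ∀ j ∈ J, ∀ j' ∈ J, ∃ m < 2,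
    (fun i => gaE6.rho.getD i 0)^[m] j = j' := by decide +kernel

theorem twE6_nb : ∀ J ∈ blE6, ∃ j ∈ J, wApply chevE6 J (chevE6.simple j) < chevE6.nroots / 2 := by
  decide +kernel

theorem twE6_inj : ∀ J ∈ blE6, ∀ J' ∈ blE6,
    (∀ r < chevE6.nroots, wApply chevE6 J r = wApply chevE6 J' r) → J = J' := by decide +kernel

theorem twD4_rho : ∀ i < chevD4.rank, gaD4a.rho.getD i 0 < chevD4.rank := by decide +kernel

theorem twD4_sg : ∀ r < chevD4.nroots,
    (chevD4.nroots / 2 ≤ gaD4a.rt.getD r 0 ↔ chevD4.nroots / 2 ≤ r) := by decide +kernel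

theorem twD4_sgn : ∀ j < chevD4.rank, nsgn chevD4 j (chevD4.simple j) = -1 := by decide +kernel

theorem twD4_perm : ∀ J ∈ blD4, (J.map (fun j => gaD4a.rho.getD j 0)).Perm J := by decide +kernel

theorem twD4_ne : ∀ J ∈ blD4, J ≠ [] := by decide +kernel

theorem twD4_k : ∀ J ∈ blD4, ∀ j ∈ J, ∃ k < chevD4.rank, chevD4.cartan k (chevD4.simple j) = -1 ∧
    chevD4.cartan (gaD4a.rho.getD k 0) (chevD4.simple (gaD4a.rho.getD j 0)) = -1 := by
  decide +kernel

theorem twD4_root : ∀ J ∈ blD4, ∀ r < chevD4.nroots, chevD4.nroots / 2 ≤ r →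
    (∀ i < chevD4.rank, i ∉ J → fcor chevD4 r i = 0) → ∃ j ∈ J, r = chevD4.simple j := by
  decide +kernel

theorem twD4_orb : ∀ J ∈ blD4, ∀ j ∈ J, ∀ j' ∈ J, ∃ m < 3,
    (fun i => gaD4a.rho.getD i 0)^[m] j = j' := by decide +kernel

theorem twD4_nb : ∀ J ∈ blD4, ∃ j ∈ J, wApply chevD4 J (chevD4.simple j) < chevD4.nroots / 2 := by
  decide +kernel

theorem twD4_inj : ∀ J ∈ blD4, ∀ J' ∈ blD4,
    (∀ r < chevD4.nroots, wApply chevD4 J r = wApply chevD4 J' r) → J = J' := by decide +kernel

section sem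

variable {K : Type*} [Field K]

def powHom [Fintype K] {q k : ℕ} (hq : IsPrimePow q) (hk : k ≠ 0)
    (hK : Fintype.card K = q ^ k) : K →+* K where
  toFun t := t ^ q
  map_one' := one_pow q
  map_mul' a b := mul_pow a b q
  map_zero' := zero_pow hq.ne_zero
  map_add' a b := frob_add hq hk hK a b

theorem twE6_data [Fintype K] {q : ℕ} (hq : IsPrimePow q) (hK : Fintype.card K = q ^ 2) :
    TwData (chevE6.borelSubgroup K) (chevE6.monomialSubgroup K) (twistedE6 K q)
      {J : List ℕ // J ∈ blE6} (fun J => nWordU chevE6 lokE6.u.m.w.add J.val)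
      (fun J => {x | ∃ ts, TwC gaE6 (powHom hq (by norm_num) hK) J.val ts ∧
        x = pL J.val (xPf chevE6 lokE6.u.m.w.add ts)}) := by
  have M := lokE6.u.m
  have hcf : CF chevE6 K := cf_of_mem (by simp)
  have hOK' : gaOK chevE6 giE6 gaE6 = true := gaOK_E6
  have hinv := gaOK_E6
  unfold gaOK at hinv
  simp only [Bool.and_eq_true] at hinv
  have hs := e6_simple
  have hn := e6_neg
  simp only [List.cons.injEq, and_true] at hs hn
  obtain ⟨s0, s1, s2, s3, s4, s5⟩ := hs
  obtain ⟨n0, n1, n2, n3, n4, n5⟩ := hn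
  have hfixm := e6_fix_mem (K := K) lokE6.u q
  have hpair := e6_pair_mem (K := K) lokE6.u q
  have hφ : ∀ t : K, powHom hq (by norm_num) hK t = t ^ q := fun t => rfl
  have hφ2 : ∀ t : K, (t ^ q) ^ q = t := by
    intro t
    rw [← pow_mul, ← pow_two, ← hK, FiniteField.pow_card]
  have r0 : gaE6.rho.getD 0 0 = 5 := by decide
  have r1 : gaE6.rho.getD 1 0 = 1 := by decide
  have r2 : gaE6.rho.getD 2 0 = 4 := by decide
  have r3 : gaE6.rho.getD 3 0 = 3 := by decide
  have r4 : gaE6.rho.getD 4 0 = 2 := by decide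
  have r5 : gaE6.rho.getD 5 0 = 0 := by decide
  refine tw_data lokE6 hcf unitAll_E6 gaOK_E6 hOK' hinv.1.1.2 hinv.1.2
    (powHom hq (by norm_num) hK) (twistedE6 K q) blE6
    twE6_rho twE6_sg twE6_sgn ?_ twE6_perm twE6_ne twE6_k twE6_root ?_ twE6_nb twE6_inj ?_ ?_
  · intro J hJ
    simp only [blE6, List.mem_cons, List.not_mem_nil, or_false] at hJ
    rcases hJ with rfl | rfl | rfl | rfl
    · exact orthR_single chevE6 _ (by decide)
    · exact orthR_single chevE6 _ (by decide)
    · exact orthR_pair M hcf orth2OK_E6_24 (by decide)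
    · exact orthR_pair M hcf orth2OK_E6_05 (by decide)
  · intro J hJ j hj j' hj'
    obtain ⟨m, _, hm⟩ := twE6_orb J hJ j hj j' hj'
    exact ⟨m, hm⟩
  · intro J hJ ts htw
    simp only [blE6, List.mem_cons, List.not_mem_nil, or_false] at hJ
    rcases hJ with rfl | rfl | rfl | rfl
    · have e1 := htw 1 (by simp)
      rw [hφ, r1] at e1
      rw [pL_single, pL_single]
      unfold xPf xMf
      rw [s1, n1]
      exact ⟨hfixm e6p2 (by simp) _ e1.symm, hfixm e6m2 (by simp) _ e1.symm⟩
    · have e1 := htw 3 (by simp)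
      rw [hφ, r3] at e1
      rw [pL_single, pL_single]
      unfold xPf xMf
      rw [s3, n3]
      exact ⟨hfixm e6p4 (by simp) _ e1.symm, hfixm e6m4 (by simp) _ e1.symm⟩
    · have e1 := htw 2 (by simp)
      rw [hφ, r2] at e1
      rw [pL_pair, pL_pair]
      unfold xPf xMf
      rw [s2, s4, n2, n4, e1]
      exact ⟨hpair (e6p3, e6p5) (by simp) _, hpair (e6m3, e6m5) (by simp) _⟩
    · have e1 := htw 0 (by simp)
      rw [hφ, r0] at e1
      rw [pL_pair, pL_pair]
      unfold xPf xMf
      rw [s0, s5, n0, n5, e1]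
      exact ⟨hpair (e6p1, e6p6) (by simp) _, hpair (e6m1, e6m6) (by simp) _⟩
  · unfold twistedE6
    apply gen_le chevE6 lokE6.u.m.w.add (e6Words K q)
    intro w hw
    apply Subgroup.subset_closure
    rcases hw with ⟨t, ht, r, hr, rfl⟩ | ⟨t, rs, hrs, rfl⟩
    · have htw1 : TwC gaE6 (powHom hq (by norm_num) hK) [1] (fun _ => t) :=
        twc_single (by rw [hφ]; exact ht)
      have htw3 : TwC gaE6 (powHom hq (by norm_num) hK) [3] (fun _ => t) :=
        twc_single (by rw [hφ]; exact ht)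
      simp only [List.mem_cons, List.not_mem_nil, or_false] at hr
      rcases hr with rfl | rfl | rfl | rfl
      · refine ⟨[1], by simp [blE6], fun _ => t, htw1, Or.inl ?_⟩
        rw [pL_single]
        unfold xPf
        rw [s1]
        simp [wordU]
      · refine ⟨[1], by simp [blE6], fun _ => t, htw1, Or.inr ?_⟩
        rw [pL_single]
        unfold xMf
        rw [s1, n1]
        simp [wordU]
      · refine ⟨[3], by simp [blE6], fun _ => t, htw3, Or.inl ?_⟩
        rw [pL_single]
        unfold xPf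
        rw [s3]
        simp [wordU]
      · refine ⟨[3], by simp [blE6], fun _ => t, htw3, Or.inr ?_⟩
        rw [pL_single]
        unfold xMf
        rw [s3, n3]
        simp [wordU]
    · have h05 : TwC gaE6 (powHom hq (by norm_num) hK) [0, 5]
          (fun m => if m = 0 then t else powHom hq (by norm_num) hK t) :=
        twc_pair (by decide) r0 r5 (by rw [hφ, hφ]; exact hφ2 t)
      have h24 : TwC gaE6 (powHom hq (by norm_num) hK) [2, 4]
          (fun m => if m = 2 then t else powHom hq (by norm_num) hK t) :=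
        twc_pair (by decide) r2 r4 (by rw [hφ, hφ]; exact hφ2 t)
      simp only [List.mem_cons, List.not_mem_nil, or_false] at hrs
      rcases hrs with rfl | rfl | rfl | rfl
      · refine ⟨[0, 5], by simp [blE6], _, h05, Or.inl ?_⟩
        rw [pL_pair]
        unfold xPf
        rw [s0, s5]
        simp [wordU, hφ]
      · refine ⟨[0, 5], by simp [blE6], _, h05, Or.inr ?_⟩
        rw [pL_pair]
        unfold xMf
        rw [s0, s5, n0, n5]
        simp [wordU, hφ]
      · refine ⟨[2, 4], by simp [blE6], _, h24, Or.inl ?_⟩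
        rw [pL_pair]
        unfold xPf
        rw [s2, s4]
        simp [wordU, hφ]
      · refine ⟨[2, 4], by simp [blE6], _, h24, Or.inr ?_⟩
        rw [pL_pair]
        unfold xMf
        rw [s2, s4, n2, n4]
        simp [wordU, hφ]

theorem twD4_data [Fintype K] {q : ℕ} (hq : IsPrimePow q) (hK : Fintype.card K = q ^ 3) :
    TwData (chevD4.borelSubgroup K) (chevD4.monomialSubgroup K) (twistedD4 K q)
      {J : List ℕ // J ∈ blD4} (fun J => nWordU chevD4 lokD4.u.m.w.add J.val)
      (fun J => {x | ∃ ts, TwC gaD4a (powHom hq (by norm_num) hK) J.val ts ∧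
        x = pL J.val (xPf chevD4 lokD4.u.m.w.add ts)}) := by
  have M := lokD4.u.m
  have hcf : CF chevD4 K := cf_of_mem (by simp)
  have hOK' : gaOK chevD4 giD4a gaD4a = true := gaOK_D4b
  have hinv := gaOK_D4a
  unfold gaOK at hinv
  simp only [Bool.and_eq_true] at hinv
  have hs := d4_simple
  have hn := d4_neg
  simp only [List.cons.injEq, and_true] at hs hn
  obtain ⟨s0, s1, s2, s3⟩ := hs
  obtain ⟨n0, n1, n2, n3⟩ := hn
  have hfixm := d4_fix_mem (K := K) lokD4.u q
  have htrip := d4_triple_mem (K := K) lokD4.u q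
  have hφ : ∀ t : K, powHom hq (by norm_num) hK t = t ^ q := fun t => rfl
  have hq2 : ∀ t : K, (t ^ q) ^ q = t ^ (q ^ 2) := by
    intro t
    rw [← pow_mul, ← pow_two]
  have hφ3 : ∀ t : K, ((t ^ q) ^ q) ^ q = t := by
    intro t
    have e : q * (q * q) = Fintype.card K := by
      rw [hK]
      ring
    rw [← pow_mul, ← pow_mul, e, FiniteField.pow_card]
  have r0 : gaD4a.rho.getD 0 0 = 2 := by decide
  have r1 : gaD4a.rho.getD 1 0 = 1 := by decide
  have r2 : gaD4a.rho.getD 2 0 = 3 := by decide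
  have r3 : gaD4a.rho.getD 3 0 = 0 := by decide
  refine tw_data lokD4 hcf unitAll_D4 gaOK_D4a hOK' hinv.1.1.2 hinv.1.2
    (powHom hq (by norm_num) hK) (twistedD4 K q) blD4
    twD4_rho twD4_sg twD4_sgn ?_ twD4_perm twD4_ne twD4_k twD4_root ?_ twD4_nb twD4_inj ?_ ?_
  · intro J hJ
    simp only [blD4, List.mem_cons, List.not_mem_nil, or_false] at hJ
    rcases hJ with rfl | rfl
    · exact orthR_single chevD4 _ (by decide)
    · exact orthR_triple M hcf orth2OK_D4_02 orth2OK_D4_03 orth2OK_D4_23 (by decide) (by decide)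
        (by decide)
  · intro J hJ j hj j' hj'
    obtain ⟨m, _, hm⟩ := twD4_orb J hJ j hj j' hj'
    exact ⟨m, hm⟩
  · intro J hJ ts htw
    simp only [blD4, List.mem_cons, List.not_mem_nil, or_false] at hJ
    rcases hJ with rfl | rfl
    · have e1 := htw 1 (by simp)
      rw [hφ, r1] at e1
      rw [pL_single, pL_single]
      unfold xPf xMf
      rw [s1, n1]
      exact ⟨hfixm d4p2 (by simp) _ e1.symm, hfixm d4m2 (by simp) _ e1.symm⟩
    · have e1 := htw 0 (by simp)
      have e2 := htw 2 (by simp)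
      rw [hφ, r0] at e1
      rw [hφ, r2, e1, hq2] at e2
      rw [pL_triple, pL_triple]
      unfold xPf xMf
      rw [s0, s2, s3, n0, n2, n3, e1, e2]
      exact ⟨htrip (d4p1, d4p3, d4p4) (by simp) _, htrip (d4m1, d4m3, d4m4) (by simp) _⟩
  · unfold twistedD4
    apply gen_le chevD4 lokD4.u.m.w.add (d4Words K q)
    intro w hw
    apply Subgroup.subset_closure
    rcases hw with ⟨t, ht, r, hr, rfl⟩ | ⟨t, rs, hrs, rfl⟩
    · have htw1 : TwC gaD4a (powHom hq (by norm_num) hK) [1] (fun _ => t) :=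
        twc_single (by rw [hφ]; exact ht)
      simp only [List.mem_cons, List.not_mem_nil, or_false] at hr
      rcases hr with rfl | rfl
      · refine ⟨[1], by simp [blD4], fun _ => t, htw1, Or.inl ?_⟩
        rw [pL_single]
        unfold xPf
        rw [s1]
        simp [wordU]
      · refine ⟨[1], by simp [blD4], fun _ => t, htw1, Or.inr ?_⟩
        rw [pL_single]
        unfold xMf
        rw [s1, n1]
        simp [wordU]
    · have h023 : TwC gaD4a (powHom hq (by norm_num) hK) [0, 2, 3]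
          (fun m => if m = 0 then t else if m = 2 then powHom hq (by norm_num) hK t
            else powHom hq (by norm_num) hK (powHom hq (by norm_num) hK t)) :=
        twc_triple (by decide) (by decide) (by decide) r0 r2 r3
          (by rw [hφ, hφ, hφ]; exact hφ3 t)
      simp only [List.mem_cons, List.not_mem_nil, or_false] at hrs
      rcases hrs with rfl | rfl
      · refine ⟨[0, 2, 3], by simp [blD4], _, h023, Or.inl ?_⟩
        rw [pL_triple]
        unfold xPf
        rw [s0, s2, s3]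
        simp [wordU, hφ, hq2, mul_assoc]
      · refine ⟨[0, 2, 3], by simp [blD4], _, h023, Or.inr ?_⟩
        rw [pL_triple]
        unfold xMf
        rw [s0, s2, s3, n0, n2, n3]
        simp [wordU, hφ, hq2, mul_assoc]

end sem

end Cfsg.Agent.Helper7
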