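import Cfsg.Agent.Helper7.ChevTwCox
import Cfsg.Agent.Helper7.ChkTwBN

set_option autoImplicit false
set_option maxHeartbeats 4000000
set_option maxRecDepth 100000
open Cfsg

namespace Cfsg.Agent.Helper7

open Cfsg.Lie

def mF4t : List (List ℕ) := [[1, 3, 2, 2], [3, 1, 4, 2], [2, 4, 1, 3], [2, 2, 3, 1]]

def mG2t : List (List ℕ) := [[1, 6], [6, 1]]

theorem matF4t : ∀ i j : Fin 4, CoxeterMatrix.F₄ i j = (mF4t.getD i []).getD j 0 := by
  intro i j
  fin_cases i <;> fin_cases j <;> rfl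

theorem matG2t : ∀ i j : Fin 2, CoxeterMatrix.G₂ i j = (mG2t.getD i []).getD j 0 := by
  intro i j
  fin_cases i <;> fin_cases j <;> rfl

theorem twE6_cox : twCoxOK chevE6 blE6 mF4t = true := by decide +kernel

theorem twD4_cox : twCoxOK chevD4 blD4 mG2t = true := by decide +kernel

theorem twE6_lt : ∀ J ∈ blE6, ∀ x ∈ J, x < chevE6.rank := by decide +kernel

theorem twD4_lt : ∀ J ∈ blD4, ∀ x ∈ J, x < chevD4.rank := by decide +kernel

section sem

variable {K : Type*} [Field K]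

theorem weyl_2E6 [Fintype K] {q : ℕ} (hq : IsPrimePow q) (hK : Fintype.card K = q ^ 2) :
    ∃ φ : ↥(chevE6.monomialSubgroup K ⊓ twistedE6 K q) →* (CoxeterMatrix.F₄).Group,
      Function.Surjective φ ∧
      φ.ker = (chevE6.diagonalSubgroup K ⊓ twistedE6 K q).subgroupOf
        (chevE6.monomialSubgroup K ⊓ twistedE6 K q) :=
  tw_weyl lokE6 (cf_of_mem (by simp)) unitAll_E6 (twE6_data hq hK) twE6_lt (by decide)
    CoxeterMatrix.F₄ mF4t matF4t twE6_cox

theorem weyl_3D4 [Fintype K] {q : ℕ} (hq : IsPrimePow q) (hK : Fintype.card K = q ^ 3) :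
    ∃ φ : ↥(chevD4.monomialSubgroup K ⊓ twistedD4 K q) →* (CoxeterMatrix.G₂).Group,
      Function.Surjective φ ∧
      φ.ker = (chevD4.diagonalSubgroup K ⊓ twistedD4 K q).subgroupOf
        (chevD4.monomialSubgroup K ⊓ twistedD4 K q) :=
  tw_weyl lokD4 (cf_of_mem (by simp)) unitAll_D4 (twD4_data hq hK) twD4_lt (by decide)
    CoxeterMatrix.G₂ mG2t matG2t twD4_cox

end sem

end Cfsg.Agent.Helper7
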