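import Cfsg.Agent.Helper7.ChevTwH

set_option autoImplicit false
set_option maxHeartbeats 4000000
set_option maxRecDepth 100000
set_option linter.unusedSectionVars false
set_option linter.unusedVariables false
open Cfsg

namespace Cfsg.Agent.Helper7

open Cfsg.Lie

theorem d4car : (chevD4.cartan 1 (chevD4.simple 0) = -1 ∧ chevD4.cartan 0 (chevD4.simple 0) = 2 ∧
    chevD4.cartan 2 (chevD4.simple 0) = 0 ∧ chevD4.cartan 3 (chevD4.simple 0) = 0) ∧
    (chevD4.cartan 1 (chevD4.simple 1) = 2 ∧ chevD4.cartan 0 (chevD4.simple 1) = -1 ∧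
    chevD4.cartan 2 (chevD4.simple 1) = -1 ∧ chevD4.cartan 3 (chevD4.simple 1) = -1) := by
  decide +kernel

theorem d4slt : chevD4.simple 0 < chevD4.nroots ∧ chevD4.simple 1 < chevD4.nroots := by
  decide +kernel

theorem cube_sub_one (q : ℕ) (hq1 : 1 ≤ q) : q ^ 3 - 1 = (q - 1) * (q ^ 2 + q + 1) := by
  obtain ⟨m, rfl⟩ : ∃ m, q = m + 1 := ⟨q - 1, by omega⟩
  rw [Nat.add_sub_cancel]
  apply Nat.sub_eq_of_eq_add
  ring

section sem

variable {K : Type*} [Field K]

theorem twD4_gen [Fintype K] {q : ℕ} (hq : IsPrimePow q) (hK : Fintype.card K = q ^ 3) :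
    twistedD4 K q ≤ Subgroup.closure {g | ∃ J ∈ blD4, ∃ ts,
      TwC gaD4a (powHom hq (by norm_num) hK) J ts ∧
      (g = pL J (xPf chevD4 lokD4.u.m.w.add ts) ∨ g = pL J (xMf chevD4 lokD4.u.m.w.add ts))} := by
  have hs := d4_simple
  have hn := d4_neg
  simp only [List.cons.injEq, and_true] at hs hn
  obtain ⟨s0, s1, s2, s3⟩ := hs
  obtain ⟨n0, n1, n2, n3⟩ := hn
  have hφ : ∀ t : K, powHom hq (by norm_num) hK t = t ^ q := fun t => rfl
  have hq2 : ∀ t : K, (t ^ q) ^ q = t ^ (q ^ 2) := by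
    intro t
    rw [← pow_mul, ← pow_two]
  have hφ3 : ∀ t : K, ((t ^ q) ^ q) ^ q = t := by
    intro t
    have e : q * (q * q) = Fintype.card K := by
      rw [hK]
      ring
    rw [← pow_mul, ← pow_mul, e, FiniteField.pow_card]
  have r0 : gaD4a.rho.getD 0 0 = 2 := by decide
  have r1 : gaD4a.rho.getD 1 0 = 1 := by decide
  have r2 : gaD4a.rho.getD 2 0 = 3 := by decide
  have r3 : gaD4a.rho.getD 3 0 = 0 := by decide
  unfold twistedD4
  apply gen_le chevD4 lokD4.u.m.w.add (d4Words K q)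
  intro w hw
  apply Subgroup.subset_closure
  rcases hw with ⟨t, ht, r, hr, rfl⟩ | ⟨t, rs, hrs, rfl⟩
  · have htw1 : TwC gaD4a (powHom hq (by norm_num) hK) [1] (fun _ => t) :=
      twc_single (by rw [hφ]; exact ht)
    simp only [List.mem_cons, List.not_mem_nil, or_false] at hr
    rcases hr with rfl | rfl
    · refine ⟨[1], by simp [blD4], fun _ => t, htw1, Or.inl ?_⟩
      rw [pL_single]
      unfold xPf
      rw [s1]
      simp [wordU]
    · refine ⟨[1], by simp [blD4], fun _ => t, htw1, Or.inr ?_⟩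
      rw [pL_single]
      unfold xMf
      rw [s1, n1]
      simp [wordU]
  · have h023 : TwC gaD4a (powHom hq (by norm_num) hK) [0, 2, 3]
        (fun m => if m = 0 then t else if m = 2 then powHom hq (by norm_num) hK t
          else powHom hq (by norm_num) hK (powHom hq (by norm_num) hK t)) :=
      twc_triple (by decide) (by decide) (by decide) r0 r2 r3
        (by rw [hφ, hφ, hφ]; exact hφ3 t)
    simp only [List.mem_cons, List.not_mem_nil, or_false] at hrs
    rcases hrs with rfl | rfl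
    · refine ⟨[0, 2, 3], by simp [blD4], _, h023, Or.inl ?_⟩
      rw [pL_triple]
      unfold xPf
      rw [s0, s2, s3]
      simp [wordU, hφ, hq2, mul_assoc]
    · refine ⟨[0, 2, 3], by simp [blD4], _, h023, Or.inr ?_⟩
      rw [pL_triple]
      unfold xMf
      rw [s0, s2, s3, n0, n2, n3]
      simp [wordU, hφ, hq2, mul_assoc]

theorem twD4_fix [Fintype K] {q : ℕ} (hq : IsPrimePow q) (hK : Fintype.card K = q ^ 3)
    (h1 : gaInvOK chevD4 gaD4a giD4a = true) (h2 : gaInvOK chevD4 giD4a gaD4a = true) :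
    twistedD4 K q ≤ sigFix chevD4 gaD4a giD4a h1 h2 (powHom hq (by norm_num) hK) := by
  refine le_trans (twD4_gen hq hK) ?_
  rw [Subgroup.closure_le]
  rintro g ⟨J, hJ, ts, htw, hg | hg⟩
  · rw [hg]
    exact mem_sigFix.mpr (sig_fix_xP lokD4.u.m gaOK_D4a h1 h2 _ (orthD4 J hJ) (twD4_perm J hJ) htw)
  · rw [hg]
    exact mem_sigFix.mpr (sig_fix_xM lokD4.u.m gaOK_D4a h1 h2 _ (orthD4 J hJ) (twD4_perm J hJ) htw)

def d4u (q : ℕ) (u : Kˣ) (m : ℕ) : Kˣ := if m = 0 then u else if m = 2 then u ^ q else (u ^ q) ^ q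

def d4h (q : ℕ) (a u : Kˣ) : GL chevD4.Idx K :=
  pL [1] (nPf chevD4 lokD4.u.m.w.add (fun _ => (a : K))) *
      (nWordU chevD4 lokD4.u.m.w.add [1])⁻¹ *
    (pL [0, 2, 3] (nPf chevD4 lokD4.u.m.w.add (fun m => ((d4u q u m : Kˣ) : K))) *
      (nWordU chevD4 lokD4.u.m.w.add [0, 2, 3])⁻¹)

theorem d4h_eq (q : ℕ) (a u : Kˣ) : d4h q a u = DgU chevD4 (fun s => a ^ chevD4.cartan 1 s *
    (u ^ chevD4.cartan 0 s * ((u ^ q) ^ chevD4.cartan 2 s * ((u ^ q) ^ q) ^ chevD4.cartan 3 s))) := by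
  unfold d4h
  rw [hJ_eq lokD4.u.m (orthD4 (K := K) [1] (by simp [blD4])) (fun _ => a),
    hJ_eq lokD4.u.m (orthD4 (K := K) [0, 2, 3] (by simp [blD4])) (d4u q u), DgU_mul]
  apply DgU_congr
  intro s _
  simp [d4u]

theorem d4h_mem [Fintype K] {q : ℕ} (hq : IsPrimePow q) (hK : Fintype.card K = q ^ 3)
    (a u : Kˣ) (ha : a ^ q = a) :
    d4h q a u ∈ chevD4.diagonalSubgroup K ⊓ twistedD4 K q := by
  have M := lokD4.u.m
  have T := twD4_data hq hK
  have hφ : ∀ t : K, powHom hq (by norm_num) hK t = t ^ q := fun t => rfl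
  have hφ3 : ∀ t : K, powHom hq (by norm_num) hK (powHom hq (by norm_num) hK
      (powHom hq (by norm_num) hK t)) = t := by
    intro t
    show ((t ^ q) ^ q) ^ q = t
    have e : q * (q * q) = Fintype.card K := by
      rw [hK]
      ring
    rw [← pow_mul, ← pow_mul, e, FiniteField.pow_card]
  have m1 : [1] ∈ blD4 := by simp [blD4]
  have m2 : [0, 2, 3] ∈ blD4 := by simp [blD4]
  have o1 := orthD4 (K := K) [1] m1
  have o2 := orthD4 (K := K) [0, 2, 3] m2
  have tw1 : TwC gaD4a (powHom hq (by norm_num) hK) [1] (fun _ => (a : K)) :=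
    twc_single (by
      show (a : K) ^ q = a
      rw [← Units.val_pow_eq_pow_val, ha])
  have tw2 : TwC gaD4a (powHom hq (by norm_num) hK) [0, 2, 3]
      (fun m => ((d4u q u m : Kˣ) : K)) := by
    have h := twc_triple (A := gaD4a) (φ := powHom hq (by norm_num) hK) (i := 0) (j := 2)
      (k := 3) (by decide) (by decide) (by decide) (by decide) (by decide) (by decide)
      (t := (u : K)) (hφ3 _)
    have e : (fun m => ((d4u q u m : Kˣ) : K)) = (fun m => if m = 0 then (u : K) else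
        if m = 2 then powHom hq (by norm_num) hK (u : K) else
          powHom hq (by norm_num) hK (powHom hq (by norm_num) hK (u : K))) := by
      funext m
      unfold d4u
      split_ifs <;> simp [hφ]
    rw [e]
    exact h
  have hx : ∀ J (hJ : J ∈ blD4) ts, TwC gaD4a (powHom hq (by norm_num) hK) J ts →
      pL J (xPf chevD4 lokD4.u.m.w.add ts) ∈ twistedD4 K q :=
    fun J hJ ts ht => (T.hX ⟨J, hJ⟩ _ ⟨ts, ht, rfl⟩).1
  unfold d4h
  refine mi ?_ ?_
  · exact mul_mem (nPf_torus M o1 _ (fun j _ => a.ne_zero))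
      (nPf_torus M o2 _ (fun j _ => (d4u q u j).ne_zero))
  · exact mul_mem
      (tw_h_mem M (twistedD4 K q) o1 (fun j hj => twD4_sgn j (o1.2.1 j hj)) (hx _ m1)
        (T.hs ⟨_, m1⟩).2 _ tw1)
      (tw_h_mem M (twistedD4 K q) o2 (fun j hj => twD4_sgn j (o2.2.1 j hj)) (hx _ m2)
        (T.hs ⟨_, m2⟩).2 _ tw2)

theorem d4h_inj [Fintype K] {q : ℕ} (hq : IsPrimePow q) (hK : Fintype.card K = q ^ 3)
    {a u a' u' : Kˣ} (ha : a ^ q = a) (ha' : a' ^ q = a') (e : d4h q a u = d4h q a' u') :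
    a = a' ∧ u = u' := by
  have hφ3 : ∀ t : K, powHom hq (by norm_num) hK (powHom hq (by norm_num) hK
      (powHom hq (by norm_num) hK t)) = t := by
    intro t
    show ((t ^ q) ^ q) ^ q = t
    have e : q * (q * q) = Fintype.card K := by
      rw [hK]
      ring
    rw [← pow_mul, ← pow_mul, e, FiniteField.pow_card]
  rw [d4h_eq, d4h_eq] at e
  have h := DgU_inj chevD4 e
  have P0 := h (chevD4.simple 0) d4slt.1
  have P1 := h (chevD4.simple 1) d4slt.2
  rw [d4car.1.1, d4car.1.2.1, d4car.1.2.2.1, d4car.1.2.2.2] at P0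
  rw [d4car.2.1, d4car.2.2.1, d4car.2.2.2.1, d4car.2.2.2.2] at P1
  simp only [zpow_neg_one, zpow_ofNat, pow_zero, mul_one] at P0 P1
  have Q0 := congrArg Units.val P0
  have Q1 := congrArg Units.val P1
  simp only [Units.val_mul, Units.val_inv_eq_inv_val, Units.val_pow_eq_pow_val] at Q0 Q1
  have hA : ((a : Kˣ) : K) ^ q = a := by rw [← Units.val_pow_eq_pow_val, ha]
  have hA' : ((a' : Kˣ) : K) ^ q = a' := by rw [← Units.val_pow_eq_pow_val, ha']
  obtain ⟨e1, e2⟩ := d4_inj (powHom hq (by norm_num) hK) hφ3 a.ne_zero u.ne_zero a'.ne_zero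
    u'.ne_zero hA hA' Q0 Q1
  exact ⟨Units.ext e1, Units.ext e2⟩

theorem card_H_3D4 [Fintype K] {q : ℕ} (hq : IsPrimePow q) (hK : Fintype.card K = q ^ 3) :
    Nat.card ↥(chevD4.diagonalSubgroup K ⊓ twistedD4 K q) = (q - 1) ^ 2 * (q ^ 2 + q + 1) := by
  classical
  have M := lokD4.u.m
  have hinv := gaOK_D4a
  unfold gaOK at hinv
  simp only [Bool.and_eq_true] at hinv
  have hfix := twD4_fix hq hK hinv.1.1.2 hinv.1.2
  have hq1 : 1 ≤ q := hq.pos
  have hφ : ∀ t : K, powHom hq (by norm_num) hK t = t ^ q := fun t => rfl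
  have r0 : gaD4a.rho.getD 0 0 = 2 := by decide
  have r1 : gaD4a.rho.getD 1 0 = 1 := by decide
  have r2 : gaD4a.rho.getD 2 0 = 3 := by decide
  have e3 := cube_sub_one q hq1
  have hz : ∀ h : ↥(chevD4.diagonalSubgroup K ⊓ twistedD4 K q), ∃ z : ℕ → Kˣ,
      h.1 = DgU chevD4 (chi chevD4 z) := by
    intro h
    have h1 : (h : GL chevD4.Idx K) ∈ torus chevD4 K := by
      rw [← diag_eq_torus M.w]
      exact mi1 h.2
    exact h1
  choose zc hzc using hz
  have hsig : ∀ h : ↥(chevD4.diagonalSubgroup K ⊓ twistedD4 K q), ∀ i < chevD4.rank,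
      ((chi chevD4 (zc h) (chevD4.simple (gaD4a.rho.getD i 0)) : Kˣ) : K) =
        ((chi chevD4 (zc h) (chevD4.simple i) : Kˣ) : K) ^ q := by
    intro h i hi
    have hg : sigU chevD4 gaD4a giD4a hinv.1.1.2 hinv.1.2 (powHom hq (by norm_num) hK)
        (DgU chevD4 (chi chevD4 (zc h))) = DgU chevD4 (chi chevD4 (zc h)) := by
      rw [← hzc h]
      exact mem_sigFix.mp (hfix (mi2 h.2))
    exact (tw_torus_fix M.w gaOK_D4a hinv.1.1.2 hinv.1.2 _ twD4_rho hg hi).trans (hφ _)
  let g : ↥(chevD4.diagonalSubgroup K ⊓ twistedD4 K q) → {a : Kˣ // a ^ q = a} × Kˣ := fun h =>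
    (⟨chi chevD4 (zc h) (chevD4.simple 1), by
      apply Units.ext
      rw [Units.val_pow_eq_pow_val]
      have := hsig h 1 (by decide)
      rw [r1] at this
      exact this.symm⟩, chi chevD4 (zc h) (chevD4.simple 0))
  have hginj : Function.Injective g := by
    intro h h' e
    have e1 : chi chevD4 (zc h) (chevD4.simple 1) = chi chevD4 (zc h') (chevD4.simple 1) :=
      congrArg (fun p : {a : Kˣ // a ^ q = a} × Kˣ => p.1.1) e
    have e0 : chi chevD4 (zc h) (chevD4.simple 0) = chi chevD4 (zc h') (chevD4.simple 0) :=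
      congrArg (fun p : {a : Kˣ // a ^ q = a} × Kˣ => p.2) e
    have e2 : chi chevD4 (zc h) (chevD4.simple 2) = chi chevD4 (zc h') (chevD4.simple 2) := by
      apply Units.ext
      have a1 := hsig h 0 (by decide)
      have a2 := hsig h' 0 (by decide)
      rw [r0] at a1 a2
      rw [a1, a2, e0]
    have e3' : chi chevD4 (zc h) (chevD4.simple 3) = chi chevD4 (zc h') (chevD4.simple 3) := by
      apply Units.ext
      have a1 := hsig h 2 (by decide)
      have a2 := hsig h' 2 (by decide)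
      rw [r2] at a1 a2
      rw [a1, a2, e2]
    apply Subtype.ext
    rw [hzc h, hzc h']
    apply DgU_congr
    apply chi_ext M.w
    intro i hi
    have hi4 : i < 4 := hi
    interval_cases i
    · exact e0
    · exact e1
    · exact e2
    · exact e3'
  let f : {a : Kˣ // a ^ q = a} × Kˣ → ↥(chevD4.diagonalSubgroup K ⊓ twistedD4 K q) := fun p =>
    ⟨d4h q p.1.1 p.2, d4h_mem hq hK p.1.1 p.2 p.1.2⟩
  have hfinj : Function.Injective f := by
    rintro ⟨⟨a, ha⟩, u⟩ ⟨⟨a', ha'⟩, u'⟩ e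
    have e' : d4h q a u = d4h q a' u' := congrArg Subtype.val e
    obtain ⟨ea, eu⟩ := d4h_inj hq hK ha ha' e'
    subst ea
    subst eu
    rfl
  have hcard : Nat.card ↥(chevD4.diagonalSubgroup K ⊓ twistedD4 K q) =
      Nat.card ({a : Kˣ // a ^ q = a} × Kˣ) :=
    le_antisymm (Nat.card_le_card_of_injective g hginj) (Nat.card_le_card_of_injective f hfinj)
  have eS : Nat.card {a : Kˣ // a ^ q = a} = q - 1 := by
    have e1 : Nat.card {a : Kˣ // a ^ q = a} = Nat.card {a : Kˣ // a ^ (q - 1) = 1} :=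
      Nat.card_congr (Equiv.subtypeEquivRight (fun a => by
        constructor
        · intro h
          have h2 : a ^ (q - 1) * a = 1 * a := by
            rw [← pow_succ, Nat.sub_add_cancel hq1, h, one_mul]
          exact mul_right_cancel h2
        · intro h
          calc a ^ q = a ^ (q - 1) * a := by rw [← pow_succ, Nat.sub_add_cancel hq1]
            _ = a := by rw [h, one_mul]))
    rw [e1, card_root_unity, hK, e3]
    exact Nat.gcd_eq_right (Dvd.intro _ rfl)
  rw [hcard, Nat.card_prod, eS, Nat.card_units, Nat.card_eq_fintype_card, hK, e3]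
  ring

end sem

end Cfsg.Agent.Helper7
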