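import Cfsg.Agent.Helper7.ChevTwOrd
import Cfsg.Agent.Helper7.ChkTwH

set_option autoImplicit false
set_option maxHeartbeats 4000000
set_option maxRecDepth 100000
set_option linter.unusedSectionVars false
set_option linter.unusedVariables false
open Cfsg

namespace Cfsg.Agent.Helper7

open Cfsg.Lie

def wsD4 : List (List (List ℕ)) :=
  [[], [[1]], [[0, 2, 3]], [[1], [0, 2, 3]], [[0, 2, 3], [1]], [[1], [0, 2, 3], [1]],
    [[0, 2, 3], [1], [0, 2, 3]], [[1], [0, 2, 3], [1], [0, 2, 3]],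
    [[0, 2, 3], [1], [0, 2, 3], [1]], [[1], [0, 2, 3], [1], [0, 2, 3], [1]],
    [[0, 2, 3], [1], [0, 2, 3], [1], [0, 2, 3]],
    [[1], [0, 2, 3], [1], [0, 2, 3], [1], [0, 2, 3]]]

theorem wsD4_nd : wsD4.Nodup := by decide +kernel

theorem wsD4_bl : ∀ w ∈ wsD4, ∀ J ∈ w, J ∈ blD4 := by decide +kernel

theorem wsD4_red : ∀ w ∈ wsD4, redB chevD4 w = true := by decide +kernel

theorem wsD4_closed : ∀ w ∈ wsD4, ∀ J ∈ blD4, ∃ w' ∈ wsD4, ∀ r < chevD4.nroots,
    wApply chevD4 (J ++ w.flatten) r = wApply chevD4 w'.flatten r := by decide +kernel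

theorem wsD4_inj : ∀ w ∈ wsD4, ∀ w' ∈ wsD4,
    (∀ r < chevD4.nroots, wApply chevD4 w.flatten r = wApply chevD4 w'.flatten r) → w = w' := by
  decide +kernel

theorem wsD4_ne : [] ∈ wsD4 := by decide +kernel

theorem wsD4_sum (q : ℕ) : (wsD4.map fun w => q ^ w.flatten.length).sum =
    1 + q + q ^ 3 + q ^ 4 + q ^ 4 + q ^ 5 + q ^ 7 + q ^ 8 + q ^ 8 + q ^ 9 + q ^ 11 + q ^ 12 := by
  simp [wsD4]
  ring

theorem sq_sub_one' (q : ℕ) (hq1 : 1 ≤ q) : q ^ 2 - 1 = (q - 1) * (q + 1) := by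
  obtain ⟨m, rfl⟩ : ∃ m, q = m + 1 := ⟨q - 1, by omega⟩
  rw [Nat.add_sub_cancel]
  apply Nat.sub_eq_of_eq_add
  ring

theorem six_sub_one (q : ℕ) (hq1 : 1 ≤ q) :
    q ^ 6 - 1 = (q - 1) * (q ^ 2 + q + 1) * (q ^ 3 + 1) := by
  obtain ⟨m, rfl⟩ : ∃ m, q = m + 1 := ⟨q - 1, by omega⟩
  rw [Nat.add_sub_cancel]
  apply Nat.sub_eq_of_eq_add
  ring

section sem

variable {K : Type*} [Field K]

theorem cardX_D4 [Fintype K] {q : ℕ} (hq : IsPrimePow q) (hK : Fintype.card K = q ^ 3) :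
    ∀ J ∈ blD4, Nat.card ↥(XJ chevD4 lokD4.u.m.w.add gaD4a (powHom hq (by norm_num) hK) J) =
      q ^ J.length := by
  have hcf : CF chevD4 K := cf_of_mem (by simp)
  have hφ3 : ∀ t : K, powHom hq (by norm_num) hK
      (powHom hq (by norm_num) hK (powHom hq (by norm_num) hK t)) = t := by
    intro t
    show ((t ^ q) ^ q) ^ q = t
    have e : q * (q * q) = Fintype.card K := by
      rw [hK]
      ring
    rw [← pow_mul, ← pow_mul, e, FiniteField.pow_card]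
  have hfix : Nat.card ↥({t | powHom hq (by norm_num) hK t = t} : Set K) = q :=
    card_fix hq.two_le (by norm_num) hK
  have hkk : ∀ J ∈ blD4, ∀ j ∈ J, ∃ k < chevD4.rank, chevD4.cartan k (chevD4.simple j) = -1 := by
    intro J hJ j hj
    obtain ⟨k, hk, hc, _⟩ := twD4_k J hJ j hj
    exact ⟨k, hk, hc⟩
  intro J hJ
  have hJ' := hJ
  simp only [blD4, List.mem_cons, List.not_mem_nil, or_false] at hJ'
  rcases hJ' with rfl | rfl
  · rw [card_XJ_single lokD4 (by decide) (by decide) (hkk _ hJ 1 (by simp)), hfix]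
    simp
  · rw [card_XJ_triple lokD4 hcf orth2OK_D4_02 orth2OK_D4_03 orth2OK_D4_23 (by decide)
      (by decide) (by decide) (by decide) (by decide) (by decide) hφ3 (hkk _ hJ),
      Nat.card_eq_fintype_card, hK]
    rfl

theorem order_3D4 [Fintype K] {q : ℕ} (hq : IsPrimePow q) (hK : Fintype.card K = q ^ 3) :
    Nat.card ↥(twistedD4 K q) =
      q ^ 12 * (q ^ 2 - 1) * (q ^ 6 - 1) * (q ^ 8 + q ^ 4 + 1) := by
  have hcf : CF chevD4 K := cf_of_mem (by simp)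
  have hq1 : 1 ≤ q := hq.pos
  have hB := tw_card_B lokD4 hcf (A := gaD4a) (φ := powHom hq (by norm_num) hK)
    (twD4_data hq hK) orthD4 blkD4 blkD4_mem goodD4 longD4r
  have hG := tw_card_group lokD4 hcf unitAll_D4 (A := gaD4a) (φ := powHom hq (by norm_num) hK)
    (twD4_data hq hK) orthD4 wsD4 wsD4_nd wsD4_bl wsD4_red wsD4_closed wsD4_inj wsD4_ne q
    (cardX_D4 hq hK)
  rw [hG, hB, card_U_3D4 hq hK, card_H_3D4 hq hK, wsD4_sum, sq_sub_one' q hq1,
    six_sub_one q hq1]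
  ring

end sem

end Cfsg.Agent.Helper7
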