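import Cfsg.Agent.Helper7.ChkTwWs

set_option autoImplicit false
set_option maxHeartbeats 4000000
set_option maxRecDepth 100000
set_option linter.unusedSectionVars false
set_option linter.unusedVariables false
open Cfsg

namespace Cfsg.Agent.Helper7

open Cfsg.Lie

def polyE6tw : List ℕ := [1, 2, 4, 6, 9, 13, 17, 22, 26, 32, 37, 43, 47, 51, 55, 58, 61, 61, 62, 61, 61, 58, 55, 51, 47, 43, 37, 32, 26, 22, 17, 13, 9, 6, 4, 2, 1]

theorem wsE6_sum (q : ℕ) : (wsE6.map fun w => q ^ w.flatten.length).sum = cev polyE6tw q := by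
  rw [sum_pow_flat, wsE6_poly]
  rfl

theorem e6_poly_id : cmul [1, 2, 1] polyE6tw = cprod [cgeom 2, cgeom 6, cgeom 8, cgeom 12,
    [1, 0, 0, 0, 0, 1], [1, 0, 0, 0, 0, 0, 0, 0, 0, 1]] := by decide +kernel

theorem e6_poly_ev (q : ℕ) : (q + 1) ^ 2 * cev polyE6tw q =
    cev (cgeom 2) q * cev (cgeom 6) q * cev (cgeom 8) q * cev (cgeom 12) q * (q ^ 5 + 1) *
      (q ^ 9 + 1) := by
  have h1 : (q + 1) ^ 2 = cev [1, 2, 1] q := by
    simp [cev]
    ring
  have h5 : q ^ 5 + 1 = cev [1, 0, 0, 0, 0, 1] q := by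
    simp [cev]
    ring
  have h9 : q ^ 9 + 1 = cev [1, 0, 0, 0, 0, 0, 0, 0, 0, 1] q := by
    simp [cev]
    ring
  rw [h1, h5, h9, ← cev_cmul, e6_poly_id, cev_cprod]
  simp only [List.map_cons, List.map_nil, List.prod_cons, List.prod_nil]
  ring

section sem

variable {K : Type*} [Field K]

theorem cardX_E6 [Fintype K] {q : ℕ} (hq : IsPrimePow q) (hK : Fintype.card K = q ^ 2) :
    ∀ J ∈ blE6, Nat.card ↥(XJ chevE6 lokE6.u.m.w.add gaE6 (powHom hq (by norm_num) hK) J) =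
      q ^ J.length := by
  have hcf : CF chevE6 K := cf_of_mem (by simp)
  have hφ2 : ∀ t : K, powHom hq (by norm_num) hK (powHom hq (by norm_num) hK t) = t := by
    intro t
    show (t ^ q) ^ q = t
    rw [← pow_mul, ← pow_two, ← hK, FiniteField.pow_card]
  have hfix : Nat.card ↥({t | powHom hq (by norm_num) hK t = t} : Set K) = q :=
    card_fix hq.two_le (by norm_num) hK
  have hkk : ∀ J ∈ blE6, ∀ j ∈ J, ∃ k < chevE6.rank, chevE6.cartan k (chevE6.simple j) = -1 := by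
    intro J hJ j hj
    obtain ⟨k, hk, hc, _⟩ := twE6_k J hJ j hj
    exact ⟨k, hk, hc⟩
  intro J hJ
  have hJ' := hJ
  simp only [blE6, List.mem_cons, List.not_mem_nil, or_false] at hJ'
  rcases hJ' with rfl | rfl | rfl | rfl
  · rw [card_XJ_single lokE6 (by decide) (by decide) (hkk _ hJ 1 (by simp)), hfix]
    simp
  · rw [card_XJ_single lokE6 (by decide) (by decide) (hkk _ hJ 3 (by simp)), hfix]
    simp
  · rw [card_XJ_pair lokE6 hcf orth2OK_E6_24 (by decide) (by decide) (by decide) hφ2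
      (hkk _ hJ), Nat.card_eq_fintype_card, hK]
    rfl
  · rw [card_XJ_pair lokE6 hcf orth2OK_E6_05 (by decide) (by decide) (by decide) hφ2
      (hkk _ hJ), Nat.card_eq_fintype_card, hK]
    rfl

theorem order_2E6 [Fintype K] {q : ℕ} (hq : IsPrimePow q) (hK : Fintype.card K = q ^ 2) :
    Nat.gcd 3 (q + 1) * Nat.card ↥(twistedE6 K q) =
      q ^ 36 * (q ^ 2 - 1) * (q ^ 5 + 1) * (q ^ 6 - 1) * (q ^ 8 - 1) * (q ^ 9 + 1) *
        (q ^ 12 - 1) := by
  have hcf : CF chevE6 K := cf_of_mem (by simp)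
  have hq1 : 1 ≤ q := hq.pos
  have hB := tw_card_B lokE6 hcf (A := gaE6) (φ := powHom hq (by norm_num) hK)
    (twE6_data hq hK) orthE6 blkE6 blkE6_mem goodE6 longE6r
  obtain ⟨hnd, hinj⟩ := inj_of_acts chevE6 wsE6 actsE6 wsE6_acts
    (List.Nodup.of_map _ (incB_nodup _ actsE6_inc))
  have hcl := closed_of_acts chevE6 blE6 wsE6 certE6 actsE6 wsE6_acts wsE6_cert
  have hG := tw_card_group lokE6 hcf unitAll_E6 (A := gaE6) (φ := powHom hq (by norm_num) hK)
    (twE6_data hq hK) orthE6 wsE6 hnd wsE6_bl wsE6_red hcl hinj wsE6_ne q (cardX_E6 hq hK)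
  have hH := card_H_2E6 hq hK
  rw [hG, hB, card_U_2E6 hq hK, wsE6_sum]
  calc Nat.gcd 3 (q + 1) * (q ^ 36 * Nat.card ↥(chevE6.diagonalSubgroup K ⊓ twistedE6 K q) *
        cev polyE6tw q)
      = q ^ 36 * (Nat.gcd 3 (q + 1) *
          Nat.card ↥(chevE6.diagonalSubgroup K ⊓ twistedE6 K q)) * cev polyE6tw q := by ring
    _ = q ^ 36 * ((q - 1) ^ 4 * ((q + 1) ^ 2 * cev polyE6tw q)) := by
        rw [hH]
        ring
    _ = q ^ 36 * ((q - 1) * cev (cgeom 2) q) * (q ^ 5 + 1) * ((q - 1) * cev (cgeom 6) q) *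
          ((q - 1) * cev (cgeom 8) q) * (q ^ 9 + 1) * ((q - 1) * cev (cgeom 12) q) := by
        rw [e6_poly_ev]
        ring
    _ = q ^ 36 * (q ^ 2 - 1) * (q ^ 5 + 1) * (q ^ 6 - 1) * (q ^ 8 - 1) * (q ^ 9 + 1) *
          (q ^ 12 - 1) := by
        rw [cev_cgeom q 2 hq1, cev_cgeom q 6 hq1, cev_cgeom q 8 hq1, cev_cgeom q 12 hq1]

end sem

end Cfsg.Agent.Helper7
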