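import Cfsg.Agent.Helper7.ChevTwRef2
import Cfsg.Agent.Helper7.ChkTwH

set_option autoImplicit false
set_option maxHeartbeats 4000000
set_option maxRecDepth 100000
set_option linter.unusedSectionVars false
set_option linter.unusedVariables false
open Cfsg

namespace Cfsg.Agent.Helper7

open Cfsg.Lie

theorem e6car : ∀ i < 6, ∀ j < 6, chevE6.cartan j (chevE6.simple i) =
    (([[2, 0, -1, 0, 0, 0], [0, 2, 0, -1, 0, 0], [-1, 0, 2, -1, 0, 0], [0, -1, -1, 2, -1, 0],
      [0, 0, 0, -1, 2, -1], [0, 0, 0, 0, -1, 2]] : List (List ℤ)).getD i []).getD j 0 := by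
  decide +kernel

theorem e6slt : ∀ i < 6, chevE6.simple i < chevE6.nroots := by decide +kernel

theorem sgn_mul {G : Type*} [Monoid G] [HasDistribNeg G] {x y : G} (hx : x = 1 ∨ x = -1)
    (hy : y = 1 ∨ y = -1) : x * y = 1 ∨ x * y = -1 := by
  rcases hx with rfl | rfl <;> rcases hy with rfl | rfl <;> simp

section sem

variable {K : Type*} [Field K]

theorem twE6_G [Fintype K] {q : ℕ} (hq : IsPrimePow q) (hK : Fintype.card K = q ^ 2) :
    ∀ J ∈ blE6, ∀ ts, TwC gaE6 (powHom hq (by norm_num) hK) J ts →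
      pL J (xPf chevE6 lokE6.u.m.w.add ts) ∈ twistedE6 K q ∧
      pL J (xMf chevE6 lokE6.u.m.w.add ts) ∈ twistedE6 K q := by
  have hs := e6_simple
  have hn := e6_neg
  simp only [List.cons.injEq, and_true] at hs hn
  obtain ⟨s0, s1, s2, s3, s4, s5⟩ := hs
  obtain ⟨n0, n1, n2, n3, n4, n5⟩ := hn
  have hfixm := e6_fix_mem (K := K) lokE6.u q
  have hpair := e6_pair_mem (K := K) lokE6.u q
  have hφ : ∀ t : K, powHom hq (by norm_num) hK t = t ^ q := fun t => rfl
  have r0 : gaE6.rho.getD 0 0 = 5 := by decide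
  have r1 : gaE6.rho.getD 1 0 = 1 := by decide
  have r2 : gaE6.rho.getD 2 0 = 4 := by decide
  have r3 : gaE6.rho.getD 3 0 = 3 := by decide
  intro J hJ ts htw
  simp only [blE6, List.mem_cons, List.not_mem_nil, or_false] at hJ
  rcases hJ with rfl | rfl | rfl | rfl
  · have e1 := htw 1 (by simp)
    rw [hφ, r1] at e1
    rw [pL_single, pL_single]
    unfold xPf xMf
    rw [s1, n1]
    exact ⟨hfixm e6p2 (by simp) _ e1.symm, hfixm e6m2 (by simp) _ e1.symm⟩
  · have e1 := htw 3 (by simp)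
    rw [hφ, r3] at e1
    rw [pL_single, pL_single]
    unfold xPf xMf
    rw [s3, n3]
    exact ⟨hfixm e6p4 (by simp) _ e1.symm, hfixm e6m4 (by simp) _ e1.symm⟩
  · have e1 := htw 2 (by simp)
    rw [hφ, r2] at e1
    rw [pL_pair, pL_pair]
    unfold xPf xMf
    rw [s2, s4, n2, n4, e1]
    exact ⟨hpair (e6p3, e6p5) (by simp) _, hpair (e6m3, e6m5) (by simp) _⟩
  · have e1 := htw 0 (by simp)
    rw [hφ, r0] at e1
    rw [pL_pair, pL_pair]
    unfold xPf xMf
    rw [s0, s5, n0, n5, e1]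
    exact ⟨hpair (e6p1, e6p6) (by simp) _, hpair (e6m1, e6m6) (by simp) _⟩

theorem twE6_gen [Fintype K] {q : ℕ} (hq : IsPrimePow q) (hK : Fintype.card K = q ^ 2) :
    twistedE6 K q ≤ Subgroup.closure {g | ∃ J ∈ blE6, ∃ ts,
      TwC gaE6 (powHom hq (by norm_num) hK) J ts ∧
      (g = pL J (xPf chevE6 lokE6.u.m.w.add ts) ∨ g = pL J (xMf chevE6 lokE6.u.m.w.add ts))} := by
  have hs := e6_simple
  have hn := e6_neg
  simp only [List.cons.injEq, and_true] at hs hn
  obtain ⟨s0, s1, s2, s3, s4, s5⟩ := hs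
  obtain ⟨n0, n1, n2, n3, n4, n5⟩ := hn
  have hφ : ∀ t : K, powHom hq (by norm_num) hK t = t ^ q := fun t => rfl
  have hφ2 : ∀ t : K, (t ^ q) ^ q = t := by
    intro t
    rw [← pow_mul, ← pow_two, ← hK, FiniteField.pow_card]
  have r0 : gaE6.rho.getD 0 0 = 5 := by decide
  have r2 : gaE6.rho.getD 2 0 = 4 := by decide
  have r4 : gaE6.rho.getD 4 0 = 2 := by decide
  have r5 : gaE6.rho.getD 5 0 = 0 := by decide
  unfold twistedE6
  apply gen_le chevE6 lokE6.u.m.w.add (e6Words K q)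
  intro w hw
  apply Subgroup.subset_closure
  rcases hw with ⟨t, ht, r, hr, rfl⟩ | ⟨t, rs, hrs, rfl⟩
  · have htw1 : TwC gaE6 (powHom hq (by norm_num) hK) [1] (fun _ => t) :=
      twc_single (by rw [hφ]; exact ht)
    have htw3 : TwC gaE6 (powHom hq (by norm_num) hK) [3] (fun _ => t) :=
      twc_single (by rw [hφ]; exact ht)
    simp only [List.mem_cons, List.not_mem_nil, or_false] at hr
    rcases hr with rfl | rfl | rfl | rfl
    · refine ⟨[1], by simp [blE6], fun _ => t, htw1, Or.inl ?_⟩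
      rw [pL_single]
      unfold xPf
      rw [s1]
      simp [wordU]
    · refine ⟨[1], by simp [blE6], fun _ => t, htw1, Or.inr ?_⟩
      rw [pL_single]
      unfold xMf
      rw [s1, n1]
      simp [wordU]
    · refine ⟨[3], by simp [blE6], fun _ => t, htw3, Or.inl ?_⟩
      rw [pL_single]
      unfold xPf
      rw [s3]
      simp [wordU]
    · refine ⟨[3], by simp [blE6], fun _ => t, htw3, Or.inr ?_⟩
      rw [pL_single]
      unfold xMf
      rw [s3, n3]
      simp [wordU]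
  · have h05 : TwC gaE6 (powHom hq (by norm_num) hK) [0, 5]
        (fun m => if m = 0 then t else powHom hq (by norm_num) hK t) :=
      twc_pair (by decide) r0 r5 (by rw [hφ, hφ]; exact hφ2 t)
    have h24 : TwC gaE6 (powHom hq (by norm_num) hK) [2, 4]
        (fun m => if m = 2 then t else powHom hq (by norm_num) hK t) :=
      twc_pair (by decide) r2 r4 (by rw [hφ, hφ]; exact hφ2 t)
    simp only [List.mem_cons, List.not_mem_nil, or_false] at hrs
    rcases hrs with rfl | rfl | rfl | rfl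
    · refine ⟨[0, 5], by simp [blE6], _, h05, Or.inl ?_⟩
      rw [pL_pair]
      unfold xPf
      rw [s0, s5]
      simp [wordU, hφ]
    · refine ⟨[0, 5], by simp [blE6], _, h05, Or.inr ?_⟩
      rw [pL_pair]
      unfold xMf
      rw [s0, s5, n0, n5]
      simp [wordU, hφ]
    · refine ⟨[2, 4], by simp [blE6], _, h24, Or.inl ?_⟩
      rw [pL_pair]
      unfold xPf
      rw [s2, s4]
      simp [wordU, hφ]
    · refine ⟨[2, 4], by simp [blE6], _, h24, Or.inr ?_⟩
      rw [pL_pair]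
      unfold xMf
      rw [s2, s4, n2, n4]
      simp [wordU, hφ]

theorem twE6_fix [Fintype K] {q : ℕ} (hq : IsPrimePow q) (hK : Fintype.card K = q ^ 2)
    (h1 : gaInvOK chevE6 gaE6 giE6 = true) (h2 : gaInvOK chevE6 giE6 gaE6 = true) :
    twistedE6 K q ≤ sigFix chevE6 gaE6 giE6 h1 h2 (powHom hq (by norm_num) hK) := by
  refine le_trans (twE6_gen hq hK) ?_
  rw [Subgroup.closure_le]
  rintro g ⟨J, hJ, ts, htw, hg | hg⟩
  · rw [hg]
    exact mem_sigFix.mpr (sig_fix_xP lokE6.u.m gaOK_E6 h1 h2 _ (orthE6 J hJ) (twE6_perm J hJ) htw)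
  · rw [hg]
    exact mem_sigFix.mpr (sig_fix_xM lokE6.u.m gaOK_E6 h1 h2 _ (orthE6 J hJ) (twE6_perm J hJ) htw)

def e6sU (e0 e1 e2 e3 : Kˣ) (j : ℕ) : Kˣ :=
  if j = 0 then e1 * e2 else if j = 1 then e3 else if j = 2 then e0 else if j = 3 then e1
  else if j = 4 then e0 else e1 * e2

theorem e6sU_sgn {e0 e1 e2 e3 : Kˣ} (h0 : e0 = 1 ∨ e0 = -1) (h1 : e1 = 1 ∨ e1 = -1)
    (h2 : e2 = 1 ∨ e2 = -1) (h3 : e3 = 1 ∨ e3 = -1) (j : ℕ) :
    e6sU e0 e1 e2 e3 j = 1 ∨ e6sU e0 e1 e2 e3 j = -1 := by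
  unfold e6sU
  split_ifs
  · exact sgn_mul h1 h2
  · exact h3
  · exact h0
  · exact h1
  · exact h0
  · exact sgn_mul h1 h2

theorem e6sU_rho (e0 e1 e2 e3 : Kˣ) : ∀ j < 6,
    e6sU e0 e1 e2 e3 (gaE6.rho.getD j 0) = e6sU e0 e1 e2 e3 j := by
  intro j hj
  interval_cases j <;> rfl

theorem e6_sign_H0 [Fintype K] {q : ℕ} (hq : IsPrimePow q) (hK : Fintype.card K = q ^ 2)
    (z : ℕ → Kˣ)
    (hs : ∀ r < chevE6.nroots, ((chi chevE6 z r : Kˣ) : K) = 1 ∨
      ((chi chevE6 z r : Kˣ) : K) = -1)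
    (hm : DgU chevE6 (chi chevE6 z) ∈ twistedE6 K q) :
    DgU chevE6 (chi chevE6 z) ∈
      H0 chevE6 lokE6.u.m.w.add gaE6 (powHom hq (by norm_num) hK) blE6 := by
  have M := lokE6.u.m
  have hinv := gaOK_E6
  unfold gaOK at hinv
  simp only [Bool.and_eq_true] at hinv
  have hfix := twE6_fix hq hK hinv.1.1.2 hinv.1.2
  have hφ : ∀ t : K, powHom hq (by norm_num) hK t = t ^ q := fun t => rfl
  have hsu : ∀ i < 6, chi chevE6 z (chevE6.simple i) = 1 ∨
      chi chevE6 z (chevE6.simple i) = -1 := by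
    intro i hi
    rcases hs _ (e6slt i hi) with h | h
    · left
      exact Units.ext h
    · right
      apply Units.ext
      rw [h]
      simp
  have hsig : ∀ i < chevE6.rank,
      ((chi chevE6 z (chevE6.simple (gaE6.rho.getD i 0)) : Kˣ) : K) =
        ((chi chevE6 z (chevE6.simple i) : Kˣ) : K) ^ q := by
    intro i hi
    exact (tw_torus_fix M.w gaOK_E6 hinv.1.1.2 hinv.1.2 _ twE6_rho
      (mem_sigFix.mp (hfix hm)) hi).trans (hφ _)
  have hpw : ∀ x : Kˣ, (x = 1 ∨ x = -1) → ((x : Kˣ) : K) ^ q = x := by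
    intro x hx
    rcases hx with rfl | rfl
    · simp
    · have h := map_neg (powHom hq (by norm_num) hK) (1 : K)
      rw [map_one, hφ] at h
      simpa using h
  have e50 : chi chevE6 z (chevE6.simple 5) = chi chevE6 z (chevE6.simple 0) := by
    apply Units.ext
    have h := hsig 0 (by decide)
    rw [hpw _ (hsu 0 (by norm_num))] at h
    exact h
  have e42 : chi chevE6 z (chevE6.simple 4) = chi chevE6 z (chevE6.simple 2) := by
    apply Units.ext
    have h := hsig 2 (by decide)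
    rw [hpw _ (hsu 2 (by norm_num))] at h
    exact h
  have h0 := hsu 0 (by norm_num)
  have h1 := hsu 1 (by norm_num)
  have h2 := hsu 2 (by norm_num)
  have h3 := hsu 3 (by norm_num)
  have htw : ∀ J : List ℕ, (∀ j ∈ J, j < 6) → TwC gaE6 (powHom hq (by norm_num) hK) J
      (fun j => ((e6sU (chi chevE6 z (chevE6.simple 0)) (chi chevE6 z (chevE6.simple 1))
        (chi chevE6 z (chevE6.simple 2)) (chi chevE6 z (chevE6.simple 3)) j : Kˣ) : K)) := by
    intro J hJ j hj
    show ((e6sU _ _ _ _ (gaE6.rho.getD j 0) : Kˣ) : K) =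
      powHom hq (by norm_num) hK ((e6sU _ _ _ _ j : Kˣ) : K)
    rw [e6sU_rho _ _ _ _ j (hJ j hj), hφ, hpw _ (e6sU_sgn h0 h1 h2 h3 j)]
  have hgen : ∀ J ∈ blE6, pL J (nPf chevE6 lokE6.u.m.w.add
      (fun j => ((e6sU (chi chevE6 z (chevE6.simple 0)) (chi chevE6 z (chevE6.simple 1))
        (chi chevE6 z (chevE6.simple 2)) (chi chevE6 z (chevE6.simple 3)) j : Kˣ) : K))) *
      (nWordU chevE6 lokE6.u.m.w.add J)⁻¹ ∈
      H0 chevE6 lokE6.u.m.w.add gaE6 (powHom hq (by norm_num) hK) blE6 := by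
    intro J hJ
    exact Subgroup.subset_closure ⟨J, hJ, _, htw J (fun j hj => (orthE6 (K := K) J hJ).2.1 j hj),
      fun j _ => Units.ne_zero _, rfl⟩
  have m1 : [1] ∈ blE6 := by simp [blE6]
  have m3 : [3] ∈ blE6 := by simp [blE6]
  have m24 : [2, 4] ∈ blE6 := by simp [blE6]
  have m05 : [0, 5] ∈ blE6 := by simp [blE6]
  have hg := mul_mem (mul_mem (mul_mem (hgen _ m1) (hgen _ m3)) (hgen _ m24)) (hgen _ m05)
  have hT := mi1 (H0_le M (twistedE6 K q) orthE6 twE6_sgn
    (fun J hJ ts ht => (twE6_G hq hK J hJ ts ht).1)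
    (fun J hJ => ((twE6_data hq hK).hs ⟨J, hJ⟩).2) hg)
  obtain ⟨z', hz'⟩ := hT
  have hz2 := hz'
  rw [hJ_eq lokE6.u.m (orthE6 (K := K) _ m1), hJ_eq lokE6.u.m (orthE6 (K := K) _ m3),
    hJ_eq lokE6.u.m (orthE6 (K := K) _ m24), hJ_eq lokE6.u.m (orthE6 (K := K) _ m05),
    DgU_mul, DgU_mul, DgU_mul] at hz2
  have hval := DgU_inj chevE6 hz2
  have hext : ∀ i < chevE6.rank, chi chevE6 z' (chevE6.simple i) =
      chi chevE6 z (chevE6.simple i) := by
    intro i hi
    have hi6 : i < 6 := hi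
    have hv := hval _ (e6slt i hi6)
    rw [← hv]
    simp only [List.map_cons, List.map_nil, List.prod_cons, List.prod_nil, mul_one]
    have c00 : chevE6.cartan 0 (chevE6.simple 0) = (2 : ℤ) := e6car 0 (by norm_num) 0 (by norm_num)
    have c01 : chevE6.cartan 1 (chevE6.simple 0) = (0 : ℤ) := e6car 0 (by norm_num) 1 (by norm_num)
    have c02 : chevE6.cartan 2 (chevE6.simple 0) = (-1 : ℤ) := e6car 0 (by norm_num) 2 (by norm_num)
    have c03 : chevE6.cartan 3 (chevE6.simple 0) = (0 : ℤ) := e6car 0 (by norm_num) 3 (by norm_num)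
    have c04 : chevE6.cartan 4 (chevE6.simple 0) = (0 : ℤ) := e6car 0 (by norm_num) 4 (by norm_num)
    have c05 : chevE6.cartan 5 (chevE6.simple 0) = (0 : ℤ) := e6car 0 (by norm_num) 5 (by norm_num)
    have c10 : chevE6.cartan 0 (chevE6.simple 1) = (0 : ℤ) := e6car 1 (by norm_num) 0 (by norm_num)
    have c11 : chevE6.cartan 1 (chevE6.simple 1) = (2 : ℤ) := e6car 1 (by norm_num) 1 (by norm_num)
    have c12 : chevE6.cartan 2 (chevE6.simple 1) = (0 : ℤ) := e6car 1 (by norm_num) 2 (by norm_num)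
    have c13 : chevE6.cartan 3 (chevE6.simple 1) = (-1 : ℤ) := e6car 1 (by norm_num) 3 (by norm_num)
    have c14 : chevE6.cartan 4 (chevE6.simple 1) = (0 : ℤ) := e6car 1 (by norm_num) 4 (by norm_num)
    have c15 : chevE6.cartan 5 (chevE6.simple 1) = (0 : ℤ) := e6car 1 (by norm_num) 5 (by norm_num)
    have c20 : chevE6.cartan 0 (chevE6.simple 2) = (-1 : ℤ) := e6car 2 (by norm_num) 0 (by norm_num)
    have c21 : chevE6.cartan 1 (chevE6.simple 2) = (0 : ℤ) := e6car 2 (by norm_num) 1 (by norm_num)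
    have c22 : chevE6.cartan 2 (chevE6.simple 2) = (2 : ℤ) := e6car 2 (by norm_num) 2 (by norm_num)
    have c23 : chevE6.cartan 3 (chevE6.simple 2) = (-1 : ℤ) := e6car 2 (by norm_num) 3 (by norm_num)
    have c24 : chevE6.cartan 4 (chevE6.simple 2) = (0 : ℤ) := e6car 2 (by norm_num) 4 (by norm_num)
    have c25 : chevE6.cartan 5 (chevE6.simple 2) = (0 : ℤ) := e6car 2 (by norm_num) 5 (by norm_num)
    have c30 : chevE6.cartan 0 (chevE6.simple 3) = (0 : ℤ) := e6car 3 (by norm_num) 0 (by norm_num)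
    have c31 : chevE6.cartan 1 (chevE6.simple 3) = (-1 : ℤ) := e6car 3 (by norm_num) 1 (by norm_num)
    have c32 : chevE6.cartan 2 (chevE6.simple 3) = (-1 : ℤ) := e6car 3 (by norm_num) 2 (by norm_num)
    have c33 : chevE6.cartan 3 (chevE6.simple 3) = (2 : ℤ) := e6car 3 (by norm_num) 3 (by norm_num)
    have c34 : chevE6.cartan 4 (chevE6.simple 3) = (-1 : ℤ) := e6car 3 (by norm_num) 4 (by norm_num)
    have c35 : chevE6.cartan 5 (chevE6.simple 3) = (0 : ℤ) := e6car 3 (by norm_num) 5 (by norm_num)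
    have c40 : chevE6.cartan 0 (chevE6.simple 4) = (0 : ℤ) := e6car 4 (by norm_num) 0 (by norm_num)
    have c41 : chevE6.cartan 1 (chevE6.simple 4) = (0 : ℤ) := e6car 4 (by norm_num) 1 (by norm_num)
    have c42 : chevE6.cartan 2 (chevE6.simple 4) = (0 : ℤ) := e6car 4 (by norm_num) 2 (by norm_num)
    have c43 : chevE6.cartan 3 (chevE6.simple 4) = (-1 : ℤ) := e6car 4 (by norm_num) 3 (by norm_num)
    have c44 : chevE6.cartan 4 (chevE6.simple 4) = (2 : ℤ) := e6car 4 (by norm_num) 4 (by norm_num)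
    have c45 : chevE6.cartan 5 (chevE6.simple 4) = (-1 : ℤ) := e6car 4 (by norm_num) 5 (by norm_num)
    have c50 : chevE6.cartan 0 (chevE6.simple 5) = (0 : ℤ) := e6car 5 (by norm_num) 0 (by norm_num)
    have c51 : chevE6.cartan 1 (chevE6.simple 5) = (0 : ℤ) := e6car 5 (by norm_num) 1 (by norm_num)
    have c52 : chevE6.cartan 2 (chevE6.simple 5) = (0 : ℤ) := e6car 5 (by norm_num) 2 (by norm_num)
    have c53 : chevE6.cartan 3 (chevE6.simple 5) = (0 : ℤ) := e6car 5 (by norm_num) 3 (by norm_num)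
    have c54 : chevE6.cartan 4 (chevE6.simple 5) = (-1 : ℤ) := e6car 5 (by norm_num) 4 (by norm_num)
    have c55 : chevE6.cartan 5 (chevE6.simple 5) = (2 : ℤ) := e6car 5 (by norm_num) 5 (by norm_num)
    interval_cases i
    · simp only [c00, c01, c02, c03, c04, c05]
      generalize chi chevE6 z (chevE6.simple 0) = e0 at h0 ⊢
      generalize chi chevE6 z (chevE6.simple 1) = e1 at h1 ⊢
      generalize chi chevE6 z (chevE6.simple 2) = e2 at h2 ⊢
      generalize chi chevE6 z (chevE6.simple 3) = e3 at h3 ⊢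
      rcases h0 with rfl | rfl <;> rcases h1 with rfl | rfl <;> rcases h2 with rfl | rfl <;>
        rcases h3 with rfl | rfl <;> simp [e6sU]
    · simp only [c10, c11, c12, c13, c14, c15]
      generalize chi chevE6 z (chevE6.simple 0) = e0 at h0 ⊢
      generalize chi chevE6 z (chevE6.simple 1) = e1 at h1 ⊢
      generalize chi chevE6 z (chevE6.simple 2) = e2 at h2 ⊢
      generalize chi chevE6 z (chevE6.simple 3) = e3 at h3 ⊢
      rcases h0 with rfl | rfl <;> rcases h1 with rfl | rfl <;> rcases h2 with rfl | rfl <;>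
        rcases h3 with rfl | rfl <;> simp [e6sU]
    · simp only [c20, c21, c22, c23, c24, c25]
      generalize chi chevE6 z (chevE6.simple 0) = e0 at h0 ⊢
      generalize chi chevE6 z (chevE6.simple 1) = e1 at h1 ⊢
      generalize chi chevE6 z (chevE6.simple 2) = e2 at h2 ⊢
      generalize chi chevE6 z (chevE6.simple 3) = e3 at h3 ⊢
      rcases h0 with rfl | rfl <;> rcases h1 with rfl | rfl <;> rcases h2 with rfl | rfl <;>
        rcases h3 with rfl | rfl <;> simp [e6sU]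
    · simp only [c30, c31, c32, c33, c34, c35]
      generalize chi chevE6 z (chevE6.simple 0) = e0 at h0 ⊢
      generalize chi chevE6 z (chevE6.simple 1) = e1 at h1 ⊢
      generalize chi chevE6 z (chevE6.simple 2) = e2 at h2 ⊢
      generalize chi chevE6 z (chevE6.simple 3) = e3 at h3 ⊢
      rcases h0 with rfl | rfl <;> rcases h1 with rfl | rfl <;> rcases h2 with rfl | rfl <;>
        rcases h3 with rfl | rfl <;> simp [e6sU]
    · simp only [c40, c41, c42, c43, c44, c45]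
      rw [e42]
      generalize chi chevE6 z (chevE6.simple 0) = e0 at h0 ⊢
      generalize chi chevE6 z (chevE6.simple 1) = e1 at h1 ⊢
      generalize chi chevE6 z (chevE6.simple 2) = e2 at h2 ⊢
      generalize chi chevE6 z (chevE6.simple 3) = e3 at h3 ⊢
      rcases h0 with rfl | rfl <;> rcases h1 with rfl | rfl <;> rcases h2 with rfl | rfl <;>
        rcases h3 with rfl | rfl <;> simp [e6sU]
    · simp only [c50, c51, c52, c53, c54, c55]
      rw [e50]
      generalize chi chevE6 z (chevE6.simple 0) = e0 at h0 ⊢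
      generalize chi chevE6 z (chevE6.simple 1) = e1 at h1 ⊢
      generalize chi chevE6 z (chevE6.simple 2) = e2 at h2 ⊢
      generalize chi chevE6 z (chevE6.simple 3) = e3 at h3 ⊢
      rcases h0 with rfl | rfl <;> rcases h1 with rfl | rfl <;> rcases h2 with rfl | rfl <;>
        rcases h3 with rfl | rfl <;> simp [e6sU]
  have hcong : ∀ s < chevE6.nroots, chi chevE6 z' s = chi chevE6 z s := chi_ext M.w z' z hext
  have e : DgU chevE6 (chi chevE6 z) = DgU chevE6 (chi chevE6 z') :=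
    (DgU_congr chevE6 hcong).symm
  rw [e, ← hz']
  exact hg

theorem H_2E6_le [Fintype K] {q : ℕ} (hq : IsPrimePow q) (hK : Fintype.card K = q ^ 2) :
    chevE6.diagonalSubgroup K ⊓ twistedE6 K q ≤
      H0 chevE6 lokE6.u.m.w.add gaE6 (powHom hq (by norm_num) hK) blE6 := by
  have hcf : CF chevE6 K := cf_of_mem (by simp)
  have hOK' : gaOK chevE6 giE6 gaE6 = true := gaOK_E6
  have hinv := gaOK_E6
  unfold gaOK at hinv
  simp only [Bool.and_eq_true] at hinv
  exact tw_H_le lokE6 hcf unitAll_E6 gaOK_E6 hOK' hinv.1.1.2 hinv.1.2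
    (powHom hq (by norm_num) hK) (twistedE6 K q) blE6 twE6_rho twE6_sg twE6_sgn orthE6 twE6_perm
    twE6_k twE6_root
    (fun J hJ j hj j' hj' => by
      obtain ⟨m, _, hm⟩ := twE6_orb J hJ j hj j' hj'
      exact ⟨m, hm⟩)
    (twE6_G hq hK) (fun J hJ => ((twE6_data hq hK).hs ⟨J, hJ⟩).2)
    (twE6_fix hq hK hinv.1.1.2 hinv.1.2) (twE6_gen hq hK) (e6_sign_H0 hq hK)

end sem

end Cfsg.Agent.Helper7
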