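import Cfsg.Agent.Helper7.ChkTwRef

set_option autoImplicit false
set_option maxHeartbeats 4000000
set_option maxRecDepth 100000
set_option linter.unusedSectionVars false
set_option linter.unusedVariables false
open Cfsg

namespace Cfsg.Agent.Helper7

open Cfsg.Lie

theorem e6_ker {K : Type*} [Field K] {A B C D C' D' : K} (hA : A ≠ 0) (hD : D ≠ 0)
    (hD' : D' ≠ 0) (E0 : D ^ 2 = C) (E1 : A ^ 2 = B) (E2 : C ^ 2 = D * B)
    (E3 : B ^ 2 = A * C * C') (E4 : C' ^ 2 = B * D') (E5 : D' ^ 2 = C') :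
    A = 1 ∧ D ^ 3 = 1 ∧ D' = D ^ 2 := by
  subst E0 E1 E5
  have e2 : D ^ 3 = A ^ 2 := mul_left_cancel₀ hD (by linear_combination E2)
  have e4 : D' ^ 3 = A ^ 2 := mul_left_cancel₀ hD' (by linear_combination E4)
  have e3 : A ^ 3 = D ^ 2 * D' ^ 2 := mul_left_cancel₀ hA (by linear_combination E3)
  have hA1 : A = 1 := by
    have h8 : A ^ 8 * (A - 1) = 0 := by
      linear_combination (A ^ 6 + A ^ 3 * D ^ 2 * D' ^ 2 + D ^ 4 * D' ^ 4) * e3 +
        ((D ^ 3 + A ^ 2) * D' ^ 6) * e2 + (A ^ 4 * (D' ^ 3 + A ^ 2)) * e4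
    rcases mul_eq_zero.mp h8 with h | h
    · exact absurd (pow_eq_zero_iff (by norm_num) |>.mp h) hA
    · exact sub_eq_zero.mp h
  subst hA1
  have hD3 : D ^ 3 = 1 := by
    rw [e2]
    ring
  have hD3' : D' ^ 3 = 1 := by
    rw [e4]
    ring
  have hp : D * D' = 1 := by
    linear_combination (D * D') * e3 + D' ^ 3 * hD3 + hD3'
  exact ⟨rfl, hD3, by linear_combination (-D') * hD3 + D ^ 2 * hp⟩

section sem

variable {K : Type*} [Field K]

def fixU (K : Type*) [Field K] (q : ℕ) : Subgroup Kˣ where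
  carrier := {a | a ^ q = a}
  mul_mem' := by
    intro a b ha hb
    show (a * b) ^ q = a * b
    rw [mul_pow, show a ^ q = a from ha, show b ^ q = b from hb]
  one_mem' := one_pow q
  inv_mem' := by
    intro a ha
    show a⁻¹ ^ q = a⁻¹
    rw [inv_pow, show a ^ q = a from ha]

def e6u (q : ℕ) (a b c d : Kˣ) (j : ℕ) : Kˣ :=
  if j = 0 then d else if j = 1 then a else if j = 2 then c else if j = 3 then b
  else if j = 4 then c ^ q else d ^ q

theorem e6u_mul (q : ℕ) (a b c d a' b' c' d' : Kˣ) :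
    e6u q (a * a') (b * b') (c * c') (d * d') =
      fun j => e6u q a b c d j * e6u q a' b' c' d' j := by
  funext j
  unfold e6u
  split_ifs <;> simp [mul_pow]

theorem e6u_one (q : ℕ) : e6u q (1 : Kˣ) 1 1 1 = fun _ => 1 := by
  funext j
  unfold e6u
  split_ifs <;> simp

def e6Th (K : Type*) [Field K] (q : ℕ) :
    (↥(fixU K q) × ↥(fixU K q) × Kˣ × Kˣ) →* GL chevE6.Idx K where
  toFun p := DgU chevE6 (chi chevE6 (e6u q (p.1 : Kˣ) (p.2.1 : Kˣ) p.2.2.1 p.2.2.2))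
  map_one' := by
    show DgU chevE6 (chi chevE6 (e6u q (1 : Kˣ) (1 : Kˣ) 1 1)) = 1
    rw [e6u_one, ← DgU_one]
    exact DgU_congr chevE6 (fun s _ => chi_one chevE6 s)
  map_mul' := by
    intro p p'
    show DgU chevE6 (chi chevE6 (e6u q ((p.1 : Kˣ) * (p'.1 : Kˣ)) ((p.2.1 : Kˣ) * (p'.2.1 : Kˣ))
      (p.2.2.1 * p'.2.2.1) (p.2.2.2 * p'.2.2.2))) = _
    rw [e6u_mul]
    show _ = DgU chevE6 (chi chevE6 (e6u q (p.1 : Kˣ) (p.2.1 : Kˣ) p.2.2.1 p.2.2.2)) *
      DgU chevE6 (chi chevE6 (e6u q (p'.1 : Kˣ) (p'.2.1 : Kˣ) p'.2.2.1 p'.2.2.2))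
    rw [DgU_mul]
    exact DgU_congr chevE6 (fun s _ => chi_mul chevE6 _ _ s)

theorem e6chi_simple (q : ℕ) (a b c d : Kˣ) :
    chi chevE6 (e6u q a b c d) (chevE6.simple 0) = d ^ 2 * c⁻¹ ∧
    chi chevE6 (e6u q a b c d) (chevE6.simple 1) = a ^ 2 * b⁻¹ ∧
    chi chevE6 (e6u q a b c d) (chevE6.simple 2) = d⁻¹ * c ^ 2 * b⁻¹ ∧
    chi chevE6 (e6u q a b c d) (chevE6.simple 3) = a⁻¹ * c⁻¹ * b ^ 2 * (c ^ q)⁻¹ ∧
    chi chevE6 (e6u q a b c d) (chevE6.simple 4) = b⁻¹ * (c ^ q) ^ 2 * (d ^ q)⁻¹ ∧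
    chi chevE6 (e6u q a b c d) (chevE6.simple 5) = (c ^ q)⁻¹ * (d ^ q) ^ 2 := by
  have c00 : chevE6.cartan 0 (chevE6.simple 0) = (2 : ℤ) := e6car 0 (by norm_num) 0 (by norm_num)
  have c01 : chevE6.cartan 1 (chevE6.simple 0) = (0 : ℤ) := e6car 0 (by norm_num) 1 (by norm_num)
  have c02 : chevE6.cartan 2 (chevE6.simple 0) = (-1 : ℤ) := e6car 0 (by norm_num) 2 (by norm_num)
  have c03 : chevE6.cartan 3 (chevE6.simple 0) = (0 : ℤ) := e6car 0 (by norm_num) 3 (by norm_num)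
  have c04 : chevE6.cartan 4 (chevE6.simple 0) = (0 : ℤ) := e6car 0 (by norm_num) 4 (by norm_num)
  have c05 : chevE6.cartan 5 (chevE6.simple 0) = (0 : ℤ) := e6car 0 (by norm_num) 5 (by norm_num)
  have c10 : chevE6.cartan 0 (chevE6.simple 1) = (0 : ℤ) := e6car 1 (by norm_num) 0 (by norm_num)
  have c11 : chevE6.cartan 1 (chevE6.simple 1) = (2 : ℤ) := e6car 1 (by norm_num) 1 (by norm_num)
  have c12 : chevE6.cartan 2 (chevE6.simple 1) = (0 : ℤ) := e6car 1 (by norm_num) 2 (by norm_num)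
  have c13 : chevE6.cartan 3 (chevE6.simple 1) = (-1 : ℤ) := e6car 1 (by norm_num) 3 (by norm_num)
  have c14 : chevE6.cartan 4 (chevE6.simple 1) = (0 : ℤ) := e6car 1 (by norm_num) 4 (by norm_num)
  have c15 : chevE6.cartan 5 (chevE6.simple 1) = (0 : ℤ) := e6car 1 (by norm_num) 5 (by norm_num)
  have c20 : chevE6.cartan 0 (chevE6.simple 2) = (-1 : ℤ) := e6car 2 (by norm_num) 0 (by norm_num)
  have c21 : chevE6.cartan 1 (chevE6.simple 2) = (0 : ℤ) := e6car 2 (by norm_num) 1 (by norm_num)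
  have c22 : chevE6.cartan 2 (chevE6.simple 2) = (2 : ℤ) := e6car 2 (by norm_num) 2 (by norm_num)
  have c23 : chevE6.cartan 3 (chevE6.simple 2) = (-1 : ℤ) := e6car 2 (by norm_num) 3 (by norm_num)
  have c24 : chevE6.cartan 4 (chevE6.simple 2) = (0 : ℤ) := e6car 2 (by norm_num) 4 (by norm_num)
  have c25 : chevE6.cartan 5 (chevE6.simple 2) = (0 : ℤ) := e6car 2 (by norm_num) 5 (by norm_num)
  have c30 : chevE6.cartan 0 (chevE6.simple 3) = (0 : ℤ) := e6car 3 (by norm_num) 0 (by norm_num)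
  have c31 : chevE6.cartan 1 (chevE6.simple 3) = (-1 : ℤ) := e6car 3 (by norm_num) 1 (by norm_num)
  have c32 : chevE6.cartan 2 (chevE6.simple 3) = (-1 : ℤ) := e6car 3 (by norm_num) 2 (by norm_num)
  have c33 : chevE6.cartan 3 (chevE6.simple 3) = (2 : ℤ) := e6car 3 (by norm_num) 3 (by norm_num)
  have c34 : chevE6.cartan 4 (chevE6.simple 3) = (-1 : ℤ) := e6car 3 (by norm_num) 4 (by norm_num)
  have c35 : chevE6.cartan 5 (chevE6.simple 3) = (0 : ℤ) := e6car 3 (by norm_num) 5 (by norm_num)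
  have c40 : chevE6.cartan 0 (chevE6.simple 4) = (0 : ℤ) := e6car 4 (by norm_num) 0 (by norm_num)
  have c41 : chevE6.cartan 1 (chevE6.simple 4) = (0 : ℤ) := e6car 4 (by norm_num) 1 (by norm_num)
  have c42 : chevE6.cartan 2 (chevE6.simple 4) = (0 : ℤ) := e6car 4 (by norm_num) 2 (by norm_num)
  have c43 : chevE6.cartan 3 (chevE6.simple 4) = (-1 : ℤ) := e6car 4 (by norm_num) 3 (by norm_num)
  have c44 : chevE6.cartan 4 (chevE6.simple 4) = (2 : ℤ) := e6car 4 (by norm_num) 4 (by norm_num)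
  have c45 : chevE6.cartan 5 (chevE6.simple 4) = (-1 : ℤ) := e6car 4 (by norm_num) 5 (by norm_num)
  have c50 : chevE6.cartan 0 (chevE6.simple 5) = (0 : ℤ) := e6car 5 (by norm_num) 0 (by norm_num)
  have c51 : chevE6.cartan 1 (chevE6.simple 5) = (0 : ℤ) := e6car 5 (by norm_num) 1 (by norm_num)
  have c52 : chevE6.cartan 2 (chevE6.simple 5) = (0 : ℤ) := e6car 5 (by norm_num) 2 (by norm_num)
  have c53 : chevE6.cartan 3 (chevE6.simple 5) = (0 : ℤ) := e6car 5 (by norm_num) 3 (by norm_num)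
  have c54 : chevE6.cartan 4 (chevE6.simple 5) = (-1 : ℤ) := e6car 5 (by norm_num) 4 (by norm_num)
  have c55 : chevE6.cartan 5 (chevE6.simple 5) = (2 : ℤ) := e6car 5 (by norm_num) 5 (by norm_num)
  have hr : chevE6.rank = 6 := rfl
  unfold chi
  rw [hr]
  simp only [Finset.prod_range_succ, Finset.prod_range_zero, one_mul]
  refine ⟨?_, ?_, ?_, ?_, ?_, ?_⟩
  · simp only [c00, c01, c02, c03, c04, c05]
    simp [e6u]
  · simp only [c10, c11, c12, c13, c14, c15]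
    simp [e6u]
  · simp only [c20, c21, c22, c23, c24, c25]
    simp [e6u]
  · simp only [c30, c31, c32, c33, c34, c35]
    simp [e6u]
  · simp only [c40, c41, c42, c43, c44, c45]
    simp [e6u]
  · simp only [c50, c51, c52, c53, c54, c55]
    simp [e6u]

theorem e6chi_eq (q : ℕ) (a b c d : Kˣ) (s : ℕ) :
    chi chevE6 (e6u q a b c d) s = d ^ chevE6.cartan 0 s * a ^ chevE6.cartan 1 s *
      c ^ chevE6.cartan 2 s * b ^ chevE6.cartan 3 s * (c ^ q) ^ chevE6.cartan 4 s *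
      (d ^ q) ^ chevE6.cartan 5 s := by
  have hr : chevE6.rank = 6 := rfl
  unfold chi
  rw [hr]
  simp only [Finset.prod_range_succ, Finset.prod_range_zero, one_mul]
  simp [e6u]

theorem e6Th_apply (q : ℕ) (p : ↥(fixU K q) × ↥(fixU K q) × Kˣ × Kˣ) :
    e6Th K q p = DgU chevE6 (chi chevE6 (e6u q (p.1 : Kˣ) (p.2.1 : Kˣ) p.2.2.1 p.2.2.2)) := rfl

theorem e6Th_ker_fwd (q : ℕ) (a b : ↥(fixU K q)) (c d : Kˣ)
    (hp : e6Th K q (a, b, c, d) = 1) :
    (a : Kˣ) = 1 ∧ (b : Kˣ) = 1 ∧ c = d ^ 2 ∧ d ^ 3 = 1 ∧ d ^ (q + 1) = 1 := by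
  rw [e6Th_apply, ← DgU_one] at hp
  have hv := DgU_inj chevE6 hp
  obtain ⟨s0, s1, s2, s3, s4, s5⟩ := e6chi_simple q (a : Kˣ) (b : Kˣ) c d
  have P0 := hv _ (e6slt 0 (by norm_num))
  have P1 := hv _ (e6slt 1 (by norm_num))
  have P2 := hv _ (e6slt 2 (by norm_num))
  have P3 := hv _ (e6slt 3 (by norm_num))
  have P4 := hv _ (e6slt 4 (by norm_num))
  have P5 := hv _ (e6slt 5 (by norm_num))
  dsimp only at P0 P1 P2 P3 P4 P5
  rw [s0] at P0
  rw [s1] at P1
  rw [s2] at P2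
  rw [s3] at P3
  rw [s4] at P4
  rw [s5] at P5
  have F0 : d ^ 2 = c := mul_inv_eq_one.mp P0
  have F1 : (a : Kˣ) ^ 2 = b := mul_inv_eq_one.mp P1
  have F2 : c ^ 2 = d * b := inv_mul_eq_iff_eq_mul.mp (mul_inv_eq_one.mp P2)
  have F3 : (b : Kˣ) ^ 2 = c * a * c ^ q := by
    have h := mul_inv_eq_one.mp P3
    rw [← mul_inv_rev] at h
    exact inv_mul_eq_iff_eq_mul.mp h
  have F4 : (c ^ q) ^ 2 = b * d ^ q := inv_mul_eq_iff_eq_mul.mp (mul_inv_eq_one.mp P4)
  have F5 : c ^ q = (d ^ q) ^ 2 := inv_mul_eq_one.mp P5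
  have G0 := congrArg Units.val F0
  have G1 := congrArg Units.val F1
  have G2 := congrArg Units.val F2
  have G3 := congrArg Units.val F3
  have G4 := congrArg Units.val F4
  have G5 := congrArg Units.val F5
  simp only [Units.val_mul, Units.val_pow_eq_pow_val] at G0 G1 G2 G3 G4 G5
  have G3' : (((b : Kˣ) : K)) ^ 2 = ((a : Kˣ) : K) * (c : K) * (c : K) ^ q := by
    rw [G3]
    ring
  obtain ⟨hA, hD3, hDq⟩ := e6_ker (Units.ne_zero (a : Kˣ)) (Units.ne_zero d)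
    (pow_ne_zero q (Units.ne_zero d)) G0 G1 G2 G3' G4 G5.symm
  have ha : (a : Kˣ) = 1 := Units.ext hA
  have hd3 : d ^ 3 = 1 := Units.ext (by rw [Units.val_pow_eq_pow_val, hD3, Units.val_one])
  have hdq : d ^ q = d ^ 2 := Units.ext (by
    rw [Units.val_pow_eq_pow_val, hDq, Units.val_pow_eq_pow_val])
  refine ⟨ha, ?_, F0.symm, hd3, ?_⟩
  · rw [← F1, ha, one_pow]
  · rw [pow_succ, hdq, ← pow_succ]
    exact hd3

theorem e6Th_ker_bwd (q : ℕ) (d : Kˣ) (hd3 : d ^ 3 = 1) (hdq1 : d ^ (q + 1) = 1) :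
    e6Th K q (1, 1, d ^ 2, d) = 1 := by
  have M := lokE6.u.m
  have hdq : d ^ q = d ^ 2 := by
    have h : d ^ q * d = d ^ 2 * d := by
      rw [← pow_succ, ← pow_succ, hdq1, hd3]
    exact mul_right_cancel h
  have hq4 : (d ^ 2) ^ q = d := by
    have h : (d ^ 2) ^ q = (d ^ q) ^ 2 := by
      rw [← pow_mul, ← pow_mul, mul_comm]
    rw [h, hdq]
    have h2 : (d ^ 2) ^ 2 = d ^ 3 * d := by group
    rw [h2, hd3, one_mul]
  rw [e6Th_apply, ← DgU_one]
  apply DgU_congr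
  intro s hs
  show chi chevE6 (e6u q (1 : Kˣ) (1 : Kˣ) (d ^ 2) d) s = 1
  have hext : ∀ i < chevE6.rank, chi chevE6 (e6u q (1 : Kˣ) (1 : Kˣ) (d ^ 2) d)
      (chevE6.simple i) = chi chevE6 (fun _ => (1 : Kˣ)) (chevE6.simple i) := by
    intro i hi
    have hi6 : i < 6 := hi
    rw [chi_one]
    obtain ⟨s0, s1, s2, s3, s4, s5⟩ := e6chi_simple q (1 : Kˣ) (1 : Kˣ) (d ^ 2) d
    interval_cases i
    · rw [s0, mul_inv_cancel]
    · rw [s1]
      simp
    · rw [s2]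
      have h2 : d⁻¹ * (d ^ 2) ^ 2 * (1 : Kˣ)⁻¹ = d ^ 3 := by group
      rw [h2, hd3]
    · rw [s3, hq4]
      have h2 : (1 : Kˣ)⁻¹ * (d ^ 2)⁻¹ * 1 ^ 2 * d⁻¹ = (d ^ 3)⁻¹ := by group
      rw [h2, hd3, inv_one]
    · rw [s4, hq4, hdq]
      group
    · rw [s5, hq4, hdq]
      have h2 : d⁻¹ * (d ^ 2) ^ 2 = d ^ 3 := by group
      rw [h2, hd3]
  rw [chi_ext M.w _ _ hext s hs, chi_one]

theorem e6Th_1 (q : ℕ) (a : ↥(fixU K q)) :
    e6Th K q (a, 1, 1, 1) = pL [1] (nPf chevE6 lokE6.u.m.w.add (fun _ => ((a : Kˣ) : K))) *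
      (nWordU chevE6 lokE6.u.m.w.add [1])⁻¹ := by
  rw [hJ_eq lokE6.u.m (orthE6 (K := K) [1] (by simp [blE6])) (fun _ => (a : Kˣ)), e6Th_apply]
  apply DgU_congr
  intro s _
  rw [e6chi_eq]
  simp

theorem e6Th_3 (q : ℕ) (b : ↥(fixU K q)) :
    e6Th K q (1, b, 1, 1) = pL [3] (nPf chevE6 lokE6.u.m.w.add (fun _ => ((b : Kˣ) : K))) *
      (nWordU chevE6 lokE6.u.m.w.add [3])⁻¹ := by
  rw [hJ_eq lokE6.u.m (orthE6 (K := K) [3] (by simp [blE6])) (fun _ => (b : Kˣ)), e6Th_apply]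
  apply DgU_congr
  intro s _
  rw [e6chi_eq]
  simp

theorem e6Th_24 (q : ℕ) (c : Kˣ) :
    e6Th K q (1, 1, c, 1) = pL [2, 4] (nPf chevE6 lokE6.u.m.w.add
      (fun j => ((if j = 2 then c else c ^ q : Kˣ) : K))) *
      (nWordU chevE6 lokE6.u.m.w.add [2, 4])⁻¹ := by
  rw [hJ_eq lokE6.u.m (orthE6 (K := K) [2, 4] (by simp [blE6]))
    (fun j => if j = 2 then c else c ^ q), e6Th_apply]
  apply DgU_congr
  intro s _
  rw [e6chi_eq]
  simp

theorem e6Th_05 (q : ℕ) (d : Kˣ) :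
    e6Th K q (1, 1, 1, d) = pL [0, 5] (nPf chevE6 lokE6.u.m.w.add
      (fun j => ((if j = 0 then d else d ^ q : Kˣ) : K))) *
      (nWordU chevE6 lokE6.u.m.w.add [0, 5])⁻¹ := by
  rw [hJ_eq lokE6.u.m (orthE6 (K := K) [0, 5] (by simp [blE6]))
    (fun j => if j = 0 then d else d ^ q), e6Th_apply]
  apply DgU_congr
  intro s _
  rw [e6chi_eq]
  simp

theorem e6Th_mem_H0 [Fintype K] {q : ℕ} (hq : IsPrimePow q) (hK : Fintype.card K = q ^ 2)
    (p : ↥(fixU K q) × ↥(fixU K q) × Kˣ × Kˣ) :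
    e6Th K q p ∈ H0 chevE6 lokE6.u.m.w.add gaE6 (powHom hq (by norm_num) hK) blE6 := by
  obtain ⟨a, b, c, d⟩ := p
  have hφ : ∀ t : K, powHom hq (by norm_num) hK t = t ^ q := fun t => rfl
  have hφ2 : ∀ t : K, powHom hq (by norm_num) hK (powHom hq (by norm_num) hK t) = t := by
    intro t
    rw [hφ, hφ, ← pow_mul, ← pow_two, ← hK, FiniteField.pow_card]
  have r0 : gaE6.rho.getD 0 0 = 5 := by decide
  have r2 : gaE6.rho.getD 2 0 = 4 := by decide
  have r4 : gaE6.rho.getD 4 0 = 2 := by decide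
  have r5 : gaE6.rho.getD 5 0 = 0 := by decide
  have e : ((a, b, c, d) : ↥(fixU K q) × ↥(fixU K q) × Kˣ × Kˣ) =
      (a, 1, 1, 1) * (1, b, 1, 1) * (1, 1, c, 1) * (1, 1, 1, d) := by
    simp
  have e24 : (fun j => ((if j = 2 then c else c ^ q : Kˣ) : K)) =
      (fun m => if m = 2 then (c : K) else powHom hq (by norm_num) hK (c : K)) := by
    funext m
    split_ifs
    · rfl
    · exact Units.val_pow_eq_pow_val c q
  have e05 : (fun j => ((if j = 0 then d else d ^ q : Kˣ) : K)) =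
      (fun m => if m = 0 then (d : K) else powHom hq (by norm_num) hK (d : K)) := by
    funext m
    split_ifs
    · rfl
    · exact Units.val_pow_eq_pow_val d q
  have ha : powHom hq (by norm_num) hK ((a : Kˣ) : K) = ((a : Kˣ) : K) := by
    rw [hφ, ← Units.val_pow_eq_pow_val]
    exact congrArg Units.val a.2
  have hb : powHom hq (by norm_num) hK ((b : Kˣ) : K) = ((b : Kˣ) : K) := by
    rw [hφ, ← Units.val_pow_eq_pow_val]
    exact congrArg Units.val b.2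
  rw [e, map_mul, map_mul, map_mul, e6Th_1, e6Th_3, e6Th_24, e6Th_05, e24, e05]
  refine mul_mem (mul_mem (mul_mem ?_ ?_) ?_) ?_
  · exact Subgroup.subset_closure ⟨[1], by simp [blE6], _, twc_single ha,
      fun _ _ => Units.ne_zero _, rfl⟩
  · exact Subgroup.subset_closure ⟨[3], by simp [blE6], _, twc_single hb,
      fun _ _ => Units.ne_zero _, rfl⟩
  · refine Subgroup.subset_closure ⟨[2, 4], by simp [blE6], _,
      twc_pair (by decide) r2 r4 (hφ2 _), ?_, rfl⟩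
    intro j _
    split_ifs
    · exact Units.ne_zero _
    · exact pow_ne_zero q (Units.ne_zero _)
  · refine Subgroup.subset_closure ⟨[0, 5], by simp [blE6], _,
      twc_pair (by decide) r0 r5 (hφ2 _), ?_, rfl⟩
    intro j _
    split_ifs
    · exact Units.ne_zero _
    · exact pow_ne_zero q (Units.ne_zero _)

theorem H0_le_range [Fintype K] {q : ℕ} (hq : IsPrimePow q) (hK : Fintype.card K = q ^ 2) :
    H0 chevE6 lokE6.u.m.w.add gaE6 (powHom hq (by norm_num) hK) blE6 ≤ (e6Th K q).range := by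
  have hφ : ∀ t : K, powHom hq (by norm_num) hK t = t ^ q := fun t => rfl
  have r0 : gaE6.rho.getD 0 0 = 5 := by decide
  have r1 : gaE6.rho.getD 1 0 = 1 := by decide
  have r2 : gaE6.rho.getD 2 0 = 4 := by decide
  have r3 : gaE6.rho.getD 3 0 = 3 := by decide
  unfold H0
  rw [Subgroup.closure_le]
  rintro g ⟨J, hJ, cs, htw, hnz, rfl⟩
  simp only [blE6, List.mem_cons, List.not_mem_nil, or_false] at hJ
  rcases hJ with rfl | rfl | rfl | rfl
  · have e1 := htw 1 (by simp)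
    rw [r1, hφ] at e1
    have hmem : Units.mk0 (cs 1) (hnz 1 (by simp)) ∈ fixU K q := by
      show (Units.mk0 (cs 1) (hnz 1 (by simp))) ^ q = Units.mk0 (cs 1) (hnz 1 (by simp))
      apply Units.ext
      rw [Units.val_pow_eq_pow_val, Units.val_mk0]
      exact e1.symm
    have e : pL [1] (nPf chevE6 lokE6.u.m.w.add
        (fun _ => ((Units.mk0 (cs 1) (hnz 1 (by simp)) : Kˣ) : K))) =
        pL [1] (nPf chevE6 lokE6.u.m.w.add cs) := by
      apply pL_congr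
      intro j hj
      rw [List.mem_singleton] at hj
      subst hj
      rfl
    exact ⟨(⟨Units.mk0 (cs 1) (hnz 1 (by simp)), hmem⟩, 1, 1, 1), (e6Th_1 q _).trans
      (congrArg (· * (nWordU chevE6 lokE6.u.m.w.add [1])⁻¹) e)⟩
  · have e1 := htw 3 (by simp)
    rw [r3, hφ] at e1
    have hmem : Units.mk0 (cs 3) (hnz 3 (by simp)) ∈ fixU K q := by
      show (Units.mk0 (cs 3) (hnz 3 (by simp))) ^ q = Units.mk0 (cs 3) (hnz 3 (by simp))
      apply Units.ext
      rw [Units.val_pow_eq_pow_val, Units.val_mk0]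
      exact e1.symm
    have e : pL [3] (nPf chevE6 lokE6.u.m.w.add
        (fun _ => ((Units.mk0 (cs 3) (hnz 3 (by simp)) : Kˣ) : K))) =
        pL [3] (nPf chevE6 lokE6.u.m.w.add cs) := by
      apply pL_congr
      intro j hj
      rw [List.mem_singleton] at hj
      subst hj
      rfl
    exact ⟨(1, ⟨Units.mk0 (cs 3) (hnz 3 (by simp)), hmem⟩, 1, 1), (e6Th_3 q _).trans
      (congrArg (· * (nWordU chevE6 lokE6.u.m.w.add [3])⁻¹) e)⟩
  · have e1 := htw 2 (by simp)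
    rw [r2, hφ] at e1
    have e : pL [2, 4] (nPf chevE6 lokE6.u.m.w.add
        (fun j => ((if j = 2 then Units.mk0 (cs 2) (hnz 2 (by simp))
          else Units.mk0 (cs 2) (hnz 2 (by simp)) ^ q : Kˣ) : K))) =
        pL [2, 4] (nPf chevE6 lokE6.u.m.w.add cs) := by
      apply pL_congr
      intro j hj
      simp only [List.mem_cons, List.not_mem_nil, or_false] at hj
      unfold nPf
      rcases hj with rfl | rfl
      · dsimp only
        rw [if_pos rfl, Units.val_mk0]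
      · dsimp only
        rw [if_neg (by norm_num), Units.val_pow_eq_pow_val, Units.val_mk0, e1]
    exact ⟨(1, 1, Units.mk0 (cs 2) (hnz 2 (by simp)), 1), (e6Th_24 q _).trans
      (congrArg (· * (nWordU chevE6 lokE6.u.m.w.add [2, 4])⁻¹) e)⟩
  · have e1 := htw 0 (by simp)
    rw [r0, hφ] at e1
    have e : pL [0, 5] (nPf chevE6 lokE6.u.m.w.add
        (fun j => ((if j = 0 then Units.mk0 (cs 0) (hnz 0 (by simp))
          else Units.mk0 (cs 0) (hnz 0 (by simp)) ^ q : Kˣ) : K))) =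
        pL [0, 5] (nPf chevE6 lokE6.u.m.w.add cs) := by
      apply pL_congr
      intro j hj
      simp only [List.mem_cons, List.not_mem_nil, or_false] at hj
      unfold nPf
      rcases hj with rfl | rfl
      · dsimp only
        rw [if_pos rfl, Units.val_mk0]
      · dsimp only
        rw [if_neg (by norm_num), Units.val_pow_eq_pow_val, Units.val_mk0, e1]
    exact ⟨(1, 1, 1, Units.mk0 (cs 0) (hnz 0 (by simp))), (e6Th_05 q _).trans
      (congrArg (· * (nWordU chevE6 lokE6.u.m.w.add [0, 5])⁻¹) e)⟩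

theorem H_2E6_eq [Fintype K] {q : ℕ} (hq : IsPrimePow q) (hK : Fintype.card K = q ^ 2) :
    chevE6.diagonalSubgroup K ⊓ twistedE6 K q = (e6Th K q).range := by
  have M := lokE6.u.m
  apply le_antisymm
  · exact le_trans (H_2E6_le hq hK) (H0_le_range hq hK)
  · rintro _ ⟨p, rfl⟩
    have h := H0_le M (twistedE6 K q) orthE6 twE6_sgn
      (fun J hJ ts ht => (twE6_G hq hK J hJ ts ht).1)
      (fun J hJ => ((twE6_data hq hK).hs ⟨J, hJ⟩).2) (e6Th_mem_H0 hq hK p)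
    rw [diag_eq_torus M.w]
    exact h

theorem card_fixU [Fintype K] {q : ℕ} (hq : IsPrimePow q) (hK : Fintype.card K = q ^ 2) :
    Nat.card ↥(fixU K q) = q - 1 := by
  have hq1 : 1 ≤ q := hq.pos
  have e2 : q ^ 2 - 1 = (q - 1) * (q + 1) := by
    obtain ⟨m, rfl⟩ : ∃ m, q = m + 1 := ⟨q - 1, by omega⟩
    rw [Nat.add_sub_cancel]
    apply Nat.sub_eq_of_eq_add
    ring
  have e1 : Nat.card ↥(fixU K q) = Nat.card {a : Kˣ // a ^ (q - 1) = 1} :=
    Nat.card_congr (Equiv.subtypeEquivRight (fun a => by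
      show a ^ q = a ↔ a ^ (q - 1) = 1
      constructor
      · intro h
        have h2 : a ^ (q - 1) * a = 1 * a := by
          rw [← pow_succ, Nat.sub_add_cancel hq1, h, one_mul]
        exact mul_right_cancel h2
      · intro h
        calc a ^ q = a ^ (q - 1) * a := by rw [← pow_succ, Nat.sub_add_cancel hq1]
          _ = a := by rw [h, one_mul]))
  rw [e1, card_root_unity, hK, e2]
  exact Nat.gcd_eq_right (Dvd.intro _ rfl)

theorem card_e6ker [Fintype K] {q : ℕ} (hq : IsPrimePow q) (hK : Fintype.card K = q ^ 2) :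
    Nat.card ↥(e6Th K q).ker = Nat.gcd 3 (q + 1) := by
  have hq1 : 1 ≤ q := hq.pos
  have e2 : q ^ 2 - 1 = (q - 1) * (q + 1) := by
    obtain ⟨m, rfl⟩ : ∃ m, q = m + 1 := ⟨q - 1, by omega⟩
    rw [Nat.add_sub_cancel]
    apply Nat.sub_eq_of_eq_add
    ring
  let f : ↥(e6Th K q).ker → {d : Kˣ // d ^ Nat.gcd 3 (q + 1) = 1} := fun p =>
    ⟨p.1.2.2.2, by
      obtain ⟨_, _, _, h3, h4⟩ := e6Th_ker_fwd q p.1.1 p.1.2.1 p.1.2.2.1 p.1.2.2.2
        (MonoidHom.mem_ker.mp p.2)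
      exact pow_gcd_eq_one.mpr ⟨h3, h4⟩⟩
  have hf : Function.Injective f := by
    rintro ⟨⟨a, b, c, d⟩, hp⟩ ⟨⟨a', b', c', d'⟩, hp'⟩ e
    have ed : d = d' := congrArg Subtype.val e
    obtain ⟨h1, h2, h3, _, _⟩ := e6Th_ker_fwd q a b c d (MonoidHom.mem_ker.mp hp)
    obtain ⟨h1', h2', h3', _, _⟩ := e6Th_ker_fwd q a' b' c' d' (MonoidHom.mem_ker.mp hp')
    have ea : a = a' := Subtype.ext (h1.trans h1'.symm)
    have eb : b = b' := Subtype.ext (h2.trans h2'.symm)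
    have ec : c = c' := by rw [h3, h3', ed]
    subst ea
    subst eb
    subst ec
    subst ed
    rfl
  let g : {d : Kˣ // d ^ Nat.gcd 3 (q + 1) = 1} → ↥(e6Th K q).ker := fun t =>
    ⟨(1, 1, t.1 ^ 2, t.1), MonoidHom.mem_ker.mpr (e6Th_ker_bwd q t.1
      (pow_gcd_eq_one.mp t.2).1 (pow_gcd_eq_one.mp t.2).2)⟩
  have hg : Function.Injective g := by
    rintro ⟨d, hd⟩ ⟨d', hd'⟩ e
    have e' : d = d' := congrArg (fun p : ↥(e6Th K q).ker => p.1.2.2.2) e
    subst e'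
    rfl
  have hcard : Nat.card ↥(e6Th K q).ker = Nat.card {d : Kˣ // d ^ Nat.gcd 3 (q + 1) = 1} :=
    le_antisymm (Nat.card_le_card_of_injective f hf) (Nat.card_le_card_of_injective g hg)
  rw [hcard, card_root_unity, hK, e2]
  exact Nat.gcd_eq_right (Dvd.dvd.mul_left (Nat.gcd_dvd_right 3 (q + 1)) _)

theorem card_H_2E6 [Fintype K] {q : ℕ} (hq : IsPrimePow q) (hK : Fintype.card K = q ^ 2) :
    Nat.gcd 3 (q + 1) * Nat.card ↥(chevE6.diagonalSubgroup K ⊓ twistedE6 K q) =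
      (q - 1) ^ 4 * (q + 1) ^ 2 := by
  have hq1 : 1 ≤ q := hq.pos
  have e2 : q ^ 2 - 1 = (q - 1) * (q + 1) := by
    obtain ⟨m, rfl⟩ : ∃ m, q = m + 1 := ⟨q - 1, by omega⟩
    rw [Nat.add_sub_cancel]
    apply Nat.sub_eq_of_eq_add
    ring
  rw [H_2E6_eq hq hK, ← card_e6ker hq hK, ← Subgroup.index_ker, Subgroup.card_mul_index,
    Nat.card_prod, Nat.card_prod, Nat.card_prod, card_fixU hq hK, Nat.card_units,
    Nat.card_eq_fintype_card, hK, e2]
  ring

end sem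

end Cfsg.Agent.Helper7
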