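import Cfsg.Agent.Helper7.ChevTwSimple
import Cfsg.Agent.Helper7.ChkTwBN

set_option autoImplicit false
set_option maxHeartbeats 4000000
set_option maxRecDepth 100000
open Cfsg

namespace Cfsg.Agent.Helper7

open Cfsg.Lie

theorem twE6_chain : ∀ p ∈ blE6.zip blE6.tail,
    (∃ j < chevE6.rank,
      wApply chevE6 (p.1 ++ p.2 ++ p.1 ++ p.2) (chevE6.simple j) < chevE6.nroots / 2) ∧
    (∃ j < chevE6.rank,
      wApply chevE6 (p.2 ++ p.1 ++ p.2 ++ p.1) (chevE6.simple j) < chevE6.nroots / 2) := by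
  decide +kernel

theorem twD4_chain : ∀ p ∈ blD4.zip blD4.tail,
    (∃ j < chevD4.rank,
      wApply chevD4 (p.1 ++ p.2 ++ p.1 ++ p.2) (chevD4.simple j) < chevD4.nroots / 2) ∧
    (∃ j < chevD4.rank,
      wApply chevD4 (p.2 ++ p.1 ++ p.2 ++ p.1) (chevD4.simple j) < chevD4.nroots / 2) := by
  decide +kernel

section sem

variable {K : Type*} [Field K]

theorem orthE6 : ∀ J ∈ blE6, OrthR chevE6 lokE6.u.m.w.add K J := by
  have M := lokE6.u.m
  have hcf : CF chevE6 K := cf_of_mem (by simp)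
  intro J hJ
  simp only [blE6, List.mem_cons, List.not_mem_nil, or_false] at hJ
  rcases hJ with rfl | rfl | rfl | rfl
  · exact orthR_single chevE6 _ (by decide)
  · exact orthR_single chevE6 _ (by decide)
  · exact orthR_pair M hcf orth2OK_E6_24 (by decide)
  · exact orthR_pair M hcf orth2OK_E6_05 (by decide)

theorem orthD4 : ∀ J ∈ blD4, OrthR chevD4 lokD4.u.m.w.add K J := by
  have M := lokD4.u.m
  have hcf : CF chevD4 K := cf_of_mem (by simp)
  intro J hJ
  simp only [blD4, List.mem_cons, List.not_mem_nil, or_false] at hJ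
  rcases hJ with rfl | rfl
  · exact orthR_single chevD4 _ (by decide)
  · exact orthR_triple M hcf orth2OK_D4_02 orth2OK_D4_03 orth2OK_D4_23 (by decide) (by decide)
      (by decide)

theorem simple_2E6 [Fintype K] {q : ℕ} (hq : IsPrimePow q) (hK : Fintype.card K = q ^ 2) :
    IsSimpleGroup ↥(twistedE6 K q) ∧ ¬ IsMulCommutative ↥(twistedE6 K q) := by
  have M := lokE6.u.m
  have T := twE6_data hq hK
  have hne : Nonempty {J : List ℕ // J ∈ blE6} := ⟨⟨[1], by simp [blE6]⟩⟩
  refine tw_simple_abs T ?_ (borel_solvable M.w M.ptri) (perf_2E6 hq hK) (core_2E6 hK)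
  intro S h1 h2
  exact tw_irr M blE6 orthE6 twE6_chain S h1 h2

theorem simple_3D4 [Fintype K] {q : ℕ} (hq : IsPrimePow q) (hK : Fintype.card K = q ^ 3) :
    IsSimpleGroup ↥(twistedD4 K q) ∧ ¬ IsMulCommutative ↥(twistedD4 K q) := by
  have M := lokD4.u.m
  have T := twD4_data hq hK
  have hne : Nonempty {J : List ℕ // J ∈ blD4} := ⟨⟨[1], by simp [blD4]⟩⟩
  refine tw_simple_abs T ?_ (borel_solvable M.w M.ptri) (perf_3D4 hq hK) (core_3D4 hK)
  intro S h1 h2
  exact tw_irr M blD4 orthD4 twD4_chain S h1 h2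

end sem

end Cfsg.Agent.Helper7
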