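import Cfsg.Agent.Helper7.ChevTwU
import Cfsg.Agent.Helper7.ChkTwSimple

set_option autoImplicit false
set_option maxHeartbeats 4000000
set_option maxRecDepth 100000
open Cfsg

namespace Cfsg.Agent.Helper7

open Cfsg.Lie

theorem goodE6 : goodB chevE6 [] blkE6 = true := by decide +kernel

theorem tailsE6 : ∀ k ≤ blkE6.length, goodB chevE6 [] (blkE6.drop k) = true := by
  decide +kernel

theorem longE6r : longOK chevE6 (finW [] blkE6) = true := by decide +kernel

theorem blkE6_mem : ∀ J ∈ blkE6, J ∈ blE6 := by decide +kernel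

theorem blkE6_len : blkE6.flatten.length = 36 := by decide +kernel

theorem goodD4 : goodB chevD4 [] blkD4 = true := by decide +kernel

theorem tailsD4 : ∀ k ≤ blkD4.length, goodB chevD4 [] (blkD4.drop k) = true := by
  decide +kernel

theorem longD4r : longOK chevD4 (finW [] blkD4) = true := by decide +kernel

theorem blkD4_mem : ∀ J ∈ blkD4, J ∈ blD4 := by decide +kernel

theorem blkD4_len : blkD4.flatten.length = 12 := by decide +kernel

section sem

variable {K : Type*} [Field K]

theorem card_U_2E6 [Fintype K] {q : ℕ} (hq : IsPrimePow q) (hK : Fintype.card K = q ^ 2) :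
    Nat.card ↥(chevE6.posUnipotent K ⊓ twistedE6 K q) = q ^ 36 := by
  have M := lokE6.u.m
  have hcf : CF chevE6 K := cf_of_mem (by simp)
  have hφ2 : ∀ t : K, powHom hq (by norm_num) hK (powHom hq (by norm_num) hK t) = t := by
    intro t
    show (t ^ q) ^ q = t
    rw [← pow_mul, ← pow_two, ← hK, FiniteField.pow_card]
  have hfix : Nat.card ↥({t | powHom hq (by norm_num) hK t = t} : Set K) = q :=
    card_fix hq.two_le (by norm_num) hK
  have htails : ∀ k, goodB chevE6 [] (blkE6.drop k) = true := by
    intro k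
    by_cases hk : k ≤ blkE6.length
    · exact tailsE6 k hk
    · rw [List.drop_eq_nil_of_le (by omega)]
      rfl
  have hkk : ∀ J ∈ blE6, ∀ j ∈ J, ∃ k < chevE6.rank, chevE6.cartan k (chevE6.simple j) = -1 := by
    intro J hJ j hj
    obtain ⟨k, hk, hc, _⟩ := twE6_k J hJ j hj
    exact ⟨k, hk, hc⟩
  have h := tw_card_U lokE6 hcf (A := gaE6) (φ := powHom hq (by norm_num) hK)
    (twE6_data hq hK) orthE6 twE6_sgn (fun J hJ => rootP_of M (twE6_root J hJ)) blkE6
    blkE6_mem goodE6 longE6r htails q (by
      intro J hJ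
      have hJ' := hJ
      simp only [blE6, List.mem_cons, List.not_mem_nil, or_false] at hJ'
      rcases hJ' with rfl | rfl | rfl | rfl
      · rw [card_XJ_single lokE6 (by decide) (by decide) (hkk _ hJ 1 (by simp)), hfix]
        simp
      · rw [card_XJ_single lokE6 (by decide) (by decide) (hkk _ hJ 3 (by simp)), hfix]
        simp
      · rw [card_XJ_pair lokE6 hcf orth2OK_E6_24 (by decide) (by decide) (by decide) hφ2
          (hkk _ hJ), Nat.card_eq_fintype_card, hK]
        rfl
      · rw [card_XJ_pair lokE6 hcf orth2OK_E6_05 (by decide) (by decide) (by decide) hφ2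
          (hkk _ hJ), Nat.card_eq_fintype_card, hK]
        rfl)
  rw [blkE6_len] at h
  exact h

theorem card_U_3D4 [Fintype K] {q : ℕ} (hq : IsPrimePow q) (hK : Fintype.card K = q ^ 3) :
    Nat.card ↥(chevD4.posUnipotent K ⊓ twistedD4 K q) = q ^ 12 := by
  have M := lokD4.u.m
  have hcf : CF chevD4 K := cf_of_mem (by simp)
  have hφ3 : ∀ t : K, powHom hq (by norm_num) hK
      (powHom hq (by norm_num) hK (powHom hq (by norm_num) hK t)) = t := by
    intro t
    show ((t ^ q) ^ q) ^ q = t
    have e : q * (q * q) = Fintype.card K := by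
      rw [hK]
      ring
    rw [← pow_mul, ← pow_mul, e, FiniteField.pow_card]
  have hfix : Nat.card ↥({t | powHom hq (by norm_num) hK t = t} : Set K) = q :=
    card_fix hq.two_le (by norm_num) hK
  have htails : ∀ k, goodB chevD4 [] (blkD4.drop k) = true := by
    intro k
    by_cases hk : k ≤ blkD4.length
    · exact tailsD4 k hk
    · rw [List.drop_eq_nil_of_le (by omega)]
      rfl
  have hkk : ∀ J ∈ blD4, ∀ j ∈ J, ∃ k < chevD4.rank, chevD4.cartan k (chevD4.simple j) = -1 := by
    intro J hJ j hj
    obtain ⟨k, hk, hc, _⟩ := twD4_k J hJ j hj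
    exact ⟨k, hk, hc⟩
  have h := tw_card_U lokD4 hcf (A := gaD4a) (φ := powHom hq (by norm_num) hK)
    (twD4_data hq hK) orthD4 twD4_sgn (fun J hJ => rootP_of M (twD4_root J hJ)) blkD4
    blkD4_mem goodD4 longD4r htails q (by
      intro J hJ
      have hJ' := hJ
      simp only [blD4, List.mem_cons, List.not_mem_nil, or_false] at hJ'
      rcases hJ' with rfl | rfl
      · rw [card_XJ_single lokD4 (by decide) (by decide) (hkk _ hJ 1 (by simp)), hfix]
        simp
      · rw [card_XJ_triple lokD4 hcf orth2OK_D4_02 orth2OK_D4_03 orth2OK_D4_23 (by decide)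
          (by decide) (by decide) (by decide) (by decide) (by decide) hφ3 (hkk _ hJ),
          Nat.card_eq_fintype_card, hK]
        rfl)
  rw [blkD4_len] at h
  exact h

end sem

end Cfsg.Agent.Helper7
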