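import Cfsg.Agent.Helper7.Fast

set_option autoImplicit false
set_option linter.unusedSectionVars false
set_option linter.unusedVariables false
open Cfsg

namespace Cfsg.Agent.Helper7

open Cfsg.Lie

def corL (D : ChevalleyDatum) (r : ℕ) : List ℤ := (List.range D.rank).map fun i => fcor D r i

def col3 (D : ChevalleyDatum) (r : ℕ) (p : List PT) (n : ℕ) : List VT :=
  if n < D.rank then
    ⟨n, 1, 0, 0⟩ :: place (D.rank + r) (-(fcar D n r)) p
  else if n < D.rank + D.nroots then
    if n - D.rank = r then [⟨n, 1, 0, 0⟩]
    else if n - D.rank = fneg D r then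
      ⟨n, 1, 0, 0⟩ :: (placeL p 0 (corL D r) ++ place (D.rank + r) (-1) (ppow p 2))
    else
      ⟨n, 1, 0, 0⟩ :: ((fchain D r (n - D.rank)).zipIdx.flatMap fun q =>
          place (D.rank + q.1.1) q.1.2 (ppow p (q.2 + 1)))
  else []

theorem col3_eq {D : ChevalleyDatum} (h : fdOK D = true) (r : ℕ) (p : List PT) (n : ℕ) :
    col3 D r p n = col D r p n := by
  unfold col3 col
  by_cases h1 : n < D.rank
  · rw [if_pos h1, if_pos h1, fcar_eq h]
    rfl
  · rw [if_neg h1, if_neg h1]
    by_cases h2 : n < D.rank + D.nroots
    · rw [if_pos h2, if_pos h2]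
      by_cases h3 : n - D.rank = r
      · rw [if_pos h3, if_pos h3]
      · rw [if_neg h3, if_neg h3, fneg_eq h, show D.neg r = D.negIdx.getD r 0 from rfl]
        by_cases h4 : n - D.rank = D.negIdx.getD r 0
        · rw [if_pos h4, if_pos h4]
          unfold corL
          rw [placeL_range]
          simp only [fcor_eq h]
        · rw [if_neg h4, if_neg h4]
          rcases fchain_spec h r (n - D.rank) with ⟨h5, h6⟩ | ⟨e, _, _, h5, h6⟩
          · rw [h5, h6]; rfl
          · rw [h5, h6]
            simp only [List.flatMap_cons, List.flatMap_nil, List.append_nil]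
    · rw [if_neg h2, if_neg h2]

def appG (colf : ℕ → List VT) (v : List VT) : List VT :=
  v.flatMap fun t => (colf t.idx).map (vmul t)

def nrm (v : List VT) : List VT := (norm v).filter fun t => !(decide (t.c = 0))

def appN (D : ChevalleyDatum) (r : ℕ) (p : List PT) (v : List VT) : List VT :=
  nrm (appG (col3 D r p) v)

def appNW (D : ChevalleyDatum) (w : List (ℕ × List PT)) (v : List VT) : List VT :=
  w.foldr (fun a acc => appN D a.1 a.2 acc) v

section sem

variable {F : Type*} [Field F]

theorem semAt_single (x y : F) (t : VT) (n : ℕ) :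
    semAt x y [t] n = if t.idx = n then vtVal x y t else 0 := by
  rw [semAt_cons, semAt_nil, add_zero]

theorem appG_sound (D : ChevalleyDatum) (M : Matrix D.Idx D.Idx F) (colf : ℕ → List VT)
    (x y : F) (hM : ∀ i j, M i j = semAt x y (colf (code D j)) (code D i))
    (hge : ∀ n, D.rank + D.nroots ≤ n → colf n = []) (v : List VT) (i : D.Idx) :
    semAt x y (appG colf v) (code D i) = ∑ j, M i j * semAt x y v (code D j) := by
  unfold appG
  induction v with
  | nil => simp [semAt]
  | cons t v ih =>
    rw [List.flatMap_cons, semAt_append, ih, semAt_map_vmul]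
    simp only [semAt_cons, mul_add, Finset.sum_add_distrib]
    congr 1
    by_cases ht : t.idx < D.rank + D.nroots
    · obtain ⟨j0, hj0⟩ := exists_code D ht
      rw [Finset.sum_eq_single j0]
      · rw [if_pos hj0.symm, ← hj0, ← hM, mul_comm]
      · intro j _ hj
        rw [if_neg, mul_zero]
        intro hh
        exact hj (code_injective D (hh.symm.trans hj0.symm))
      · intro h; exact absurd (Finset.mem_univ _) h
    · rw [hge _ (by omega), semAt_nil, mul_zero]
      symm
      apply Finset.sum_eq_zero
      intro j _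
      rw [if_neg, mul_zero]
      intro hh
      have := code_lt D j
      omega

theorem semAt_filter_nz (x y : F) (v : List VT) (n : ℕ) :
    semAt x y (v.filter fun t => !(decide (t.c = 0))) n = semAt x y v n := by
  induction v with
  | nil => rfl
  | cons a v ih =>
    by_cases h : a.c = 0
    · rw [List.filter_cons_of_neg (by simp [h]), ih, semAt_cons]
      simp [vtVal, h]
    · rw [List.filter_cons_of_pos (by simp [h]), semAt_cons, semAt_cons, ih]

theorem semAt_nrm (x y : F) (v : List VT) (n : ℕ) : semAt x y (nrm v) n = semAt x y v n := by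
  unfold nrm
  rw [semAt_filter_nz, semAt_norm]

theorem col3_sound {D : ChevalleyDatum} (h : fdOK D = true) {r : ℕ} (hr : r < D.nroots)
    (p : List PT) (x y : F) (i j : D.Idx) :
    D.x F r (pev x y p) i j = semAt x y (col3 D r p (code D j)) (code D i) := by
  rw [x_of_lt D F hr, col3_eq h]
  exact col_sound D ⟨r, hr⟩ p x y i j

theorem col3_of_ge {D : ChevalleyDatum} (r : ℕ) (p : List PT) {n : ℕ}
    (hn : D.rank + D.nroots ≤ n) : col3 D r p n = [] := by
  unfold col3
  rw [if_neg (by omega), if_neg (by omega)]

theorem appN_sound {D : ChevalleyDatum} (h : fdOK D = true) {r : ℕ} (hr : r < D.nroots)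
    (p : List PT) (x y : F) (v : List VT) (i : D.Idx) :
    semAt x y (appN D r p v) (code D i) =
      ∑ j, D.x F r (pev x y p) i j * semAt x y v (code D j) := by
  unfold appN
  rw [semAt_nrm]
  exact appG_sound D _ _ x y (fun i j => col3_sound h hr p x y i j)
    (fun n hn => col3_of_ge r p hn) v i

theorem appNW_sound {D : ChevalleyDatum} (h : fdOK D = true) (w : List (ℕ × List PT))
    (hw : ∀ a ∈ w, a.1 < D.nroots) (x y : F) (v : List VT) (i : D.Idx) :
    semAt x y (appNW D w v) (code D i) =
      ∑ j, D.wordMat F (w.map fun a => (a.1, pev x y a.2)) i j * semAt x y v (code D j) := by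
  induction w generalizing i with
  | nil => simp [appNW, ChevalleyDatum.wordMat, Matrix.one_apply]
  | cons a w ih =>
    have ha : a.1 < D.nroots := hw a List.mem_cons_self
    have hw' : ∀ b ∈ w, b.1 < D.nroots := fun b hb => hw b (List.mem_cons_of_mem _ hb)
    have h1 : appNW D (a :: w) v = appN D a.1 a.2 (appNW D w v) := rfl
    have h2 : D.wordMat F ((a :: w).map fun a => (a.1, pev x y a.2)) =
        D.x F a.1 (pev x y a.2) * D.wordMat F (w.map fun a => (a.1, pev x y a.2)) := by
      simp [ChevalleyDatum.wordMat]
    rw [h1, h2, appN_sound h ha]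
    simp only [ih hw', Matrix.mul_apply, Finset.mul_sum, Finset.sum_mul]
    rw [Finset.sum_comm]
    apply Finset.sum_congr rfl
    intro k _
    apply Finset.sum_congr rfl
    intro j _
    ring

theorem appNW_unit {D : ChevalleyDatum} (h : fdOK D = true) (w : List (ℕ × List PT))
    (hw : ∀ a ∈ w, a.1 < D.nroots) (x y : F) (i j : D.Idx) :
    semAt x y (appNW D w (unitV (code D j))) (code D i) =
      D.wordMat F (w.map fun a => (a.1, pev x y a.2)) i j := by
  rw [appNW_sound h w hw, Finset.sum_eq_single j]
  · rw [semAt_unitV, if_pos rfl, mul_one]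
  · intro k _ hk
    rw [semAt_unitV, if_neg, mul_zero]
    intro hh
    exact hk (code_injective D hh).symm
  · intro h; exact absurd (Finset.mem_univ _) h

theorem zpow_split (c : F) (hc : c ≠ 0) (A : ℤ) : c ^ A.toNat * c⁻¹ ^ (-A).toNat = c ^ A := by
  rcases le_total 0 A with hA | hA
  · have h1 : (-A).toNat = 0 := by omega
    rw [h1, pow_zero, mul_one, ← zpow_natCast, Int.toNat_of_nonneg hA]
  · have h1 : A.toNat = 0 := by omega
    have h2 : ((-A).toNat : ℤ) = -A := Int.toNat_of_nonneg (by omega)
    rw [h1, pow_zero, one_mul, inv_pow, ← zpow_natCast, h2, ← zpow_neg, neg_neg]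

end sem

end Cfsg.Agent.Helper7
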