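import Cfsg.Agent.Helper7.ChevEval2

set_option autoImplicit false
set_option linter.unusedSectionVars false
set_option linter.unusedVariables false
open Cfsg

namespace Cfsg.Agent.Helper7

open Cfsg.Lie

def ntab (w : ℕ) : List ℕ → ℕ
  | [] => 0
  | a :: l => Nat.add a (Nat.mul (Nat.pow 2 w) (ntab w l))

def nget (w T i : ℕ) : ℕ :=
  Nat.land (Nat.shiftRight T (Nat.mul w i)) (Nat.sub (Nat.pow 2 w) 1)

theorem ntab_cons (w a : ℕ) (l : List ℕ) : ntab w (a :: l) = a + 2 ^ w * ntab w l := rfl

theorem nget_def (w T i : ℕ) : nget w T i = (T >>> (w * i)) % 2 ^ w :=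
  Nat.and_two_pow_sub_one_eq_mod _ _

theorem nget_ntab (w : ℕ) (l : List ℕ) (h : ∀ a ∈ l, a < 2 ^ w) (i : ℕ) :
    nget w (ntab w l) i = l.getD i 0 := by
  induction l generalizing i with
  | nil =>
    rw [nget_def]
    show (0 >>> (w * i)) % 2 ^ w = 0
    rw [Nat.zero_shiftRight, Nat.zero_mod]
  | cons a l ih =>
    have ha : a < 2 ^ w := h a List.mem_cons_self
    have hl : ∀ b ∈ l, b < 2 ^ w := fun b hb => h b (List.mem_cons_of_mem _ hb)
    rw [nget_def, ntab_cons]
    cases i with
    | zero =>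
      rw [Nat.mul_zero, Nat.shiftRight_zero, Nat.add_mul_mod_self_left, Nat.mod_eq_of_lt ha,
        List.getD_cons_zero]
    | succ j =>
      rw [Nat.mul_add_one, Nat.add_comm (w * j) w, Nat.shiftRight_add, Nat.shiftRight_eq_div_pow _ w,
        Nat.add_mul_div_left _ _ (Nat.two_pow_pos w), Nat.div_eq_of_lt ha, Nat.zero_add,
        List.getD_cons_succ, ← ih hl j, nget_def]

def zenc (a : ℤ) : ℕ := Int.toNat (a + 8)

def zdec (n : ℕ) : ℤ :=
  if 8 ≤ n then Int.ofNat (n - 8) else if n = 0 then 0 else Int.negSucc (7 - n)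

def ztab (l : List ℤ) : ℕ := ntab 4 (l.map zenc)

def zget (T i : ℕ) : ℤ := zdec (nget 4 T i)

def zok (l : List ℤ) : Bool := l.all fun a => decide (-8 < a) && decide (a < 8)

theorem zok_spec {l : List ℤ} (h : zok l = true) : ∀ a ∈ l, -8 < a ∧ a < 8 := by
  intro a ha
  unfold zok at h
  rw [List.all_eq_true] at h
  have := h a ha
  rw [Bool.and_eq_true, decide_eq_true_eq, decide_eq_true_eq] at this
  exact this

theorem zdec_zenc {a : ℤ} (h : -8 < a ∧ a < 8) : zdec (zenc a) = a := by
  unfold zdec zenc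
  have e : ((a + 8).toNat : ℤ) = a + 8 := Int.toNat_of_nonneg (by omega)
  split_ifs with h0 h1
  · rw [Int.ofNat_eq_natCast]
    omega
  · omega
  · rw [Int.negSucc_eq]
    omega

theorem zenc_lt {a : ℤ} (h : -8 < a ∧ a < 8) : zenc a < 2 ^ 4 := by
  unfold zenc
  have e : ((a + 8).toNat : ℤ) = a + 8 := Int.toNat_of_nonneg (by omega)
  show (a + 8).toNat < 16
  omega

theorem zget_ztab (l : List ℤ) (h : zok l = true) (i : ℕ) : zget (ztab l) i = l.getD i 0 := by
  have h' := zok_spec h
  unfold zget ztab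
  rw [nget_ntab 4 _ (by
    intro b hb
    rw [List.mem_map] at hb
    obtain ⟨a, ha, rfl⟩ := hb
    exact zenc_lt (h' a ha))]
  rw [List.getD_eq_getElem?_getD, List.getD_eq_getElem?_getD, List.getElem?_map]
  cases hi : l[i]? with
  | none => rfl
  | some a => exact zdec_zenc (h' a (List.mem_of_getElem? hi))

def fNeg (D : ChevalleyDatum) : ℕ := ntab 8 D.negIdx.toList

def fneg (D : ChevalleyDatum) (s : ℕ) : ℕ := nget 8 (fNeg D) s

def fCar (D : ChevalleyDatum) : ℕ :=
  ntab (4 * D.nroots) (D.cartanSR.toList.map fun a => ztab a.toList)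

def fcar (D : ChevalleyDatum) (i s : ℕ) : ℤ := zget (nget (4 * D.nroots) (fCar D) i) s

def fCor (D : ChevalleyDatum) : ℕ := ntab 32 (D.coroot.toList.map fun a => ztab a.toList)

def fcor (D : ChevalleyDatum) (r i : ℕ) : ℤ := zget (nget 32 (fCor D) r) i

def fsimple (D : ChevalleyDatum) (i : ℕ) : ℕ := D.simpleIdx.toList.getD i 0

def encTerm (q : ℕ × ℤ) : ℕ := Nat.add q.1 (Nat.mul 256 (zenc q.2))

def encEntry : List (ℕ × ℤ) → ℕ
  | [] => 0
  | q :: l => Nat.add 1 (Nat.mul 2 (Nat.add (encTerm q) (Nat.mul 4096 (encEntry l))))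

def decTerm (y : ℕ) : ℕ × ℤ := (Nat.land y 255, zdec (Nat.land (Nat.shiftRight y 8) 15))

def decEntry (x : ℕ) : List (ℕ × ℤ) :=
  bif Nat.beq (Nat.land x 1) 0 then []
  else decTerm (Nat.shiftRight x 1) ::
    (bif Nat.beq (Nat.land (Nat.shiftRight x 13) 1) 0 then []
    else decTerm (Nat.shiftRight x 14) ::
      (bif Nat.beq (Nat.land (Nat.shiftRight x 26) 1) 0 then []
      else [decTerm (Nat.shiftRight x 27)]))

def encRow (l : List (ℕ × Array (ℕ × ℤ))) : ℕ :=
  l.foldl (fun acc e => Nat.add acc (Nat.mul (encEntry e.2.toList) (Nat.pow 2 (Nat.mul 40 e.1)))) 0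

def keysLt : ℕ → List (ℕ × Array (ℕ × ℤ)) → Bool
  | _, [] => true
  | m, a :: l => Nat.ble m a.1 && keysLt (a.1 + 1) l

def rowOK (l : List (ℕ × Array (ℕ × ℤ))) : Bool :=
  keysLt 0 l && l.all fun e => decide (decEntry (nget 40 (encRow l) e.1) = e.2.toList)

def fChain (D : ChevalleyDatum) : ℕ :=
  ntab (40 * D.nroots) (D.chain.toList.map fun a => encRow a.toList)

def fMask (D : ChevalleyDatum) : ℕ := ntab D.nroots (D.chain.toList.map fun a => keyMask a.toList)

def fchain (D : ChevalleyDatum) (r s : ℕ) : List (ℕ × ℤ) :=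
  bif Nat.testBit (nget D.nroots (fMask D) r) s then
    decEntry (nget 40 (nget (40 * D.nroots) (fChain D) r) s)
  else []

def fdOK (D : ChevalleyDatum) : Bool :=
  (D.chain.toList.all fun a => rowOK a.toList &&
      decide (encRow a.toList < 2 ^ (40 * D.nroots)) && decide (keyMask a.toList < 2 ^ D.nroots)) &&
  (D.negIdx.toList.all fun a => decide (a < 2 ^ 8)) &&
  (D.cartanSR.toList.all fun a => zok a.toList && decide (ztab a.toList < 2 ^ (4 * D.nroots))) &&
  (D.coroot.toList.all fun a => zok a.toList && decide (ztab a.toList < 2 ^ 32))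

theorem fdOK_spec {D : ChevalleyDatum} (h : fdOK D = true) :
    (∀ a ∈ D.chain.toList, rowOK a.toList = true ∧ encRow a.toList < 2 ^ (40 * D.nroots) ∧
        keyMask a.toList < 2 ^ D.nroots) ∧
    (∀ a ∈ D.negIdx.toList, a < 2 ^ 8) ∧
    (∀ a ∈ D.cartanSR.toList, zok a.toList = true ∧ ztab a.toList < 2 ^ (4 * D.nroots)) ∧
    (∀ a ∈ D.coroot.toList, zok a.toList = true ∧ ztab a.toList < 2 ^ 32) := by
  unfold fdOK at h
  simp only [Bool.and_eq_true, List.all_eq_true, decide_eq_true_eq] at h
  obtain ⟨⟨⟨h1, h2⟩, h3⟩, h4⟩ := h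
  exact ⟨fun a ha => ⟨(h1 a ha).1.1, (h1 a ha).1.2, (h1 a ha).2⟩, h2, h3, h4⟩

theorem fneg_eq {D : ChevalleyDatum} (h : fdOK D = true) (s : ℕ) : fneg D s = D.neg s := by
  obtain ⟨_, h2, _, _⟩ := fdOK_spec h
  unfold fneg fNeg ChevalleyDatum.neg
  rw [nget_ntab 8 _ h2, array_getD_toList]

theorem fcar_eq {D : ChevalleyDatum} (h : fdOK D = true) (i s : ℕ) : fcar D i s = D.cartan i s := by
  obtain ⟨_, _, h3, _⟩ := fdOK_spec h
  unfold fcar fCar ChevalleyDatum.cartan
  have hb : ∀ b ∈ D.cartanSR.toList.map (fun a => ztab a.toList), b < 2 ^ (4 * D.nroots) := by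
    intro b hb
    rw [List.mem_map] at hb
    obtain ⟨a, ha, rfl⟩ := hb
    exact (h3 a ha).2
  have hz : zok (D.cartanSR.toList.getD i #[]).toList = true := by
    rw [List.getD_eq_getElem?_getD]
    cases hi : D.cartanSR.toList[i]? with
    | none => rfl
    | some a => exact (h3 a (List.mem_of_getElem? hi)).1
  have e1 : (D.cartanSR.toList.map fun a => ztab a.toList).getD i 0 =
      ztab (D.cartanSR.toList.getD i #[]).toList :=
    List.getD_map D.cartanSR.toList (#[] : Array ℤ) (n := i) (fun a => ztab a.toList)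
  rw [nget_ntab _ _ hb, e1, zget_ztab _ hz, array_getD_toList, array_getD_toList]

theorem fcor_eq {D : ChevalleyDatum} (h : fdOK D = true) (r i : ℕ) :
    fcor D r i = (D.coroot.getD r #[]).getD i 0 := by
  obtain ⟨_, _, _, h4⟩ := fdOK_spec h
  unfold fcor fCor
  have hb : ∀ b ∈ D.coroot.toList.map (fun a => ztab a.toList), b < 2 ^ 32 := by
    intro b hb
    rw [List.mem_map] at hb
    obtain ⟨a, ha, rfl⟩ := hb
    exact (h4 a ha).2
  have hz : zok (D.coroot.toList.getD r #[]).toList = true := by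
    rw [List.getD_eq_getElem?_getD]
    cases hi : D.coroot.toList[r]? with
    | none => rfl
    | some a => exact (h4 a (List.mem_of_getElem? hi)).1
  have e1 : (D.coroot.toList.map fun a => ztab a.toList).getD r 0 =
      ztab (D.coroot.toList.getD r #[]).toList :=
    List.getD_map D.coroot.toList (#[] : Array ℤ) (n := r) (fun a => ztab a.toList)
  rw [nget_ntab 32 _ hb, e1, zget_ztab _ hz, array_getD_toList, array_getD_toList]

theorem fsimple_eq (D : ChevalleyDatum) (i : ℕ) : fsimple D i = D.simple i := by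
  unfold fsimple ChevalleyDatum.simple
  rw [array_getD_toList]

theorem keysLt_filter_nil (s : ℕ) : ∀ (l : List (ℕ × Array (ℕ × ℤ))) (m : ℕ),
    keysLt m l = true → s < m → l.filter (fun e => decide (e.1 = s)) = [] := by
  intro l
  induction l with
  | nil => intro m _ _; rfl
  | cons a l ih =>
    intro m h hs
    simp only [keysLt, Bool.and_eq_true, Nat.ble_eq] at h
    have : ¬ a.1 = s := by omega
    rw [List.filter_cons_of_neg (by simpa using this)]
    exact ih (a.1 + 1) h.2 (by omega)

theorem keysLt_filter_cases (s : ℕ) : ∀ (l : List (ℕ × Array (ℕ × ℤ))) (m : ℕ),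
    keysLt m l = true →
    l.filter (fun e => decide (e.1 = s)) = [] ∨
      ∃ e ∈ l, e.1 = s ∧ l.filter (fun e => decide (e.1 = s)) = [e] := by
  intro l
  induction l with
  | nil => intro m _; left; rfl
  | cons a l ih =>
    intro m h
    simp only [keysLt, Bool.and_eq_true, Nat.ble_eq] at h
    by_cases ha : a.1 = s
    · right
      refine ⟨a, List.mem_cons_self, ha, ?_⟩
      rw [List.filter_cons_of_pos (by simpa using ha),
        keysLt_filter_nil s l (a.1 + 1) h.2 (by omega)]
    · rw [List.filter_cons_of_neg (by simpa using ha)]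
      rcases ih (a.1 + 1) h.2 with h1 | ⟨e, he, hes, h1⟩
      · left; exact h1
      · right; exact ⟨e, List.mem_cons_of_mem _ he, hes, h1⟩

theorem fchain_spec {D : ChevalleyDatum} (h : fdOK D = true) (r s : ℕ) :
    ((D.chain.getD r #[]).toList.filter (fun e => decide (e.1 = s)) = [] ∧ fchain D r s = []) ∨
    (∃ e ∈ (D.chain.getD r #[]).toList, e.1 = s ∧
      (D.chain.getD r #[]).toList.filter (fun e => decide (e.1 = s)) = [e] ∧
      fchain D r s = e.2.toList) := by
  obtain ⟨h1, _, _, _⟩ := fdOK_spec h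
  have hrow : rowOK (D.chain.getD r #[]).toList = true := by
    rw [← array_getD_toList, List.getD_eq_getElem?_getD]
    cases hi : D.chain.toList[r]? with
    | none => rfl
    | some a => exact (h1 a (List.mem_of_getElem? hi)).1
  have hm : nget D.nroots (fMask D) r = keyMask (D.chain.getD r #[]).toList := by
    unfold fMask
    rw [nget_ntab]
    · have := List.getD_map D.chain.toList (#[] : Array (ℕ × Array (ℕ × ℤ))) (n := r)
        (fun a => keyMask a.toList)
      rw [← array_getD_toList]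
      exact this
    · intro b hb
      rw [List.mem_map] at hb
      obtain ⟨a, ha, rfl⟩ := hb
      exact (h1 a ha).2.2
  have hc : nget (40 * D.nroots) (fChain D) r = encRow (D.chain.getD r #[]).toList := by
    unfold fChain
    rw [nget_ntab]
    · have := List.getD_map D.chain.toList (#[] : Array (ℕ × Array (ℕ × ℤ))) (n := r)
        (fun a => encRow a.toList)
      rw [← array_getD_toList]
      exact this
    · intro b hb
      rw [List.mem_map] at hb
      obtain ⟨a, ha, rfl⟩ := hb
      exact (h1 a ha).2.1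
  unfold fchain
  rw [hm, hc]
  generalize (D.chain.getD r #[]).toList = L at hrow ⊢
  unfold rowOK at hrow
  rw [Bool.and_eq_true, List.all_eq_true] at hrow
  obtain ⟨hk, hall⟩ := hrow
  by_cases hb : Nat.testBit (keyMask L) s = true
  · rw [hb, cond_true]
    rcases keysLt_filter_cases s L 0 hk with h0 | ⟨e, he, hes, h0⟩
    · exfalso
      rw [testBit_keyMask, List.any_eq_true] at hb
      obtain ⟨e, he, hes⟩ := hb
      have : e ∈ L.filter (fun e => decide (e.1 = s)) := List.mem_filter.mpr ⟨he, hes⟩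
      rw [h0] at this
      exact absurd this List.not_mem_nil
    · right
      refine ⟨e, he, hes, h0, ?_⟩
      have := hall e he
      rw [decide_eq_true_eq, hes] at this
      exact this
  · left
    refine ⟨filter_eq_nil_of_mask L s hb, ?_⟩
    rw [Bool.not_eq_true] at hb
    rw [hb, cond_false]

theorem chainEntry_eq {D : ChevalleyDatum} (h : fdOK D = true) (r s : ℕ) :
    D.chainEntry r s = fchain D r s := by
  unfold ChevalleyDatum.chainEntry
  rw [← List.head?_filter]
  rcases fchain_spec h r s with ⟨h1, h2⟩ | ⟨e, _, _, h1, h2⟩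
  · rw [h1, h2]; rfl
  · rw [h1, h2]; rfl

def frefl (D : ChevalleyDatum) (i s : ℕ) : ℕ :=
  if s = fsimple D i then fneg D (fsimple D i)
  else if s = fneg D (fsimple D i) then fsimple D i
  else if 0 < fcar D i s then
    (((fchain D (fneg D (fsimple D i)) s)[(fcar D i s).toNat - 1]?).map Prod.fst).getD s
  else if fcar D i s < 0 then
    (((fchain D (fsimple D i) s)[(-(fcar D i s)).toNat - 1]?).map Prod.fst).getD s
  else s

theorem frefl_eq {D : ChevalleyDatum} (h : fdOK D = true) (i s : ℕ) :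
    frefl D i s = D.reflectRoot i s := by
  unfold frefl ChevalleyDatum.reflectRoot ChevalleyDatum.chainRoot
  simp only [fsimple_eq, fneg_eq h, fcar_eq h, chainEntry_eq h]

theorem fdOK_G2 : fdOK chevG2 = true := by decide +kernel
theorem fdOK_B2 : fdOK chevB2 = true := by decide +kernel
theorem fdOK_D4 : fdOK chevD4 = true := by decide +kernel
theorem fdOK_F4 : fdOK chevF4 = true := by decide +kernel
theorem fdOK_E6 : fdOK chevE6 = true := by decide +kernel
theorem fdOK_E7 : fdOK chevE7 = true := by decide +kernel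
theorem fdOK_E8 : fdOK chevE8 = true := by decide +kernel

theorem fdOK_of_mem {D : ChevalleyDatum}
    (hD : D ∈ [chevG2, chevB2, chevD4, chevF4, chevE6, chevE7, chevE8]) : fdOK D = true :=
  forall_seven (P := fun D => fdOK D = true) fdOK_G2 fdOK_B2 fdOK_D4 fdOK_F4 fdOK_E6 fdOK_E7
    fdOK_E8 hD

end Cfsg.Agent.Helper7
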