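import Mathlib

set_option autoImplicit false
set_option linter.unusedSectionVars false
set_option linter.unusedVariables false

namespace Cfsg.Agent.Helper7

section nt

variable {r : ℕ} [hr : Fact r.Prime]

theorem geom_id (y c : ℕ) : y * (∑ i ∈ Finset.range c, (y + 1) ^ i) + 1 = (y + 1) ^ c := by
  induction c with
  | zero => simp
  | succ c ih =>
    rw [Finset.sum_range_succ, pow_succ]
    calc y * (∑ i ∈ Finset.range c, (y + 1) ^ i + (y + 1) ^ c) + 1
        = (y * (∑ i ∈ Finset.range c, (y + 1) ^ i) + 1) + y * (y + 1) ^ c := by ring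
      _ = (y + 1) ^ c + y * (y + 1) ^ c := by rw [ih]
      _ = (y + 1) ^ c * (y + 1) := by ring

theorem fact_pow_sub_one (x c : ℕ) (hx : 2 ≤ x) (hx1 : (x : ZMod r) = 1) (hc0 : 0 < c)
    (hcr : ¬ r ∣ c) : (x ^ c - 1).factorization r = (x - 1).factorization r := by
  obtain ⟨y, rfl⟩ : ∃ y, x = y + 1 := ⟨x - 1, by omega⟩
  have h := geom_id y c
  have e : (y + 1) ^ c - 1 = y * ∑ i ∈ Finset.range c, (y + 1) ^ i := by omega
  rw [e, Nat.add_sub_cancel]
  have hy : y ≠ 0 := by omega
  have hS : (∑ i ∈ Finset.range c, (y + 1) ^ i) ≠ 0 := by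
    intro h0
    rw [h0, mul_zero] at h
    have : 2 ≤ (y + 1) ^ c := by
      calc 2 ≤ y + 1 := hx
        _ = (y + 1) ^ 1 := (pow_one _).symm
        _ ≤ (y + 1) ^ c := Nat.pow_le_pow_right (by omega) hc0
    omega
  rw [Nat.factorization_mul hy hS, Finsupp.add_apply]
  have h3 : (∑ i ∈ Finset.range c, (y + 1) ^ i).factorization r = 0 := by
    apply Nat.factorization_eq_zero_of_not_dvd
    intro hdvd
    have h2 := (ZMod.natCast_eq_zero_iff _ r).mpr hdvd
    rw [Nat.cast_sum] at h2
    simp only [Nat.cast_pow, hx1, one_pow, Finset.sum_const, Finset.card_range, nsmul_eq_mul,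
      mul_one] at h2
    rw [ZMod.natCast_eq_zero_iff] at h2
    exact hcr h2
  rw [h3, add_zero]

theorem orderOf_pos_zmod (q : ℕ) (hrq : ¬ r ∣ q) : 0 < orderOf (q : ZMod r) := by
  have h0 : (q : ZMod r) ≠ 0 := fun h => hrq ((ZMod.natCast_eq_zero_iff q r).mp h)
  have h1 := ZMod.pow_card_sub_one_eq_one h0
  have h2 := hr.out.two_le
  exact orderOf_pos_iff.mpr (isOfFinOrder_iff_pow_eq_one.mpr ⟨r - 1, by omega, h1⟩)

theorem dvd_pow_sub_one_iff (q : ℕ) (hq2 : 2 ≤ q) (i : ℕ) :
    r ∣ q ^ i - 1 ↔ orderOf (q : ZMod r) ∣ i := by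
  rw [← ZMod.natCast_eq_zero_iff, Nat.cast_sub (Nat.one_le_pow _ _ (by omega)), Nat.cast_pow,
    Nat.cast_one, sub_eq_zero, orderOf_dvd_iff_pow_eq_one]

theorem fact_qj (q : ℕ) (hq2 : 2 ≤ q) (hrq : ¬ r ∣ q) (j : ℕ) (hj0 : 0 < j)
    (hjr : ∀ c, j = orderOf (q : ZMod r) * c → ¬ r ∣ c) :
    (q ^ j - 1).factorization r =
      if orderOf (q : ZMod r) ∣ j then (q ^ orderOf (q : ZMod r) - 1).factorization r else 0 := by
  have hd0 := orderOf_pos_zmod (r := r) q hrq
  split_ifs with h
  · obtain ⟨c, rfl⟩ := h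
    have hc0 : 0 < c := Nat.pos_of_ne_zero (by
      rintro rfl
      rw [mul_zero] at hj0
      omega)
    have hcr : ¬ r ∣ c := hjr c rfl
    rw [pow_mul]
    apply fact_pow_sub_one (q ^ orderOf (q : ZMod r)) c _ _ hc0 hcr
    · calc 2 ≤ q := hq2
        _ = q ^ 1 := (pow_one _).symm
        _ ≤ q ^ orderOf (q : ZMod r) := Nat.pow_le_pow_right (by omega) hd0
    · rw [Nat.cast_pow]
      exact pow_orderOf_eq_one _
  · exact Nat.factorization_eq_zero_of_not_dvd
      (fun hd' => h ((dvd_pow_sub_one_iff q hq2 j).mp hd'))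

theorem fact_cyclo (q : ℕ) (hq2 : 2 ≤ q) (hrq : ¬ r ∣ q) :
    (q ^ orderOf (q : ZMod r) - 1).factorization r =
      padicValNat r ((Polynomial.cyclotomic (orderOf (q : ZMod r)) ℤ).eval (q : ℤ)).natAbs := by
  have hd0 := orderOf_pos_zmod (r := r) q hrq
  generalize hd : orderOf (q : ZMod r) = d at hd0 ⊢
  have hprod := Polynomial.prod_cyclotomic_eq_X_pow_sub_one hd0 ℤ
  have hev := congrArg (Polynomial.eval (q : ℤ)) hprod
  rw [Polynomial.eval_prod, Polynomial.eval_sub, Polynomial.eval_pow, Polynomial.eval_X,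
    Polynomial.eval_one, ← Nat.insert_self_properDivisors hd0.ne',
    Finset.prod_insert Nat.self_notMem_properDivisors] at hev
  have hq1 : 1 ≤ q ^ d := Nat.one_le_pow _ _ (by omega)
  have hq2' : 2 ≤ q ^ d := by
    calc 2 ≤ q := hq2
      _ = q ^ 1 := (pow_one _).symm
      _ ≤ q ^ d := Nat.pow_le_pow_right (by omega) hd0
  have hcast : ((q : ℤ) ^ d - 1) = ((q ^ d - 1 : ℕ) : ℤ) := by
    rw [Nat.cast_sub hq1]
    push_cast
    ring
  have hne : (q : ℤ) ^ d - 1 ≠ 0 := by
    rw [hcast]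
    exact_mod_cast (by omega : q ^ d - 1 ≠ 0)
  generalize hA : (Polynomial.cyclotomic d ℤ).eval (q : ℤ) = A at hev ⊢
  generalize hR : ∏ i ∈ d.properDivisors, (Polynomial.cyclotomic i ℤ).eval (q : ℤ) = R at hev
  have hA0 : A ≠ 0 := left_ne_zero_of_mul (hev ▸ hne)
  have hR0 : R ≠ 0 := right_ne_zero_of_mul (hev ▸ hne)
  have hRr : ¬ (r : ℤ) ∣ R := by
    intro hdvd
    have hp : Prime (r : ℤ) := Nat.prime_iff_prime_int.mp hr.out
    rw [← hR] at hdvd
    obtain ⟨i, hi, hri⟩ := (Prime.dvd_finsetProd_iff hp _).mp hdvd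
    have h1 : (Polynomial.cyclotomic i ℤ).eval (q : ℤ) ∣ (q : ℤ) ^ i - 1 := by
      have := Polynomial.eval_dvd (Polynomial.cyclotomic.dvd_X_pow_sub_one i ℤ) (x := (q : ℤ))
      simpa using this
    have h2 : (r : ℤ) ∣ (q : ℤ) ^ i - 1 := hri.trans h1
    have h3 : ((q : ZMod r)) ^ i = 1 := by
      have := (ZMod.intCast_zmod_eq_zero_iff_dvd ((q : ℤ) ^ i - 1) r).mpr h2
      push_cast at this
      exact sub_eq_zero.mp this
    have h4 : d ∣ i := by
      rw [← hd]
      exact orderOf_dvd_of_pow_eq_one h3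
    rw [Nat.mem_properDivisors] at hi
    have hi0 : 0 < i := Nat.pos_of_dvd_of_pos hi.1 hd0
    exact absurd (Nat.le_of_dvd hi0 h4) (by omega)
  have e1 : q ^ d - 1 = (A * R).natAbs := by
    rw [hev, hcast, Int.natAbs_natCast]
  rw [e1, Int.natAbs_mul, Nat.factorization_mul (Int.natAbs_ne_zero.mpr hA0)
    (Int.natAbs_ne_zero.mpr hR0), Finsupp.add_apply,
    Nat.factorization_eq_zero_of_not_dvd (fun h => hRr (Int.natCast_dvd.mpr h)), add_zero,
    Nat.factorization_def _ hr.out]

theorem fact_GL (q n : ℕ) (hq2 : 2 ≤ q) (hrq : ¬ r ∣ q) (hnr : n / orderOf (q : ZMod r) < r) :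
    (∏ i : Fin n, (q ^ n - q ^ (i : ℕ))).factorization r =
      (n / orderOf (q : ZMod r)) *
        padicValNat r ((Polynomial.cyclotomic (orderOf (q : ZMod r)) ℤ).eval (q : ℤ)).natAbs := by
  have hterm : ∀ i : Fin n, q ^ n - q ^ (i : ℕ) ≠ 0 := by
    intro i
    have : q ^ (i : ℕ) < q ^ n := Nat.pow_lt_pow_right (by omega) i.2
    omega
  rw [Nat.factorization_prod (fun i _ => hterm i), Finsupp.finsetSum_apply]
  have hfi : ∀ i : Fin n, (q ^ n - q ^ (i : ℕ)).factorization r =
      if orderOf (q : ZMod r) ∣ (n - 1 - (i : ℕ)) + 1 then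
        (q ^ orderOf (q : ZMod r) - 1).factorization r else 0 := by
    intro i
    have hi := i.2
    have e0 : ∀ iv : ℕ, iv < n → q ^ n - q ^ iv = q ^ iv * (q ^ (n - 1 - iv + 1) - 1) := by
      intro iv hiv
      have hn : n = iv + (n - 1 - iv + 1) := by omega
      rw [Nat.mul_sub, mul_one, ← pow_add, ← hn]
    have e := e0 (i : ℕ) hi
    have hk : q ^ (n - 1 - (i : ℕ) + 1) - 1 ≠ 0 := by
      have : 2 ≤ q ^ (n - 1 - (i : ℕ) + 1) := by
        calc 2 ≤ q := hq2
          _ = q ^ 1 := (pow_one _).symm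
          _ ≤ q ^ (n - 1 - (i : ℕ) + 1) := Nat.pow_le_pow_right (by omega) (by omega)
      omega
    rw [e, Nat.factorization_mul (pow_ne_zero _ (by omega)) hk, Finsupp.add_apply,
      Nat.factorization_pow, Finsupp.smul_apply, Nat.factorization_eq_zero_of_not_dvd hrq,
      smul_zero, zero_add]
    apply fact_qj q hq2 hrq _ (by omega)
    intro c hc hrc
    have hd0 := orderOf_pos_zmod (r := r) q hrq
    have hc0 : 0 < c := Nat.pos_of_ne_zero (by
      rintro rfl
      rw [mul_zero] at hc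
      omega)
    have h1 : c ≤ n / orderOf (q : ZMod r) := by
      rw [Nat.le_div_iff_mul_le hd0, mul_comm, ← hc]
      omega
    exact absurd (Nat.le_of_dvd hc0 hrc) (by omega)
  simp only [hfi]
  rw [Fin.sum_univ_eq_sum_range (fun i => if orderOf (q : ZMod r) ∣ (n - 1 - i) + 1 then
      (q ^ orderOf (q : ZMod r) - 1).factorization r else 0) n,
    Finset.sum_range_reflect (fun i => if orderOf (q : ZMod r) ∣ i + 1 then
      (q ^ orderOf (q : ZMod r) - 1).factorization r else 0) n,
    Finset.sum_ite, Finset.sum_const_zero, add_zero, Finset.sum_const, smul_eq_mul,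
    Nat.card_multiples, fact_cyclo q hq2 hrq]

end nt

section torus

variable {F : Type*} [Field F] [Fintype F]

theorem exists_torus (n d a : ℕ) (hd : 0 < d) (had : a * d ≤ n) (r : ℕ) [Fact r.Prime] :
    ∃ (C : Type) (_ : Group C), IsCyclic C ∧
      Nat.card C = r ^ ((Fintype.card F) ^ d - 1).factorization r ∧
      ∃ φ : (Fin a → C) →* GL (Fin n) F, Function.Injective φ := by
  classical
  obtain ⟨p, hp⟩ := CharP.exists F
  have : Fact p.Prime := ⟨CharP.char_is_prime F p⟩
  have : NeZero d := ⟨hd.ne'⟩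
  let S : Sylow r (FiniteField.Extension F p d)ˣ := default
  refine ⟨↥(S : Subgroup (FiniteField.Extension F p d)ˣ), inferInstance, ?_, ?_, ?_⟩
  · exact Subgroup.isCyclic _
  · rw [Sylow.card_eq_multiplicity, Nat.card_units, FiniteField.natCard_extension,
      Nat.card_eq_fintype_card]
  · have hfin : Module.finrank F ((Fin a → FiniteField.Extension F p d) × (Fin (n - a * d) → F))
        = n := by
      rw [Module.finrank_prod, Module.finrank_pi_fintype, Module.finrank_fin_fun]
      simp only [FiniteField.finrank_extension, Finset.sum_const, Finset.card_univ,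
        Fintype.card_fin, smul_eq_mul]
      omega
    let b := Module.finBasisOfFinrankEq F
      ((Fin a → FiniteField.Extension F p d) × (Fin (n - a * d) → F)) hfin
    let h1 : (Fin a → ↥(S : Subgroup (FiniteField.Extension F p d)ˣ)) →*
        (Fin a → (FiniteField.Extension F p d)ˣ) :=
      MonoidHom.pi fun i => (S : Subgroup (FiniteField.Extension F p d)ˣ).subtype.comp
        (Pi.evalMonoidHom (fun _ => ↥(S : Subgroup (FiniteField.Extension F p d)ˣ)) i)
    have h1i : Function.Injective h1 := by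
      intro u v huv
      funext i
      exact Subtype.ext (congrFun huv i)
    let h2 : (Fin a → (FiniteField.Extension F p d)ˣ) →*
        (Fin a → FiniteField.Extension F p d)ˣ :=
      (MulEquiv.piUnits (M := fun _ : Fin a => FiniteField.Extension F p d)).symm.toMonoidHom
    have h2i : Function.Injective h2 :=
      (MulEquiv.piUnits (M := fun _ : Fin a => FiniteField.Extension F p d)).symm.injective
    let h3 : (Fin a → FiniteField.Extension F p d)ˣ →*
        (Fin a → FiniteField.Extension F p d)ˣ × (Fin (n - a * d) → F)ˣ := MonoidHom.inl _ _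
    have h3i : Function.Injective h3 := by
      intro x y h
      exact (Prod.ext_iff.mp h).1
    let h4 : (Fin a → FiniteField.Extension F p d)ˣ × (Fin (n - a * d) → F)ˣ →*
        ((Fin a → FiniteField.Extension F p d) × (Fin (n - a * d) → F))ˣ :=
      (MulEquiv.prodUnits (M := Fin a → FiniteField.Extension F p d)
        (N := Fin (n - a * d) → F)).symm.toMonoidHom
    have h4i : Function.Injective h4 :=
      (MulEquiv.prodUnits (M := Fin a → FiniteField.Extension F p d)
        (N := Fin (n - a * d) → F)).symm.injective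
    let h5 : ((Fin a → FiniteField.Extension F p d) × (Fin (n - a * d) → F))ˣ →*
        GL (Fin n) F := Units.map (Algebra.leftMulMatrix b : _ →* Matrix (Fin n) (Fin n) F)
    have h5i : Function.Injective h5 :=
      Units.map_injective (Algebra.leftMulMatrix_injective b)
    exact ⟨h5.comp (h4.comp (h3.comp (h2.comp h1))),
      h5i.comp (h4i.comp (h3i.comp (h2i.comp h1i)))⟩

theorem gl_sylow_gen {q : ℕ} (hq : Fintype.card F = q) (n : ℕ)
    (r : ℕ) [Fact r.Prime] (hrn : n / orderOf (q : ZMod r) < r) (hrq : ¬ r ∣ q)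
    (P : Sylow r (GL (Fin n) F)) :
    Nonempty (↥(P : Subgroup (GL (Fin n) F)) ≃*
      (Fin (n / orderOf (q : ZMod r)) →
        Multiplicative (ZMod (r ^ padicValNat r
          ((Polynomial.cyclotomic (orderOf (q : ZMod r)) ℤ).eval (q : ℤ)).natAbs)))) := by
  classical
  subst hq
  have hq2 : 2 ≤ Fintype.card F := Fintype.one_lt_card
  have hd0 := orderOf_pos_zmod (r := r) (Fintype.card F) hrq
  obtain ⟨C, _, hcyc, hcard, φ, hφ⟩ := exists_torus (F := F) n
    (orderOf ((Fintype.card F : ℕ) : ZMod r)) (n / orderOf ((Fintype.card F : ℕ) : ZMod r)) hd0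
    (Nat.div_mul_le_self n _) r
  rw [fact_cyclo (r := r) (Fintype.card F) hq2 hrq] at hcard
  have hT : Nat.card φ.range = r ^ (Nat.card (GL (Fin n) F)).factorization r := by
    rw [Nat.card_congr (MonoidHom.ofInjective hφ).symm.toEquiv, Nat.card_fun, Nat.card_fin,
      hcard, Matrix.card_GL_field, fact_GL (Fintype.card F) n hq2 hrq hrn, ← pow_mul, mul_comm]
  have e1 : ↥(P : Subgroup (GL (Fin n) F)) ≃*
      ↥((Sylow.ofCard φ.range hT : Sylow r (GL (Fin n) F)) : Subgroup (GL (Fin n) F)) :=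
    Sylow.equiv P (Sylow.ofCard φ.range hT)
  have e2 : ↥((Sylow.ofCard φ.range hT : Sylow r (GL (Fin n) F)) : Subgroup (GL (Fin n) F)) ≃*
      (Fin (n / orderOf ((Fintype.card F : ℕ) : ZMod r)) → C) :=
    (MulEquiv.subgroupCongr (Sylow.coe_ofCard φ.range hT)).trans (MonoidHom.ofInjective hφ).symm
  have e3 : C ≃* Multiplicative (ZMod (r ^ padicValNat r
      ((Polynomial.cyclotomic (orderOf ((Fintype.card F : ℕ) : ZMod r)) ℤ).eval
        ((Fintype.card F : ℕ) : ℤ)).natAbs)) := by
    rw [← hcard]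
    exact (zmodCyclicMulEquiv hcyc).symm
  exact ⟨e1.trans (e2.trans (MulEquiv.piCongrRight fun _ => e3))⟩

theorem gl_sylow {q : ℕ} (hq : Fintype.card F = q) (n : ℕ)
    (r : ℕ) [Fact r.Prime] (hrn : n < r) (hrq : ¬ r ∣ q) (P : Sylow r (GL (Fin n) F)) :
    Nonempty (↥(P : Subgroup (GL (Fin n) F)) ≃*
      (Fin (n / orderOf (q : ZMod r)) →
        Multiplicative (ZMod (r ^ padicValNat r
          ((Polynomial.cyclotomic (orderOf (q : ZMod r)) ℤ).eval (q : ℤ)).natAbs)))) :=
  gl_sylow_gen hq n r (lt_of_le_of_lt (Nat.div_le_self _ _) hrn) hrq P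

end torus

end Cfsg.Agent.Helper7
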