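import Mathlib

set_option autoImplicit false

namespace Cfsg.Agent.Helper7

open Matrix

theorem unip_isometry_rank_even {F : Type*} [Field F] (h2 : (2 : F) ≠ 0) {n : ℕ}
    (hskew : ∀ S : Matrix (Fin n) (Fin n) F, Sᵀ = -S → Even S.rank)
    (A P : Matrix (Fin n) (Fin n) F) (hP : Pᵀ = P) (hdet : P.det ≠ 0) (hA : Aᵀ * P * A = P)
    (hnil : (A - 1) ^ n = 0) (k : ℕ) (hk : Odd k) : Even ((A - 1) ^ k).rank := by
  -- `A` is invertible
  have hdA : A.det ≠ 0 := by
    intro h0
    have := congrArg Matrix.det hA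
    rw [Matrix.det_mul, Matrix.det_mul, h0, mul_zero] at this
    exact hdet this.symm
  have hAu : IsUnit A.det := isUnit_iff_ne_zero.mpr hdA
  obtain ⟨B, hBdef⟩ : ∃ B : Matrix (Fin n) (Fin n) F, B = A⁻¹ := ⟨_, rfl⟩
  have hAB : A * B = 1 := by rw [hBdef]; exact Matrix.mul_nonsing_inv A hAu
  have hBA : B * A = 1 := by rw [hBdef]; exact Matrix.nonsing_inv_mul A hAu
  have h1 : Aᵀ * P = P * B := by
    calc Aᵀ * P = Aᵀ * P * (A * B) := by rw [hAB, mul_one]
      _ = (Aᵀ * P * A) * B := by simp only [mul_assoc]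
      _ = P * B := by rw [hA]
  have h2' : Bᵀ * P = P * A := by
    have hBtAt : Bᵀ * Aᵀ = 1 := by rw [← Matrix.transpose_mul, hAB, Matrix.transpose_one]
    calc Bᵀ * P = Bᵀ * (Aᵀ * P * A) := by rw [hA]
      _ = (Bᵀ * Aᵀ) * (P * A) := by simp only [mul_assoc]
      _ = P * A := by rw [hBtAt, one_mul]
  obtain ⟨D, hD⟩ : ∃ D : Matrix (Fin n) (Fin n) F, D = A - B := ⟨_, rfl⟩
  have hDP : Dᵀ * P = -(P * D) := by
    rw [hD, Matrix.transpose_sub, sub_mul, h1, h2', mul_sub]; abel
  have hDk : ∀ j : ℕ, (Dᵀ) ^ j * P = (-1 : F) ^ j • (P * D ^ j) := by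
    intro j
    induction j with
    | zero => simp
    | succ j ih =>
      calc (Dᵀ) ^ (j + 1) * P = (Dᵀ) ^ j * (Dᵀ * P) := by rw [pow_succ, mul_assoc]
        _ = -((Dᵀ) ^ j * P * D) := by rw [hDP, Matrix.mul_neg, mul_assoc]
        _ = -(((-1 : F) ^ j • (P * D ^ j)) * D) := by rw [ih]
        _ = (-1 : F) ^ (j + 1) • (P * D ^ (j + 1)) := by
            rw [Matrix.smul_mul, mul_assoc, ← pow_succ, pow_succ (-1 : F), mul_neg_one, neg_smul]
  have hS : (P * D ^ k)ᵀ = -(P * D ^ k) := by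
    rw [Matrix.transpose_mul, Matrix.transpose_pow, hP, hDk k, hk.neg_one_pow, neg_one_smul]
  have hev := hskew _ hS
  rw [Matrix.rank_mul_eq_right_of_isUnit_det P _ (isUnit_iff_ne_zero.mpr hdet)] at hev
  obtain ⟨E, hE⟩ : ∃ E : Matrix (Fin n) (Fin n) F, E = B * (A + 1) := ⟨_, rfl⟩
  have hDE : D = (A - 1) * E := by
    rw [hE, hD]
    calc A - B = (A * B) * A + A * B - B * A - B := by rw [hAB, hBA]; simp
      _ = (A - 1) * (B * (A + 1)) := by noncomm_ring
  have hcomm : Commute (A - 1) E := by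
    have hc1 : Commute A B := by rw [Commute, SemiconjBy, hAB, hBA]
    have hcA : Commute (A - 1) B := hc1.sub_left (Commute.one_left B)
    have hcA1 : Commute (A - 1) (A + 1) :=
      ((Commute.refl A).sub_left (Commute.one_left A)).add_right (Commute.one_right _)
    rw [hE]
    exact hcA.mul_right hcA1
  rw [hDE, hcomm.mul_pow] at hev
  have hEu : IsUnit (E ^ k).det := by
    rw [Matrix.det_pow]
    apply IsUnit.pow
    rw [hE, Matrix.det_mul]
    apply IsUnit.mul
    · have : B.det * A.det = 1 := by rw [← Matrix.det_mul, hBA, Matrix.det_one]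
      exact IsUnit.of_mul_eq_one _ this
    · rw [← Matrix.isUnit_iff_isUnit_det]
      have hnilA : IsNilpotent (A - 1) := ⟨n, hnil⟩
      have h2u : IsUnit (2 : Matrix (Fin n) (Fin n) F) := by
        rw [Matrix.isUnit_iff_isUnit_det]
        have h22 : (2 : Matrix (Fin n) (Fin n) F) = (2 : F) • (1 : Matrix (Fin n) (Fin n) F) := by
          rw [two_smul, one_add_one_eq_two]
        rw [h22, Matrix.det_smul, Matrix.det_one, mul_one]
        exact (IsUnit.mk0 (2 : F) h2).pow _
      have h2c : Commute (A - 1) (2 : Matrix (Fin n) (Fin n) F) := by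
        rw [show (2 : Matrix (Fin n) (Fin n) F) = 1 + 1 by norm_num]
        exact (Commute.one_right _).add_right (Commute.one_right _)
      have := hnilA.isUnit_add_right_of_commute h2u h2c
      have e : A - 1 + 2 = A + 1 := by
        rw [show (2 : Matrix (Fin n) (Fin n) F) = 1 + 1 by norm_num]; abel
      rwa [e] at this
  rw [Matrix.rank_mul_eq_left_of_isUnit_det _ _ hEu] at hev
  exact hev

end Cfsg.Agent.Helper7
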