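import Mathlib
import Cfsg.Prelude.Def_Classical
import Cfsg.Prelude.Def_ClassicalGeometry
import Cfsg.Agent.S2585

set_option autoImplicit false

namespace Cfsg.Agent.Helper7

open Matrix

theorem symp_to_orth2 {F : Type*} [Field F] [Fintype F] [CharP F 2] {m : ℕ}
    (B : Matrix.symplecticGroup (Fin m) F) (τ : (Fin m ⊕ Fin m) ≃ Fin (2 * m)) :
    ∃ Q : QuadraticForm F (Fin (2 * m) → F), (QuadraticMap.polarBilin Q).Nondegenerate ∧
      ∃ A : ↥(Cfsg.isometryGroup F ⇑Q),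
        ((A : Matrix.GeneralLinearGroup (Fin (2 * m)) F) : Matrix (Fin (2 * m)) (Fin (2 * m)) F) =
          Matrix.reindex τ τ (B : Matrix (Fin m ⊕ Fin m) (Fin m ⊕ Fin m) F) := by
  classical
  obtain ⟨Q₀, hpol, hinv⟩ := Cfsg.Agent.S2585.result B
  obtain ⟨Q, hQ⟩ : ∃ Q : QuadraticForm F (Fin (2 * m) → F),
      Q = Q₀.comp (LinearMap.funLeft F F τ) := ⟨_, rfl⟩
  have hQa : ∀ v : Fin (2 * m) → F, Q v = Q₀ (v ∘ τ) := by
    intro v
    rw [hQ, QuadraticMap.comp_apply]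
    rfl
  have hJdet : (Matrix.J (Fin m) F).det ≠ 0 := (Matrix.isUnit_det_J (Fin m) F).ne_zero
  have hpolQ : ∀ u v : Fin (2 * m) → F, QuadraticMap.polarBilin Q u v =
      (u ∘ τ) ⬝ᵥ (Matrix.J (Fin m) F *ᵥ (v ∘ τ)) := by
    intro u v
    have h1 : QuadraticMap.polarBilin Q u v = Q (u + v) - Q u - Q v := rfl
    have h2 := hpol (u ∘ τ) (v ∘ τ)
    have h3 : QuadraticMap.polar (⇑Q₀) (u ∘ τ) (v ∘ τ) =
        Q₀ (u ∘ τ + v ∘ τ) - Q₀ (u ∘ τ) - Q₀ (v ∘ τ) := rfl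
    rw [h1, hQa, hQa, hQa]
    have h4 : (u + v) ∘ τ = u ∘ τ + v ∘ τ := rfl
    rw [h4, ← h3, h2]
    rfl
  have hback : ∀ u : Fin (2 * m) → F, u ∘ τ = 0 → u = 0 := by
    intro u hu
    funext i
    have := congrFun hu (τ.symm i)
    simpa using this
  have hnd : (QuadraticMap.polarBilin Q).Nondegenerate := by
    refine ⟨?_, ?_⟩
    · intro u hu
      apply hback
      apply Matrix.eq_zero_of_vecMul_eq_zero hJdet
      apply dotProduct_eq_zero
      intro w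
      have := hu (w ∘ τ.symm)
      rw [hpolQ] at this
      have hw : (w ∘ τ.symm) ∘ τ = w := by
        funext i; simp
      rw [hw, Matrix.dotProduct_mulVec] at this
      exact this
    · intro v hv
      apply hback
      apply Matrix.eq_zero_of_mulVec_eq_zero hJdet
      apply dotProduct_eq_zero
      intro w
      have := hv (w ∘ τ.symm)
      rw [hpolQ] at this
      have hw : (w ∘ τ.symm) ∘ τ = w := by
        funext i; simp
      rw [hw] at this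
      rw [dotProduct_comm]
      exact this
  obtain ⟨Bm, hBm⟩ : ∃ Bm : Matrix (Fin m ⊕ Fin m) (Fin m ⊕ Fin m) F,
      Bm = (B : Matrix (Fin m ⊕ Fin m) (Fin m ⊕ Fin m) F) := ⟨_, rfl⟩
  obtain ⟨Bi, hBi⟩ : ∃ Bi : Matrix (Fin m ⊕ Fin m) (Fin m ⊕ Fin m) F,
      Bi = ((B⁻¹ : Matrix.symplecticGroup (Fin m) F) :
        Matrix (Fin m ⊕ Fin m) (Fin m ⊕ Fin m) F) := ⟨_, rfl⟩
  have h1 : Bm * Bi = 1 := by
    rw [hBm, hBi]
    have := congrArg Subtype.val (mul_inv_cancel B)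
    exact this
  have h2 : Bi * Bm = 1 := by
    rw [hBm, hBi]
    have := congrArg Subtype.val (inv_mul_cancel B)
    exact this
  have hre : ∀ Z, Matrix.reindex τ τ Z = Matrix.reindexAlgEquiv F F τ Z := by
    intro Z
    rw [Matrix.coe_reindexAlgEquiv]
  have h1' : Matrix.reindex τ τ Bm * Matrix.reindex τ τ Bi = 1 := by
    rw [hre, hre, ← map_mul, h1, map_one]
  have h2' : Matrix.reindex τ τ Bi * Matrix.reindex τ τ Bm = 1 := by
    rw [hre, hre, ← map_mul, h2, map_one]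
  have hmul : ∀ u : Fin (2 * m) → F, (Matrix.reindex τ τ Bm *ᵥ u) ∘ τ = Bm *ᵥ (u ∘ τ) := by
    intro u
    rw [Matrix.reindex_apply, Matrix.submatrix_mulVec_equiv]
    funext i
    simp
  have hmem : (⟨Matrix.reindex τ τ Bm, Matrix.reindex τ τ Bi, h1', h2'⟩ :
      Matrix.GeneralLinearGroup (Fin (2 * m)) F) ∈ Cfsg.isometryGroup F ⇑Q := by
    intro u v
    show Q (Matrix.reindex τ τ Bm *ᵥ u) = Q u
    rw [hQa, hQa, hmul, hBm]
    exact hinv (u ∘ τ)
  refine ⟨Q, hnd, ⟨_, hmem⟩, ?_⟩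
  rw [← hBm]

end Cfsg.Agent.Helper7
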