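import Mathlib
import Cfsg.Agent.Helper11.JordOrth

set_option autoImplicit false

namespace Cfsg.Agent.Helper7

open Matrix

/-- the alternating form preserved by the Jordan block of size `e + e`, as a function on naturals -/
def jalt (F : Type*) [Field F] (e : ℕ) (a b : ℕ) : F :=
  if e ≤ a ∧ b < e then (-1) ^ b * ((e - 1 - b).choose (a - e) : F)
  else if a < e ∧ e ≤ b then (-1) ^ (a + 1) * ((e - 1 - a).choose (b - e) : F)
  else 0

theorem jalt_I {F : Type*} [Field F] (e a b : ℕ) (h1 : e ≤ a) (h2 : b < e) :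
    jalt F e a b = (-1) ^ b * ((e - 1 - b).choose (a - e) : F) := by
  unfold jalt; rw [if_pos ⟨h1, h2⟩]

theorem jalt_II {F : Type*} [Field F] (e a b : ℕ) (h1 : a < e) (h2 : e ≤ b) :
    jalt F e a b = (-1) ^ (a + 1) * ((e - 1 - a).choose (b - e) : F) := by
  unfold jalt; rw [if_neg (by omega), if_pos ⟨h1, h2⟩]

theorem jalt_lt {F : Type*} [Field F] (e a b : ℕ) (h1 : a < e) (h2 : b < e) :
    jalt F e a b = 0 := by
  unfold jalt; rw [if_neg (by omega), if_neg (by omega)]

theorem jalt_ge {F : Type*} [Field F] (e a b : ℕ) (h1 : e ≤ a) (h2 : e ≤ b) :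
    jalt F e a b = 0 := by
  unfold jalt; rw [if_neg (by omega), if_neg (by omega)]

theorem jalt_zero_of_sum {F : Type*} [Field F] (e a b : ℕ) (h : e + e ≤ a + b) :
    jalt F e a b = 0 := by
  by_cases h1 : e ≤ a
  · by_cases h2 : b < e
    · rw [jalt_I e a b h1 h2, Nat.choose_eq_zero_of_lt (by omega)]; simp
    · exact jalt_ge e a b h1 (by omega)
  · by_cases h2 : e ≤ b
    · rw [jalt_II e a b (by omega) h2, Nat.choose_eq_zero_of_lt (by omega)]; simp
    · exact jalt_lt e a b (by omega) (by omega)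

theorem jalt_skew {F : Type*} [Field F] (e a b : ℕ) : jalt F e b a = -jalt F e a b := by
  by_cases h1 : e ≤ a
  · by_cases h2 : b < e
    · rw [jalt_I e a b h1 h2, jalt_II e b a h2 h1, pow_succ]; ring
    · rw [jalt_ge e a b h1 (by omega), jalt_ge e b a (by omega) h1, neg_zero]
  · by_cases h2 : e ≤ b
    · rw [jalt_II e a b (by omega) h2, jalt_I e b a h2 (by omega), pow_succ]; ring
    · rw [jalt_lt e a b (by omega) (by omega), jalt_lt e b a (by omega) (by omega), neg_zero]

theorem jalt_diag {F : Type*} [Field F] (e a : ℕ) : jalt F e a a = 0 := by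
  by_cases h1 : e ≤ a
  · exact jalt_ge e a a h1 h1
  · exact jalt_lt e a a (by omega) (by omega)

theorem jalt_anti {F : Type*} [Field F] (e a b : ℕ) (h : a + b + 1 = e + e) :
    jalt F e a b ≠ 0 := by
  by_cases h1 : e ≤ a
  · rw [jalt_I e a b h1 (by omega), show e - 1 - b = a - e by omega, Nat.choose_self]
    simp
  · rw [jalt_II e a b (by omega) (by omega), show e - 1 - a = b - e by omega, Nat.choose_self]
    simp

/-- Pascal's rule for the form: this is the invariance under the Jordan block -/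
theorem jalt_rec {F : Type*} [Field F] (e a b : ℕ) :
    jalt F e (a + 1) b + jalt F e a (b + 1) + jalt F e (a + 1) (b + 1) = 0 := by
  rcases lt_trichotomy (a + 1) e with ha | ha | ha
  · -- a + 1 < e
    rcases lt_trichotomy (b + 1) e with hb | hb | hb
    · rw [jalt_lt e _ _ ha (by omega), jalt_lt e _ _ (by omega) hb, jalt_lt e _ _ ha hb]; simp
    · rw [jalt_lt e _ _ ha (by omega), jalt_II e a (b + 1) (by omega) (by omega),
        jalt_II e (a + 1) (b + 1) ha (by omega), show b + 1 - e = 0 by omega,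
        Nat.choose_zero_right, Nat.choose_zero_right, pow_succ (-1 : F) (a + 1)]
      simp
    · obtain ⟨n, hn⟩ : ∃ n, e = a + 2 + n := ⟨e - (a + 2), by omega⟩
      obtain ⟨k, hk⟩ : ∃ k, b = e + k := ⟨b - e, by omega⟩
      rw [jalt_II e (a + 1) b ha (by omega), jalt_II e a (b + 1) (by omega) (by omega),
        jalt_II e (a + 1) (b + 1) ha (by omega), show e - 1 - (a + 1) = n by omega,
        show e - 1 - a = n + 1 by omega, show b - e = k by omega,
        show b + 1 - e = k + 1 by omega, Nat.choose_succ_succ, pow_succ (-1 : F) (a + 1)]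
      push_cast
      ring
  · -- a + 1 = e
    rcases lt_trichotomy (b + 1) e with hb | hb | hb
    · rw [jalt_I e (a + 1) b (by omega) (by omega), jalt_lt e a (b + 1) (by omega) hb,
        jalt_I e (a + 1) (b + 1) (by omega) hb, show a + 1 - e = 0 by omega,
        Nat.choose_zero_right, Nat.choose_zero_right, pow_succ (-1 : F) b]
      simp
    · rw [jalt_I e (a + 1) b (by omega) (by omega), jalt_II e a (b + 1) (by omega) (by omega),
        jalt_ge e (a + 1) (b + 1) (by omega) (by omega), show a + 1 - e = 0 by omega,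
        show b + 1 - e = 0 by omega, Nat.choose_zero_right, Nat.choose_zero_right,
        show a = b by omega, pow_succ (-1 : F) b]
      simp
    · rw [jalt_ge e (a + 1) b (by omega) (by omega), jalt_II e a (b + 1) (by omega) (by omega),
        jalt_ge e (a + 1) (b + 1) (by omega) (by omega),
        Nat.choose_eq_zero_of_lt (by omega)]
      simp
  · -- e < a + 1
    rcases lt_trichotomy (b + 1) e with hb | hb | hb
    · obtain ⟨n, hn⟩ : ∃ n, e = b + 2 + n := ⟨e - (b + 2), by omega⟩
      obtain ⟨k, hk⟩ : ∃ k, a = e + k := ⟨a - e, by omega⟩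
      rw [jalt_I e (a + 1) b (by omega) (by omega), jalt_I e a (b + 1) (by omega) hb,
        jalt_I e (a + 1) (b + 1) (by omega) hb, show e - 1 - (b + 1) = n by omega,
        show e - 1 - b = n + 1 by omega, show a - e = k by omega,
        show a + 1 - e = k + 1 by omega, Nat.choose_succ_succ, pow_succ (-1 : F) b]
      push_cast
      ring
    · rw [jalt_I e (a + 1) b (by omega) (by omega), jalt_ge e a (b + 1) (by omega) (by omega),
        jalt_ge e (a + 1) (b + 1) (by omega) (by omega),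
        Nat.choose_eq_zero_of_lt (by omega)]
      simp
    · rw [jalt_ge e _ _ (by omega) (by omega), jalt_ge e _ _ (by omega) (by omega),
        jalt_ge e _ _ (by omega) (by omega)]
      simp

theorem jsum_shift {F : Type*} [Field F] (d : ℕ) (f : ℕ → F) (hf : ∀ x, d ≤ x → f x = 0)
    (b : ℕ) : ∑ c : Fin d, f c * (if (c : ℕ) = b + 1 then 1 else 0) = f (b + 1) := by
  by_cases h : b + 1 < d
  · rw [Finset.sum_eq_single (⟨b + 1, h⟩ : Fin d)]
    · simp
    · intro c _ hc
      have : (c : ℕ) ≠ b + 1 := fun h' => hc (Fin.ext h')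
      rw [if_neg this, mul_zero]
    · intro h'; exact absurd (Finset.mem_univ _) h'
  · rw [hf (b + 1) (by omega)]
    apply Finset.sum_eq_zero
    intro c _
    have : (c : ℕ) ≠ b + 1 := by have := c.2; omega
    rw [if_neg this, mul_zero]

/-- the form as a matrix -/
def jaltM (F : Type*) [Field F] (e : ℕ) : Matrix (Fin (e + e)) (Fin (e + e)) F :=
  Matrix.of fun a b => jalt F e a b

theorem jaltM_apply {F : Type*} [Field F] (e : ℕ) (a b : Fin (e + e)) :
    jaltM F e a b = jalt F e a b := rfl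

theorem jaltM_left {F : Type*} [Field F] (e : ℕ) (a b : Fin (e + e)) :
    ((Helper11.joS F (e + e) 1)ᵀ * jaltM F e) a b = jalt F e (a + 1) b := by
  rw [Matrix.mul_apply]
  rw [← jsum_shift (e + e) (fun x => jalt F e x b)
    (fun x hx => jalt_zero_of_sum e x b (by omega)) a]
  apply Finset.sum_congr rfl
  intro c _
  rw [Matrix.transpose_apply, Helper11.joS_apply, jaltM_apply, mul_comm]

theorem jaltM_right {F : Type*} [Field F] (e : ℕ) (a b : Fin (e + e)) :
    (jaltM F e * Helper11.joS F (e + e) 1) a b = jalt F e a (b + 1) := by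
  rw [Matrix.mul_apply]
  rw [← jsum_shift (e + e) (fun x => jalt F e a x)
    (fun x hx => jalt_zero_of_sum e a x (by omega)) b]
  apply Finset.sum_congr rfl
  intro c _
  rw [Helper11.joS_apply, jaltM_apply]

theorem jaltM_both {F : Type*} [Field F] (e : ℕ) (a b : Fin (e + e)) :
    ((Helper11.joS F (e + e) 1)ᵀ * jaltM F e * Helper11.joS F (e + e) 1) a b =
      jalt F e (a + 1) (b + 1) := by
  rw [Matrix.mul_apply]
  rw [← jsum_shift (e + e) (fun x => jalt F e (a + 1) x)
    (fun x hx => jalt_zero_of_sum e (a + 1) x (by omega)) b]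
  apply Finset.sum_congr rfl
  intro c _
  rw [Helper11.joS_apply, jaltM_left]

theorem jaltM_det {F : Type*} [Field F] (e : ℕ) : (jaltM F e).det ≠ 0 := by
  intro h0
  have hperm := Matrix.det_permute' (Fin.revPerm : Equiv.Perm (Fin (e + e))) (jaltM F e)
  rw [h0, mul_zero] at hperm
  have hup : ((jaltM F e).submatrix id (Fin.revPerm : Equiv.Perm (Fin (e + e)))).IsUpperTriangular := by
    intro i j hji
    have hji' : (j : ℕ) < (i : ℕ) := hji
    rw [Matrix.submatrix_apply, jaltM_apply, id, Fin.revPerm_apply, Fin.val_rev]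
    apply jalt_zero_of_sum
    have := i.2
    have := j.2
    omega
  rw [Matrix.det_of_isUpperTriangular hup] at hperm
  have hne : ∀ i : Fin (e + e),
      ((jaltM F e).submatrix id (Fin.revPerm : Equiv.Perm (Fin (e + e)))) i i ≠ 0 := by
    intro i
    rw [Matrix.submatrix_apply, jaltM_apply, id, Fin.revPerm_apply, Fin.val_rev]
    apply jalt_anti
    have := i.2
    omega
  exact (Finset.prod_ne_zero_iff.mpr (fun i _ => hne i)) hperm

theorem jaltM_inv {F : Type*} [Field F] (e : ℕ) :
    (1 + Helper11.joS F (e + e) 1)ᵀ * jaltM F e * (1 + Helper11.joS F (e + e) 1) = jaltM F e := by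
  have hkey : (Helper11.joS F (e + e) 1)ᵀ * jaltM F e + jaltM F e * Helper11.joS F (e + e) 1 +
      (Helper11.joS F (e + e) 1)ᵀ * jaltM F e * Helper11.joS F (e + e) 1 = 0 := by
    ext a b
    rw [Matrix.add_apply, Matrix.add_apply, jaltM_left, jaltM_right, jaltM_both,
      Matrix.zero_apply, jalt_rec]
  calc (1 + Helper11.joS F (e + e) 1)ᵀ * jaltM F e * (1 + Helper11.joS F (e + e) 1)
      = jaltM F e + ((Helper11.joS F (e + e) 1)ᵀ * jaltM F e +
          jaltM F e * Helper11.joS F (e + e) 1 +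
          (Helper11.joS F (e + e) 1)ᵀ * jaltM F e * Helper11.joS F (e + e) 1) := by
        rw [Matrix.transpose_add, Matrix.transpose_one]
        noncomm_ring
    _ = jaltM F e := by rw [hkey, add_zero]

/-- A single Jordan block of even size preserves a nondegenerate alternating form, in every
characteristic. -/
theorem even_block_form {F : Type*} [Field F] (d : ℕ) (hd : Even d) :
    ∃ A M : Matrix (Fin d) (Fin d) F, Mᵀ = -M ∧ (∀ i, M i i = 0) ∧ M.det ≠ 0 ∧
      Aᵀ * M * A = M ∧ ∀ k, ((A - 1) ^ k).rank = d - k := by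
  obtain ⟨e, rfl⟩ := hd
  refine ⟨1 + Helper11.joS F (e + e) 1, jaltM F e, ?_, ?_, jaltM_det e, jaltM_inv e, ?_⟩
  · ext a b
    rw [Matrix.transpose_apply, Matrix.neg_apply, jaltM_apply, jaltM_apply, jalt_skew]
  · intro i
    rw [jaltM_apply, jalt_diag]
  · intro k
    rw [add_sub_cancel_left, Helper11.joS_pow, Helper11.joS_rank]

theorem jalt_upper {F : Type*} [Field F] (e : ℕ) :
    ∃ U : Matrix (Fin (e + e)) (Fin (e + e)) F, jaltM F e = U - Uᵀ := by
  refine ⟨Matrix.of fun a b => if (a : ℕ) < (b : ℕ) then jalt F e a b else 0, ?_⟩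
  ext a b
  rw [Matrix.sub_apply, Matrix.transpose_apply, Matrix.of_apply, Matrix.of_apply, jaltM_apply]
  rcases lt_trichotomy (a : ℕ) (b : ℕ) with h | h | h
  · rw [if_pos h, if_neg (by omega), sub_zero]
  · rw [if_neg (by omega), if_neg (by omega), sub_zero, h, jalt_diag]
  · rw [if_neg (by omega), if_pos h, zero_sub, jalt_skew]

theorem jalt_sub_transpose {F : Type*} [Field F] {n : Type*} [Fintype n] (U : Matrix n n F)
    (v : n → F) : v ⬝ᵥ (U - Uᵀ) *ᵥ v = 0 := by
  rw [Matrix.sub_mulVec, dotProduct_sub, Matrix.dotProduct_mulVec v Uᵀ v,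
    Matrix.vecMul_transpose, dotProduct_comm (U *ᵥ v) v, sub_self]

theorem even_block_form_alt {F : Type*} [Field F] (m : ℕ) :
    ∃ A M : Matrix (Fin m ⊕ Fin m) (Fin m ⊕ Fin m) F, (∀ v, v ⬝ᵥ M *ᵥ v = 0) ∧ M.det ≠ 0 ∧
      Aᵀ * M * A = M ∧ ∀ k, ((A - 1) ^ k).rank = 2 * m - k := by
  classical
  obtain ⟨U, hU⟩ := jalt_upper (F := F) m
  obtain ⟨φ, hφ⟩ : ∃ φ : Matrix (Fin (m + m)) (Fin (m + m)) F ≃ₐ[F]
      Matrix (Fin m ⊕ Fin m) (Fin m ⊕ Fin m) F,
      φ = Matrix.reindexAlgEquiv F F (finSumFinEquiv.symm : Fin (m + m) ≃ Fin m ⊕ Fin m) :=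
    ⟨_, rfl⟩
  have hT : ∀ X : Matrix (Fin (m + m)) (Fin (m + m)) F, (φ X)ᵀ = φ Xᵀ := by
    intro X
    rw [hφ, Matrix.coe_reindexAlgEquiv, Matrix.transpose_reindex]
  have hdet : ∀ X : Matrix (Fin (m + m)) (Fin (m + m)) F, (φ X).det = X.det := by
    intro X
    rw [hφ, Matrix.coe_reindexAlgEquiv, Matrix.det_reindex_self]
  have hrank : ∀ X : Matrix (Fin (m + m)) (Fin (m + m)) F, (φ X).rank = X.rank := by
    intro X
    rw [hφ, Matrix.coe_reindexAlgEquiv, Matrix.rank_reindex]
  refine ⟨φ (1 + Helper11.joS F (m + m) 1), φ (jaltM F m), ?_, ?_, ?_, ?_⟩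
  · intro v
    have h1 : φ (jaltM F m) = φ U - (φ U)ᵀ := by rw [hU, map_sub, hT]
    rw [h1]
    exact jalt_sub_transpose _ v
  · rw [hdet]; exact jaltM_det m
  · rw [hT, ← map_mul, ← map_mul, jaltM_inv]
  · intro k
    have h1 : (φ (1 + Helper11.joS F (m + m) 1) - 1) ^ k =
        φ ((1 + Helper11.joS F (m + m) 1 - 1) ^ k) := by
      rw [map_pow, map_sub, map_one]
    rw [h1, hrank, add_sub_cancel_left, Helper11.joS_pow, Helper11.joS_rank, two_mul]

end Cfsg.Agent.Helper7
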