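import Mathlib

set_option autoImplicit false
set_option linter.unusedSectionVars false
set_option linter.unusedVariables false

namespace Cfsg.Agent.Helper7

theorem sylow_of_torus {G : Type*} [Group G] [Finite G] (r : ℕ) [Fact r.Prime] (a e : ℕ)
    {C : Type*} [Group C] (hcyc : IsCyclic C) (hcard : Nat.card C = r ^ e)
    (φ : (Fin a → C) →* G) (hφ : Function.Injective φ)
    (hG : (Nat.card G).factorization r = a * e) (P : Sylow r G) :
    Nonempty (↥(P : Subgroup G) ≃* (Fin a → Multiplicative (ZMod (r ^ e)))) := by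
  classical
  have hT : Nat.card φ.range = r ^ (Nat.card G).factorization r := by
    rw [Nat.card_congr (MonoidHom.ofInjective hφ).symm.toEquiv, Nat.card_fun, Nat.card_fin,
      hcard, hG, ← pow_mul, mul_comm]
  have e1 : ↥(P : Subgroup G) ≃* ↥((Sylow.ofCard φ.range hT : Sylow r G) : Subgroup G) :=
    Sylow.equiv P (Sylow.ofCard φ.range hT)
  have e2 : ↥((Sylow.ofCard φ.range hT : Sylow r G) : Subgroup G) ≃* (Fin a → C) :=
    (MulEquiv.subgroupCongr (Sylow.coe_ofCard φ.range hT)).trans (MonoidHom.ofInjective hφ).symm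
  have e3 : C ≃* Multiplicative (ZMod (r ^ e)) := by
    rw [← hcard]
    exact (zmodCyclicMulEquiv hcyc).symm
  exact ⟨e1.trans (e2.trans (MulEquiv.piCongrRight fun _ => e3))⟩

theorem sylow_of_embed {G H : Type*} [Group G] [Group H] [Finite G] [Finite H] (r : ℕ)
    [Fact r.Prime] (ι : G →* H) (hι : Function.Injective ι)
    (hcard : (Nat.card G).factorization r = (Nat.card H).factorization r) (P : Sylow r G) :
    ∃ Q : Sylow r H, Nonempty (↥(P : Subgroup G) ≃* ↥(Q : Subgroup H)) := by
  have hT : Nat.card ((P : Subgroup G).map ι) = r ^ (Nat.card H).factorization r := by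
    rw [← hcard, ← Sylow.card_eq_multiplicity P]
    exact Nat.card_congr ((P : Subgroup G).equivMapOfInjective ι hι).symm.toEquiv
  exact ⟨Sylow.ofCard _ hT, ⟨((P : Subgroup G).equivMapOfInjective ι hι).trans
    (MulEquiv.subgroupCongr (Sylow.coe_ofCard _ hT).symm)⟩⟩

theorem exists_sylow_units {F : Type*} [Field F] [Fintype F] (r : ℕ) [Fact r.Prime] (a : ℕ) :
    ∃ (C : Subgroup Fˣ), IsCyclic C ∧
      Nat.card C = r ^ (Fintype.card F - 1).factorization r ∧
      ∃ φ : (Fin a → C) →* (Fin a → Fˣ), Function.Injective φ := by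
  classical
  let S : Sylow r Fˣ := default
  refine ⟨(S : Subgroup Fˣ), Subgroup.isCyclic _, ?_, ?_⟩
  · rw [Sylow.card_eq_multiplicity, Nat.card_units, Nat.card_eq_fintype_card]
  · refine ⟨MonoidHom.pi fun i => (S : Subgroup Fˣ).subtype.comp
        (Pi.evalMonoidHom (fun _ => ↥(S : Subgroup Fˣ)) i), ?_⟩
    intro u v huv
    funext i
    exact Subtype.ext (congrFun huv i)

end Cfsg.Agent.Helper7
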