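import Mathlib
import Cfsg.Agent.Helper7.GLSyl
import Cfsg.Agent.Helper7.SylGen

set_option autoImplicit false
set_option linter.unusedSectionVars false
set_option linter.unusedVariables false

namespace Cfsg.Agent.Helper7

section slsyl

variable {F : Type*} [Field F] [Fintype F]

theorem sl_range_toGL (n : ℕ) :
    (Matrix.SpecialLinearGroup.toGL : Matrix.SpecialLinearGroup (Fin n) F →* GL (Fin n) F).range
      = (Matrix.GeneralLinearGroup.det : GL (Fin n) F →* Fˣ).ker := by
  ext g
  rw [MonoidHom.mem_range, MonoidHom.mem_ker]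
  constructor
  · rintro ⟨s, rfl⟩
    apply Units.ext
    rw [Matrix.GeneralLinearGroup.val_det_apply]
    exact s.2
  · intro h
    have h1 := congrArg Units.val h
    rw [Matrix.GeneralLinearGroup.val_det_apply] at h1
    exact ⟨⟨(g : Matrix (Fin n) (Fin n) F), h1⟩, Units.ext rfl⟩

theorem card_GL_SL (n : ℕ) :
    Nat.card (Matrix.SpecialLinearGroup (Fin n) F) *
      Nat.card (Matrix.GeneralLinearGroup.det : GL (Fin n) F →* Fˣ).range
      = Nat.card (GL (Fin n) F) := by
  have h1 := Subgroup.card_mul_index (Matrix.GeneralLinearGroup.det : GL (Fin n) F →* Fˣ).ker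
  rw [Subgroup.index_ker, ← sl_range_toGL] at h1
  rw [← h1]
  congr 1
  exact Nat.card_congr (MonoidHom.ofInjective Matrix.SpecialLinearGroup.toGL_injective).toEquiv

theorem det_surj_succ (m : ℕ) :
    Function.Surjective (Matrix.GeneralLinearGroup.det : GL (Fin (m + 1)) F →* Fˣ) := by
  classical
  intro u
  have hdet : (Matrix.diagonal (Fin.cons (u : F) (fun _ => 1) : Fin (m + 1) → F)).det
      = (u : F) := by
    rw [Matrix.det_diagonal, Fin.prod_univ_succ]
    simp
  refine ⟨Matrix.GeneralLinearGroup.mkOfDetNeZero _ (by rw [hdet]; exact u.ne_zero), ?_⟩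
  apply Units.ext
  rw [Matrix.GeneralLinearGroup.val_det_apply]
  exact hdet

theorem exists_sl_diag (m : ℕ) :
    ∃ ψ : (Fin m → Fˣ) →* Matrix.SpecialLinearGroup (Fin (m + 1)) F, Function.Injective ψ := by
  classical
  have hdet : ∀ u : Fin m → Fˣ, (Matrix.diagonal
      (Fin.cons (((∏ i, u i)⁻¹ : Fˣ) : F) (fun i => (u i : F)) : Fin (m + 1) → F)).det = 1 := by
    intro u
    rw [Matrix.det_diagonal, Fin.prod_univ_succ]
    simp only [Fin.cons_zero, Fin.cons_succ]
    rw [← Units.coe_prod, ← Units.val_mul, inv_mul_cancel, Units.val_one]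
  refine ⟨{ toFun := fun u => ⟨_, hdet u⟩, map_one' := ?_, map_mul' := ?_ }, ?_⟩
  · apply Subtype.ext
    show Matrix.diagonal _ = 1
    rw [← Matrix.diagonal_one]
    congr 1
    funext i
    refine Fin.cases ?_ (fun j => ?_) i <;> simp
  · intro u v
    apply Subtype.ext
    show Matrix.diagonal _ = Matrix.diagonal _ * Matrix.diagonal _
    rw [Matrix.diagonal_mul_diagonal]
    congr 1
    funext i
    refine Fin.cases ?_ (fun j => ?_) i
    · simp [Finset.prod_mul_distrib, mul_comm]
    · simp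
  · intro u v huv
    have h1 := congrArg Subtype.val huv
    have h2 := Matrix.diagonal_injective h1
    funext i
    have h3 := congrFun h2 i.succ
    simp only [Fin.cons_succ] at h3
    exact Units.ext h3

theorem count_Icc_two (n d : ℕ) (hd : 2 ≤ d) :
    ((Finset.Icc 2 n).filter (fun i => d ∣ i)).card = n / d := by
  rw [← Nat.Ioc_filter_dvd_card_eq_div]
  congr 1
  ext i
  simp only [Finset.mem_filter, Finset.mem_Icc, Finset.mem_Ioc]
  constructor
  · rintro ⟨⟨h1, h2⟩, h3⟩
    exact ⟨⟨by omega, h2⟩, h3⟩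
  · rintro ⟨⟨h1, h2⟩, h3⟩
    exact ⟨⟨le_trans hd (Nat.le_of_dvd h1 h3), h2⟩, h3⟩

theorem sl_sylow {q : ℕ} (hq : Fintype.card F = q) (n : ℕ)
    (r : ℕ) [Fact r.Prime] (hrn : n < r) (hrq : ¬ r ∣ q)
    (P : Sylow r (Matrix.SpecialLinearGroup (Fin n) F)) :
    Nonempty (↥(P : Subgroup (Matrix.SpecialLinearGroup (Fin n) F)) ≃*
      (Fin ((Finset.Icc 2 n).filter (fun i => orderOf (q : ZMod r) ∣ i)).card →
        Multiplicative (ZMod (r ^ padicValNat r
          ((Polynomial.cyclotomic (orderOf (q : ZMod r)) ℤ).eval (q : ℤ)).natAbs)))) := by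
  classical
  subst hq
  have hq2 : 2 ≤ Fintype.card F := Fintype.one_lt_card
  have hd0 := orderOf_pos_zmod (r := r) (Fintype.card F) hrq
  have hcard := card_GL_SL (F := F) n
  have hSLne : Nat.card (Matrix.SpecialLinearGroup (Fin n) F) ≠ 0 := Nat.card_pos.ne'
  have hRne : Nat.card (Matrix.GeneralLinearGroup.det : GL (Fin n) F →* Fˣ).range ≠ 0 :=
    Nat.card_pos.ne'
  have hfac : (Nat.card (GL (Fin n) F)).factorization r =
      (Nat.card (Matrix.SpecialLinearGroup (Fin n) F)).factorization r +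
        (Nat.card (Matrix.GeneralLinearGroup.det : GL (Fin n) F →* Fˣ).range).factorization r := by
    rw [← hcard, Nat.factorization_mul hSLne hRne, Finsupp.add_apply]
  have hcyc := fact_cyclo (r := r) (Fintype.card F) hq2 hrq
  have hGL := fact_GL (r := r) (Fintype.card F) n hq2 hrq
    (lt_of_le_of_lt (Nat.div_le_self _ _) hrn)
  rw [← Matrix.card_GL_field] at hGL
  have hGLsyl := fun Q : Sylow r (GL (Fin n) F) => gl_sylow (F := F) rfl n r hrn hrq Q
  generalize padicValNat r ((Polynomial.cyclotomic (orderOf ((Fintype.card F : ℕ) : ZMod r)) ℤ).eval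
    ((Fintype.card F : ℕ) : ℤ)).natAbs = e at hcyc hGL hGLsyl ⊢
  by_cases hd : orderOf ((Fintype.card F : ℕ) : ZMod r) = 1
  · rw [hd, pow_one] at hcyc
    rw [hd, Nat.div_one] at hGL
    rcases n with _ | m
    · have hc : ((Finset.Icc 2 0).filter
          (fun i => orderOf ((Fintype.card F : ℕ) : ZMod r) ∣ i)).card = 0 := by simp
      rw [hc]
      have : Subsingleton (Matrix.SpecialLinearGroup (Fin 0) F) :=
        ⟨fun a b => Subtype.ext (Subsingleton.elim _ _)⟩
      haveI : Unique ↥(P : Subgroup (Matrix.SpecialLinearGroup (Fin 0) F)) :=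
        { default := 1, uniq := fun a => Subtype.ext (Subsingleton.elim _ _) }
      exact ⟨MulEquiv.ofUnique⟩
    · have hc : ((Finset.Icc 2 (m + 1)).filter
          (fun i => orderOf ((Fintype.card F : ℕ) : ZMod r) ∣ i)).card = m := by
        rw [hd]
        simp
      rw [hc]
      obtain ⟨C, hCcyc, hCcard, φ, hφ⟩ := exists_sylow_units (F := F) r m
      obtain ⟨ψ, hψ⟩ := exists_sl_diag (F := F) m
      rw [hcyc] at hCcard
      refine sylow_of_torus r m e hCcyc hCcard (ψ.comp φ) (hψ.comp hφ) ?_ P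
      have hR : Nat.card (Matrix.GeneralLinearGroup.det : GL (Fin (m + 1)) F →* Fˣ).range
          = Fintype.card F - 1 := by
        rw [MonoidHom.range_eq_top.mpr (det_surj_succ m), Subgroup.card_top, Nat.card_units,
          Nat.card_eq_fintype_card]
      rw [hR, hcyc, hGL, Nat.succ_mul] at hfac
      exact (Nat.add_right_cancel hfac).symm
  · have hd2 : 2 ≤ orderOf ((Fintype.card F : ℕ) : ZMod r) := by omega
    rw [count_Icc_two n _ hd2]
    have hR : ¬ r ∣ Nat.card (Matrix.GeneralLinearGroup.det : GL (Fin n) F →* Fˣ).range := by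
      intro h
      have h1 : Nat.card (Matrix.GeneralLinearGroup.det : GL (Fin n) F →* Fˣ).range ∣
          Nat.card Fˣ := Subgroup.card_subgroup_dvd_card _
      rw [Nat.card_units, Nat.card_eq_fintype_card (α := F)] at h1
      have h2 := (dvd_pow_sub_one_iff (r := r) (Fintype.card F) hq2 1).mp
        (by rw [pow_one]; exact h.trans h1)
      exact hd (Nat.dvd_one.mp h2)
    rw [Nat.factorization_eq_zero_of_not_dvd hR, add_zero] at hfac
    obtain ⟨Q, ⟨e1⟩⟩ := sylow_of_embed r (Matrix.SpecialLinearGroup.toGL :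
      Matrix.SpecialLinearGroup (Fin n) F →* GL (Fin n) F)
      Matrix.SpecialLinearGroup.toGL_injective hfac.symm P
    obtain ⟨e2⟩ := hGLsyl Q
    exact ⟨e1.trans e2⟩

end slsyl

end Cfsg.Agent.Helper7
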