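import Mathlib
import Cfsg.Agent.Helper7.GLSyl
import Cfsg.Agent.Helper7.SylGen
import Cfsg.Agent.Helper15.SpCard

set_option autoImplicit false
set_option linter.unusedSectionVars false
set_option linter.unusedVariables false

namespace Cfsg.Agent.Helper7

section spnt

variable {r : ℕ} [hr : Fact r.Prime]

theorem fact_Sp (q n : ℕ) (hq2 : 2 ≤ q) (hrq : ¬ r ∣ q) (hr2 : r ≠ 2) (hnr : n < r) :
    (q ^ (n ^ 2) * ∏ i : Fin n, (q ^ (2 * ((i : ℕ) + 1)) - 1)).factorization r =
      ((Finset.Icc 1 n).filter (fun i => orderOf (q : ZMod r) ∣ 2 * i)).card *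
        padicValNat r ((Polynomial.cyclotomic (orderOf (q : ZMod r)) ℤ).eval (q : ℤ)).natAbs := by
  have hterm : ∀ i : Fin n, q ^ (2 * ((i : ℕ) + 1)) - 1 ≠ 0 := by
    intro i
    have : 2 ≤ q ^ (2 * ((i : ℕ) + 1)) := by
      calc 2 ≤ q := hq2
        _ = q ^ 1 := (pow_one _).symm
        _ ≤ q ^ (2 * ((i : ℕ) + 1)) := Nat.pow_le_pow_right (by omega) (by omega)
    omega
  have hprod : (∏ i : Fin n, (q ^ (2 * ((i : ℕ) + 1)) - 1)) ≠ 0 :=
    Finset.prod_ne_zero_iff.mpr (fun i _ => hterm i)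
  rw [Nat.factorization_mul (pow_ne_zero _ (by omega)) hprod, Finsupp.add_apply,
    Nat.factorization_pow, Finsupp.smul_apply, Nat.factorization_eq_zero_of_not_dvd hrq,
    smul_zero, zero_add, Nat.factorization_prod (fun i _ => hterm i), Finsupp.finsetSum_apply]
  have hfi : ∀ i : Fin n, (q ^ (2 * ((i : ℕ) + 1)) - 1).factorization r =
      if orderOf (q : ZMod r) ∣ 2 * ((i : ℕ) + 1) then
        (q ^ orderOf (q : ZMod r) - 1).factorization r else 0 := by
    intro i
    have hi := i.2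
    apply fact_qj q hq2 hrq _ (by omega)
    intro c hc hrc
    have h1 : r ∣ 2 * ((i : ℕ) + 1) := by
      rw [hc]
      exact Dvd.dvd.mul_left hrc _
    rcases (Nat.Prime.dvd_mul hr.out).mp h1 with h2 | h2
    · have h3 := Nat.le_of_dvd (by omega) h2
      have h4 := hr.out.two_le
      omega
    · have h3 := Nat.le_of_dvd (by omega) h2
      omega
  simp only [hfi]
  rw [Fin.sum_univ_eq_sum_range (fun i => if orderOf (q : ZMod r) ∣ 2 * (i + 1) then
      (q ^ orderOf (q : ZMod r) - 1).factorization r else 0) n,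
    Finset.sum_ite, Finset.sum_const_zero, add_zero, Finset.sum_const, smul_eq_mul,
    fact_cyclo q hq2 hrq]
  congr 1
  refine Finset.card_bij (fun i _ => i + 1) ?_ ?_ ?_
  · intro i hi
    simp only [Finset.mem_filter, Finset.mem_range, Finset.mem_Icc] at hi ⊢
    exact ⟨⟨by omega, by omega⟩, hi.2⟩
  · intro i _ j _ h
    simpa using h
  · intro j hj
    simp only [Finset.mem_filter, Finset.mem_Icc] at hj
    have hj1 : j - 1 + 1 = j := by omega
    refine ⟨j - 1, ?_, hj1⟩
    simp only [Finset.mem_filter, Finset.mem_range]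
    rw [hj1]
    exact ⟨by omega, hj.2⟩

theorem count_sp_odd (n d : ℕ) (hd : Odd d) :
    ((Finset.Icc 1 n).filter (fun i => d ∣ 2 * i)).card = n / d := by
  rw [← Nat.Ioc_filter_dvd_card_eq_div]
  congr 1
  ext i
  simp only [Finset.mem_filter, Finset.mem_Icc, Finset.mem_Ioc]
  have hcop : Nat.Coprime d 2 := (Nat.coprime_two_left.mpr hd).symm
  constructor
  · rintro ⟨⟨h1, h2⟩, h3⟩
    exact ⟨⟨by omega, h2⟩, hcop.dvd_of_dvd_mul_left h3⟩
  · rintro ⟨⟨h1, h2⟩, h3⟩
    exact ⟨⟨by omega, h2⟩, Dvd.dvd.mul_left h3 2⟩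

theorem count_sp_even (n d : ℕ) (hd : Even d) (hd0 : 0 < d) :
    ((Finset.Icc 1 n).filter (fun i => d ∣ 2 * i)).card = (n + n) / d := by
  obtain ⟨c, rfl⟩ := hd
  have hc0 : 0 < c := by omega
  have e1 : (n + n) / (c + c) = n / c := by
    rw [← two_mul, ← two_mul, Nat.mul_div_mul_left _ _ (by norm_num)]
  rw [e1, ← Nat.Ioc_filter_dvd_card_eq_div]
  congr 1
  ext i
  simp only [Finset.mem_filter, Finset.mem_Icc, Finset.mem_Ioc]
  rw [← two_mul, Nat.mul_dvd_mul_iff_left (by norm_num)]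
  constructor <;> rintro ⟨⟨h1, h2⟩, h3⟩ <;> exact ⟨⟨by omega, h2⟩, h3⟩

end spnt

section spsyl

variable {F : Type*} [Field F] [Fintype F]

theorem exists_hyp_embed (n : ℕ) :
    ∃ ψ : GL (Fin n) F →* ↥(Matrix.symplecticGroup (Fin n) F), Function.Injective ψ := by
  classical
  have hmem : ∀ g : GL (Fin n) F, Matrix.fromBlocks (g : Matrix (Fin n) (Fin n) F) 0 0
      (Matrix.transpose ((g⁻¹ : GL (Fin n) F) : Matrix (Fin n) (Fin n) F)) ∈
        Matrix.symplecticGroup (Fin n) F := by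
    intro g
    rw [SymplecticGroup.mem_iff, Matrix.J, Matrix.fromBlocks_transpose,
      Matrix.fromBlocks_multiply, Matrix.fromBlocks_multiply]
    simp only [Matrix.transpose_transpose, Matrix.transpose_zero, Matrix.mul_zero,
      Matrix.zero_mul, Matrix.mul_neg, Matrix.mul_one, zero_add, add_zero, neg_zero,
      Matrix.neg_mul]
    rw [← Matrix.transpose_mul, ← Units.val_mul, mul_inv_cancel, Units.val_one,
      Matrix.transpose_one]
  refine ⟨{ toFun := fun g => ⟨_, hmem g⟩, map_one' := ?_, map_mul' := ?_ }, ?_⟩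
  · apply Subtype.ext
    show Matrix.fromBlocks _ _ _ _ = 1
    rw [← Matrix.fromBlocks_one]
    simp
  · intro g h
    apply Subtype.ext
    show Matrix.fromBlocks _ _ _ _ = Matrix.fromBlocks _ _ _ _ * Matrix.fromBlocks _ _ _ _
    rw [Matrix.fromBlocks_multiply]
    simp [mul_inv_rev, Matrix.transpose_mul]
  · intro g h hgh
    have h1 := congrArg Subtype.val hgh
    have h2 := (Matrix.fromBlocks_inj.mp h1).1
    exact Units.ext h2

theorem exists_sp_embed (n : ℕ) :
    ∃ ι : ↥(Matrix.symplecticGroup (Fin n) F) →* GL (Fin (n + n)) F, Function.Injective ι := by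
  classical
  let h1 : ↥(Matrix.symplecticGroup (Fin n) F) →* (↥(Matrix.symplecticGroup (Fin n) F))ˣ :=
    toUnits.toMonoidHom
  let h2 : (↥(Matrix.symplecticGroup (Fin n) F))ˣ →*
      (Matrix (Fin n ⊕ Fin n) (Fin n ⊕ Fin n) F)ˣ :=
    Units.map (Matrix.symplecticGroup (Fin n) F).subtype
  let h3 : (Matrix (Fin n ⊕ Fin n) (Fin n ⊕ Fin n) F)ˣ →*
      (Matrix (Fin (n + n)) (Fin (n + n)) F)ˣ :=
    Units.map (Matrix.reindexAlgEquiv F F finSumFinEquiv).toMulEquiv.toMonoidHom
  have i1 : Function.Injective h1 := toUnits.injective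
  have i2 : Function.Injective h2 := Units.map_injective Subtype.val_injective
  have i3 : Function.Injective h3 :=
    Units.map_injective (Matrix.reindexAlgEquiv F F finSumFinEquiv).injective
  exact ⟨h3.comp (h2.comp h1), i3.comp (i2.comp i1)⟩

theorem sp_sylow {q : ℕ} (hq : Fintype.card F = q) (n : ℕ)
    (r : ℕ) [Fact r.Prime] (hr2 : r ≠ 2) (hrn : n < r) (hrq : ¬ r ∣ q)
    (P : Sylow r ↥(Matrix.symplecticGroup (Fin n) F)) :
    Nonempty (↥(P : Subgroup ↥(Matrix.symplecticGroup (Fin n) F)) ≃*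
      (Fin ((Finset.Icc 1 n).filter (fun i => orderOf (q : ZMod r) ∣ 2 * i)).card →
        Multiplicative (ZMod (r ^ padicValNat r
          ((Polynomial.cyclotomic (orderOf (q : ZMod r)) ℤ).eval (q : ℤ)).natAbs)))) := by
  classical
  subst hq
  have hq2 : 2 ≤ Fintype.card F := Fintype.one_lt_card
  have hd0 := orderOf_pos_zmod (r := r) (Fintype.card F) hrq
  have hSp := fact_Sp (r := r) (Fintype.card F) n hq2 hrq hr2 hrn
  rw [← Cfsg.Agent.Helper15.card_symplecticGroup (F := F) rfl n] at hSp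
  rcases Nat.even_or_odd (orderOf ((Fintype.card F : ℕ) : ZMod r)) with hev | hodd
  · have hcount := count_sp_even n _ hev hd0
    have hdiv : (n + n) / orderOf ((Fintype.card F : ℕ) : ZMod r) < r := by
      have hd2 : 2 ≤ orderOf ((Fintype.card F : ℕ) : ZMod r) := by
        obtain ⟨c, hc⟩ := hev
        omega
      have h3 : (n + n) / orderOf ((Fintype.card F : ℕ) : ZMod r) ≤ n :=
        Nat.div_le_of_le_mul (by nlinarith)
      omega
    have hGL := fact_GL (r := r) (Fintype.card F) (n + n) hq2 hrq hdiv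
    rw [← Matrix.card_GL_field] at hGL
    rw [hcount] at hSp ⊢
    obtain ⟨ι, hι⟩ := exists_sp_embed (F := F) n
    obtain ⟨Q, ⟨e1⟩⟩ := sylow_of_embed r ι hι (hSp.trans hGL.symm) P
    obtain ⟨e2⟩ := gl_sylow_gen (F := F) rfl (n + n) r hdiv hrq Q
    exact ⟨e1.trans e2⟩
  · have hcount := count_sp_odd n _ hodd
    rw [hcount] at hSp ⊢
    obtain ⟨C, _, hcyc, hcard, φ, hφ⟩ := exists_torus (F := F) n
      (orderOf ((Fintype.card F : ℕ) : ZMod r)) (n / orderOf ((Fintype.card F : ℕ) : ZMod r)) hd0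
      (Nat.div_mul_le_self n _) r
    rw [fact_cyclo (r := r) (Fintype.card F) hq2 hrq] at hcard
    obtain ⟨ψ, hψ⟩ := exists_hyp_embed (F := F) n
    exact sylow_of_torus r _ _ hcyc hcard (ψ.comp φ) (hψ.comp hφ) hSp P

end spsyl

end Cfsg.Agent.Helper7
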