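import Cfsg.Prelude.Def_SteinbergCover

set_option autoImplicit false
set_option linter.unusedSectionVars false
set_option linter.unusedVariables false
open Cfsg

namespace Cfsg.Agent.Helper7

open Cfsg.Lie

def w1ok (D : ChevalleyDatum) (u r s : ℕ) : Bool :=
  decide (r < D.nroots) && decide (s < D.nroots) && decide (s ≠ r) && decide (s ≠ D.neg r) &&
    (decide (D.commTerms r s = [(u, 1, 1, 1)]) || decide (D.commTerms r s = [(u, -1, 1, 1)]))

def w2ok (D : ChevalleyDatum) (wit : List (ℕ × ℕ)) (u r s : ℕ) : Bool :=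
  decide (r < D.nroots) && decide (s < D.nroots) && decide (s ≠ r) && decide (s ≠ D.neg r) &&
    match D.commTerms r s with
    | e1 :: e2 :: rest =>
        (decide (u = e1.1) || decide (u = e2.1)) &&
        (decide (e1.2.1 = 1) || decide (e1.2.1 = -1)) &&
        (decide (e2.2.1 = 1) || decide (e2.2.1 = -1)) &&
        decide (e1.2.2 = (1, 1)) && decide (e2.2.2 = (1, 2)) &&
        rest.all fun e => w1ok D e.1 (wit.getD e.1 (0, 0)).1 (wit.getD e.1 (0, 0)).2
    | _ => false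

def stPerfOK (D : ChevalleyDatum) (two : Bool) (wit : List (ℕ × ℕ)) : Bool :=
  (List.range D.nroots).all fun u =>
    w1ok D u (wit.getD u (0, 0)).1 (wit.getD u (0, 0)).2 ||
      (two && w2ok D wit u (wit.getD u (0, 0)).1 (wit.getD u (0, 0)).2)

section sem

variable {K : Type*} [Field K]

noncomputable def abX (D : ChevalleyDatum) (r : ℕ) (t : K) :
    Abelianization (D.SteinbergCover K) :=
  Abelianization.of (D.scGen K r t)

theorem abX_ge (D : ChevalleyDatum) {r : ℕ} (hr : ¬ r < D.nroots) (t : K) : abX D r t = 1 := by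
  unfold abX ChevalleyDatum.scGen ChevalleyDatum.stX
  rw [dif_neg hr, map_one, map_one]

theorem abX_add (D : ChevalleyDatum) (r : ℕ) (t₁ t₂ : K) :
    abX D r (t₁ + t₂) = abX D r t₁ * abX D r t₂ := by
  by_cases hr : r < D.nroots
  · unfold abX
    rw [← map_mul]
    congr 1
    unfold ChevalleyDatum.scGen
    rw [← map_mul]
    symm
    apply PresentedGroup.mk_eq_mk_of_mul_inv_mem
    exact Or.inl ⟨r, t₁, t₂, hr, rfl⟩
  · rw [abX_ge D hr, abX_ge D hr, abX_ge D hr, mul_one]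

theorem abX_comm (D : ChevalleyDatum) {r s : ℕ} (hr : r < D.nroots) (hs : s < D.nroots)
    (h1 : s ≠ r) (h2 : s ≠ D.neg r) (t u : K) :
    ((D.commWord K r s t u).map fun p => abX D p.1 p.2).prod = 1 := by
  have hrel : (D.stX s u)⁻¹ * (D.stX r t)⁻¹ * D.stX s u * D.stX r t *
      (D.stWord (D.commWord K r s t u))⁻¹ ∈ D.steinbergRelsAB K :=
    Or.inr ⟨r, s, t, u, hr, hs, h1, h2, rfl⟩
  have h := PresentedGroup.one_of_mem hrel
  have h3 := congrArg (Abelianization.of (G := D.SteinbergCover K)) h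
  simp only [map_mul, map_inv, map_one] at h3
  rw [mul_inv_eq_one] at h3
  have h4 : Abelianization.of (PresentedGroup.mk (D.steinbergRelsAB K)
      (D.stWord (D.commWord K r s t u))) = 1 := by
    rw [← h3]
    generalize Abelianization.of (PresentedGroup.mk (D.steinbergRelsAB K) (D.stX s u)) = a
    generalize Abelianization.of (PresentedGroup.mk (D.steinbergRelsAB K) (D.stX r t)) = b
    calc a⁻¹ * b⁻¹ * a * b = (a⁻¹ * a) * (b⁻¹ * b) := by ac_rfl
      _ = 1 := by rw [inv_mul_cancel, inv_mul_cancel, one_mul]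
  unfold ChevalleyDatum.stWord at h4
  rw [map_list_prod, map_list_prod, List.map_map, List.map_map] at h4
  exact h4

theorem abX_w1 (D : ChevalleyDatum) {u r s : ℕ} (h : w1ok D u r s = true) (t : K) :
    abX D u t = 1 := by
  unfold w1ok at h
  simp only [Bool.and_eq_true, Bool.or_eq_true, decide_eq_true_eq] at h
  obtain ⟨⟨⟨⟨hr, hs⟩, h1⟩, h2⟩, hc⟩ := h
  rcases hc with hc | hc
  · have e := abX_comm D hr hs h1 h2 (-t) (1 : K)
    unfold ChevalleyDatum.commWord at e
    rw [hc] at e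
    simp only [List.map_cons, List.map_nil, List.prod_cons, List.prod_nil, mul_one] at e
    have e2 : ((1 : ℤ) : K) * (-(-t)) ^ 1 * (1 : K) ^ 1 = t := by simp
    rw [e2] at e
    exact e
  · have e := abX_comm D hr hs h1 h2 t (1 : K)
    unfold ChevalleyDatum.commWord at e
    rw [hc] at e
    simp only [List.map_cons, List.map_nil, List.prod_cons, List.prod_nil, mul_one] at e
    have e2 : ((-1 : ℤ) : K) * (-t) ^ 1 * (1 : K) ^ 1 = t := by simp
    rw [e2] at e
    exact e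

theorem ab_kill {Q : Type*} [CommGroup Q] (A B : K → Q) (hA : ∀ x y, A (x + y) = A x * A y)
    (hB : ∀ x y, B (x + y) = B x * B y) (c₁ c₂ : K) (h1 : c₁ * c₁ = 1) (h2 : c₂ * c₂ = 1)
    (E : ∀ t u : K, A (c₁ * t * u) * B (c₂ * t * (u * u)) = 1) (x₀ : K) (hx0 : x₀ ≠ 0)
    (hx1 : x₀ ≠ 1) : (∀ s, A s = 1) ∧ (∀ s, B s = 1) := by
  have hBs : ∀ s, B s = 1 := by
    intro s
    have hd : x₀ * x₀ - x₀ ≠ 0 := by
      intro h
      have h' : x₀ * (x₀ - 1) = 0 := by linear_combination h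
      rcases mul_eq_zero.mp h' with h | h
      · exact hx0 h
      · exact hx1 (sub_eq_zero.mp h)
    obtain ⟨t, htd⟩ : ∃ t : K, t * (x₀ * x₀ - x₀) = c₂ * s :=
      ⟨c₂ * s / (x₀ * x₀ - x₀), div_mul_cancel₀ _ hd⟩
    have e1 := E t x₀
    have e2 := E (t * x₀) 1
    have ea : c₁ * (t * x₀) * 1 = c₁ * t * x₀ := by ring
    rw [ea] at e2
    have e3 : B (c₂ * t * (x₀ * x₀)) = B (c₂ * (t * x₀) * (1 * 1)) :=
      mul_left_cancel (e1.trans e2.symm)
    have e4 : c₂ * t * (x₀ * x₀) = s + c₂ * (t * x₀) * (1 * 1) := by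
      linear_combination c₂ * htd + s * h2
    rw [e4, hB] at e3
    exact mul_eq_right.mp e3
  refine ⟨?_, hBs⟩
  intro s
  have e := E (c₁ * s) 1
  rw [hBs, mul_one] at e
  have e5 : c₁ * (c₁ * s) * 1 = s := by rw [mul_one, ← mul_assoc, h1, one_mul]
  rwa [e5] at e

theorem abX_w2 (D : ChevalleyDatum) (wit : List (ℕ × ℕ)) {u r s : ℕ}
    (h : w2ok D wit u r s = true) (x₀ : K) (hx0 : x₀ ≠ 0) (hx1 : x₀ ≠ 1) (t : K) :
    abX D u t = 1 := by
  unfold w2ok at h
  rw [Bool.and_eq_true, Bool.and_eq_true, Bool.and_eq_true, Bool.and_eq_true] at h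
  obtain ⟨⟨⟨⟨hr, hs⟩, h1⟩, h2⟩, hm⟩ := h
  rw [decide_eq_true_eq] at hr hs h1 h2
  have hcomm := fun t u : K => abX_comm D hr hs h1 h2 t u
  unfold ChevalleyDatum.commWord at hcomm
  rcases hct : D.commTerms r s with _ | ⟨e1, _ | ⟨e2, rest⟩⟩
  · rw [hct] at hm
    exact absurd hm (by simp)
  · rw [hct] at hm
    exact absurd hm (by simp)
  · rw [hct] at hm hcomm
    simp only [Bool.and_eq_true, Bool.or_eq_true, decide_eq_true_eq, List.all_eq_true] at hm
    obtain ⟨⟨⟨⟨⟨hu, hc1⟩, hc2⟩, hij1⟩, hij2⟩, hrest⟩ := hm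
    have hrest1 : ∀ (t u : K), ((rest.map fun c : ℕ × ℤ × ℕ × ℕ =>
        (c.1, ((c.2.1 : ℤ) : K) * (-t) ^ c.2.2.1 * u ^ c.2.2.2)).map
          fun p => abX D p.1 p.2).prod = 1 := by
      intro t u
      apply List.prod_eq_one
      intro x hx
      rw [List.map_map, List.mem_map] at hx
      obtain ⟨e, he, rfl⟩ := hx
      exact abX_w1 D (hrest e he) _
    have hE : ∀ t u : K, abX D e1.1 (-((e1.2.1 : ℤ) : K) * t * u) *
        abX D e2.1 (-((e2.2.1 : ℤ) : K) * t * (u * u)) = 1 := by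
      intro t u
      have e := hcomm t u
      rw [List.map_cons, List.map_cons, List.map_cons, List.map_cons, List.prod_cons,
        List.prod_cons, hrest1 t u, mul_one] at e
      have i1 : e1.2.2.1 = 1 := by rw [hij1]
      have j1 : e1.2.2.2 = 1 := by rw [hij1]
      have i2 : e2.2.2.1 = 1 := by rw [hij2]
      have j2 : e2.2.2.2 = 2 := by rw [hij2]
      simp only [i1, j1, i2, j2] at e
      have a1 : ((e1.2.1 : ℤ) : K) * (-t) ^ 1 * u ^ 1 = -((e1.2.1 : ℤ) : K) * t * u := by ring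
      have a2 : ((e2.2.1 : ℤ) : K) * (-t) ^ 1 * u ^ 2 = -((e2.2.1 : ℤ) : K) * t * (u * u) := by
        ring
      rw [a1, a2] at e
      exact e
    have hq1 : (-((e1.2.1 : ℤ) : K)) * (-((e1.2.1 : ℤ) : K)) = 1 := by
      rcases hc1 with h | h <;> rw [h] <;> simp
    have hq2 : (-((e2.2.1 : ℤ) : K)) * (-((e2.2.1 : ℤ) : K)) = 1 := by
      rcases hc2 with h | h <;> rw [h] <;> simp
    obtain ⟨hA, hB⟩ := ab_kill (fun t : K => abX D e1.1 t) (fun t : K => abX D e2.1 t)
      (fun x y => abX_add D e1.1 x y) (fun x y => abX_add D e2.1 x y) _ _ hq1 hq2 hE x₀ hx0 hx1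
    rcases hu with rfl | rfl
    · exact hA t
    · exact hB t

theorem steinberg_perfect {D : ChevalleyDatum} {two : Bool} {wit : List (ℕ × ℕ)}
    (h : stPerfOK D two wit = true) (hK : two = true → ∃ x : K, x ≠ 0 ∧ x ≠ 1) :
    commutator (D.SteinbergCover K) = ⊤ := by
  have hall : ∀ u < D.nroots, ∀ t : K, abX D u t = 1 := by
    intro u hu t
    unfold stPerfOK at h
    rw [List.all_eq_true] at h
    have hu' := h u (List.mem_range.mpr hu)
    rw [Bool.or_eq_true, Bool.and_eq_true] at hu'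
    rcases hu' with h1 | ⟨h2, h3⟩
    · exact abX_w1 D h1 t
    · obtain ⟨x₀, hx0, hx1⟩ := hK h2
      exact abX_w2 D wit h3 x₀ hx0 hx1 t
  rw [eq_top_iff]
  intro g _
  rw [← Abelianization.ker_of (D.SteinbergCover K)]
  apply PresentedGroup.generated_by (D.steinbergRelsAB K)
  intro j
  rw [MonoidHom.mem_ker]
  have e : (PresentedGroup.of j : PresentedGroup (D.steinbergRelsAB K)) =
      D.scGen K j.1.val j.2 := by
    unfold ChevalleyDatum.scGen ChevalleyDatum.stX
    rw [dif_pos j.1.2]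
    rfl
  rw [e]
  exact hall j.1.val j.1.2 j.2

end sem

end Cfsg.Agent.Helper7
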