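import Cfsg.Agent.Helper7.TwBNAbs
import Cfsg.Agent.Helper7.ChevDC

set_option autoImplicit false
set_option maxHeartbeats 4000000
set_option linter.unusedSectionVars false
set_option linter.unusedVariables false
open Cfsg

namespace Cfsg.Agent.Helper7

section abs

variable {G : Type*} [Group G] {B N G1 : Subgroup G} {ι : Type*} {sf : ι → G} {X : ι → Set G}

def DC1 (B G1 : Subgroup G) (n : G) : Set G :=
  {g | ∃ b₁ ∈ B ⊓ G1, ∃ b₂ ∈ B ⊓ G1, g = b₁ * n * b₂}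

def DCL (B G1 : Subgroup G) {W : Type*} (nf : W → G) (ws : List W) : Set G :=
  {g | ∃ w ∈ ws, g ∈ DC1 B G1 (nf w)}

theorem DC1_one (B G1 : Subgroup G) : DC1 B G1 1 = ((B ⊓ G1 : Subgroup G) : Set G) := by
  ext g
  constructor
  · rintro ⟨b₁, hb₁, b₂, hb₂, rfl⟩
    rw [mul_one]
    exact mul_mem hb₁ hb₂
  · intro hg
    exact ⟨g, hg, 1, one_mem _, by rw [mul_one, mul_one]⟩

theorem TwData.sq_mem (T : TwData B N G1 ι sf X) (i : ι) : sf i * sf i ∈ B ⊓ G1 :=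
  mi (T.hsq i) (mul_mem (T.hs i).2 (T.hs i).2)

theorem TwData.conj_cases (T : TwData B N G1 ι sf X) (i : ι) {b : G} (hb : b ∈ B ⊓ G1) :
    (sf i)⁻¹ * b * sf i ∈ B ⊓ G1 ∨ (sf i)⁻¹ * b * sf i ∈ DC1 B G1 (sf i) := by
  have ht := T.sq_mem i
  have hsn : sf i ∈ N ⊓ G1 := mi (T.hs i).1 (T.hs i).2
  have e : (sf i)⁻¹ * b * sf i = (sf i * sf i)⁻¹ * (sf i * b * sf i) := by group
  rcases T.dc i hsn hb with ⟨b₁, hb₁, b₂, hb₂, e1⟩ | ⟨b₁, hb₁, b₂, hb₂, e1⟩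
  · left
    rw [e, e1]
    exact mul_mem (inv_mem ht) (mul_mem (mul_mem hb₁ ht) hb₂)
  · right
    rw [e, e1]
    exact ⟨(sf i * sf i)⁻¹ * b₁, mul_mem (inv_mem ht) hb₁, b₂, hb₂, by group⟩

theorem TwData.pair_cases (T : TwData B N G1 ι sf X) (i : ι) {x x' : G}
    (hx : x ∈ DC1 B G1 (sf i)) (hx' : x' ∈ DC1 B G1 (sf i)) :
    x⁻¹ * x' ∈ B ⊓ G1 ∨ x⁻¹ * x' ∈ DC1 B G1 (sf i) := by
  obtain ⟨b₁, hb₁, b₂, hb₂, rfl⟩ := hx
  obtain ⟨b₃, hb₃, b₄, hb₄, rfl⟩ := hx'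
  have e : (b₁ * sf i * b₂)⁻¹ * (b₃ * sf i * b₄) =
      b₂⁻¹ * ((sf i)⁻¹ * (b₁⁻¹ * b₃) * sf i) * b₄ := by group
  rw [e]
  rcases T.conj_cases i (mul_mem (inv_mem hb₁) hb₃) with h | ⟨c₁, hc₁, c₂, hc₂, e1⟩
  · left
    exact mul_mem (mul_mem (inv_mem hb₂) h) hb₄
  · right
    rw [e1]
    exact ⟨b₂⁻¹ * c₁, mul_mem (inv_mem hb₂) hc₁, c₂ * b₄, mul_mem hc₂ hb₄, by group⟩

theorem TwData.DC_mul (T : TwData B N G1 ι sf X) (i : ι) {n : G} (hn : n ∈ N ⊓ G1)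
    (hA : ∀ x ∈ X i, n⁻¹ * x * n ∈ B) {x y : G} (hx : x ∈ DC1 B G1 (sf i))
    (hy : y ∈ DC1 B G1 n) : x * y ∈ DC1 B G1 (sf i * n) := by
  obtain ⟨b₁, hb₁, b₂, hb₂, rfl⟩ := hx
  obtain ⟨b₃, hb₃, b₄, hb₄, rfl⟩ := hy
  obtain ⟨c₁, hc₁, c₂, hc₂, e⟩ := T.caseA i hn hA (mul_mem hb₂ hb₃)
  refine ⟨b₁ * c₁, mul_mem hb₁ hc₁, c₂ * b₄, mul_mem hc₂ hb₄, ?_⟩
  have e' : b₁ * sf i * b₂ * (b₃ * n * b₄) = b₁ * (sf i * (b₂ * b₃) * n) * b₄ := by group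
  rw [e', e]
  group

theorem TwData.dc_card_step [Finite G] (T : TwData B N G1 ι sf X) (i : ι) {n : G}
    (hn : n ∈ N ⊓ G1) (hA : ∀ x ∈ X i, n⁻¹ * x * n ∈ B) :
    Nat.card (DC1 B G1 (sf i)) * Nat.card (DC1 B G1 n) =
      Nat.card (B ⊓ G1 : Subgroup G) * Nat.card (DC1 B G1 (sf i * n)) := by
  apply dc_step (B ⊓ G1) (DC1 B G1 (sf i)) (DC1 B G1 n) (DC1 B G1 (sf i * n))
  · intro x hx y hy
    exact T.DC_mul i hn hA hx hy
  · rintro z ⟨b₁, hb₁, b₂, hb₂, rfl⟩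
    exact ⟨b₁ * sf i, ⟨b₁, hb₁, 1, one_mem _, by rw [mul_one]⟩, n * b₂,
      ⟨1, one_mem _, b₂, hb₂, by rw [one_mul]⟩, by group⟩
  · rintro x ⟨b₁, hb₁, b₂, hb₂, rfl⟩ b hb
    exact ⟨b₁, hb₁, b₂ * b, mul_mem hb₂ hb, by group⟩
  · rintro y ⟨b₁, hb₁, b₂, hb₂, rfl⟩ b hb
    exact ⟨b * b₁, mul_mem hb hb₁, b₂, hb₂, by group⟩
  · intro x hx x' hx' y hy y' hy' e
    rcases T.pair_cases i hx hx' with h | h
    · exact h
    · exfalso
      have ey : y = x⁻¹ * x' * y' := by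
        rw [mul_assoc, ← e]
        group
      have h2 : y ∈ DC1 B G1 (sf i * n) := by
        rw [ey]
        exact T.DC_mul i hn hA h hy'
      obtain ⟨b₁, hb₁, b₂, hb₂, e1⟩ := h2
      obtain ⟨b₃, hb₃, b₄, hb₄, e2⟩ := hy
      have hsN := (T.hs i).1
      have h3 := T.huniq n (mi1 hn) (sf i * n) (mul_mem hsN (mi1 hn)) (b₁⁻¹ * b₃)
        (mul_mem (inv_mem (mi1 hb₁)) (mi1 hb₃)) (b₄ * b₂⁻¹)
        (mul_mem (mi1 hb₄) (inv_mem (mi1 hb₂))) (by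
          have e3 : b₁ * (sf i * n) * b₂ = b₃ * n * b₄ := by rw [← e1, ← e2]
          calc sf i * n = b₁⁻¹ * (b₁ * (sf i * n) * b₂) * b₂⁻¹ := by group
            _ = b₁⁻¹ * b₃ * n * (b₄ * b₂⁻¹) := by
              rw [e3]
              group)
      have h4 := T.hNB n (mi1 hn) (n⁻¹ * (sf i * n))
        (mi h3 (mul_mem (inv_mem (mi1 hn)) (mul_mem hsN (mi1 hn))))
      have h5 : n * (n⁻¹ * (sf i * n)) * n⁻¹ = sf i := by group
      rw [h5] at h4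
      exact T.hnb i h4

theorem TwData.dc_card_simple [Finite G] (T : TwData B N G1 ι sf X)
    (hXmul : ∀ i, ∀ x ∈ X i, ∀ y ∈ X i, x * y ∈ X i) (i : ι) :
    Nat.card (DC1 B G1 (sf i)) = Nat.card (X i) * Nat.card (B ⊓ G1 : Subgroup G) := by
  have ht := T.sq_mem i
  have hsG := (T.hs i).2
  let ψ : X i × (B ⊓ G1 : Subgroup G) → DC1 B G1 (sf i) := fun p =>
    ⟨p.1.1 * (sf i)⁻¹ * p.2.1, ⟨p.1.1 * (sf i * sf i)⁻¹,
      mul_mem (mi (T.hX i _ p.1.2).2.1 (T.hX i _ p.1.2).1) (inv_mem ht), p.2.1, p.2.2,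
      by group⟩⟩
  have hbij : Function.Bijective ψ := by
    constructor
    · rintro ⟨⟨x, hx⟩, ⟨b, hb⟩⟩ ⟨⟨x', hx'⟩, ⟨b', hb'⟩⟩ e
      have e1 : x * (sf i)⁻¹ * b = x' * (sf i)⁻¹ * b' := congrArg Subtype.val e
      have hy : x'⁻¹ * x ∈ X i := hXmul i _ (T.hX i x' hx').2.2 _ hx
      have e2 : sf i * (x'⁻¹ * x) * (sf i)⁻¹ = b' * b⁻¹ := by
        have e3 : x = x' * (sf i)⁻¹ * b' * b⁻¹ * sf i := by
          rw [← e1]
          group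
        rw [e3]
        group
      have hxx : x'⁻¹ * x = 1 := by
        rcases T.hrk i _ hy with h | ⟨b₁, hb₁, b₂, hb₂, e4⟩
        · exact h
        · exfalso
          rw [e2] at e4
          apply T.hnb i
          have e5 : sf i = b₁⁻¹ * (b' * b⁻¹) * b₂⁻¹ := by
            rw [e4]
            group
          rw [e5]
          exact mul_mem (mul_mem (inv_mem (mi1 hb₁)) (mul_mem (mi1 hb') (inv_mem (mi1 hb))))
            (inv_mem (mi1 hb₂))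
      have hx_eq : x = x' := (inv_mul_eq_one.mp hxx).symm
      subst hx_eq
      have hb_eq : b = b' := mul_left_cancel e1
      subst hb_eq
      rfl
    · rintro ⟨g, b₁, hb₁, b₂, hb₂, rfl⟩
      obtain ⟨x, hx, c, hc, e, hsc⟩ := T.hdec i b₁ hb₁
      have hcG : c ∈ G1 := by
        have e0 : c = x⁻¹ * b₁ := by
          rw [e]
          group
        rw [e0]
        exact mul_mem (inv_mem (T.hX i x hx).1) (mi2 hb₁)
      refine ⟨(⟨x, hx⟩, ⟨sf i * c * (sf i)⁻¹ * (sf i * sf i) * b₂,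
        mul_mem (mul_mem (mi hsc (mul_mem (mul_mem hsG hcG) (inv_mem hsG))) ht) hb₂⟩), ?_⟩
      apply Subtype.ext
      show x * (sf i)⁻¹ * (sf i * c * (sf i)⁻¹ * (sf i * sf i) * b₂) = b₁ * sf i * b₂
      rw [e]
      group
  rw [← Nat.card_congr (Equiv.ofBijective ψ hbij), Nat.card_prod]

theorem TwData.dc_card_mul [Finite G] (T : TwData B N G1 ι sf X)
    (hXmul : ∀ i, ∀ x ∈ X i, ∀ y ∈ X i, x * y ∈ X i) (i : ι) {n : G}
    (hn : n ∈ N ⊓ G1) (hA : ∀ x ∈ X i, n⁻¹ * x * n ∈ B) :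
    Nat.card (DC1 B G1 (sf i * n)) = Nat.card (X i) * Nat.card (DC1 B G1 n) := by
  have key := T.dc_card_step i hn hA
  rw [T.dc_card_simple hXmul i] at key
  have hpos : 0 < Nat.card (B ⊓ G1 : Subgroup G) := Nat.card_pos
  apply Nat.eq_of_mul_eq_mul_left hpos
  rw [← key]
  ring

theorem TwData.cover (T : TwData B N G1 ι sf X) {W : Type*} (nf : W → G) (ws : List W)
    (hN : ∀ w ∈ ws, nf w ∈ N ⊓ G1) (hone : ∃ w ∈ ws, nf w = 1)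
    (hclosed : ∀ w ∈ ws, ∀ i, ∃ w' ∈ ws, (nf w')⁻¹ * (sf i * nf w) ∈ B) {g : G}
    (hg : g ∈ G1) : g ∈ DCL B G1 nf ws := by
  have hBP : ∀ b ∈ B ⊓ G1, ∀ x ∈ DCL B G1 nf ws, b * x ∈ DCL B G1 nf ws := by
    rintro b hb x ⟨w, hw, b₁, hb₁, b₂, hb₂, rfl⟩
    exact ⟨w, hw, b * b₁, mul_mem hb hb₁, b₂, hb₂, by group⟩
  have hsP : ∀ i, ∀ x ∈ DCL B G1 nf ws, sf i * x ∈ DCL B G1 nf ws := by
    rintro i x ⟨w, hw, b₁, hb₁, b₂, hb₂, rfl⟩
    have hsG := (T.hs i).2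
    have e2 : sf i * (b₁ * nf w * b₂) = sf i * b₁ * nf w * b₂ := by group
    rcases T.dc i (hN w hw) hb₁ with ⟨c₁, hc₁, c₂, hc₂, e⟩ | ⟨c₁, hc₁, c₂, hc₂, e⟩
    · obtain ⟨w', hw', hB⟩ := hclosed w hw i
      have hG : (nf w')⁻¹ * (sf i * nf w) ∈ G1 :=
        mul_mem (inv_mem (mi2 (hN w' hw'))) (mul_mem hsG (mi2 (hN w hw)))
      refine ⟨w', hw', c₁, hc₁, (nf w')⁻¹ * (sf i * nf w) * c₂ * b₂,
        mul_mem (mul_mem (mi hB hG) hc₂) hb₂, ?_⟩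
      rw [e2, e]
      group
    · refine ⟨w, hw, c₁, hc₁, c₂ * b₂, mul_mem hc₂ hb₂, ?_⟩
      rw [e2, e]
      group
  let K : Subgroup G :=
    { carrier := {g | (∀ x ∈ DCL B G1 nf ws, g * x ∈ DCL B G1 nf ws) ∧
        (∀ x ∈ DCL B G1 nf ws, g⁻¹ * x ∈ DCL B G1 nf ws)}
      mul_mem' := by
        rintro a b ⟨a1, a2⟩ ⟨b1, b2⟩
        refine ⟨fun x hx => ?_, fun x hx => ?_⟩
        · rw [mul_assoc]
          exact a1 _ (b1 x hx)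
        · rw [mul_inv_rev, mul_assoc]
          exact b2 _ (a2 x hx)
      one_mem' := ⟨fun x hx => by rwa [one_mul], fun x hx => by rwa [inv_one, one_mul]⟩
      inv_mem' := by
        rintro a ⟨a1, a2⟩
        exact ⟨a2, fun x hx => by rw [inv_inv]; exact a1 x hx⟩ }
  have hBK : ∀ b ∈ B ⊓ G1, b ∈ K := fun b hb => ⟨hBP b hb, hBP b⁻¹ (inv_mem hb)⟩
  have hsK : ∀ i, sf i ∈ K := by
    intro i
    refine ⟨hsP i, fun x hx => ?_⟩
    have e : (sf i)⁻¹ * x = (sf i * sf i)⁻¹ * (sf i * x) := by group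
    rw [e]
    exact hBP _ (inv_mem (T.sq_mem i)) _ (hsP i x hx)
  have hGK : G1 ≤ K := by
    refine le_trans T.hgen ?_
    rw [Subgroup.closure_le]
    rintro y (hy | ⟨i, rfl⟩)
    · exact hBK y hy
    · exact hsK i
  obtain ⟨w₀, hw₀, e₀⟩ := hone
  have h1 := (hGK hg).1 1 ⟨w₀, hw₀, 1, one_mem _, 1, one_mem _, by rw [e₀]; group⟩
  rw [mul_one] at h1
  exact h1

theorem ncard_DCL [Finite G] (B G1 : Subgroup G) {W : Type*} (nf : W → G) (ws : List W)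
    (hdisj : ∀ w ∈ ws, ∀ w' ∈ ws, ∀ g, g ∈ DC1 B G1 (nf w) → g ∈ DC1 B G1 (nf w') → w = w') :
    ∀ l : List W, l.Nodup → (∀ w ∈ l, w ∈ ws) →
      (DCL B G1 nf l).ncard = (l.map fun w => (DC1 B G1 (nf w)).ncard).sum := by
  intro l
  induction l with
  | nil =>
    intro _ _
    have e : DCL B G1 nf ([] : List W) = ∅ := by
      ext g
      simp [DCL]
    rw [e]
    simp
  | cons w l ih =>
    intro hnd hsub
    rw [List.nodup_cons] at hnd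
    have e : DCL B G1 nf (w :: l) = DC1 B G1 (nf w) ∪ DCL B G1 nf l := by
      ext g
      simp only [DCL, Set.mem_ofPred_eq, List.mem_cons, Set.mem_union]
      constructor
      · rintro ⟨w', rfl | hw', hg⟩
        · exact Or.inl hg
        · exact Or.inr ⟨w', hw', hg⟩
      · rintro (hg | ⟨w', hw', hg⟩)
        · exact ⟨w, Or.inl rfl, hg⟩
        · exact ⟨w', Or.inr hw', hg⟩
    have hd : Disjoint (DC1 B G1 (nf w)) (DCL B G1 nf l) := by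
      rw [Set.disjoint_left]
      rintro g hg ⟨w', hw', hg'⟩
      have hww' := hdisj w (hsub w List.mem_cons_self) w'
        (hsub w' (List.mem_cons_of_mem _ hw')) g hg hg'
      rw [hww'] at hnd
      exact hnd.1 hw'
    rw [e, Set.ncard_union_eq hd (Set.toFinite _) (Set.toFinite _), List.map_cons,
      List.sum_cons, ih hnd.2 (fun w' hw' => hsub w' (List.mem_cons_of_mem _ hw'))]

theorem TwData.card_words [Finite G] (T : TwData B N G1 ι sf X) {W : Type*} (nf : W → G)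
    (ws : List W) (hnd : ws.Nodup) (hN : ∀ w ∈ ws, nf w ∈ N ⊓ G1)
    (hone : ∃ w ∈ ws, nf w = 1)
    (hclosed : ∀ w ∈ ws, ∀ i, ∃ w' ∈ ws, (nf w')⁻¹ * (sf i * nf w) ∈ B)
    (hdisj : ∀ w ∈ ws, ∀ w' ∈ ws, (nf w)⁻¹ * nf w' ∈ B → w = w')
    (cnt : W → ℕ)
    (hcnt : ∀ w ∈ ws, Nat.card (DC1 B G1 (nf w)) = cnt w * Nat.card (B ⊓ G1 : Subgroup G)) :
    Nat.card G1 = Nat.card (B ⊓ G1 : Subgroup G) * (ws.map cnt).sum := by
  have hset : (G1 : Set G) = DCL B G1 nf ws := by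
    ext g
    constructor
    · intro hg
      exact T.cover nf ws hN hone hclosed hg
    · rintro ⟨w, hw, b₁, hb₁, b₂, hb₂, rfl⟩
      exact mul_mem (mul_mem (mi2 hb₁) (mi2 (hN w hw))) (mi2 hb₂)
  have hd : ∀ w ∈ ws, ∀ w' ∈ ws, ∀ g, g ∈ DC1 B G1 (nf w) → g ∈ DC1 B G1 (nf w') →
      w = w' := by
    rintro w hw w' hw' g ⟨b₁, hb₁, b₂, hb₂, e1⟩ ⟨b₃, hb₃, b₄, hb₄, e2⟩
    apply hdisj w hw w' hw'
    apply T.huniq (nf w) (mi1 (hN w hw)) (nf w') (mi1 (hN w' hw')) (b₃⁻¹ * b₁)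
      (mul_mem (inv_mem (mi1 hb₃)) (mi1 hb₁)) (b₂ * b₄⁻¹)
      (mul_mem (mi1 hb₂) (inv_mem (mi1 hb₄)))
    have e3 : b₃ * nf w' * b₄ = b₁ * nf w * b₂ := by rw [← e1, ← e2]
    calc nf w' = b₃⁻¹ * (b₃ * nf w' * b₄) * b₄⁻¹ := by group
      _ = b₃⁻¹ * b₁ * nf w * (b₂ * b₄⁻¹) := by
        rw [e3]
        group
  have h1 : Nat.card G1 = (G1 : Set G).ncard := Nat.card_coe_set_eq _
  rw [h1, hset, ncard_DCL B G1 nf ws hd ws hnd (fun w hw => hw)]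
  have h2 : (ws.map fun w => (DC1 B G1 (nf w)).ncard) =
      ws.map fun w => cnt w * Nat.card (B ⊓ G1 : Subgroup G) := by
    apply List.map_congr_left
    intro w hw
    rw [← Nat.card_coe_set_eq]
    exact hcnt w hw
  rw [h2, List.sum_map_mul_right, mul_comm]

end abs

end Cfsg.Agent.Helper7
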