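import Mathlib
import Cfsg.Agent.Helper7.TwBNAbs

set_option autoImplicit false
set_option maxHeartbeats 4000000
set_option linter.unusedSectionVars false
set_option linter.unusedVariables false
open Cfsg

namespace Cfsg.Agent.Helper7

structure TwE {G : Type*} [Group G] (B0 N0 : Subgroup G) (ι : Type*) (sf : ι → G)
    (X : ι → Set G) : Prop where
  hs : ∀ i, sf i ∈ N0
  hsq : ∀ i, sf i * sf i ∈ B0
  hX : ∀ i, ∀ x ∈ X i, x ∈ B0 ∧ x⁻¹ ∈ X i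
  hdec : ∀ i, ∀ b ∈ B0, ∃ x ∈ X i, ∃ c ∈ B0, b = x * c ∧ sf i * c * (sf i)⁻¹ ∈ B0
  hrk : ∀ i, ∀ x ∈ X i, x = 1 ∨ ∃ b₁ ∈ B0, ∃ b₂ ∈ B0,
    sf i * x * (sf i)⁻¹ = b₁ * sf i * b₂
  hsign : ∀ i, ∀ n ∈ N0, (∀ x ∈ X i, n⁻¹ * x * n ∈ B0) ∨
    (∀ x ∈ X i, (sf i * n)⁻¹ * x * (sf i * n) ∈ B0)

section abs

variable {G : Type*} [Group G] {B0 N0 : Subgroup G} {ι : Type*} {sf : ι → G} {X : ι → Set G}

theorem TwE.caseA (T : TwE B0 N0 ι sf X) (i : ι) {n : G}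
    (hA : ∀ x ∈ X i, n⁻¹ * x * n ∈ B0) {b : G} (hb : b ∈ B0) :
    ∃ b₁ ∈ B0, ∃ b₂ ∈ B0, sf i * b * n = b₁ * (sf i * n) * b₂ := by
  obtain ⟨x, hx, c, hc, e, hsc⟩ := T.hdec i b⁻¹ (inv_mem hb)
  obtain ⟨hxB, hxi⟩ := T.hX i x hx
  refine ⟨sf i * c⁻¹ * (sf i)⁻¹, ?_, n⁻¹ * x⁻¹ * n, hA _ hxi, ?_⟩
  · have : sf i * c⁻¹ * (sf i)⁻¹ = (sf i * c * (sf i)⁻¹)⁻¹ := by group
    rw [this]
    exact inv_mem hsc
  · have eb : b = c⁻¹ * x⁻¹ := by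
      have : b = (b⁻¹)⁻¹ := (inv_inv b).symm
      rw [this, e]
      group
    rw [eb]
    group

theorem TwE.dc (T : TwE B0 N0 ι sf X) (i : ι) {n : G} (hn : n ∈ N0) {b : G} (hb : b ∈ B0) :
    (∃ b₁ ∈ B0, ∃ b₂ ∈ B0, sf i * b * n = b₁ * (sf i * n) * b₂) ∨
    (∃ b₁ ∈ B0, ∃ b₂ ∈ B0, sf i * b * n = b₁ * n * b₂) := by
  have hsN := T.hs i
  rcases T.hsign i n hn with hA | hB
  · exact Or.inl (T.caseA i hA hb)
  · obtain ⟨x, hx, c, hc, e, hsc⟩ := T.hdec i b hb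
    obtain ⟨hxB, hxi⟩ := T.hX i x hx
    rcases T.hrk i x hx with h1 | ⟨b₁, hb₁, b₂, hb₂, e2⟩
    · left
      refine ⟨sf i * c * (sf i)⁻¹, hsc, 1, one_mem _, ?_⟩
      rw [e, h1]
      group
    · right
      obtain ⟨d₁, hd₁, d₂, hd₂, e3⟩ := T.caseA i hB (mul_mem hb₂ hsc)
      refine ⟨b₁ * d₁ * (sf i * sf i), mul_mem (mul_mem hb₁ hd₁) (T.hsq i), d₂, hd₂, ?_⟩
      have e5 : sf i * x = b₁ * sf i * b₂ * sf i := by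
        rw [← e2]
        group
      have e4 : sf i * b * n =
          b₁ * (sf i * (b₂ * (sf i * c * (sf i)⁻¹)) * (sf i * n)) := by
        rw [e]
        calc sf i * (x * c) * n = (sf i * x) * c * n := by group
          _ = b₁ * sf i * b₂ * sf i * c * n := by rw [e5]
          _ = b₁ * (sf i * (b₂ * (sf i * c * (sf i)⁻¹)) * (sf i * n)) := by group
      rw [e4, e3]
      group

theorem TwE.bruhat (T : TwE B0 N0 ι sf X) (S : Set G) (hS1 : (1 : G) ∈ S)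
    (hSN : ∀ n ∈ S, n ∈ N0) (hSs : ∀ i, ∀ n ∈ S, sf i * n ∈ S) {g : G}
    (hg : g ∈ Subgroup.closure ((B0 : Set G) ∪ Set.range sf)) :
    ∃ b₁ ∈ B0, ∃ n ∈ S, ∃ b₂ ∈ B0, g = b₁ * n * b₂ := by
  let Ω : Set G := {g | ∃ b₁ ∈ B0, ∃ n ∈ S, ∃ b₂ ∈ B0, g = b₁ * n * b₂}
  have hBΩ : ∀ b ∈ B0, ∀ x ∈ Ω, b * x ∈ Ω := by
    rintro b hb x ⟨b₁, hb₁, n, hn, b₂, hb₂, rfl⟩
    exact ⟨b * b₁, mul_mem hb hb₁, n, hn, b₂, hb₂, by group⟩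
  have hsΩ : ∀ i, ∀ x ∈ Ω, sf i * x ∈ Ω := by
    rintro i x ⟨b₁, hb₁, n, hn, b₂, hb₂, rfl⟩
    have e0 : sf i * (b₁ * n * b₂) = sf i * b₁ * n * b₂ := by group
    rcases T.dc i (hSN n hn) hb₁ with ⟨c₁, hc₁, c₂, hc₂, e⟩ | ⟨c₁, hc₁, c₂, hc₂, e⟩
    · refine ⟨c₁, hc₁, sf i * n, hSs i n hn, c₂ * b₂, mul_mem hc₂ hb₂, ?_⟩
      rw [e0, e]
      group
    · refine ⟨c₁, hc₁, n, hn, c₂ * b₂, mul_mem hc₂ hb₂, ?_⟩
      rw [e0, e]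
      group
  let K : Subgroup G :=
    { carrier := {g | (∀ x ∈ Ω, g * x ∈ Ω) ∧ (∀ x ∈ Ω, g⁻¹ * x ∈ Ω)}
      mul_mem' := by
        rintro a b ⟨a1, a2⟩ ⟨b1, b2⟩
        refine ⟨fun x hx => ?_, fun x hx => ?_⟩
        · rw [mul_assoc]
          exact a1 _ (b1 x hx)
        · rw [mul_inv_rev, mul_assoc]
          exact b2 _ (a2 x hx)
      one_mem' := ⟨fun x hx => by rwa [one_mul], fun x hx => by rwa [inv_one, one_mul]⟩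
      inv_mem' := by
        rintro a ⟨a1, a2⟩
        exact ⟨a2, fun x hx => by rw [inv_inv]; exact a1 x hx⟩ }
  have hK : Subgroup.closure ((B0 : Set G) ∪ Set.range sf) ≤ K := by
    rw [Subgroup.closure_le]
    rintro y (hy | ⟨i, rfl⟩)
    · exact ⟨hBΩ y hy, hBΩ y⁻¹ (inv_mem hy)⟩
    · refine ⟨hsΩ i, fun x hx => ?_⟩
      have hsq : (sf i * sf i)⁻¹ ∈ B0 := inv_mem (T.hsq i)
      have e0 : (sf i)⁻¹ * x = (sf i * sf i)⁻¹ * (sf i * x) := by group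
      rw [e0]
      exact hBΩ _ hsq _ (hsΩ i x hx)
  have h1 : (1 : G) ∈ Ω := ⟨1, one_mem _, 1, hS1, 1, one_mem _, by group⟩
  have h2 := (hK hg).1 1 h1
  rw [mul_one] at h2
  exact h2

end abs

end Cfsg.Agent.Helper7
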